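import Mathlib

set_option autoImplicit false

namespace Cfsg.Agent.Lib.Helper5.AltForm

open Module

variable {F V : Type*} [Field F] [AddCommGroup V] [Module F V]

/-- A hyperbolic family of size `m` for the bilinear form `B`. -/
structure IsHyp (B : LinearMap.BilinForm F V) {m : ℕ} (e f : Fin m → V) : Prop where
  ef : ∀ i j, B (e i) (f j) = if i = j then 1 else 0
  ee : ∀ i j, B (e i) (e j) = 0
  ff : ∀ i j, B (f i) (f j) = 0

variable {B : LinearMap.BilinForm F V}

theorem IsHyp.fe (hA : B.IsAlt) {m : ℕ} {e f : Fin m → V} (h : IsHyp B e f) (i j : Fin m) :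
    B (f i) (e j) = if i = j then -1 else 0 := by
  rw [← hA.neg_eq (e j) (f i), h.ef]
  by_cases hij : i = j
  · subst hij; simp
  · have : j ≠ i := fun h => hij h.symm
    simp [hij, this]

/-- the projection of `v` on the span of a hyperbolic family -/
noncomputable def proj (B : LinearMap.BilinForm F V) {m : ℕ} (e f : Fin m → V) (v : V) : V :=
  ∑ i, B v (f i) • e i - ∑ i, B v (e i) • f i

theorem sub_proj_e (hA : B.IsAlt) {m : ℕ} {e f : Fin m → V} (h : IsHyp B e f) (v : V) (j : Fin m) :
    B (v - proj B e f v) (e j) = 0 := by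
  unfold proj
  simp only [map_sub, LinearMap.sub_apply, map_sum, LinearMap.sum_apply, map_smul,
    LinearMap.smul_apply, h.ee, h.fe hA, smul_eq_mul, mul_zero, Finset.sum_const_zero]
  simp

theorem sub_proj_f {m : ℕ} {e f : Fin m → V} (h : IsHyp B e f) (v : V) (j : Fin m) :
    B (v - proj B e f v) (f j) = 0 := by
  unfold proj
  simp only [map_sub, LinearMap.sub_apply, map_sum, LinearMap.sum_apply, map_smul,
    LinearMap.smul_apply, h.ef, h.ff, smul_eq_mul, mul_zero, Finset.sum_const_zero]
  simp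

theorem IsHyp.snoc (hA : B.IsAlt) {m : ℕ} {e f : Fin m → V} (h : IsHyp B e f) (x y : V)
    (hxy : B x y = 1) (hxe : ∀ i, B x (e i) = 0) (hxf : ∀ i, B x (f i) = 0)
    (hye : ∀ i, B y (e i) = 0) (hyf : ∀ i, B y (f i) = 0) :
    IsHyp B (Fin.snoc e x : Fin (m + 1) → V) (Fin.snoc f y : Fin (m + 1) → V) := by
  have hex : ∀ i, B (e i) x = 0 := fun i => by rw [← hA.neg_eq x (e i), hxe]; simp
  have hfx : ∀ i, B (f i) x = 0 := fun i => by rw [← hA.neg_eq x (f i), hxf]; simp
  have hey : ∀ i, B (e i) y = 0 := fun i => by rw [← hA.neg_eq y (e i), hye]; simp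
  have hfy : ∀ i, B (f i) y = 0 := fun i => by rw [← hA.neg_eq y (f i), hyf]; simp
  constructor
  · intro i j
    refine Fin.lastCases ?_ (fun i => ?_) i <;> refine Fin.lastCases ?_ (fun j => ?_) j
    · simp [hxy]
    · simp [hxf, (Fin.castSucc_lt_last j).ne']
    · simp [hey, (Fin.castSucc_lt_last i).ne]
    · simp [h.ef]
  · intro i j
    refine Fin.lastCases ?_ (fun i => ?_) i <;> refine Fin.lastCases ?_ (fun j => ?_) j
    · simp [hA x]
    · simp [hxe]
    · simp [hex]
    · simp [h.ee]
  · intro i j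
    refine Fin.lastCases ?_ (fun i => ?_) i <;> refine Fin.lastCases ?_ (fun j => ?_) j
    · simp [hA y]
    · simp [hyf]
    · simp [hfy]
    · simp [h.ff]


theorem li_total (hA : B.IsAlt) {m k : ℕ} {e f : Fin m → V} (h : IsHyp B e f) (r : Fin k → V)
    (hr : ∀ l v, B (r l) v = 0) (hli : LinearIndependent F r) :
    LinearIndependent F (Sum.elim (Sum.elim e f) r) := by
  rw [Fintype.linearIndependent_iff]
  intro g hg
  rw [Fintype.sum_sum_type, Fintype.sum_sum_type] at hg
  simp only [Sum.elim_inl, Sum.elim_inr] at hg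
  have ha : ∀ i, g (Sum.inl (Sum.inl i)) = 0 := by
    intro i
    have := congrArg (fun v => B v (f i)) hg
    simpa [map_add, map_sum, h.ef, h.ff, hr] using this
  have hb : ∀ i, g (Sum.inl (Sum.inr i)) = 0 := by
    intro i
    have := congrArg (fun v => B v (e i)) hg
    simpa [map_add, map_sum, h.ee, h.fe hA, hr] using this
  have hc : ∀ l, g (Sum.inr l) = 0 := by
    simp only [ha, hb, zero_smul, Finset.sum_const_zero, zero_add] at hg
    exact Fintype.linearIndependent_iff.mp hli _ hg
  rintro ((i | i) | l)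
  · exact ha i
  · exact hb i
  · exact hc l

theorem IsHyp.linearIndependent (hA : B.IsAlt) {m : ℕ} {e f : Fin m → V} (h : IsHyp B e f) :
    LinearIndependent F (Sum.elim e f) := by
  have := li_total hA h (Fin.elim0 : Fin 0 → V) (fun l => l.elim0) (linearIndependent_empty_type)
  exact this.comp Sum.inl Sum.inl_injective

theorem IsHyp.two_mul_le [FiniteDimensional F V] (hA : B.IsAlt) {m : ℕ} {e f : Fin m → V}
    (h : IsHyp B e f) : 2 * m ≤ finrank F V := by
  have := (h.linearIndependent hA).fintype_card_le_finrank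
  simp only [Fintype.card_sum, Fintype.card_fin] at this
  omega

theorem proj_perp {m : ℕ} (e f : Fin m → V) (w z : V)
    (he : ∀ i, B w (e i) = 0) (hf : ∀ i, B w (f i) = 0) : B w (proj B e f z) = 0 := by
  unfold proj
  simp [map_sub, map_sum, he, hf]

/-- A hyperbolic family is maximal if two vectors orthogonal to it are orthogonal. -/
theorem exists_maximal [FiniteDimensional F V] (hA : B.IsAlt) {m₀ : ℕ} (e₀ f₀ : Fin m₀ → V)
    (h₀ : IsHyp B e₀ f₀) :
    ∃ (m : ℕ) (e f : Fin m → V) (hm : m₀ ≤ m), IsHyp B e f ∧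
      (∀ i : Fin m₀, e (Fin.castLE hm i) = e₀ i ∧ f (Fin.castLE hm i) = f₀ i) ∧
      ∀ x y, (∀ i, B x (e i) = 0) → (∀ i, B x (f i) = 0) → (∀ i, B y (e i) = 0) →
        (∀ i, B y (f i) = 0) → B x y = 0 := by
  classical
  by_contra hcon
  push Not at hcon
  have key : ∀ n : ℕ, ∃ (e f : Fin (m₀ + n) → V), IsHyp B e f ∧
      (∀ i : Fin m₀, e (Fin.castLE (Nat.le_add_right _ _) i) = e₀ i ∧
        f (Fin.castLE (Nat.le_add_right _ _) i) = f₀ i) := by
    intro n
    induction n with
    | zero => exact ⟨e₀, f₀, h₀, fun i => ⟨rfl, rfl⟩⟩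
    | succ n ih =>
      obtain ⟨e, f, h, hext⟩ := ih
      obtain ⟨x, y, hxe, hxf, hye, hyf, hxy⟩ := hcon (m₀ + n) e f (Nat.le_add_right _ _) h hext
      have h1 : B ((B x y)⁻¹ • x) y = 1 := by
        rw [map_smul, LinearMap.smul_apply, smul_eq_mul, inv_mul_cancel₀ hxy]
      refine ⟨Fin.snoc e ((B x y)⁻¹ • x), Fin.snoc f y, h.snoc hA _ _ h1 ?_ ?_ hye hyf, ?_⟩
      · intro i; simp [hxe]
      · intro i; simp [hxf]
      · intro i
        have : (Fin.castLE (Nat.le_add_right m₀ (n + 1)) i : Fin (m₀ + (n + 1))) =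
            Fin.castSucc (Fin.castLE (Nat.le_add_right m₀ n) i) := rfl
        rw [this]
        constructor
        · exact (Fin.snoc_castSucc (α := fun _ => V) _ _ _).trans (hext i).1
        · exact (Fin.snoc_castSucc (α := fun _ => V) _ _ _).trans (hext i).2
  obtain ⟨e, f, h, _⟩ := key (finrank F V + 1)
  have := h.two_mul_le hA
  omega

theorem exists_basis [FiniteDimensional F V] (hA : B.IsAlt) :
    ∃ (m k : ℕ) (b : Module.Basis ((Fin m ⊕ Fin m) ⊕ Fin k) F V),
      (∀ i j : Fin m, B (b (Sum.inl (Sum.inl i))) (b (Sum.inl (Sum.inr j))) = if i = j then 1 else 0) ∧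
      (∀ i j : Fin m, B (b (Sum.inl (Sum.inl i))) (b (Sum.inl (Sum.inl j))) = 0) ∧
      (∀ i j : Fin m, B (b (Sum.inl (Sum.inr i))) (b (Sum.inl (Sum.inr j))) = 0) ∧
      (∀ (j : Fin k) (v : V), B (b (Sum.inr j)) v = 0) := by
  classical
  obtain ⟨m, e, f, _, h, _, hmax⟩ := exists_maximal hA (Fin.elim0 : Fin 0 → V) Fin.elim0
    ⟨fun i => i.elim0, fun i => i.elim0, fun i => i.elim0⟩
  have hrad : ∀ v, v - proj B e f v ∈ LinearMap.ker B := by
    intro v
    rw [LinearMap.mem_ker]
    ext z
    have hz : z = (z - proj B e f z) + proj B e f z := by abel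
    rw [hz, map_add, proj_perp e f _ z (sub_proj_e hA h v) (sub_proj_f h v), add_zero]
    exact hmax _ _ (sub_proj_e hA h v) (sub_proj_f h v) (sub_proj_e hA h z) (sub_proj_f h z)
  let bK := Module.finBasis F (LinearMap.ker B)
  let r : Fin (finrank F (LinearMap.ker B)) → V := fun l => (bK l : V)
  have hr : ∀ l v, B (r l) v = 0 := by
    intro l v
    have : B (r l) = 0 := LinearMap.mem_ker.mp (bK l).2
    rw [this]; rfl
  have hrli : LinearIndependent F r :=
    bK.linearIndependent.map' (Submodule.subtype _) (Submodule.ker_subtype _)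
  have hli := li_total hA h r hr hrli
  have hspan : ⊤ ≤ Submodule.span F (Set.range (Sum.elim (Sum.elim e f) r)) := by
    intro v _
    have hv : v = proj B e f v + (v - proj B e f v) := by abel
    rw [hv]
    apply Submodule.add_mem
    · unfold proj
      apply Submodule.sub_mem
      · apply Submodule.sum_mem
        intro i _
        exact Submodule.smul_mem _ _ (Submodule.subset_span ⟨Sum.inl (Sum.inl i), rfl⟩)
      · apply Submodule.sum_mem
        intro i _
        exact Submodule.smul_mem _ _ (Submodule.subset_span ⟨Sum.inl (Sum.inr i), rfl⟩)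
    · have h1 := bK.sum_repr ⟨_, hrad v⟩
      have h2 := congrArg (Submodule.subtype _) h1
      simp only [map_sum, map_smul, Submodule.subtype_apply] at h2
      rw [← h2]
      apply Submodule.sum_mem
      intro l _
      exact Submodule.smul_mem _ _ (Submodule.subset_span ⟨Sum.inr l, rfl⟩)
  refine ⟨m, _, Module.Basis.mk hli hspan, ?_, ?_, ?_, ?_⟩
  · intro i j; simp [Module.Basis.mk_apply, h.ef]
  · intro i j; simp [Module.Basis.mk_apply, h.ee]
  · intro i j; simp [Module.Basis.mk_apply, h.ff]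
  · intro j v; simp [Module.Basis.mk_apply, hr]

end Cfsg.Agent.Lib.Helper5.AltForm
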