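import Mathlib
import Cfsg.Prelude.Def_ClassicalGeometry

set_option autoImplicit false

namespace Cfsg.Agent.Lib.Helper5.Symp

open Matrix

variable {F : Type*} [CommRing F] {m : ℕ}

local notation "V" => (Fin m ⊕ Fin m → F)

theorem sympForm_def (u v : Fin m ⊕ Fin m → F) :
    Cfsg.sympForm m F u v = u ⬝ᵥ (Matrix.J (Fin m) F *ᵥ v) := rfl

theorem sympForm_add_left (u u' v : Fin m ⊕ Fin m → F) :
    Cfsg.sympForm m F (u + u') v = Cfsg.sympForm m F u v + Cfsg.sympForm m F u' v := by
  simp [sympForm_def, add_dotProduct]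

theorem sympForm_add_right (u v v' : Fin m ⊕ Fin m → F) :
    Cfsg.sympForm m F u (v + v') = Cfsg.sympForm m F u v + Cfsg.sympForm m F u v' := by
  simp [sympForm_def, mulVec_add, dotProduct_add]

theorem sympForm_smul_left (c : F) (u v : Fin m ⊕ Fin m → F) :
    Cfsg.sympForm m F (c • u) v = c * Cfsg.sympForm m F u v := by
  simp [sympForm_def, smul_dotProduct]

theorem sympForm_smul_right (c : F) (u v : Fin m ⊕ Fin m → F) :
    Cfsg.sympForm m F u (c • v) = c * Cfsg.sympForm m F u v := by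
  simp [sympForm_def, mulVec_smul, dotProduct_smul]

theorem sympForm_explicit (u v : Fin m ⊕ Fin m → F) :
    Cfsg.sympForm m F u v = ∑ i : Fin m, (u (Sum.inr i) * v (Sum.inl i) - u (Sum.inl i) * v (Sum.inr i)) := by
  have hJ : ∀ k : Fin m ⊕ Fin m, (Matrix.J (Fin m) F *ᵥ v) k =
      Sum.elim (fun i => - v (Sum.inr i)) (fun i => v (Sum.inl i)) k := by
    intro k
    rcases k with i | i
    · simp [Matrix.J, mulVec, dotProduct, Fintype.sum_sum_type, Matrix.one_apply, Matrix.neg_apply]
    · simp [Matrix.J, mulVec, dotProduct, Fintype.sum_sum_type, Matrix.one_apply]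
  rw [sympForm_def, dotProduct, Fintype.sum_sum_type]
  simp only [hJ, Sum.elim_inl, Sum.elim_inr]
  rw [← Finset.sum_add_distrib]
  apply Finset.sum_congr rfl
  intro i _
  ring

theorem sympForm_self (v : Fin m ⊕ Fin m → F) : Cfsg.sympForm m F v v = 0 := by
  rw [sympForm_explicit]
  apply Finset.sum_eq_zero
  intro i _
  ring

theorem sympForm_swap (u v : Fin m ⊕ Fin m → F) :
    Cfsg.sympForm m F u v = - Cfsg.sympForm m F v u := by
  rw [sympForm_explicit, sympForm_explicit, ← Finset.sum_neg_distrib]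
  apply Finset.sum_congr rfl
  intro i _
  ring

theorem sympTransvection_mulVec (v : Fin m ⊕ Fin m → F) (c : F) (x : Fin m ⊕ Fin m → F) :
    Cfsg.sympTransvection m v c *ᵥ x = x + (c * Cfsg.sympForm m F x v) • v := by
  unfold Cfsg.sympTransvection
  rw [add_mulVec, one_mulVec, smul_mulVec, vecMulVec_mulVec, sympForm_def, dotProduct_comm x]
  ext i
  simp only [Pi.add_apply, Pi.smul_apply, smul_eq_mul, op_smul_eq_mul]
  ring

theorem mulVec_dotProduct_eq (A : Matrix (Fin m ⊕ Fin m) (Fin m ⊕ Fin m) F) (u y : Fin m ⊕ Fin m → F) :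
    (A *ᵥ u) ⬝ᵥ y = u ⬝ᵥ (Aᵀ *ᵥ y) := by
  rw [dotProduct_comm, dotProduct_mulVec, mulVec_transpose, dotProduct_comm]

theorem sympForm_mulVec (A : Matrix (Fin m ⊕ Fin m) (Fin m ⊕ Fin m) F) (u v : Fin m ⊕ Fin m → F) :
    Cfsg.sympForm m F (A *ᵥ u) (A *ᵥ v) = u ⬝ᵥ ((Aᵀ * Matrix.J (Fin m) F * A) *ᵥ v) := by
  rw [sympForm_def, mulVec_dotProduct_eq, mulVec_mulVec, mulVec_mulVec, Matrix.mul_assoc]

/-- A matrix is symplectic iff it preserves `sympForm`. -/
theorem mem_symplecticGroup_iff_preserves (A : Matrix (Fin m ⊕ Fin m) (Fin m ⊕ Fin m) F) :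
    A ∈ Matrix.symplecticGroup (Fin m) F ↔
      ∀ u v, Cfsg.sympForm m F (A *ᵥ u) (A *ᵥ v) = Cfsg.sympForm m F u v := by
  rw [SymplecticGroup.mem_iff']
  constructor
  · intro h u v
    rw [sympForm_mulVec, h, sympForm_def]
  · intro h
    ext i j
    have := h (Pi.single i 1) (Pi.single j 1)
    rw [sympForm_mulVec, sympForm_def] at this
    simpa using this

theorem sympTransvection_mem (v : Fin m ⊕ Fin m → F) (c : F) :
    Cfsg.sympTransvection m v c ∈ Matrix.symplecticGroup (Fin m) F := by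
  rw [mem_symplecticGroup_iff_preserves]
  intro x y
  rw [sympTransvection_mulVec, sympTransvection_mulVec]
  simp only [sympForm_add_left, sympForm_add_right, sympForm_smul_left, sympForm_smul_right,
    sympForm_self]
  rw [sympForm_swap v y]
  ring

theorem sympTransvection_mul (v : Fin m ⊕ Fin m → F) (c d : F) :
    Cfsg.sympTransvection m v c * Cfsg.sympTransvection m v d = Cfsg.sympTransvection m v (c + d) := by
  rw [Matrix.ext_iff_mulVec]
  intro x
  rw [← mulVec_mulVec, sympTransvection_mulVec, sympTransvection_mulVec, sympTransvection_mulVec]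
  simp only [sympForm_add_left, sympForm_smul_left, sympForm_self]
  ext i
  simp only [Pi.add_apply, Pi.smul_apply, smul_eq_mul]
  ring

end Cfsg.Agent.Lib.Helper5.Symp
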