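import Mathlib
import Cfsg.Prelude.Def_ClassicalGeometry
import Cfsg.Agent.Lib.Helper5.Symp

set_option autoImplicit false

namespace Cfsg.Agent.Lib.Helper5.SympGen

open Matrix Cfsg.Agent.Lib.Helper5.Symp

variable {F : Type*} [Field F] {m : ℕ}

/-- the transvection as an element of the symplectic group -/
noncomputable def tv (w : Fin m ⊕ Fin m → F) (c : F) : Matrix.symplecticGroup (Fin m) F :=
  ⟨Cfsg.sympTransvection m w c, sympTransvection_mem w c⟩

/-- subgroup generated by the transvections with direction in `W` -/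
def TW (W : Submodule F (Fin m ⊕ Fin m → F)) : Subgroup (Matrix.symplecticGroup (Fin m) F) :=
  Subgroup.closure {A | ∃ w ∈ W, ∃ c : F,
    (A : Matrix (Fin m ⊕ Fin m) (Fin m ⊕ Fin m) F) = Cfsg.sympTransvection m w c}

theorem tv_mem {W : Submodule F (Fin m ⊕ Fin m → F)} {w : Fin m ⊕ Fin m → F} (hw : w ∈ W) (c : F) :
    tv w c ∈ TW W := Subgroup.subset_closure ⟨w, hw, c, rfl⟩

theorem TW_le (W : Submodule F (Fin m ⊕ Fin m → F)) :
    TW W ≤ Subgroup.closure {A : Matrix.symplecticGroup (Fin m) F |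
      ∃ (w : Fin m ⊕ Fin m → F) (c : F),
        (A : Matrix (Fin m ⊕ Fin m) (Fin m ⊕ Fin m) F) = Cfsg.sympTransvection m w c} := by
  apply Subgroup.closure_mono
  rintro A ⟨w, _, c, h⟩
  exact ⟨w, c, h⟩

theorem coe_mul_mulVec (A B : Matrix.symplecticGroup (Fin m) F) (x : Fin m ⊕ Fin m → F) :
    ((A * B : Matrix.symplecticGroup (Fin m) F) : Matrix (Fin m ⊕ Fin m) (Fin m ⊕ Fin m) F) *ᵥ x =
      (A : Matrix (Fin m ⊕ Fin m) (Fin m ⊕ Fin m) F) *ᵥ
        ((B : Matrix (Fin m ⊕ Fin m) (Fin m ⊕ Fin m) F) *ᵥ x) := by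
  rw [mulVec_mulVec]; rfl

theorem coe_one_mulVec (x : Fin m ⊕ Fin m → F) :
    ((1 : Matrix.symplecticGroup (Fin m) F) : Matrix (Fin m ⊕ Fin m) (Fin m ⊕ Fin m) F) *ᵥ x = x := by
  show (1 : Matrix (Fin m ⊕ Fin m) (Fin m ⊕ Fin m) F) *ᵥ x = x
  simp

theorem mul_inv_mulVec (A : Matrix.symplecticGroup (Fin m) F) (x : Fin m ⊕ Fin m → F) :
    (A : Matrix (Fin m ⊕ Fin m) (Fin m ⊕ Fin m) F) *ᵥ
      ((A⁻¹ : Matrix.symplecticGroup (Fin m) F) : Matrix (Fin m ⊕ Fin m) (Fin m ⊕ Fin m) F) *ᵥ x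
      = x := by
  rw [← coe_mul_mulVec, mul_inv_cancel, coe_one_mulVec]

theorem inv_mul_mulVec (A : Matrix.symplecticGroup (Fin m) F) (x : Fin m ⊕ Fin m → F) :
    ((A⁻¹ : Matrix.symplecticGroup (Fin m) F) : Matrix (Fin m ⊕ Fin m) (Fin m ⊕ Fin m) F) *ᵥ
      ((A : Matrix (Fin m ⊕ Fin m) (Fin m ⊕ Fin m) F) *ᵥ x) = x := by
  rw [← coe_mul_mulVec, inv_mul_cancel, coe_one_mulVec]

theorem preserves (A : Matrix.symplecticGroup (Fin m) F) (u v : Fin m ⊕ Fin m → F) :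
    Cfsg.sympForm m F ((A : Matrix (Fin m ⊕ Fin m) (Fin m ⊕ Fin m) F) *ᵥ u)
      ((A : Matrix (Fin m ⊕ Fin m) (Fin m ⊕ Fin m) F) *ᵥ v) = Cfsg.sympForm m F u v :=
  (mem_symplecticGroup_iff_preserves _).mp A.2 u v

theorem TW_fix {W : Submodule F (Fin m ⊕ Fin m → F)} {A : Matrix.symplecticGroup (Fin m) F}
    (hA : A ∈ TW W) (x : Fin m ⊕ Fin m → F) (hx : ∀ w ∈ W, Cfsg.sympForm m F x w = 0) :
    (A : Matrix (Fin m ⊕ Fin m) (Fin m ⊕ Fin m) F) *ᵥ x = x := by
  induction hA using Subgroup.closure_induction with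
  | mem A hA =>
    obtain ⟨w, hw, c, h⟩ := hA
    rw [h, sympTransvection_mulVec, hx w hw]; simp
  | one => exact coe_one_mulVec x
  | mul A B _ _ hA hB => rw [coe_mul_mulVec, hB, hA]
  | inv A _ hA =>
    conv_lhs => rw [← hA]
    exact inv_mul_mulVec A x

theorem TW_sub_mem {W : Submodule F (Fin m ⊕ Fin m → F)} {A : Matrix.symplecticGroup (Fin m) F}
    (hA : A ∈ TW W) : ∀ x : Fin m ⊕ Fin m → F,
    (A : Matrix (Fin m ⊕ Fin m) (Fin m ⊕ Fin m) F) *ᵥ x - x ∈ W := by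
  induction hA using Subgroup.closure_induction with
  | mem A hA =>
    intro x
    obtain ⟨w, hw, c, h⟩ := hA
    rw [h, sympTransvection_mulVec, add_sub_cancel_left]
    exact W.smul_mem _ hw
  | one => intro x; rw [coe_one_mulVec, sub_self]; exact W.zero_mem
  | mul A B _ _ hA hB =>
    intro x
    rw [coe_mul_mulVec]
    have := W.add_mem (hA ((B : Matrix (Fin m ⊕ Fin m) (Fin m ⊕ Fin m) F) *ᵥ x)) (hB x)
    simpa using this
  | inv A _ hA =>
    intro x
    have := hA (((A⁻¹ : Matrix.symplecticGroup (Fin m) F) :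
      Matrix (Fin m ⊕ Fin m) (Fin m ⊕ Fin m) F) *ᵥ x)
    rw [mul_inv_mulVec] at this
    have h2 := W.neg_mem this
    simpa using h2

theorem TW_maps {W : Submodule F (Fin m ⊕ Fin m → F)} {A : Matrix.symplecticGroup (Fin m) F}
    (hA : A ∈ TW W) {x : Fin m ⊕ Fin m → F} (hx : x ∈ W) :
    (A : Matrix (Fin m ⊕ Fin m) (Fin m ⊕ Fin m) F) *ᵥ x ∈ W := by
  have := W.add_mem (TW_sub_mem hA x) hx
  simpa using this

theorem sympForm_sub_right (u v v' : Fin m ⊕ Fin m → F) :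
    Cfsg.sympForm m F u (v - v') = Cfsg.sympForm m F u v - Cfsg.sympForm m F u v' := by
  have : v - v' = v + (-1 : F) • v' := by simp [sub_eq_add_neg]
  rw [this, sympForm_add_right, sympForm_smul_right]; ring

theorem move {W : Submodule F (Fin m ⊕ Fin m → F)} {a b : Fin m ⊕ Fin m → F} (ha : a ∈ W)
    (hb : b ∈ W) (h : Cfsg.sympForm m F a b ≠ 0) :
    ∃ A ∈ TW W, (A : Matrix (Fin m ⊕ Fin m) (Fin m ⊕ Fin m) F) *ᵥ a = b ∧
      ∀ x, Cfsg.sympForm m F x a = Cfsg.sympForm m F x b →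
        (A : Matrix (Fin m ⊕ Fin m) (Fin m ⊕ Fin m) F) *ᵥ x = x := by
  refine ⟨tv (a - b) (Cfsg.sympForm m F a b)⁻¹, tv_mem (W.sub_mem ha hb) _, ?_, ?_⟩
  · show Cfsg.sympTransvection m (a - b) _ *ᵥ a = b
    rw [sympTransvection_mulVec, sympForm_sub_right, sympForm_self, zero_sub, mul_neg,
      inv_mul_cancel₀ h]
    simp
  · intro x hx
    show Cfsg.sympTransvection m (a - b) _ *ᵥ x = x
    rw [sympTransvection_mulVec, sympForm_sub_right, hx]
    simp

theorem trans1 {W : Submodule F (Fin m ⊕ Fin m → F)} {u v u' v' : Fin m ⊕ Fin m → F}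
    (hu : u ∈ W) (hv : v ∈ W) (hu' : u' ∈ W) (hv' : v' ∈ W)
    (h : Cfsg.sympForm m F u v = 1) (h' : Cfsg.sympForm m F u' v' = 1) :
    ∃ A ∈ TW W, (A : Matrix (Fin m ⊕ Fin m) (Fin m ⊕ Fin m) F) *ᵥ u = u' := by
  have key : ∀ z ∈ W, Cfsg.sympForm m F u z ≠ 0 → Cfsg.sympForm m F z u' ≠ 0 →
      ∃ A ∈ TW W, (A : Matrix (Fin m ⊕ Fin m) (Fin m ⊕ Fin m) F) *ᵥ u = u' := by
    intro z hz h1 h2
    obtain ⟨A1, hA1, hA1u, _⟩ := move hu hz h1
    obtain ⟨A2, hA2, hA2u, _⟩ := move hz hu' h2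
    exact ⟨A2 * A1, (TW W).mul_mem hA2 hA1, by rw [coe_mul_mulVec, hA1u, hA2u]⟩
  by_cases h1 : Cfsg.sympForm m F u' v = 0
  · by_cases h2 : Cfsg.sympForm m F u v' = 0
    · apply key (v + v') (W.add_mem hv hv')
      · rw [sympForm_add_right, h, h2]; simp
      · rw [sympForm_swap, sympForm_add_right, h1, h']; simp
    · apply key v' hv' h2
      rw [sympForm_swap, h']; simp
  · apply key v hv
    · rw [h]; simp
    · rw [sympForm_swap]; simpa using h1

theorem trans2 {W : Submodule F (Fin m ⊕ Fin m → F)} {u v v' : Fin m ⊕ Fin m → F}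
    (hu : u ∈ W) (hv : v ∈ W) (hv' : v' ∈ W)
    (h : Cfsg.sympForm m F u v = 1) (h' : Cfsg.sympForm m F u v' = 1) :
    ∃ A ∈ TW W, (A : Matrix (Fin m ⊕ Fin m) (Fin m ⊕ Fin m) F) *ᵥ u = u ∧
      (A : Matrix (Fin m ⊕ Fin m) (Fin m ⊕ Fin m) F) *ᵥ v = v' := by
  by_cases h1 : Cfsg.sympForm m F v v' = 0
  · obtain ⟨A1, hA1, hA1v, hA1f⟩ := move hv (W.add_mem hu hv) (b := u + v) (by
      rw [sympForm_add_right, sympForm_self, sympForm_swap, h]; simp)
    obtain ⟨A2, hA2, hA2v, hA2f⟩ := move (W.add_mem hu hv) hv' (a := u + v) (by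
      rw [sympForm_add_left, h', h1]; simp)
    refine ⟨A2 * A1, (TW W).mul_mem hA2 hA1, ?_, ?_⟩
    · rw [coe_mul_mulVec, hA1f u (by rw [sympForm_add_right, sympForm_self, h]; simp),
        hA2f u (by rw [sympForm_add_right, sympForm_self, h, h']; simp)]
    · rw [coe_mul_mulVec, hA1v, hA2v]
  · obtain ⟨A, hA, hAv, hAf⟩ := move hv hv' h1
    exact ⟨A, hA, hAf u (by rw [h, h']), hAv⟩

theorem trans_pair {W : Submodule F (Fin m ⊕ Fin m → F)} {u v u' v' : Fin m ⊕ Fin m → F}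
    (hu : u ∈ W) (hv : v ∈ W) (hu' : u' ∈ W) (hv' : v' ∈ W)
    (h : Cfsg.sympForm m F u v = 1) (h' : Cfsg.sympForm m F u' v' = 1) :
    ∃ A ∈ TW W, (A : Matrix (Fin m ⊕ Fin m) (Fin m ⊕ Fin m) F) *ᵥ u = u' ∧
      (A : Matrix (Fin m ⊕ Fin m) (Fin m ⊕ Fin m) F) *ᵥ v = v' := by
  obtain ⟨A1, hA1, hA1u⟩ := trans1 hu hv hu' hv' h h'
  obtain ⟨A2, hA2, hA2u, hA2v⟩ := trans2 hu' (TW_maps hA1 hv) hv'
    (by rw [← hA1u, preserves, h]) h'
  exact ⟨A2 * A1, (TW W).mul_mem hA2 hA1, by rw [coe_mul_mulVec, hA1u, hA2u],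
    by rw [coe_mul_mulVec, hA2v]⟩

/-- the subspace orthogonal to a family -/
def perp {k : ℕ} (e f : Fin k → (Fin m ⊕ Fin m → F)) : Submodule F (Fin m ⊕ Fin m → F) where
  carrier := {x | ∀ i, Cfsg.sympForm m F x (e i) = 0 ∧ Cfsg.sympForm m F x (f i) = 0}
  add_mem' := by
    intro a b ha hb i
    simp [sympForm_add_left, (ha i).1, (ha i).2, (hb i).1, (hb i).2]
  zero_mem' := by
    intro i
    have : (0 : Fin m ⊕ Fin m → F) = (0 : F) • 0 := by simp
    constructor <;> rw [this, sympForm_smul_left, zero_mul]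
  smul_mem' := by
    intro c a ha i
    simp [sympForm_smul_left, (ha i).1, (ha i).2]

theorem trans_family (k : ℕ) : ∀ (e f e' f' : Fin k → (Fin m ⊕ Fin m → F)),
    (∀ i j, Cfsg.sympForm m F (e i) (f j) = if i = j then 1 else 0) →
    (∀ i j, Cfsg.sympForm m F (e i) (e j) = 0) → (∀ i j, Cfsg.sympForm m F (f i) (f j) = 0) →
    (∀ i j, Cfsg.sympForm m F (e' i) (f' j) = if i = j then 1 else 0) →
    (∀ i j, Cfsg.sympForm m F (e' i) (e' j) = 0) → (∀ i j, Cfsg.sympForm m F (f' i) (f' j) = 0) →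
    ∃ A ∈ TW (⊤ : Submodule F (Fin m ⊕ Fin m → F)),
      ∀ i, (A : Matrix (Fin m ⊕ Fin m) (Fin m ⊕ Fin m) F) *ᵥ e i = e' i ∧
        (A : Matrix (Fin m ⊕ Fin m) (Fin m ⊕ Fin m) F) *ᵥ f i = f' i := by
  induction k with
  | zero => intro e f e' f' _ _ _ _ _ _; exact ⟨1, Subgroup.one_mem _, fun i => i.elim0⟩
  | succ k ih =>
    intro e f e' f' hef hee hff hef' hee' hff'
    obtain ⟨A0, hA0, hA0ef⟩ := ih (fun i => e i.castSucc) (fun i => f i.castSucc)
      (fun i => e' i.castSucc) (fun i => f' i.castSucc)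
      (fun i j => by simpa using hef i.castSucc j.castSucc) (fun i j => hee _ _)
      (fun i j => hff _ _)
      (fun i j => by simpa using hef' i.castSucc j.castSucc) (fun i j => hee' _ _)
      (fun i j => hff' _ _)
    set W := perp (fun i : Fin k => e' i.castSucc) (fun i : Fin k => f' i.castSucc) with hW
    have hne : ∀ i : Fin k, Fin.last k ≠ i.castSucc := fun i => (Fin.castSucc_lt_last i).ne'
    have hne' : ∀ i : Fin k, i.castSucc ≠ Fin.last k := fun i => (Fin.castSucc_lt_last i).ne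
    have hu : (A0 : Matrix (Fin m ⊕ Fin m) (Fin m ⊕ Fin m) F) *ᵥ e (Fin.last k) ∈ W := by
      intro i
      constructor
      · show Cfsg.sympForm m F _ (e' i.castSucc) = 0
        rw [← (hA0ef i).1, preserves, hee]
      · show Cfsg.sympForm m F _ (f' i.castSucc) = 0
        rw [← (hA0ef i).2, preserves, hef, if_neg (hne i)]
    have hv : (A0 : Matrix (Fin m ⊕ Fin m) (Fin m ⊕ Fin m) F) *ᵥ f (Fin.last k) ∈ W := by
      intro i
      constructor
      · show Cfsg.sympForm m F _ (e' i.castSucc) = 0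
        rw [← (hA0ef i).1, preserves, sympForm_swap, hef, if_neg (hne' i), neg_zero]
      · show Cfsg.sympForm m F _ (f' i.castSucc) = 0
        rw [← (hA0ef i).2, preserves, hff]
    have hu' : e' (Fin.last k) ∈ W := by
      intro i
      exact ⟨hee' _ _, by rw [hef', if_neg (hne i)]⟩
    have hv' : f' (Fin.last k) ∈ W := by
      intro i
      exact ⟨by rw [sympForm_swap, hef', if_neg (hne' i), neg_zero], hff' _ _⟩
    obtain ⟨A1, hA1, hA1u, hA1v⟩ := trans_pair hu hv hu' hv'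
      (by rw [preserves, hef, if_pos rfl]) (by rw [hef', if_pos rfl])
    have hA1' : A1 ∈ TW (⊤ : Submodule F (Fin m ⊕ Fin m → F)) := by
      refine Subgroup.closure_mono ?_ hA1
      rintro A ⟨w, _, c, h⟩
      exact ⟨w, trivial, c, h⟩
    refine ⟨A1 * A0, Subgroup.mul_mem _ hA1' hA0, fun i => ?_⟩
    refine Fin.lastCases ?_ (fun i => ?_) i
    · exact ⟨by rw [coe_mul_mulVec, hA1u], by rw [coe_mul_mulVec, hA1v]⟩
    · constructor
      · rw [coe_mul_mulVec, (hA0ef i).1]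
        apply TW_fix hA1
        intro w hw
        rw [sympForm_swap, (hw i).1, neg_zero]
      · rw [coe_mul_mulVec, (hA0ef i).2]
        apply TW_fix hA1
        intro w hw
        rw [sympForm_swap, (hw i).2, neg_zero]

theorem closure_eq_top : Subgroup.closure {A : Matrix.symplecticGroup (Fin m) F |
      ∃ (w : Fin m ⊕ Fin m → F) (c : F),
        (A : Matrix (Fin m ⊕ Fin m) (Fin m ⊕ Fin m) F) = Cfsg.sympTransvection m w c} = ⊤ := by
  classical
  rw [eq_top_iff]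
  intro g _
  let e : Fin m → (Fin m ⊕ Fin m → F) := fun i => Pi.single (Sum.inr i) 1
  let f : Fin m → (Fin m ⊕ Fin m → F) := fun i => Pi.single (Sum.inl i) 1
  have hef : ∀ i j, Cfsg.sympForm m F (e i) (f j) = if i = j then 1 else 0 := by
    intro i j
    rw [sympForm_explicit]
    simp [e, f, Pi.single_apply, eq_comm]
  have hee : ∀ i j, Cfsg.sympForm m F (e i) (e j) = 0 := by
    intro i j
    rw [sympForm_explicit]
    simp [e, Pi.single_apply]
  have hff : ∀ i j, Cfsg.sympForm m F (f i) (f j) = 0 := by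
    intro i j
    rw [sympForm_explicit]
    simp [f, Pi.single_apply]
  obtain ⟨A, hA, hAef⟩ := trans_family m e f
    (fun i => (g : Matrix (Fin m ⊕ Fin m) (Fin m ⊕ Fin m) F) *ᵥ e i)
    (fun i => (g : Matrix (Fin m ⊕ Fin m) (Fin m ⊕ Fin m) F) *ᵥ f i) hef hee hff
    (fun i j => by rw [preserves, hef]) (fun i j => by rw [preserves, hee])
    (fun i j => by rw [preserves, hff])
  have : A = g := by
    apply Subtype.ext
    ext i j
    rcases j with j | j
    · have := congrFun (hAef j).2 i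
      simpa [f] using this
    · have := congrFun (hAef j).1 i
      simpa [e] using this
  rw [← this]
  exact TW_le _ hA

end Cfsg.Agent.Lib.Helper5.SympGen
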