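import Mathlib
import Cfsg.Agent.Lib.Helper5.AltForm

set_option autoImplicit false

namespace Cfsg.Agent.Lib.Helper5.Witt

open Module Cfsg.Agent.Lib.Helper5.AltForm

variable {F V : Type*} [Field F] [AddCommGroup V] [Module F V]
variable {B : LinearMap.BilinForm F V}

theorem li_total' (hA : B.IsAlt) {m k : ℕ} {e f : Fin m → V} (h : IsHyp B e f) (r : Fin k → V)
    (hre : ∀ l i, B (r l) (e i) = 0) (hrf : ∀ l i, B (r l) (f i) = 0)
    (hli : LinearIndependent F r) :
    LinearIndependent F (Sum.elim (Sum.elim e f) r) := by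
  rw [Fintype.linearIndependent_iff]
  intro g hg
  rw [Fintype.sum_sum_type, Fintype.sum_sum_type] at hg
  simp only [Sum.elim_inl, Sum.elim_inr] at hg
  have ha : ∀ i, g (Sum.inl (Sum.inl i)) = 0 := by
    intro i
    have := congrArg (fun v => B v (f i)) hg
    simpa [map_add, map_sum, h.ef, h.ff, hrf] using this
  have hb : ∀ i, g (Sum.inl (Sum.inr i)) = 0 := by
    intro i
    have := congrArg (fun v => B v (e i)) hg
    simpa [map_add, map_sum, h.ee, h.fe hA, hre] using this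
  have hc : ∀ l, g (Sum.inr l) = 0 := by
    simp only [ha, hb, zero_smul, Finset.sum_const_zero, zero_add] at hg
    exact Fintype.linearIndependent_iff.mp hli _ hg
  rintro ((i | i) | l)
  · exact ha i
  · exact hb i
  · exact hc l

/-- a functional dual to a member of a linearly independent family -/
theorem exists_dual {ι : Type*} [DecidableEq ι] {t : ι → V} (hli : LinearIndependent F t) (j : ι) :
    ∃ ψ : V →ₗ[F] F, ∀ j', ψ (t j') = if j' = j then 1 else 0 := by
  obtain ⟨g, hg⟩ := LinearMap.exists_extend ((Finsupp.lapply j : (ι →₀ F) →ₗ[F] F) ∘ₗ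
    (hli.repr : Submodule.span F (Set.range t) →ₗ[F] (ι →₀ F)))
  refine ⟨g, fun j' => ?_⟩
  have := LinearMap.congr_fun hg ⟨t j', Submodule.subset_span ⟨j', rfl⟩⟩
  simp only [LinearMap.comp_apply, Submodule.subtype_apply] at this
  rw [this, hli.repr_eq_single j' _ rfl]
  simp [Finsupp.single_apply]

theorem exists_partner [FiniteDimensional F V] (hB : B.Nondegenerate) (hA : B.IsAlt) {m k : ℕ}
    {e f : Fin m → V} (h : IsHyp B e f) (r : Fin (k + 1) → V)
    (hre : ∀ l i, B (r l) (e i) = 0) (hrf : ∀ l i, B (r l) (f i) = 0)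
    (hli : LinearIndependent F r) :
    ∃ y, B (r (Fin.last k)) y = 1 ∧ (∀ l : Fin k, B (r l.castSucc) y = 0) ∧
      (∀ i, B y (e i) = 0) ∧ (∀ i, B y (f i) = 0) := by
  classical
  obtain ⟨ψ, hψ⟩ := exists_dual (li_total' hA h r hre hrf hli) (Sum.inr (Fin.last k))
  refine ⟨-(B.toDual hB).symm ψ, ?_, ?_, ?_, ?_⟩
  · rw [map_neg, hA.neg_eq, LinearMap.BilinForm.apply_toDual_symm_apply]
    simpa using hψ (Sum.inr (Fin.last k))
  · intro l
    rw [map_neg, hA.neg_eq, LinearMap.BilinForm.apply_toDual_symm_apply]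
    simpa [(Fin.castSucc_lt_last l).ne] using hψ (Sum.inr l.castSucc)
  · intro i
    rw [map_neg, LinearMap.neg_apply, LinearMap.BilinForm.apply_toDual_symm_apply]
    simpa using hψ (Sum.inl (Sum.inl i))
  · intro i
    rw [map_neg, LinearMap.neg_apply, LinearMap.BilinForm.apply_toDual_symm_apply]
    simpa using hψ (Sum.inl (Sum.inr i))

/-- a maximal hyperbolic family for a nondegenerate form spans -/
theorem span_of_maximal (hB : B.Nondegenerate) (hA : B.IsAlt) {m : ℕ}
    {e f : Fin m → V} (h : IsHyp B e f)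
    (hmax : ∀ x y, (∀ i, B x (e i) = 0) → (∀ i, B x (f i) = 0) → (∀ i, B y (e i) = 0) →
        (∀ i, B y (f i) = 0) → B x y = 0) :
    ⊤ ≤ Submodule.span F (Set.range (Sum.elim e f)) := by
  intro v _
  have hrad : v - proj B e f v = 0 := by
    apply hB.1
    intro z
    have hz : z = (z - proj B e f z) + proj B e f z := by abel
    rw [hz, map_add, proj_perp e f _ z (sub_proj_e hA h v) (sub_proj_f h v), add_zero]
    exact hmax _ _ (sub_proj_e hA h v) (sub_proj_f h v) (sub_proj_e hA h z) (sub_proj_f h z)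
  rw [sub_eq_zero.mp hrad]
  unfold proj
  apply Submodule.sub_mem
  · apply Submodule.sum_mem
    intro i _
    exact Submodule.smul_mem _ _ (Submodule.subset_span ⟨Sum.inl i, rfl⟩)
  · apply Submodule.sum_mem
    intro i _
    exact Submodule.smul_mem _ _ (Submodule.subset_span ⟨Sum.inr i, rfl⟩)

/-- every hyperbolic family extends to a hyperbolic basis -/
theorem exists_hyp_basis [FiniteDimensional F V] (hB : B.Nondegenerate) (hA : B.IsAlt) {m₀ : ℕ}
    (e₀ f₀ : Fin m₀ → V) (h₀ : IsHyp B e₀ f₀) :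
    ∃ (m : ℕ) (e f : Fin m → V) (hm : m₀ ≤ m) (b : Basis (Fin m ⊕ Fin m) F V), IsHyp B e f ∧
      (∀ i : Fin m₀, e (Fin.castLE hm i) = e₀ i ∧ f (Fin.castLE hm i) = f₀ i) ∧
      (∀ i, b (Sum.inl i) = e i) ∧ (∀ i, b (Sum.inr i) = f i) ∧ finrank F V = 2 * m := by
  obtain ⟨m, e, f, hm, h, hext, hmax⟩ := exists_maximal hA e₀ f₀ h₀
  refine ⟨m, e, f, hm, Basis.mk (h.linearIndependent hA) (span_of_maximal hB hA h hmax), h, hext,
    fun i => by simp, fun i => by simp, ?_⟩
  rw [finrank_eq_card_basis (Basis.mk (h.linearIndependent hA) (span_of_maximal hB hA h hmax))]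
  simp; omega

/-- two hyperbolic bases are related by an isometry -/
theorem exists_isometry_of_bases (hA : B.IsAlt) {m : ℕ} {e f e' f' : Fin m → V}
    (h : IsHyp B e f) (h' : IsHyp B e' f') (b b' : Basis (Fin m ⊕ Fin m) F V)
    (hbe : ∀ i, b (Sum.inl i) = e i) (hbf : ∀ i, b (Sum.inr i) = f i)
    (hbe' : ∀ i, b' (Sum.inl i) = e' i) (hbf' : ∀ i, b' (Sum.inr i) = f' i) :
    ∃ g : V ≃ₗ[F] V, (∀ u v, B (g u) (g v) = B u v) ∧ (∀ i, g (e i) = e' i) ∧
      (∀ i, g (f i) = f' i) := by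
  let g := b.equiv b' (Equiv.refl _)
  have hge : ∀ i, g (e i) = e' i := fun i => by
    rw [← hbe, ← hbe']; simp [g]
  have hgf : ∀ i, g (f i) = f' i := fun i => by
    rw [← hbf, ← hbf']; simp [g]
  refine ⟨g, ?_, hge, hgf⟩
  have : B.comp (g : V →ₗ[F] V) (g : V →ₗ[F] V) = B := by
    apply LinearMap.BilinForm.ext_basis b
    rintro (i | i) (j | j)
    · simp [hbe, hge, h.ee, h'.ee]
    · simp [hbe, hbf, hge, hgf, h.ef, h'.ef]
    · simp [hbe, hbf, hge, hgf, h.fe hA, h'.fe hA]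
    · simp [hbf, hgf, h.ff, h'.ff]
  intro u v
  exact congrArg (fun C : LinearMap.BilinForm F V => C u v) this

theorem exists_isometry_hyp [FiniteDimensional F V] (hB : B.Nondegenerate) (hA : B.IsAlt) {a : ℕ}
    {e f e' f' : Fin a → V} (h : IsHyp B e f) (h' : IsHyp B e' f') :
    ∃ g : V ≃ₗ[F] V, (∀ u v, B (g u) (g v) = B u v) ∧ (∀ i, g (e i) = e' i) ∧
      (∀ i, g (f i) = f' i) := by
  obtain ⟨m, E, G, hm, b, hE, hext, hbe, hbf, hfin⟩ := exists_hyp_basis hB hA e f h
  obtain ⟨m', E', G', hm', b', hE', hext', hbe', hbf', hfin'⟩ := exists_hyp_basis hB hA e' f' h'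
  obtain rfl : m = m' := by omega
  obtain ⟨g, hg, hgE, hgG⟩ := exists_isometry_of_bases hA hE hE' b b' hbe hbf hbe' hbf'
  refine ⟨g, hg, fun i => ?_, fun i => ?_⟩
  · rw [← (hext i).1, ← (hext' i).1, hgE]
  · rw [← (hext i).2, ← (hext' i).2, hgG]

theorem exists_isometry_family [FiniteDimensional F V] (hB : B.Nondegenerate) (hA : B.IsAlt)
    (k : ℕ) : ∀ {a : ℕ} {e f e' f' : Fin a → V} (_ : IsHyp B e f) (_ : IsHyp B e' f')
    (r r' : Fin k → V)
    (_ : ∀ l i, B (r l) (e i) = 0) (_ : ∀ l i, B (r l) (f i) = 0)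
    (_ : ∀ l l', B (r l) (r l') = 0) (_ : LinearIndependent F r)
    (_ : ∀ l i, B (r' l) (e' i) = 0) (_ : ∀ l i, B (r' l) (f' i) = 0)
    (_ : ∀ l l', B (r' l) (r' l') = 0) (_ : LinearIndependent F r'),
    ∃ g : V ≃ₗ[F] V, (∀ u v, B (g u) (g v) = B u v) ∧ (∀ i, g (e i) = e' i) ∧
      (∀ i, g (f i) = f' i) ∧ (∀ l, g (r l) = r' l) := by
  induction k with
  | zero =>
    intro a e f e' f' h h' r r' _ _ _ _ _ _ _ _
    obtain ⟨g, hg, h1, h2⟩ := exists_isometry_hyp hB hA h h'
    exact ⟨g, hg, h1, h2, fun l => l.elim0⟩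
  | succ k ih =>
    intro a e f e' f' h h' r r' hre hrf hrr hli hre' hrf' hrr' hli'
    obtain ⟨y, hy1, hy2, hy3, hy4⟩ := exists_partner hB hA h r hre hrf hli
    obtain ⟨y', hy1', hy2', hy3', hy4'⟩ := exists_partner hB hA h' r' hre' hrf' hli'
    have H := h.snoc hA (r (Fin.last k)) y hy1 (hre _) (hrf _) hy3 hy4
    have H' := h'.snoc hA (r' (Fin.last k)) y' hy1' (hre' _) (hrf' _) hy3' hy4'
    obtain ⟨g, hg, h1, h2, h3⟩ := ih H H' (fun l => r l.castSucc) (fun l => r' l.castSucc)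
      (fun l i => by
        refine Fin.lastCases ?_ (fun i => ?_) i
        · simp [hrr]
        · simp [hre])
      (fun l i => by
        refine Fin.lastCases ?_ (fun i => ?_) i
        · simp [hy2]
        · simp [hrf])
      (fun l l' => hrr _ _)
      (hli.comp _ (Fin.castSucc_injective k))
      (fun l i => by
        refine Fin.lastCases ?_ (fun i => ?_) i
        · simp [hrr']
        · simp [hre'])
      (fun l i => by
        refine Fin.lastCases ?_ (fun i => ?_) i
        · simp [hy2']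
        · simp [hrf'])
      (fun l l' => hrr' _ _)
      (hli'.comp _ (Fin.castSucc_injective k))
    refine ⟨g, hg, fun i => ?_, fun i => ?_, fun l => ?_⟩
    · simpa using h1 i.castSucc
    · simpa using h2 i.castSucc
    · refine Fin.lastCases ?_ (fun l => ?_) l
      · simpa using h1 (Fin.last a)
      · exact h3 l

/-- Witt's lemma for nondegenerate alternating forms -/
theorem witt [FiniteDimensional F V] (hB : B.Nondegenerate) (hA : B.IsAlt)
    (X Y : Submodule F V) (φ : X ≃ₗ[F] Y)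
    (hφ : ∀ x x' : X, B (φ x : V) (φ x' : V) = B (x : V) (x' : V)) :
    ∃ g : V ≃ₗ[F] V, (∀ u v : V, B (g u) (g v) = B u v) ∧ ∀ x : X, g (x : V) = (φ x : V) := by
  have hAX : (B.restrict X).IsAlt := fun x => hA x
  obtain ⟨m, k, b, h1, h2, h3, h4⟩ := exists_basis hAX
  have hli : LinearIndependent F (fun l : Fin k => (b (Sum.inr l) : V)) :=
    (b.linearIndependent.comp _ Sum.inr_injective).map' X.subtype (Submodule.ker_subtype _)
  have hli' : LinearIndependent F (fun l : Fin k => (φ (b (Sum.inr l)) : V)) :=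
    ((b.linearIndependent.comp _ Sum.inr_injective).map' (φ : X →ₗ[F] Y) φ.ker).map'
      Y.subtype (Submodule.ker_subtype _)
  obtain ⟨g, hg, g1, g2, g3⟩ := exists_isometry_family hB hA k
    (e := fun i => (b (Sum.inl (Sum.inl i)) : V)) (f := fun i => (b (Sum.inl (Sum.inr i)) : V))
    (e' := fun i => (φ (b (Sum.inl (Sum.inl i))) : V))
    (f' := fun i => (φ (b (Sum.inl (Sum.inr i))) : V))
    ⟨h1, h2, h3⟩
    ⟨fun i j => (hφ _ _).trans (h1 i j), fun i j => (hφ _ _).trans (h2 i j),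
      fun i j => (hφ _ _).trans (h3 i j)⟩
    (fun l => (b (Sum.inr l) : V)) (fun l => (φ (b (Sum.inr l)) : V))
    (fun l i => h4 l _) (fun l i => h4 l _) (fun l l' => h4 l _) hli
    (fun l i => (hφ _ _).trans (h4 l _)) (fun l i => (hφ _ _).trans (h4 l _))
    (fun l l' => (hφ _ _).trans (h4 l _)) hli'
  refine ⟨g, hg, ?_⟩
  have : (g : V →ₗ[F] V) ∘ₗ X.subtype = Y.subtype ∘ₗ (φ : X →ₗ[F] Y) := by
    apply b.ext
    rintro ((i | i) | l)
    · exact g1 i
    · exact g2 i
    · exact g3 l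
  intro x
  exact LinearMap.congr_fun this x

end Cfsg.Agent.Lib.Helper5.Witt
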