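import Mathlib
import Cfsg.Prelude.Def_ClassicalGeometry
import Cfsg.Agent.Lib.Helper5.Symp
import Cfsg.Agent.Lib.Helper5.SympGen
import Cfsg.Agent.Lib.Helper5.AltForm
import Cfsg.Agent.Lib.Helper5.Witt

set_option autoImplicit false

namespace Cfsg.Agent.Lib.Helper5.SympBridge

open Matrix Cfsg.Agent.Lib.Helper5.Symp Cfsg.Agent.Lib.Helper5.SympGen
  Cfsg.Agent.Lib.Helper5.AltForm Cfsg.Agent.Lib.Helper5.Witt

variable {F : Type*} [Field F] {m : ℕ}

/-- `sympForm` as a bilinear form -/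
noncomputable def sympB (m : ℕ) (F : Type*) [Field F] :
    LinearMap.BilinForm F (Fin m ⊕ Fin m → F) :=
  LinearMap.mk₂ F (Cfsg.sympForm m F) sympForm_add_left
    (fun c u v => by rw [sympForm_smul_left, smul_eq_mul]) sympForm_add_right
    (fun c u v => by rw [sympForm_smul_right, smul_eq_mul])

theorem sympB_apply (u v : Fin m ⊕ Fin m → F) : sympB m F u v = Cfsg.sympForm m F u v := rfl

theorem sympB_alt : (sympB m F).IsAlt := fun v => sympForm_self v

theorem sympForm_single_inl (x : Fin m ⊕ Fin m → F) (i : Fin m) :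
    Cfsg.sympForm m F x (Pi.single (Sum.inl i) 1) = x (Sum.inr i) := by
  classical
  rw [sympForm_explicit]
  simp [Pi.single_apply]

theorem sympForm_single_inr (x : Fin m ⊕ Fin m → F) (i : Fin m) :
    Cfsg.sympForm m F x (Pi.single (Sum.inr i) 1) = - x (Sum.inl i) := by
  classical
  rw [sympForm_explicit]
  simp [Pi.single_apply]

theorem eq_zero_of_forall (x : Fin m ⊕ Fin m → F) (hx : ∀ y, Cfsg.sympForm m F x y = 0) :
    x = 0 := by
  funext k
  rcases k with i | i
  · have := hx (Pi.single (Sum.inr i) 1)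
    rw [sympForm_single_inr] at this
    simpa using this
  · have := hx (Pi.single (Sum.inl i) 1)
    rw [sympForm_single_inl] at this
    simpa using this

theorem sympB_nondeg : (sympB m F).Nondegenerate := by
  constructor
  · intro x hx
    exact eq_zero_of_forall x hx
  · intro y hy
    apply eq_zero_of_forall
    intro x
    rw [sympForm_swap]
    have := hy x
    rw [sympB_apply] at this
    rw [this, neg_zero]

theorem exists_partner_one (v : Fin m ⊕ Fin m → F) (hv : v ≠ 0) :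
    ∃ x, Cfsg.sympForm m F v x = 1 := by
  by_contra hcon
  push Not at hcon
  apply hv
  apply eq_zero_of_forall
  intro y
  by_contra hy
  apply hcon ((Cfsg.sympForm m F v y)⁻¹ • y)
  rw [sympForm_smul_right, inv_mul_cancel₀ hy]

theorem exists_sp_of_isometry (g : (Fin m ⊕ Fin m → F) ≃ₗ[F] (Fin m ⊕ Fin m → F))
    (hg : ∀ u v, sympB m F (g u) (g v) = sympB m F u v) :
    ∃ A : Matrix.symplecticGroup (Fin m) F, ∀ x,
      (A : Matrix (Fin m ⊕ Fin m) (Fin m ⊕ Fin m) F) *ᵥ x = g x := by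
  have hmv : ∀ x, LinearMap.toMatrix' (g : (Fin m ⊕ Fin m → F) →ₗ[F] (Fin m ⊕ Fin m → F)) *ᵥ x =
      g x := by
    intro x
    rw [← Matrix.toLin'_apply, Matrix.toLin'_toMatrix']
    rfl
  refine ⟨⟨LinearMap.toMatrix' (g : (Fin m ⊕ Fin m → F) →ₗ[F] (Fin m ⊕ Fin m → F)), ?_⟩, hmv⟩
  rw [mem_symplecticGroup_iff_preserves]
  intro u v
  rw [hmv, hmv]
  exact hg u v

/-- `Sp` is transitive on linearly independent totally isotropic families -/
theorem exists_sp_family {k : ℕ} (r r' : Fin k → (Fin m ⊕ Fin m → F))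
    (hrr : ∀ l l', Cfsg.sympForm m F (r l) (r l') = 0) (hli : LinearIndependent F r)
    (hrr' : ∀ l l', Cfsg.sympForm m F (r' l) (r' l') = 0) (hli' : LinearIndependent F r') :
    ∃ A : Matrix.symplecticGroup (Fin m) F, ∀ l,
      (A : Matrix (Fin m ⊕ Fin m) (Fin m ⊕ Fin m) F) *ᵥ r l = r' l := by
  obtain ⟨g, hg, _, _, hgr⟩ := exists_isometry_family (B := sympB m F) sympB_nondeg sympB_alt k
    (a := 0) (e := Fin.elim0) (f := Fin.elim0) (e' := Fin.elim0) (f' := Fin.elim0)
    ⟨fun i => i.elim0, fun i => i.elim0, fun i => i.elim0⟩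
    ⟨fun i => i.elim0, fun i => i.elim0, fun i => i.elim0⟩ r r'
    (fun _ i => i.elim0) (fun _ i => i.elim0) hrr hli
    (fun _ i => i.elim0) (fun _ i => i.elim0) hrr' hli'
  obtain ⟨A, hA⟩ := exists_sp_of_isometry g hg
  exact ⟨A, fun l => by rw [hA, hgr]⟩

theorem exists_sp_vec (v w : Fin m ⊕ Fin m → F) (hv : v ≠ 0) (hw : w ≠ 0) :
    ∃ A : Matrix.symplecticGroup (Fin m) F,
      (A : Matrix (Fin m ⊕ Fin m) (Fin m ⊕ Fin m) F) *ᵥ v = w := by
  obtain ⟨v', hv'⟩ := exists_partner_one v hv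
  obtain ⟨w', hw'⟩ := exists_partner_one w hw
  obtain ⟨A, _, hA, _⟩ := trans_pair (W := (⊤ : Submodule F (Fin m ⊕ Fin m → F)))
    (u := v) (v := v') (u' := w) (v' := w') trivial trivial trivial trivial hv' hw'
  exact ⟨A, hA⟩

/-- a nonzero vector lies in a totally isotropic independent family of size `m` -/
theorem exists_isotropic_family (a : Fin m ⊕ Fin m → F) (ha : a ≠ 0) (hm : 1 ≤ m) :
    ∃ e : Fin m → (Fin m ⊕ Fin m → F), e ⟨0, hm⟩ = a ∧ LinearIndependent F e ∧
      ∀ i j, Cfsg.sympForm m F (e i) (e j) = 0 := by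
  obtain ⟨a', ha'⟩ := exists_partner_one a ha
  obtain ⟨m', e, f, hm', b, h, hext, _, _, hfin⟩ := exists_hyp_basis (B := sympB m F) sympB_nondeg
    sympB_alt (fun _ : Fin 1 => a) (fun _ : Fin 1 => a')
    ⟨fun i j => by simp [sympB_apply, ha', Subsingleton.elim i j],
      fun i j => sympForm_self a, fun i j => sympForm_self a'⟩
  have hmm : m' = m := by
    rw [Module.finrank_fintype_fun_eq_card, Fintype.card_sum, Fintype.card_fin] at hfin
    omega
  subst hmm
  refine ⟨e, (hext 0).1, ?_, h.ee⟩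
  exact (h.linearIndependent sympB_alt).comp Sum.inl Sum.inl_injective

end Cfsg.Agent.Lib.Helper5.SympBridge
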