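import Mathlib
import Cfsg.Prelude.Def_ClassicalGeometry
import Cfsg.Agent.Lib.Helper5.SympBridge

set_option autoImplicit false

namespace Cfsg.Agent.Lib.Helper5.SympPerfect

open Matrix Cfsg.Agent.Lib.Helper5.Symp Cfsg.Agent.Lib.Helper5.SympGen
  Cfsg.Agent.Lib.Helper5.SympBridge

open scoped commutatorElement

variable {F : Type*} [Field F] {m : ℕ}

theorem ext_mulVec {A B : Matrix.symplecticGroup (Fin m) F}
    (h : ∀ x, (A : Matrix (Fin m ⊕ Fin m) (Fin m ⊕ Fin m) F) *ᵥ x =
      (B : Matrix (Fin m ⊕ Fin m) (Fin m ⊕ Fin m) F) *ᵥ x) : A = B :=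
  Subtype.ext (Matrix.ext_iff_mulVec.mpr h)

theorem tv_mulVec (w : Fin m ⊕ Fin m → F) (c : F) (x : Fin m ⊕ Fin m → F) :
    (tv w c : Matrix (Fin m ⊕ Fin m) (Fin m ⊕ Fin m) F) *ᵥ x =
      x + (c * Cfsg.sympForm m F x w) • w := sympTransvection_mulVec w c x

theorem conj_tv (A : Matrix.symplecticGroup (Fin m) F) (w : Fin m ⊕ Fin m → F) (c : F) :
    A * tv w c * A⁻¹ = tv ((A : Matrix (Fin m ⊕ Fin m) (Fin m ⊕ Fin m) F) *ᵥ w) c := by
  apply ext_mulVec
  intro x
  rw [coe_mul_mulVec, coe_mul_mulVec, tv_mulVec, tv_mulVec, mulVec_add, mul_inv_mulVec, mulVec_smul]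
  congr 3
  rw [← preserves A, mul_inv_mulVec]

theorem tv_mul (w : Fin m ⊕ Fin m → F) (c d : F) : tv w c * tv w d = tv w (c + d) :=
  Subtype.ext (sympTransvection_mul w c d)

theorem tv_zero_right (w : Fin m ⊕ Fin m → F) : tv w 0 = 1 := by
  apply ext_mulVec
  intro x
  rw [tv_mulVec, coe_one_mulVec]
  simp

theorem tv_zero_left (c : F) : tv (0 : Fin m ⊕ Fin m → F) c = 1 := by
  apply ext_mulVec
  intro x
  rw [tv_mulVec, coe_one_mulVec]
  simp

theorem tv_inv (w : Fin m ⊕ Fin m → F) (c : F) : (tv w c)⁻¹ = tv w (-c) := by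
  apply inv_eq_of_mul_eq_one_right
  rw [tv_mul, add_neg_cancel, tv_zero_right]

theorem tv_smul (a : F) (w : Fin m ⊕ Fin m → F) (c : F) : tv (a • w) c = tv w (a ^ 2 * c) := by
  apply ext_mulVec
  intro x
  rw [tv_mulVec, tv_mulVec, sympForm_smul_right, smul_smul]
  congr 2
  ring

theorem comm_mem (A B : Matrix.symplecticGroup (Fin m) F) :
    ⁅A, B⁆ ∈ commutator (Matrix.symplecticGroup (Fin m) F) :=
  Subgroup.commutator_mem_commutator (Subgroup.mem_top _) (Subgroup.mem_top _)

/-- case of a field with an element `a ≠ 0`, `a ^ 2 ≠ 1` -/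
theorem tv_mem_of_sq (a : F) (ha : a ≠ 0) (ha2 : a ^ 2 ≠ 1) (w : Fin m ⊕ Fin m → F) (c : F) :
    tv w c ∈ commutator (Matrix.symplecticGroup (Fin m) F) := by
  by_cases hw : w = 0
  · rw [hw, tv_zero_left]; exact Subgroup.one_mem _
  obtain ⟨A, hA⟩ := exists_sp_vec w (a • w) hw (smul_ne_zero ha hw)
  have h1 : a ^ 2 - 1 ≠ 0 := sub_ne_zero.mpr ha2
  have : ⁅A, tv w (c / (a ^ 2 - 1))⁆ = tv w c := by
    rw [commutatorElement_def, conj_tv, hA, tv_smul, tv_inv, tv_mul]
    congr 1
    field_simp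
    ring
  rw [← this]
  exact comm_mem _ _

theorem pair_li {V : Type*} [AddCommGroup V] [Module F V] {n : ℕ} {e : Fin n → V}
    (hli : LinearIndependent F e) (i j : Fin n) (hij : i ≠ j) :
    LinearIndependent F ![e i, e j] := by
  have h1 : Function.Injective (![i, j] : Fin 2 → Fin n) := by
    intro x y hxy
    fin_cases x <;> fin_cases y <;> simp_all
  have h2 := hli.comp _ h1
  have h3 : e ∘ ![i, j] = ![e i, e j] := by
    funext x
    fin_cases x <;> rfl
  rwa [h3] at h2

theorem triple_li {V : Type*} [AddCommGroup V] [Module F V] {n : ℕ} {e : Fin n → V}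
    (hli : LinearIndependent F e) (i j k : Fin n) (hij : i ≠ j) (hik : i ≠ k) (hjk : j ≠ k) :
    LinearIndependent F ![e i, e j, e k] := by
  have h1 : Function.Injective (![i, j, k] : Fin 3 → Fin n) := by
    intro x y hxy
    fin_cases x <;> fin_cases y <;> simp_all
  have h2 := hli.comp _ h1
  have h3 : e ∘ ![i, j, k] = ![e i, e j, e k] := by
    funext x
    fin_cases x <;> rfl
  rwa [h3] at h2

/-- odd characteristic, rank at least two -/
theorem tv_mem_of_two_ne (h2 : (2 : F) ≠ 0) (hm : 2 ≤ m) (a : Fin m ⊕ Fin m → F) (c : F) :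
    tv a c ∈ commutator (Matrix.symplecticGroup (Fin m) F) := by
  by_cases ha : a = 0
  · rw [ha, tv_zero_left]; exact Subgroup.one_mem _
  obtain ⟨e, he0, hli, hee⟩ := exists_isotropic_family a ha (by omega)
  obtain ⟨b, hb⟩ : ∃ b, b = e ⟨1, by omega⟩ := ⟨_, rfl⟩
  have hli2 : LinearIndependent F ![a, b] := by
    rw [← he0, hb]
    exact pair_li hli _ _ (by simp [Fin.ext_iff])
  have haa : Cfsg.sympForm m F a a = 0 := sympForm_self a
  have hbb : Cfsg.sympForm m F b b = 0 := sympForm_self b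
  have hab : Cfsg.sympForm m F a b = 0 := by rw [← he0, hb]; exact hee _ _
  have hba : Cfsg.sympForm m F b a = 0 := by rw [← he0, hb]; exact hee _ _
  have hli2' : LinearIndependent F ![a, a + b] := by
    rw [LinearIndependent.pair_iff] at hli2 ⊢
    intro s t hst
    have := hli2 (s + t) t (by rw [add_smul]; rw [smul_add] at hst; rw [← hst]; abel)
    refine ⟨?_, this.2⟩
    have h1 := this.1
    rw [this.2, add_zero] at h1
    exact h1
  obtain ⟨A, hA⟩ := exists_sp_family ![a, b] ![a, a + b]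
    (by
      intro l l'
      fin_cases l <;> fin_cases l' <;> simp [haa, hbb, hab, hba])
    hli2
    (by
      intro l l'
      fin_cases l <;> fin_cases l' <;>
        simp [haa, hbb, hab, hba, sympForm_add_left, sympForm_add_right])
    hli2'
  have hAa : (A : Matrix (Fin m ⊕ Fin m) (Fin m ⊕ Fin m) F) *ᵥ a = a := hA 0
  have hAb : (A : Matrix (Fin m ⊕ Fin m) (Fin m ⊕ Fin m) F) *ᵥ b = a + b := hA 1
  have key : ⁅A, tv (a + b) (c / 2) * tv a (-(c / 2)) * tv b (-(c / 2))⁆ = tv a c := by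
    rw [commutatorElement_def]
    have e1 : A * (tv (a + b) (c / 2) * tv a (-(c / 2)) * tv b (-(c / 2))) * A⁻¹ =
        (A * tv (a + b) (c / 2) * A⁻¹) * (A * tv a (-(c / 2)) * A⁻¹) *
          (A * tv b (-(c / 2)) * A⁻¹) := by group
    rw [e1, conj_tv, conj_tv, conj_tv, mulVec_add, hAa, hAb, _root_.mul_inv_rev, _root_.mul_inv_rev, tv_inv,
      tv_inv, tv_inv]
    apply ext_mulVec
    intro x
    simp only [coe_mul_mulVec, tv_mulVec, sympForm_add_left, sympForm_add_right,
      sympForm_smul_left, haa, hbb, hab, hba, mul_zero, add_zero, zero_add]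
    ext i
    simp only [Pi.add_apply, Pi.smul_apply, smul_eq_mul]
    field_simp
    ring
  rw [← key]
  exact comm_mem _ _

/-- characteristic two, rank at least three -/
theorem tv_mem_of_two_eq (h2 : (2 : F) = 0) (hm : 3 ≤ m) (a : Fin m ⊕ Fin m → F) (c : F) :
    tv a c ∈ commutator (Matrix.symplecticGroup (Fin m) F) := by
  by_cases ha : a = 0
  · rw [ha, tv_zero_left]; exact Subgroup.one_mem _
  obtain ⟨e, he0, hli, hee⟩ := exists_isotropic_family a ha (by omega)
  obtain ⟨b, hb⟩ : ∃ b, b = e ⟨1, by omega⟩ := ⟨_, rfl⟩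
  obtain ⟨d, hd⟩ : ∃ d, d = e ⟨2, by omega⟩ := ⟨_, rfl⟩
  have hli3 : LinearIndependent F ![a, b, d] := by
    rw [← he0, hb, hd]
    exact triple_li hli _ _ _ (by simp [Fin.ext_iff]) (by simp [Fin.ext_iff]) (by simp [Fin.ext_iff])
  have haa : Cfsg.sympForm m F a a = 0 := sympForm_self a
  have hbb : Cfsg.sympForm m F b b = 0 := sympForm_self b
  have hdd : Cfsg.sympForm m F d d = 0 := sympForm_self d
  have hab : Cfsg.sympForm m F a b = 0 := by rw [← he0, hb]; exact hee _ _
  have hba : Cfsg.sympForm m F b a = 0 := by rw [← he0, hb]; exact hee _ _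
  have had : Cfsg.sympForm m F a d = 0 := by rw [← he0, hd]; exact hee _ _
  have hda : Cfsg.sympForm m F d a = 0 := by rw [← he0, hd]; exact hee _ _
  have hbd : Cfsg.sympForm m F b d = 0 := by rw [hb, hd]; exact hee _ _
  have hdb : Cfsg.sympForm m F d b = 0 := by rw [hb, hd]; exact hee _ _
  have hli3' : LinearIndependent F ![a, b + d, a + d] := by
    rw [Fintype.linearIndependent_iff] at hli3 ⊢
    intro g hg
    simp only [Fin.sum_univ_three, Matrix.cons_val_zero, Matrix.cons_val_one,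
      Matrix.cons_val] at hg
    have h3 := hli3 ![g 0 + g 2, g 1, g 1 + g 2] (by
      simp only [Fin.sum_univ_three, Matrix.cons_val_zero, Matrix.cons_val_one, Matrix.cons_val]
      rw [← hg]
      simp only [smul_add, add_smul]
      abel)
    have g1 : g 1 = 0 := by simpa using h3 1
    have g2 : g 2 = 0 := by
      have := h3 2
      simpa [g1] using this
    have g0 : g 0 = 0 := by
      have := h3 0
      simpa [g2] using this
    intro i
    fin_cases i
    · exact g0
    · exact g1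
    · exact g2
  obtain ⟨A, hA⟩ := exists_sp_family ![a, b, d] ![a, b + d, a + d]
    (by
      intro l l'
      fin_cases l <;> fin_cases l' <;> simp [haa, hbb, hdd, hab, hba, had, hda, hbd, hdb])
    hli3
    (by
      intro l l'
      fin_cases l <;> fin_cases l' <;>
        simp [haa, hbb, hdd, hab, hba, had, hda, hbd, hdb, sympForm_add_left, sympForm_add_right])
    hli3'
  have hAa : (A : Matrix (Fin m ⊕ Fin m) (Fin m ⊕ Fin m) F) *ᵥ a = a := hA 0
  have hAb : (A : Matrix (Fin m ⊕ Fin m) (Fin m ⊕ Fin m) F) *ᵥ b = b + d := hA 1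
  have hAd : (A : Matrix (Fin m ⊕ Fin m) (Fin m ⊕ Fin m) F) *ᵥ d = a + d := hA 2
  have key : ⁅A, tv b c * tv d c * tv (a + b) c⁆ = tv a c := by
    rw [commutatorElement_def]
    have e1 : A * (tv b c * tv d c * tv (a + b) c) * A⁻¹ =
        (A * tv b c * A⁻¹) * (A * tv d c * A⁻¹) * (A * tv (a + b) c * A⁻¹) := by group
    rw [e1, conj_tv, conj_tv, conj_tv, mulVec_add, hAa, hAb, hAd, _root_.mul_inv_rev, _root_.mul_inv_rev, tv_inv,
      tv_inv, tv_inv]
    apply ext_mulVec
    intro x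
    simp only [coe_mul_mulVec, tv_mulVec, sympForm_add_left, sympForm_add_right,
      sympForm_smul_left, haa, hbb, hdd, hab, hba, had, hda, hbd, hdb, mul_zero, add_zero, zero_add]
    ext i
    simp only [Pi.add_apply, Pi.smul_apply, smul_eq_mul]
    linear_combination (c * Cfsg.sympForm m F x a * d i + c * Cfsg.sympForm m F x b * d i +
      c * Cfsg.sympForm m F x d * b i + c * Cfsg.sympForm m F x d * d i +
      c * Cfsg.sympForm m F x d * a i) * h2
  rw [← key]
  exact comm_mem _ _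

theorem commutator_eq_top_of_tv
    (h : ∀ (w : Fin m ⊕ Fin m → F) (c : F), tv w c ∈ commutator (Matrix.symplecticGroup (Fin m) F)) :
    commutator (Matrix.symplecticGroup (Fin m) F) = ⊤ := by
  rw [eq_top_iff, ← closure_eq_top, Subgroup.closure_le]
  rintro A ⟨w, c, hA⟩
  have : A = tv w c := Subtype.ext hA
  rw [this]
  exact h w c

end Cfsg.Agent.Lib.Helper5.SympPerfect
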