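import Mathlib
import Cfsg.Prelude.Def_ClassicalGeometry
import Cfsg.Agent.Lib.Helper5.SympPerfect

set_option autoImplicit false

namespace Cfsg.Agent.Lib.Helper5.SympCard

open Matrix Cfsg.Agent.Lib.Helper5.Symp Cfsg.Agent.Lib.Helper5.SympGen
  Cfsg.Agent.Lib.Helper5.SympBridge Cfsg.Agent.Lib.Helper5.SympPerfect

variable {F : Type*} [Field F] {m : ℕ}

theorem exists_sp_of_linearMap (g : (Fin m ⊕ Fin m → F) →ₗ[F] (Fin m ⊕ Fin m → F))
    (hg : ∀ u v, Cfsg.sympForm m F (g u) (g v) = Cfsg.sympForm m F u v) :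
    ∃ A : Matrix.symplecticGroup (Fin m) F, ∀ x,
      (A : Matrix (Fin m ⊕ Fin m) (Fin m ⊕ Fin m) F) *ᵥ x = g x := by
  have hmv : ∀ x, LinearMap.toMatrix' g *ᵥ x = g x := by
    intro x
    rw [← Matrix.toLin'_apply, Matrix.toLin'_toMatrix']
  refine ⟨⟨LinearMap.toMatrix' g, ?_⟩, hmv⟩
  rw [mem_symplecticGroup_iff_preserves]
  intro u v
  rw [hmv, hmv]
  exact hg u v

/-- restriction of a vector to the last coordinates -/
def res {k : ℕ} (x : Fin (k + 1) ⊕ Fin (k + 1) → F) : Fin k ⊕ Fin k → F :=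
  fun i => x (Sum.map Fin.succ Fin.succ i)

/-- build a vector from two coordinates and a shorter vector -/
def mkv {k : ℕ} (a b : F) (y : Fin k ⊕ Fin k → F) : Fin (k + 1) ⊕ Fin (k + 1) → F :=
  Sum.elim (Fin.cons a (fun i => y (Sum.inl i))) (Fin.cons b (fun i => y (Sum.inr i)))

variable {k : ℕ}

@[simp] theorem mkv_inl_zero (a b : F) (y : Fin k ⊕ Fin k → F) : mkv a b y (Sum.inl 0) = a := rfl
@[simp] theorem mkv_inr_zero (a b : F) (y : Fin k ⊕ Fin k → F) : mkv a b y (Sum.inr 0) = b := rfl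
@[simp] theorem res_mkv (a b : F) (y : Fin k ⊕ Fin k → F) : res (mkv a b y) = y := by
  ext i
  rcases i with i | i <;> rfl

theorem mkv_res (x : Fin (k + 1) ⊕ Fin (k + 1) → F) :
    mkv (x (Sum.inl 0)) (x (Sum.inr 0)) (res x) = x := by
  ext i
  rcases i with i | i
  · refine Fin.cases ?_ (fun j => ?_) i <;> rfl
  · refine Fin.cases ?_ (fun j => ?_) i <;> rfl

theorem ext_parts {x y : Fin (k + 1) ⊕ Fin (k + 1) → F} (h1 : x (Sum.inl 0) = y (Sum.inl 0))
    (h2 : x (Sum.inr 0) = y (Sum.inr 0)) (h3 : res x = res y) : x = y := by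
  rw [← mkv_res x, ← mkv_res y, h1, h2, h3]

theorem res_add (x y : Fin (k + 1) ⊕ Fin (k + 1) → F) : res (x + y) = res x + res y := rfl
theorem res_smul (c : F) (x : Fin (k + 1) ⊕ Fin (k + 1) → F) : res (c • x) = c • res x := rfl

theorem mkv_add (a b a' b' : F) (y y' : Fin k ⊕ Fin k → F) :
    mkv (a + a') (b + b') (y + y') = mkv a b y + mkv a' b' y' := by
  apply ext_parts <;> simp [res_add]

theorem mkv_smul (c a b : F) (y : Fin k ⊕ Fin k → F) :
    mkv (c * a) (c * b) (c • y) = c • mkv a b y := by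
  apply ext_parts <;> simp [res_smul]

theorem form_split (x y : Fin (k + 1) ⊕ Fin (k + 1) → F) :
    Cfsg.sympForm (k + 1) F x y =
      (x (Sum.inr 0) * y (Sum.inl 0) - x (Sum.inl 0) * y (Sum.inr 0)) +
        Cfsg.sympForm k F (res x) (res y) := by
  rw [sympForm_explicit, sympForm_explicit, Fin.sum_univ_succ]
  rfl

/-- the extension of a symplectic matrix -/
theorem exists_ext (A : Matrix.symplecticGroup (Fin k) F) :
    ∃ B : Matrix.symplecticGroup (Fin (k + 1)) F, ∀ x,
      (B : Matrix (Fin (k + 1) ⊕ Fin (k + 1)) (Fin (k + 1) ⊕ Fin (k + 1)) F) *ᵥ x =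
        mkv (x (Sum.inl 0)) (x (Sum.inr 0))
          ((A : Matrix (Fin k ⊕ Fin k) (Fin k ⊕ Fin k) F) *ᵥ res x) := by
  apply exists_sp_of_linearMap
    { toFun := fun x => mkv (x (Sum.inl 0)) (x (Sum.inr 0))
          ((A : Matrix (Fin k ⊕ Fin k) (Fin k ⊕ Fin k) F) *ᵥ res x)
      map_add' := by
        intro x y
        rw [res_add, mulVec_add, ← mkv_add]
        rfl
      map_smul' := by
        intro c x
        rw [res_smul, mulVec_smul, RingHom.id_apply, ← mkv_smul]
        rfl }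
  intro u v
  simp only [LinearMap.coe_mk, AddHom.coe_mk]
  rw [form_split, form_split u v]
  simp only [mkv_inl_zero, mkv_inr_zero, res_mkv, preserves]

/-- the standard hyperbolic pair -/
def e0 : Fin (k + 1) ⊕ Fin (k + 1) → F := mkv 0 1 0
def f0 : Fin (k + 1) ⊕ Fin (k + 1) → F := mkv 1 0 0

theorem form_f0 (x : Fin (k + 1) ⊕ Fin (k + 1) → F) :
    Cfsg.sympForm (k + 1) F x f0 = x (Sum.inr 0) := by
  rw [form_split, f0]
  simp only [mkv_inl_zero, mkv_inr_zero, res_mkv]
  rw [show Cfsg.sympForm k F (res x) 0 = 0 by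
    have := sympForm_smul_right (0 : F) (res x) 0
    simpa using this]
  ring

theorem form_e0 (x : Fin (k + 1) ⊕ Fin (k + 1) → F) :
    Cfsg.sympForm (k + 1) F x e0 = - x (Sum.inl 0) := by
  rw [form_split, e0]
  simp only [mkv_inl_zero, mkv_inr_zero, res_mkv]
  rw [show Cfsg.sympForm k F (res x) 0 = 0 by
    have := sympForm_smul_right (0 : F) (res x) 0
    simpa using this]
  ring

theorem form_e0_f0 : Cfsg.sympForm (k + 1) F (e0 : Fin (k + 1) ⊕ Fin (k + 1) → F) f0 = 1 := by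
  rw [form_f0]; rfl

/-- the subgroup fixing the standard hyperbolic pair -/
def St (k : ℕ) (F : Type*) [Field F] : Subgroup (Matrix.symplecticGroup (Fin (k + 1)) F) where
  carrier := {B | (B : Matrix (Fin (k + 1) ⊕ Fin (k + 1)) (Fin (k + 1) ⊕ Fin (k + 1)) F) *ᵥ e0 = e0 ∧
    (B : Matrix (Fin (k + 1) ⊕ Fin (k + 1)) (Fin (k + 1) ⊕ Fin (k + 1)) F) *ᵥ f0 = f0}
  mul_mem' := by
    rintro A B ⟨h1, h2⟩ ⟨h3, h4⟩
    exact ⟨by rw [coe_mul_mulVec, h3, h1], by rw [coe_mul_mulVec, h4, h2]⟩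
  one_mem' := ⟨coe_one_mulVec _, coe_one_mulVec _⟩
  inv_mem' := by
    rintro A ⟨h1, h2⟩
    constructor
    · conv_lhs => rw [← h1]
      exact inv_mul_mulVec A _
    · conv_lhs => rw [← h2]
      exact inv_mul_mulVec A _

theorem St_inl {B : Matrix.symplecticGroup (Fin (k + 1)) F} (hB : B ∈ St k F)
    (x : Fin (k + 1) ⊕ Fin (k + 1) → F) :
    ((B : Matrix (Fin (k + 1) ⊕ Fin (k + 1)) (Fin (k + 1) ⊕ Fin (k + 1)) F) *ᵥ x) (Sum.inl 0) =
      x (Sum.inl 0) := by
  have h1 := form_e0 ((B : Matrix (Fin (k + 1) ⊕ Fin (k + 1)) (Fin (k + 1) ⊕ Fin (k + 1)) F) *ᵥ x)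
  have h2 := preserves B x e0
  rw [hB.1, h1, form_e0] at h2
  exact neg_injective h2

theorem St_inr {B : Matrix.symplecticGroup (Fin (k + 1)) F} (hB : B ∈ St k F)
    (x : Fin (k + 1) ⊕ Fin (k + 1) → F) :
    ((B : Matrix (Fin (k + 1) ⊕ Fin (k + 1)) (Fin (k + 1) ⊕ Fin (k + 1)) F) *ᵥ x) (Sum.inr 0) =
      x (Sum.inr 0) := by
  have h1 := form_f0 ((B : Matrix (Fin (k + 1) ⊕ Fin (k + 1)) (Fin (k + 1) ⊕ Fin (k + 1)) F) *ᵥ x)
  have h2 := preserves B x f0
  rw [hB.2, h1, form_f0] at h2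
  exact h2

theorem decomp (x : Fin (k + 1) ⊕ Fin (k + 1) → F) :
    x = x (Sum.inl 0) • f0 + x (Sum.inr 0) • e0 + mkv 0 0 (res x) := by
  apply ext_parts
  · simp [e0, f0]
  · simp [e0, f0]
  · simp [e0, f0, res_add, res_smul]

theorem St_res {B : Matrix.symplecticGroup (Fin (k + 1)) F} (hB : B ∈ St k F)
    (x : Fin (k + 1) ⊕ Fin (k + 1) → F) :
    res ((B : Matrix (Fin (k + 1) ⊕ Fin (k + 1)) (Fin (k + 1) ⊕ Fin (k + 1)) F) *ᵥ x) =
      res ((B : Matrix (Fin (k + 1) ⊕ Fin (k + 1)) (Fin (k + 1) ⊕ Fin (k + 1)) F) *ᵥ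
        mkv 0 0 (res x)) := by
  conv_lhs => rw [decomp x]
  rw [mulVec_add, mulVec_add, mulVec_smul, mulVec_smul, hB.1, hB.2]
  simp [e0, f0, res_add, res_smul]

theorem card_St [Finite F] : Nat.card (St k F) = Nat.card (Matrix.symplecticGroup (Fin k) F) := by
  symm
  choose φ hφ using (exists_ext (F := F) (k := k))
  have hmem : ∀ A, φ A ∈ St k F := by
    intro A
    constructor
    · rw [hφ]
      apply ext_parts <;> simp [e0]
    · rw [hφ]
      apply ext_parts <;> simp [f0]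
  apply Nat.card_congr
  apply Equiv.ofBijective (fun A => (⟨φ A, hmem A⟩ : St k F))
  constructor
  · intro A A' h
    have h1 : φ A = φ A' := congrArg Subtype.val h
    apply ext_mulVec
    intro y
    have h2 := hφ A (mkv 0 0 y)
    rw [h1, hφ A'] at h2
    have h3 := congrArg res h2
    simpa using h3.symm
  · rintro ⟨B, hB⟩
    obtain ⟨A, hA⟩ := exists_sp_of_linearMap
      { toFun := fun y => res ((B : Matrix (Fin (k + 1) ⊕ Fin (k + 1)) (Fin (k + 1) ⊕ Fin (k + 1)) F)
          *ᵥ mkv 0 0 y)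
        map_add' := by
          intro x y
          rw [← res_add, ← mulVec_add, ← mkv_add]
          simp
        map_smul' := by
          intro c x
          rw [RingHom.id_apply, ← res_smul, ← mulVec_smul, ← mkv_smul]
          simp }
      (by
        intro u v
        simp only [LinearMap.coe_mk, AddHom.coe_mk]
        have h1 := preserves B (mkv 0 0 u) (mkv 0 0 v)
        rw [form_split, form_split (mkv 0 0 u)] at h1
        simp only [St_inl hB, St_inr hB, mkv_inl_zero, mkv_inr_zero, res_mkv] at h1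
        simpa using h1)
    simp only [LinearMap.coe_mk, AddHom.coe_mk] at hA
    refine ⟨A, ?_⟩
    apply Subtype.ext
    apply ext_mulVec
    intro x
    show (φ A : Matrix (Fin (k + 1) ⊕ Fin (k + 1)) (Fin (k + 1) ⊕ Fin (k + 1)) F) *ᵥ x = _
    rw [hφ, hA]
    apply ext_parts
    · simp [St_inl hB]
    · simp [St_inr hB]
    · rw [res_mkv, ← St_res hB]


/-- number of partners of a nonzero vector -/
theorem card_partners [Fintype F] (u : Fin m ⊕ Fin m → F) (hu : u ≠ 0) :
    Nat.card {v : Fin m ⊕ Fin m → F // Cfsg.sympForm m F u v = 1} =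
      Fintype.card F ^ (2 * m - 1) := by
  classical
  obtain ⟨x0, hx0⟩ := exists_partner_one u hu
  have hsurj : Function.Surjective (sympB m F u) := by
    intro c
    refine ⟨c • x0, ?_⟩
    rw [map_smul, sympB_apply, hx0, smul_eq_mul, mul_one]
  have h1 : Nat.card {v : Fin m ⊕ Fin m → F // Cfsg.sympForm m F u v = 1} =
      Nat.card (LinearMap.ker (sympB m F u)) := by
    apply Nat.card_congr
    refine ⟨fun v => ⟨v.1 - x0, ?_⟩, fun w => ⟨w.1 + x0, ?_⟩, ?_, ?_⟩
    · rw [LinearMap.mem_ker, map_sub, sympB_apply, sympB_apply, v.2, hx0, sub_self]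
    · have := w.2
      rw [LinearMap.mem_ker, sympB_apply] at this
      rw [sympForm_add_right, this, hx0, zero_add]
    · intro v
      simp
    · intro w
      simp
  rw [h1, Module.natCard_eq_pow_finrank (K := F), Nat.card_eq_fintype_card]
  congr 1
  have h2 := LinearMap.finrank_range_add_finrank_ker (sympB m F u)
  rw [LinearMap.range_eq_top.mpr hsurj, finrank_top, Module.finrank_self,
    Module.finrank_fintype_fun_eq_card, Fintype.card_sum, Fintype.card_fin] at h2
  omega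

theorem card_pairs [Fintype F] :
    Nat.card {p : (Fin m ⊕ Fin m → F) × (Fin m ⊕ Fin m → F) // Cfsg.sympForm m F p.1 p.2 = 1} =
      (Fintype.card F ^ (2 * m) - 1) * Fintype.card F ^ (2 * m - 1) := by
  classical
  have h1 : Nat.card {p : (Fin m ⊕ Fin m → F) × (Fin m ⊕ Fin m → F) //
        Cfsg.sympForm m F p.1 p.2 = 1} =
      Nat.card (Σ u : {u : Fin m ⊕ Fin m → F // u ≠ 0},
        {v : Fin m ⊕ Fin m → F // Cfsg.sympForm m F u.1 v = 1}) := by
    apply Nat.card_congr
    refine ⟨fun p => ⟨⟨p.1.1, ?_⟩, ⟨p.1.2, p.2⟩⟩, fun s => ⟨(s.1.1, s.2.1), s.2.2⟩, ?_, ?_⟩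
    · intro h0
      have := p.2
      rw [h0] at this
      have h2 := sympForm_smul_left (0 : F) (0 : Fin m ⊕ Fin m → F) p.1.2
      rw [zero_smul, zero_mul] at h2
      rw [h2] at this
      exact zero_ne_one this
    · intro p
      rfl
    · intro s
      rfl
  rw [h1, Nat.card_sigma]
  rw [Finset.sum_congr rfl (fun u _ => card_partners u.1 u.2)]
  rw [Finset.sum_const, smul_eq_mul, Finset.card_univ]
  congr 1
  rw [Fintype.card_subtype_compl, Fintype.card_subtype_eq, Fintype.card_fun, Fintype.card_sum,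
    Fintype.card_fin]
  congr 2
  omega

/-- the action on vectors -/
def actV : MulAction (Matrix.symplecticGroup (Fin m) F) (Fin m ⊕ Fin m → F) where
  smul A v := (A : Matrix (Fin m ⊕ Fin m) (Fin m ⊕ Fin m) F) *ᵥ v
  one_smul v := coe_one_mulVec v
  mul_smul A B v := coe_mul_mulVec A B v

attribute [local instance] actV

theorem card_succ [Fintype F] : Nat.card (Matrix.symplecticGroup (Fin (k + 1)) F) =
    (Fintype.card F ^ (2 * (k + 1)) - 1) * Fintype.card F ^ (2 * (k + 1) - 1) *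
      Nat.card (Matrix.symplecticGroup (Fin k) F) := by
  classical
  have h1 := Nat.card_congr (MulAction.orbitProdStabilizerEquivGroup
    (Matrix.symplecticGroup (Fin (k + 1)) F)
    ((e0, f0) : (Fin (k + 1) ⊕ Fin (k + 1) → F) × (Fin (k + 1) ⊕ Fin (k + 1) → F)))
  rw [Nat.card_prod] at h1
  rw [← h1, ← card_St, ← card_pairs]
  congr 1
  · apply Nat.card_congr
    apply Equiv.setCongr
    ext p
    constructor
    · rintro ⟨A, rfl⟩
      show Cfsg.sympForm (k + 1) F
        ((A : Matrix (Fin (k + 1) ⊕ Fin (k + 1)) (Fin (k + 1) ⊕ Fin (k + 1)) F) *ᵥ e0)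
        ((A : Matrix (Fin (k + 1) ⊕ Fin (k + 1)) (Fin (k + 1) ⊕ Fin (k + 1)) F) *ᵥ f0) = 1
      rw [preserves, form_e0_f0]
    · intro hp
      obtain ⟨A, _, hA1, hA2⟩ := trans_pair (W := (⊤ : Submodule F (Fin (k + 1) ⊕ Fin (k + 1) → F)))
        (u := e0) (v := f0) (u' := p.1) (v' := p.2) trivial trivial trivial trivial form_e0_f0 hp
      exact ⟨A, Prod.ext hA1 hA2⟩
  · apply Nat.card_congr
    apply Equiv.setCongr
    ext A
    constructor
    · intro hA
      have hA' : A • ((e0, f0) : (Fin (k + 1) ⊕ Fin (k + 1) → F) × (Fin (k + 1) ⊕ Fin (k + 1) → F))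
        = (e0, f0) := hA
      exact ⟨congrArg Prod.fst hA', congrArg Prod.snd hA'⟩
    · rintro ⟨h1, h2⟩
      exact Prod.ext h1 h2

theorem card_sp [Fintype F] (m : ℕ) : Nat.card (Matrix.symplecticGroup (Fin m) F) =
    Fintype.card F ^ (m ^ 2) * ∏ i ∈ Finset.range m, (Fintype.card F ^ (2 * (i + 1)) - 1) := by
  induction m with
  | zero =>
    simp only [Finset.range_zero, Finset.prod_empty, mul_one]
    have : Subsingleton (Matrix.symplecticGroup (Fin 0) F) := by
      constructor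
      intro A B
      apply Subtype.ext
      ext i j
      rcases i with i | i <;> exact i.elim0
    simp
  | succ k ih =>
    rw [card_succ, ih, Finset.prod_range_succ]
    have : (k + 1) ^ 2 = (2 * (k + 1) - 1) + k ^ 2 := by
      have : 2 * (k + 1) - 1 = 2 * k + 1 := by omega
      rw [this]; ring
    rw [this, pow_add]
    ring

end Cfsg.Agent.Lib.Helper5.SympCard
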