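import Mathlib
import Cfsg.Prelude.Def_ClassicalGeometry
import Cfsg.Agent.Lib.Helper5.SympBridge

set_option autoImplicit false

namespace Cfsg.Agent.Lib.Helper5.SympPrim

open Matrix Cfsg.Agent.Lib.Helper5.Symp Cfsg.Agent.Lib.Helper5.SympGen
  Cfsg.Agent.Lib.Helper5.SympBridge

open scoped LinearAlgebra.Projectivization

variable {F : Type*} [Field F] {m : ℕ}

theorem mulVec_ne_zero (A : Matrix.symplecticGroup (Fin m) F) {v : Fin m ⊕ Fin m → F}
    (hv : v ≠ 0) : (A : Matrix (Fin m ⊕ Fin m) (Fin m ⊕ Fin m) F) *ᵥ v ≠ 0 := by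
  intro h
  apply hv
  rw [← inv_mul_mulVec A v, h, mulVec_zero]

theorem mk_smul_eq {v : Fin m ⊕ Fin m → F} (hv : v ≠ 0) {s : F} (hs : s ≠ 0) :
    Projectivization.mk F (s • v) (smul_ne_zero hs hv) = Projectivization.mk F v hv := by
  rw [Projectivization.mk_eq_mk_iff']
  exact ⟨s, rfl⟩

/-- a group inducing all symplectic maps on the projective space acts primitively -/
theorem primitive_of_sp {G : Type*} [Group G] [MulAction G (ℙ F (Fin m ⊕ Fin m → F))]
    (hG : ∀ A : Matrix.symplecticGroup (Fin m) F, ∃ g : G, ∀ (v : Fin m ⊕ Fin m → F) (hv : v ≠ 0),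
      g • Projectivization.mk F v hv = Projectivization.mk F
        ((A : Matrix (Fin m ⊕ Fin m) (Fin m ⊕ Fin m) F) *ᵥ v) (mulVec_ne_zero A hv)) :
    MulAction.IsPreprimitive G (ℙ F (Fin m ⊕ Fin m → F)) := by
  have htrans : MulAction.IsPretransitive G (ℙ F (Fin m ⊕ Fin m → F)) := by
    constructor
    intro P Q
    induction P using Projectivization.ind with | _ v hv =>
    induction Q using Projectivization.ind with | _ w hw =>
    obtain ⟨A, hA⟩ := exists_sp_vec v w hv hw
    obtain ⟨g, hg⟩ := hG A
    refine ⟨g, ?_⟩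
    rw [hg v hv]
    congr 1
  refine ⟨?_⟩
  intro B hB
  by_cases hsub : B.Subsingleton
  · exact Or.inl hsub
  right
  -- the basic closure property
  have K : ∀ (A : Matrix.symplecticGroup (Fin m) F) (a b : Fin m ⊕ Fin m → F) (ha : a ≠ 0)
      (hb : b ≠ 0), (A : Matrix (Fin m ⊕ Fin m) (Fin m ⊕ Fin m) F) *ᵥ a = a →
      Projectivization.mk F a ha ∈ B → Projectivization.mk F b hb ∈ B →
      Projectivization.mk F ((A : Matrix (Fin m ⊕ Fin m) (Fin m ⊕ Fin m) F) *ᵥ b)
        (mulVec_ne_zero A hb) ∈ B := by
    intro A a b ha hb hAa haB hbB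
    obtain ⟨g, hg⟩ := hG A
    have hga : g • Projectivization.mk F a ha = Projectivization.mk F a ha := by
      rw [hg a ha]
      congr 1
    rcases hB.smul_eq_or_disjoint g with h | h
    · rw [← hg b hb, ← h]
      exact Set.smul_mem_smul_set hbB
    · exfalso
      apply Set.disjoint_left.mp h _ haB
      rw [← hga]
      exact Set.smul_mem_smul_set haB
  have L1 : ∀ (a b c : Fin m ⊕ Fin m → F) (ha : a ≠ 0) (hb : b ≠ 0) (hc : c ≠ 0),
      Projectivization.mk F a ha ∈ B → Projectivization.mk F b hb ∈ B →
      Cfsg.sympForm m F a b ≠ 0 → Cfsg.sympForm m F a c ≠ 0 → Projectivization.mk F c hc ∈ B := by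
    intro a b c ha hb hc haB hbB hab hac
    obtain ⟨A, _, hAa, hAb⟩ := trans_pair (W := (⊤ : Submodule F (Fin m ⊕ Fin m → F)))
      (u := a) (v := (Cfsg.sympForm m F a b)⁻¹ • b) (u' := a)
      (v' := (Cfsg.sympForm m F a c)⁻¹ • c) trivial trivial trivial trivial
      (by rw [sympForm_smul_right, inv_mul_cancel₀ hab])
      (by rw [sympForm_smul_right, inv_mul_cancel₀ hac])
    have h1 := K A a _ ha (smul_ne_zero (inv_ne_zero hab) hb) hAa haB
      (by rw [mk_smul_eq hb (inv_ne_zero hab)]; exact hbB)
    have h2 : Projectivization.mk F ((A : Matrix (Fin m ⊕ Fin m) (Fin m ⊕ Fin m) F) *ᵥ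
        ((Cfsg.sympForm m F a b)⁻¹ • b)) (mulVec_ne_zero A (smul_ne_zero (inv_ne_zero hab) hb)) =
        Projectivization.mk F c hc := by
      rw [← mk_smul_eq hc (inv_ne_zero hac)]
      congr 1
    rwa [h2] at h1
  have L2 : ∀ (a b c : Fin m ⊕ Fin m → F) (ha : a ≠ 0) (hb : b ≠ 0) (hc : c ≠ 0),
      Projectivization.mk F a ha ∈ B → Projectivization.mk F b hb ∈ B →
      Cfsg.sympForm m F a b = 0 → Cfsg.sympForm m F a c = 0 →
      LinearIndependent F ![a, b] → LinearIndependent F ![a, c] →
      Projectivization.mk F c hc ∈ B := by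
    intro a b c ha hb hc haB hbB hab hac hli hli'
    obtain ⟨A, hA⟩ := exists_sp_family ![a, b] ![a, c]
      (by
        intro l l'
        fin_cases l <;> fin_cases l' <;>
          simp [sympForm_self, hab, sympForm_swap b a])
      hli
      (by
        intro l l'
        fin_cases l <;> fin_cases l' <;>
          simp [sympForm_self, hac, sympForm_swap c a])
      hli'
    have h1 := K A a b ha hb (hA 0) haB hbB
    have h2 : Projectivization.mk F ((A : Matrix (Fin m ⊕ Fin m) (Fin m ⊕ Fin m) F) *ᵥ b)
        (mulVec_ne_zero A hb) = Projectivization.mk F c hc := by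
      congr 1
      exact hA 1
    rwa [h2] at h1
  -- two distinct points of the block
  rw [Set.not_subsingleton_iff] at hsub
  obtain ⟨P, hP, Q, hQ, hPQ⟩ := hsub
  induction P using Projectivization.ind with | _ u hu =>
  induction Q using Projectivization.ind with | _ v hv =>
  have hli : LinearIndependent F ![u, v] := by
    rw [LinearIndependent.pair_iff' hu]
    intro s hs
    apply hPQ
    rw [Projectivization.mk_eq_mk_iff']
    have hs0 : s ≠ 0 := by
      rintro rfl
      rw [zero_smul] at hs
      exact hv hs.symm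
    exact ⟨s⁻¹, by rw [← hs, smul_smul, inv_mul_cancel₀ hs0, one_smul]⟩
  rw [Set.eq_univ_iff_forall]
  intro R
  induction R using Projectivization.ind with | _ w hw =>
  by_cases huv : Cfsg.sympForm m F u v = 0
  · by_cases huw : Cfsg.sympForm m F u w = 0
    · by_cases hliw : LinearIndependent F ![u, w]
      · exact L2 u v w hu hv hw hP hQ huv huw hli hliw
      · rw [LinearIndependent.pair_iff' hu] at hliw
        push Not at hliw
        obtain ⟨s, hs⟩ := hliw
        have hs0 : s ≠ 0 := by
          rintro rfl
          rw [zero_smul] at hs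
          exact hw hs.symm
        have : Projectivization.mk F w hw = Projectivization.mk F u hu := by
          rw [Projectivization.mk_eq_mk_iff']
          exact ⟨s, hs⟩
        rw [this]
        exact hP
    · -- a vector orthogonal to both `u` and `w`
      have hwu : Cfsg.sympForm m F w u ≠ 0 := by
        rw [sympForm_swap]; simpa using huw
      obtain ⟨z, hz⟩ : ∃ z, z = v - (Cfsg.sympForm m F w v / Cfsg.sympForm m F w u) • u := ⟨_, rfl⟩
      have huz : Cfsg.sympForm m F u z = 0 := by
        rw [hz, sympForm_sub_right, sympForm_smul_right, huv, sympForm_self]; ring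
      have hwz : Cfsg.sympForm m F w z = 0 := by
        rw [hz, sympForm_sub_right, sympForm_smul_right]
        field_simp
        ring
      have hliz : LinearIndependent F ![u, z] := by
        rw [LinearIndependent.pair_iff] at hli ⊢
        intro s t hst
        have := hli (s - t * (Cfsg.sympForm m F w v / Cfsg.sympForm m F w u)) t (by
          rw [← hst, hz, smul_sub, smul_smul, sub_smul]; abel)
        refine ⟨?_, this.2⟩
        have h1 := this.1
        rw [this.2] at h1
        simpa using h1
      have hz0 : z ≠ 0 := by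
        have := hliz.ne_zero 1
        simpa using this
      have hzB : Projectivization.mk F z hz0 ∈ B := L2 u v z hu hv hz0 hP hQ huv huz hli hliz
      have hzu : Cfsg.sympForm m F z u = 0 := by rw [sympForm_swap, huz, neg_zero]
      have hzw : Cfsg.sympForm m F z w = 0 := by rw [sympForm_swap, hwz, neg_zero]
      have hlizu : LinearIndependent F ![z, u] := by
        rw [LinearIndependent.pair_iff] at hliz ⊢
        intro s t hst
        have := hliz t s (by rw [← hst]; abel)
        exact ⟨this.2, this.1⟩
      have hlizw : LinearIndependent F ![z, w] := by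
        rw [LinearIndependent.pair_iff' hz0]
        intro s hs
        apply huw
        rw [← hs, sympForm_smul_right, huz, mul_zero]
      exact L2 z u w hz0 hu hw hzB hP hzu hzw hlizu hlizw
  · by_cases huw : Cfsg.sympForm m F u w = 0
    · -- a vector non-orthogonal to both
      obtain ⟨w', hw'⟩ := exists_partner_one w hw
      obtain ⟨z, hz0, huz, hwz⟩ : ∃ z : Fin m ⊕ Fin m → F, z ≠ 0 ∧ Cfsg.sympForm m F u z ≠ 0 ∧
          Cfsg.sympForm m F w z ≠ 0 := by
        have hne : ∀ z : Fin m ⊕ Fin m → F, Cfsg.sympForm m F u z ≠ 0 → z ≠ 0 := by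
          rintro z hz rfl
          apply hz
          have : (0 : Fin m ⊕ Fin m → F) = (0 : F) • 0 := by simp
          rw [this, sympForm_smul_right, zero_mul]
        by_cases h1 : Cfsg.sympForm m F w v = 0
        · by_cases h2 : Cfsg.sympForm m F u w' = 0
          · have h3 : Cfsg.sympForm m F u (v + w') ≠ 0 := by
              rw [sympForm_add_right, h2, add_zero]; exact huv
            refine ⟨v + w', hne _ h3, h3, ?_⟩
            rw [sympForm_add_right, h1, hw', zero_add]
            exact one_ne_zero
          · exact ⟨w', hne _ h2, h2, by rw [hw']; exact one_ne_zero⟩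
        · exact ⟨v, hv, huv, h1⟩
      have hzB : Projectivization.mk F z hz0 ∈ B := L1 u v z hu hv hz0 hP hQ huv huz
      exact L1 z u w hz0 hu hw hzB hP (by rw [sympForm_swap]; simpa using huz)
        (by rw [sympForm_swap]; simpa using hwz)
    · exact L1 u v w hu hv hw hP hQ huv huw

end Cfsg.Agent.Lib.Helper5.SympPrim
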