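import Mathlib
import Cfsg.Prelude.Def_ClassicalGeometry
import Cfsg.Agent.Lib.Helper5.SympPrim
import Cfsg.Agent.Lib.Helper5.SympPerfect

set_option autoImplicit false

namespace Cfsg.Agent.Lib.Helper5.SympSimple

open Matrix Cfsg.Agent.Lib.Helper5.Symp Cfsg.Agent.Lib.Helper5.SympGen
  Cfsg.Agent.Lib.Helper5.SympBridge Cfsg.Agent.Lib.Helper5.SympPrim
  Cfsg.Agent.Lib.Helper5.SympPerfect

open scoped LinearAlgebra.Projectivization Pointwise

/-- a perfect nontrivial group all of whose normal subgroups are central or everything has a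
simple central quotient -/
theorem simple_quotient_center {G : Type*} [Group G] [Nontrivial G] (hperf : commutator G = ⊤)
    (h : ∀ N : Subgroup G, N.Normal → N ≤ Subgroup.center G ∨ N = ⊤) :
    IsSimpleGroup (G ⧸ Subgroup.center G) := by
  have hne : Subgroup.center G ≠ ⊤ := by
    intro hc
    have hcomm : commutator G = ⊥ := by
      rw [commutator_def, Subgroup.commutator_eq_bot_iff_le_centralizer]
      intro x _
      rw [Subgroup.mem_centralizer_iff]
      intro y _
      have hx : x ∈ Subgroup.center G := by rw [hc]; trivial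
      exact (Subgroup.mem_center_iff.mp hx y)
    rw [hperf] at hcomm
    exact top_ne_bot hcomm
  have hnt : Nontrivial (G ⧸ Subgroup.center G) := by
    rw [QuotientGroup.nontrivial_iff]
    exact hne
  refine ⟨?_⟩
  intro N hN
  have hN' : (N.comap (QuotientGroup.mk' (Subgroup.center G))).Normal := hN.comap _
  rcases h _ hN' with h1 | h1
  · left
    rw [eq_bot_iff]
    intro x hx
    obtain ⟨g, rfl⟩ := QuotientGroup.mk'_surjective _ x
    have : g ∈ Subgroup.center G := h1 hx
    rw [Subgroup.mem_bot]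
    exact (QuotientGroup.eq_one_iff g).mpr this
  · right
    rw [eq_top_iff]
    intro x _
    obtain ⟨g, rfl⟩ := QuotientGroup.mk'_surjective _ x
    have : g ∈ N.comap (QuotientGroup.mk' (Subgroup.center G)) := by rw [h1]; trivial
    exact this

variable {F : Type*} [Field F] {m : ℕ}

/-- a matrix fixing all lines is scalar -/
theorem scalar_of_fix_lines (A : Matrix (Fin m ⊕ Fin m) (Fin m ⊕ Fin m) F)
    (h : ∀ v : Fin m ⊕ Fin m → F, ∃ s : F, A *ᵥ v = s • v) :
    ∃ s : F, ∀ v, A *ᵥ v = s • v := by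
  obtain ⟨a, ha⟩ := (Matrix.mulVecLin A).exists_eq_smul_id_of_forall_notLinearIndependent
    (fun v => by
      obtain ⟨s, hs⟩ := h v
      rw [Matrix.mulVecLin_apply, hs]
      by_cases hv : v = 0
      · simp [hv, linearIndependent_fin2]
      · rw [LinearIndependent.pair_iff' hv]
        push Not
        exact ⟨s, rfl⟩)
  refine ⟨a, fun v => ?_⟩
  have := congrArg (fun f => f v) ha
  simpa using this

theorem mem_center_of_scalar (A : Matrix.symplecticGroup (Fin m) F) (s : F)
    (h : ∀ v, (A : Matrix (Fin m ⊕ Fin m) (Fin m ⊕ Fin m) F) *ᵥ v = s • v) :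
    A ∈ Subgroup.center (Matrix.symplecticGroup (Fin m) F) := by
  rw [Subgroup.mem_center_iff]
  intro B
  apply ext_mulVec
  intro x
  rw [coe_mul_mulVec, coe_mul_mulVec, h, h, mulVec_smul]

/-- the action of the symplectic group on the projective space -/
noncomputable def act : MulAction (Matrix.symplecticGroup (Fin m) F) (ℙ F (Fin m ⊕ Fin m → F)) :=
  MulAction.compHom _ (Matrix.symplecticGroup (Fin m) F).subtype.toHomUnits

attribute [local instance] act

theorem act_mk (A : Matrix.symplecticGroup (Fin m) F) (v : Fin m ⊕ Fin m → F) (hv : v ≠ 0) :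
    A • Projectivization.mk F v hv = Projectivization.mk F
        ((A : Matrix (Fin m ⊕ Fin m) (Fin m ⊕ Fin m) F) *ᵥ v) (mulVec_ne_zero A hv) := rfl

theorem act_prim : MulAction.IsPreprimitive (Matrix.symplecticGroup (Fin m) F)
    (ℙ F (Fin m ⊕ Fin m → F)) :=
  primitive_of_sp (fun A => ⟨A, fun v hv => act_mk A v hv⟩)

/-- the root subgroup of a vector -/
def Tv (v : Fin m ⊕ Fin m → F) : Subgroup (Matrix.symplecticGroup (Fin m) F) where
  carrier := {A | ∃ c, A = tv v c}
  mul_mem' := by
    rintro _ _ ⟨c, rfl⟩ ⟨d, rfl⟩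
    exact ⟨c + d, tv_mul v c d⟩
  one_mem' := ⟨0, (tv_zero_right v).symm⟩
  inv_mem' := by
    rintro _ ⟨c, rfl⟩
    exact ⟨-c, tv_inv v c⟩

theorem Tv_smul (s : F) (hs : s ≠ 0) (v : Fin m ⊕ Fin m → F) : Tv (s • v) = Tv v := by
  ext A
  constructor
  · rintro ⟨c, rfl⟩
    exact ⟨s ^ 2 * c, tv_smul s v c⟩
  · rintro ⟨c, rfl⟩
    refine ⟨c / s ^ 2, ?_⟩
    rw [tv_smul]
    congr 1
    field_simp

theorem Tv_rep (v : Fin m ⊕ Fin m → F) (hv : v ≠ 0) :
    Tv (Projectivization.mk F v hv).rep = Tv v := by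
  obtain ⟨a, ha⟩ := Projectivization.exists_smul_eq_mk_rep F v hv
  rw [← ha]
  exact Tv_smul (a : F) a.ne_zero v

theorem Tv_conj (A : Matrix.symplecticGroup (Fin m) F) (v : Fin m ⊕ Fin m → F) :
    Tv ((A : Matrix (Fin m ⊕ Fin m) (Fin m ⊕ Fin m) F) *ᵥ v) = MulAut.conj A • Tv v := by
  ext B
  rw [Subgroup.mem_pointwise_smul_iff_inv_smul_mem]
  constructor
  · rintro ⟨c, rfl⟩
    refine ⟨c, ?_⟩
    rw [← conj_tv]
    simp [MulAut.smul_def, mul_assoc]
  · rintro ⟨c, hc⟩
    refine ⟨c, ?_⟩
    rw [← conj_tv, ← hc]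
    simp [MulAut.smul_def, mul_assoc]

noncomputable def iwasawa : MulAction.IwasawaStructure (Matrix.symplecticGroup (Fin m) F)
    (ℙ F (Fin m ⊕ Fin m → F)) where
  T P := Tv P.rep
  is_comm P := by
    refine ⟨⟨?_⟩⟩
    rintro ⟨_, c, rfl⟩ ⟨_, d, rfl⟩
    apply Subtype.ext
    show tv P.rep c * tv P.rep d = tv P.rep d * tv P.rep c
    rw [tv_mul, tv_mul, add_comm]
  is_conj A P := by
    induction P using Projectivization.ind with | _ v hv =>
    rw [act_mk, Tv_rep, Tv_rep, Tv_conj]
  is_generator := by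
    rw [eq_top_iff, ← closure_eq_top, Subgroup.closure_le]
    rintro A ⟨w, c, hA⟩
    have hA' : A = tv w c := Subtype.ext hA
    by_cases hw : w = 0
    · rw [hA', hw, tv_zero_left]
      exact Subgroup.one_mem _
    · apply Subgroup.mem_iSup_of_mem (Projectivization.mk F w hw)
      rw [Tv_rep]
      exact ⟨c, hA'⟩

/-- normal subgroups of a perfect symplectic group -/
theorem normal_le_center_or_top (hperf : commutator (Matrix.symplecticGroup (Fin m) F) = ⊤)
    (N : Subgroup (Matrix.symplecticGroup (Fin m) F)) (hN : N.Normal) :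
    N ≤ Subgroup.center (Matrix.symplecticGroup (Fin m) F) ∨ N = ⊤ := by
  haveI := act_prim (F := F) (m := m)
  by_cases hfix : MulAction.fixedPoints N (ℙ F (Fin m ⊕ Fin m → F)) = Set.univ
  · left
    intro A hA
    have h1 : ∀ v : Fin m ⊕ Fin m → F, ∃ s : F,
        (A : Matrix (Fin m ⊕ Fin m) (Fin m ⊕ Fin m) F) *ᵥ v = s • v := by
      intro v
      by_cases hv : v = 0
      · exact ⟨0, by simp [hv]⟩
      have h2 : Projectivization.mk F v hv ∈ MulAction.fixedPoints N (ℙ F (Fin m ⊕ Fin m → F)) := by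
        rw [hfix]; trivial
      have h3 : A • Projectivization.mk F v hv = Projectivization.mk F v hv := h2 ⟨A, hA⟩
      rw [act_mk, Projectivization.mk_eq_mk_iff'] at h3
      obtain ⟨s, hs⟩ := h3
      exact ⟨s, hs.symm⟩
    obtain ⟨s, hs⟩ := scalar_of_fix_lines _ h1
    exact mem_center_of_scalar A s hs
  · right
    have := iwasawa.commutator_le N hfix
    rw [hperf] at this
    exact top_le_iff.mp this

end Cfsg.Agent.Lib.Helper5.SympSimple
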