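import Mathlib
import Cfsg.Prelude.Def_ClassicalGeometry
import Cfsg.Agent.Lib.Helper5.SympPerfect

set_option autoImplicit false

namespace Cfsg.Agent.Lib.Helper5.SympTrans

open Matrix Cfsg.Agent.Lib.Helper5.Symp Cfsg.Agent.Lib.Helper5.SympGen
  Cfsg.Agent.Lib.Helper5.SympBridge Cfsg.Agent.Lib.Helper5.SympPerfect

variable {F : Type*} [Field F] {m : ℕ}

theorem tv_ne_one {w : Fin m ⊕ Fin m → F} (hw : w ≠ 0) {c : F} (hc : c ≠ 0) : tv w c ≠ 1 := by
  intro h
  obtain ⟨x, hx⟩ := exists_partner_one w hw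
  have h1 := tv_mulVec w c x
  rw [h, coe_one_mulVec, sympForm_swap, hx] at h1
  have h2 : (c * -1) • w = 0 := by
    have := h1.symm
    rwa [add_eq_left] at this
  rcases smul_eq_zero.mp h2 with h3 | h3
  · apply hc
    linear_combination -h3
  · exact hw h3

theorem sub_one_mulVec (g : Matrix.symplecticGroup (Fin m) F) (x : Fin m ⊕ Fin m → F) :
    ((g : Matrix (Fin m ⊕ Fin m) (Fin m ⊕ Fin m) F) - 1) *ᵥ x =
      (g : Matrix (Fin m ⊕ Fin m) (Fin m ⊕ Fin m) F) *ᵥ x - x := by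
  rw [sub_mulVec, one_mulVec]

theorem rank_tv {w : Fin m ⊕ Fin m → F} (hw : w ≠ 0) {c : F} (hc : c ≠ 0) :
    ((tv w c : Matrix (Fin m ⊕ Fin m) (Fin m ⊕ Fin m) F) - 1).rank = 1 := by
  apply le_antisymm
  · have h1 : (tv w c : Matrix (Fin m ⊕ Fin m) (Fin m ⊕ Fin m) F) - 1 =
        Matrix.vecMulVec (c • w) (Matrix.J (Fin m) F *ᵥ w) := by
      show Cfsg.sympTransvection m w c - 1 = _
      rw [Cfsg.sympTransvection, add_sub_cancel_left, Matrix.smul_vecMulVec]
    rw [h1]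
    exact rank_vecMulVec_le _ _
  · rw [Nat.one_le_iff_ne_zero]
    intro h0
    rw [Matrix.rank, Submodule.finrank_eq_zero, LinearMap.range_eq_bot] at h0
    apply tv_ne_one hw hc
    apply ext_mulVec
    intro x
    have h1 := congrArg (fun f => f x) h0
    simp only [Matrix.mulVecLin_apply, LinearMap.zero_apply] at h1
    rw [sub_one_mulVec, sub_eq_zero] at h1
    rw [h1, coe_one_mulVec]

/-- a symplectic matrix `g` with `g - 1` of rank one is a symplectic transvection -/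
theorem eq_tv_of_rank (g : Matrix.symplecticGroup (Fin m) F)
    (hg : ((g : Matrix (Fin m ⊕ Fin m) (Fin m ⊕ Fin m) F) - 1).rank = 1) :
    ∃ (a : Fin m ⊕ Fin m → F) (c : F), a ≠ 0 ∧ c ≠ 0 ∧ g = tv a c := by
  rw [Matrix.rank, finrank_eq_one_iff'] at hg
  obtain ⟨⟨a, ha⟩, ha0, hspan⟩ := hg
  have ha0' : a ≠ 0 := fun h => ha0 (Subtype.ext h)
  have hφ : ∀ x, ∃ t : F, (g : Matrix (Fin m ⊕ Fin m) (Fin m ⊕ Fin m) F) *ᵥ x = x + t • a := by
    intro x
    obtain ⟨t, ht⟩ := hspan ⟨((g : Matrix (Fin m ⊕ Fin m) (Fin m ⊕ Fin m) F) - 1) *ᵥ x,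
      LinearMap.mem_range.mpr ⟨x, rfl⟩⟩
    have ht' := congrArg Subtype.val ht
    simp only [Submodule.coe_smul] at ht'
    rw [sub_one_mulVec] at ht'
    exact ⟨t, by rw [ht']; abel⟩
  choose φ hφ using hφ
  have hne : ∃ y0, φ y0 ≠ 0 := by
    by_contra hcon
    push Not at hcon
    obtain ⟨y, hy⟩ := LinearMap.mem_range.mp ha
    rw [Matrix.mulVecLin_apply, sub_one_mulVec, hφ, hcon] at hy
    apply ha0'
    rw [← hy]
    simp
  obtain ⟨y0, hy0⟩ := hne
  have hrel : ∀ x y, φ y * Cfsg.sympForm m F x a = φ x * Cfsg.sympForm m F y a := by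
    intro x y
    have h1 := preserves g x y
    rw [hφ, hφ, sympForm_add_left, sympForm_add_right, sympForm_add_right, sympForm_smul_left,
      sympForm_smul_left, sympForm_smul_right, sympForm_smul_right, sympForm_self,
      sympForm_swap a y] at h1
    linear_combination h1
  obtain ⟨x0, hx0⟩ := exists_partner_one a ha0'
  have hc' : Cfsg.sympForm m F y0 a ≠ 0 := by
    intro h0
    have h1 := hrel x0 y0
    rw [h0, mul_zero, sympForm_swap, hx0] at h1
    apply hy0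
    linear_combination -h1
  refine ⟨a, φ y0 / Cfsg.sympForm m F y0 a, ha0', div_ne_zero hy0 hc', ?_⟩
  apply ext_mulVec
  intro x
  rw [hφ, tv_mulVec]
  congr 2
  have h1 := hrel x y0
  field_simp
  linear_combination -h1

end Cfsg.Agent.Lib.Helper5.SympTrans
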