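import Mathlib
import Cfsg.Prelude.Def_ClassicalGeometry
import Cfsg.Agent.Lib.Helper5.SympCard

set_option autoImplicit false

namespace Cfsg.Agent.Lib.Helper5.SympAbstract

open Module Matrix Cfsg.Agent.Lib.Helper5.Symp Cfsg.Agent.Lib.Helper5.SympGen
  Cfsg.Agent.Lib.Helper5.AltForm Cfsg.Agent.Lib.Helper5.Witt
  Cfsg.Agent.Lib.Helper5.SympBridge Cfsg.Agent.Lib.Helper5.SympPerfect

variable {F V V' : Type*} [Field F] [AddCommGroup V] [Module F V] [AddCommGroup V'] [Module F V']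

/-- two spaces with hyperbolic bases of the same size are isometric -/
theorem exists_isometry_two {B : LinearMap.BilinForm F V} {B' : LinearMap.BilinForm F V'}
    (hA : B.IsAlt) (hA' : B'.IsAlt) {m : ℕ} {e f : Fin m → V} {e' f' : Fin m → V'}
    (h : IsHyp B e f) (h' : IsHyp B' e' f') (b : Basis (Fin m ⊕ Fin m) F V)
    (b' : Basis (Fin m ⊕ Fin m) F V')
    (hbe : ∀ i, b (Sum.inl i) = e i) (hbf : ∀ i, b (Sum.inr i) = f i)
    (hbe' : ∀ i, b' (Sum.inl i) = e' i) (hbf' : ∀ i, b' (Sum.inr i) = f' i) :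
    ∃ g : V ≃ₗ[F] V', ∀ u v, B' (g u) (g v) = B u v := by
  let g := b.equiv b' (Equiv.refl _)
  have hge : ∀ i, g (e i) = e' i := fun i => by
    rw [← hbe, ← hbe']; simp [g]
  have hgf : ∀ i, g (f i) = f' i := fun i => by
    rw [← hbf, ← hbf']; simp [g]
  refine ⟨g, ?_⟩
  have : B'.comp (g : V →ₗ[F] V') (g : V →ₗ[F] V') = B := by
    apply LinearMap.BilinForm.ext_basis b
    rintro (i | i) (j | j)
    · simp [hbe, hge, h.ee, h'.ee]
    · simp [hbe, hbf, hge, hgf, h.ef, h'.ef]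
    · simp [hbe, hbf, hge, hgf, h.fe hA, h'.fe hA']
    · simp [hbf, hgf, h.ff, h'.ff]
  intro u v
  exact congrArg (fun C : LinearMap.BilinForm F V => C u v) this

/-- a nondegenerate alternating space is isometric to the standard one -/
theorem exists_equiv_std [FiniteDimensional F V] (B : LinearMap.BilinForm F V)
    (hB : B.Nondegenerate) (hA : B.IsAlt) {m : ℕ} (hm : finrank F V = 2 * m) :
    ∃ Ψ : V ≃ₗ[F] (Fin m ⊕ Fin m → F), ∀ u v, Cfsg.sympForm m F (Ψ u) (Ψ v) = B u v := by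
  obtain ⟨m₁, e, f, _, b, h, _, hbe, hbf, hfin⟩ := exists_hyp_basis hB hA
    (Fin.elim0 : Fin 0 → V) Fin.elim0 ⟨fun i => i.elim0, fun i => i.elim0, fun i => i.elim0⟩
  obtain ⟨m₂, e', f', _, b', h', _, hbe', hbf', hfin'⟩ := exists_hyp_basis
    (sympB_nondeg (m := m) (F := F)) sympB_alt
    (Fin.elim0 : Fin 0 → (Fin m ⊕ Fin m → F)) Fin.elim0
    ⟨fun i => i.elim0, fun i => i.elim0, fun i => i.elim0⟩
  rw [Module.finrank_fintype_fun_eq_card, Fintype.card_sum, Fintype.card_fin] at hfin'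
  obtain rfl : m₁ = m := by omega
  obtain rfl : m₂ = m₁ := by omega
  exact exists_isometry_two hA sympB_alt h h' b b' hbe hbf hbe' hbf'

/-- a faithful isometric linear representation on a nondegenerate alternating space gives an
embedding into the symplectic group -/
theorem exists_hom_of_rep [FiniteDimensional F V] (B : LinearMap.BilinForm F V)
    (hB : B.Nondegenerate) (hA : B.IsAlt) {m : ℕ} (hm : finrank F V = 2 * m)
    {G : Type*} [Group G] (ρ : G → V →ₗ[F] V) (hmul : ∀ g h x, ρ (g * h) x = ρ g (ρ h x))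
    (hiso : ∀ g x y, B (ρ g x) (ρ g y) = B x y) (hfaith : ∀ g, (∀ x, ρ g x = x) → g = 1) :
    ∃ f : G →* Matrix.symplecticGroup (Fin m) F, Function.Injective f := by
  obtain ⟨Ψ, hΨ⟩ := exists_equiv_std B hB hA hm
  have hex : ∀ g : G, ∃ A : Matrix.symplecticGroup (Fin m) F, ∀ u,
      (A : Matrix (Fin m ⊕ Fin m) (Fin m ⊕ Fin m) F) *ᵥ u = Ψ (ρ g (Ψ.symm u)) := by
    intro g
    apply SympCard.exists_sp_of_linearMap
      ((Ψ : V →ₗ[F] (Fin m ⊕ Fin m → F)) ∘ₗ ρ g ∘ₗ (Ψ.symm : (Fin m ⊕ Fin m → F) →ₗ[F] V))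
    intro u v
    simp only [LinearMap.comp_apply, LinearEquiv.coe_coe]
    rw [hΨ, hiso, ← hΨ, Ψ.apply_symm_apply, Ψ.apply_symm_apply]
  choose φ hφ using hex
  refine ⟨MonoidHom.mk' φ ?_, ?_⟩
  · intro g h
    apply ext_mulVec
    intro u
    rw [coe_mul_mulVec, hφ, hφ, hφ, Ψ.symm_apply_apply, hmul]
  · rw [injective_iff_map_eq_one]
    intro g hg
    have hg' : φ g = 1 := hg
    apply hfaith
    intro x
    have h1 := hφ g (Ψ x)
    rw [hg', coe_one_mulVec, Ψ.symm_apply_apply] at h1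
    exact (Ψ.injective h1).symm

end Cfsg.Agent.Lib.Helper5.SympAbstract
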