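import Mathlib

set_option autoImplicit false

namespace Cfsg.Agent.Lib.Helper5.FaithfulSym

variable {G X : Type*} [Group G] [MulAction G X] [FaithfulSMul G X]

/-- the permutation representation on `Fin n` -/
noncomputable def toFin {n : ℕ} (hX : Nat.card X = n) (hn : n ≠ 0) : G →* Equiv.Perm (Fin n) :=
  have : Finite X := Nat.finite_of_card_ne_zero (by rw [hX]; exact hn)
  ((Finite.equivFinOfCardEq hX).permCongrHom : Equiv.Perm X →* Equiv.Perm (Fin n)).comp
    (MulAction.toPermHom G X)

theorem toFin_injective {n : ℕ} (hX : Nat.card X = n) (hn : n ≠ 0) :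
    Function.Injective (toFin (G := G) hX hn) := by
  unfold toFin
  rw [MonoidHom.coe_comp]
  exact (MulEquiv.injective _).comp MulAction.toPerm_injective

theorem equiv_perm {n : ℕ} (hX : Nat.card X = n) (hn : n ≠ 0) (hG : Nat.card G = n.factorial) :
    Nonempty (G ≃* Equiv.Perm (Fin n)) := by
  have hfin : Finite G := Nat.finite_of_card_ne_zero (by rw [hG]; exact Nat.factorial_ne_zero n)
  refine ⟨MulEquiv.ofBijective (toFin hX hn) ?_⟩
  rw [Nat.bijective_iff_injective_and_card]
  refine ⟨toFin_injective hX hn, ?_⟩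
  rw [hG, Nat.card_eq_fintype_card, Fintype.card_perm, Fintype.card_fin]

theorem equiv_alternating {n : ℕ} (hX : Nat.card X = n) (hn : n ≠ 0)
    (hG : 2 * Nat.card G = n.factorial) :
    Nonempty (G ≃* alternatingGroup (Fin n)) := by
  have hr : (toFin (G := G) hX hn).range = alternatingGroup (Fin n) := by
    apply Equiv.Perm.eq_alternatingGroup_of_index_eq_two
    have h1 := Subgroup.card_mul_index (toFin (G := G) hX hn).range
    rw [Nat.card_congr (MonoidHom.ofInjective (toFin_injective hX hn)).symm.toEquiv,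
      Nat.card_eq_fintype_card (α := Equiv.Perm (Fin n)), Fintype.card_perm, Fintype.card_fin,
      ← hG, mul_comm] at h1
    have h0 : Nat.card G ≠ 0 := by
      intro h0
      rw [h0, mul_zero] at hG
      exact Nat.factorial_ne_zero n hG.symm
    exact Nat.eq_of_mul_eq_mul_right (Nat.pos_of_ne_zero h0) h1
  exact ⟨(MonoidHom.ofInjective (toFin_injective hX hn)).trans (MulEquiv.subgroupCongr hr)⟩

end Cfsg.Agent.Lib.Helper5.FaithfulSym
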