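import Mathlib
import Cfsg.Prelude.Def_Classical
import Cfsg.Agent.Lib.Helper5.OrthCard

set_option autoImplicit false

namespace Cfsg.Agent.Lib.Helper5.Klein

open Matrix Cfsg.Agent.Lib.Helper5.OrthCard Cfsg.Agent.Lib.Helper5.Orth
  Cfsg.Agent.Lib.Helper5.OrthGen

section rep

variable {F : Type*} [Field F] {ι : Type} [Fintype ι] [DecidableEq ι]

/-- a homomorphism to the isometry group from a family of linear isometries -/
theorem exists_hom_of_rep (Q : QuadraticForm F (ι → F))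
    (hQ : (QuadraticMap.polarBilin Q).Nondegenerate) {G : Type*} [Group G]
    (ρ : G → (ι → F) →ₗ[F] (ι → F)) (hmul : ∀ g h x, ρ (g * h) x = ρ g (ρ h x))
    (hiso : ∀ g x, Q (ρ g x) = Q x) :
    ∃ f : G →* ↥(Cfsg.isometryGroup F ⇑Q), ∀ g x, mat (f g) *ᵥ x = ρ g x := by
  have hex : ∀ g : G, ∃ A : ↥(Cfsg.isometryGroup F ⇑Q), ∀ x, mat A *ᵥ x = ρ g x :=
    fun g => exists_iso_of_linearMap Q hQ (ρ g) (hiso g)
  choose φ hφ using hex
  refine ⟨MonoidHom.mk' φ ?_, hφ⟩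
  intro g h
  apply ext_mulVec
  intro u
  rw [mat_mul_mulVec, hφ, hφ, hφ, hmul]

end rep

variable {F : Type*} [Field F]

theorem det_four (A : Matrix (Fin 4) (Fin 4) F) : A.det =
    A 0 0 * (A 1 1 * (A 2 2 * A 3 3 - A 2 3 * A 3 2) - A 1 2 * (A 2 1 * A 3 3 - A 2 3 * A 3 1)
      + A 1 3 * (A 2 1 * A 3 2 - A 2 2 * A 3 1))
    - A 0 1 * (A 1 0 * (A 2 2 * A 3 3 - A 2 3 * A 3 2) - A 1 2 * (A 2 0 * A 3 3 - A 2 3 * A 3 0)
      + A 1 3 * (A 2 0 * A 3 2 - A 2 2 * A 3 0))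
    + A 0 2 * (A 1 0 * (A 2 1 * A 3 3 - A 2 3 * A 3 1) - A 1 1 * (A 2 0 * A 3 3 - A 2 3 * A 3 0)
      + A 1 3 * (A 2 0 * A 3 1 - A 2 1 * A 3 0))
    - A 0 3 * (A 1 0 * (A 2 1 * A 3 2 - A 2 2 * A 3 1) - A 1 1 * (A 2 0 * A 3 2 - A 2 2 * A 3 0)
      + A 1 2 * (A 2 0 * A 3 1 - A 2 1 * A 3 0)) := by
  simp [Matrix.det_succ_row_zero, Fin.sum_univ_succ, Fin.succAbove]
  ring

/-- the alternating matrix with given Pluecker coordinates -/
def toAlt (u : Fin 3 ⊕ Fin 3 → F) : Matrix (Fin 4) (Fin 4) F :=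
  !![0, u (.inl 0), u (.inl 1), u (.inl 2);
     -u (.inl 0), 0, u (.inr 2), -u (.inr 1);
     -u (.inl 1), -u (.inr 2), 0, u (.inr 0);
     -u (.inl 2), u (.inr 1), -u (.inr 0), 0]

/-- the coordinates of an alternating matrix -/
def ofAlt (X : Matrix (Fin 4) (Fin 4) F) : Fin 3 ⊕ Fin 3 → F :=
  Sum.elim ![X 0 1, X 0 2, X 0 3] ![X 2 3, -X 1 3, X 1 2]

theorem toAlt_ofAlt_of (X : Matrix (Fin 4) (Fin 4) F) (hT : ∀ i j, X j i = - X i j)
    (hd : ∀ i, X i i = 0) : toAlt (ofAlt X) = X := by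
  ext i j
  fin_cases i <;> fin_cases j <;>
    simp [toAlt, ofAlt, hd, hT 0 1, hT 0 2, hT 0 3, hT 1 2, hT 1 3, hT 2 3]

theorem ofAlt_toAlt (u : Fin 3 ⊕ Fin 3 → F) : ofAlt (toAlt u) = u := by
  funext i
  rcases i with i | i <;> fin_cases i <;> simp [toAlt, ofAlt]

theorem toAlt_transpose (u : Fin 3 ⊕ Fin 3 → F) : (toAlt u)ᵀ = - toAlt u := by
  ext i j
  fin_cases i <;> fin_cases j <;> simp [toAlt]

theorem toAlt_add (u v : Fin 3 ⊕ Fin 3 → F) : toAlt (u + v) = toAlt u + toAlt v := by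
  ext i j
  fin_cases i <;> fin_cases j <;> simp [toAlt] <;> ring

theorem toAlt_smul (c : F) (u : Fin 3 ⊕ Fin 3 → F) : toAlt (c • u) = c • toAlt u := by
  ext i j
  fin_cases i <;> fin_cases j <;> simp [toAlt]

theorem ofAlt_add (X Y : Matrix (Fin 4) (Fin 4) F) : ofAlt (X + Y) = ofAlt X + ofAlt Y := by
  funext i
  rcases i with i | i <;> fin_cases i <;> simp [ofAlt] <;> ring

theorem ofAlt_smul (c : F) (X : Matrix (Fin 4) (Fin 4) F) : ofAlt (c • X) = c • ofAlt X := by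
  funext i
  rcases i with i | i <;> fin_cases i <;> simp [ofAlt]

theorem conj_diag (g : Matrix (Fin 4) (Fin 4) F) (u : Fin 3 ⊕ Fin 3 → F) (i : Fin 4) :
    (g * toAlt u * gᵀ) i i = 0 := by
  simp [toAlt, Matrix.mul_apply, Fin.sum_univ_four]
  ring

theorem toAlt_ofAlt (g : Matrix (Fin 4) (Fin 4) F) (u : Fin 3 ⊕ Fin 3 → F) :
    toAlt (ofAlt (g * toAlt u * gᵀ)) = g * toAlt u * gᵀ := by
  apply toAlt_ofAlt_of _ _ (conj_diag g u)
  intro i j
  have h : (g * toAlt u * gᵀ)ᵀ = - (g * toAlt u * gᵀ) := by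
    rw [Matrix.transpose_mul, Matrix.transpose_mul, Matrix.transpose_transpose, toAlt_transpose]
    simp [Matrix.mul_assoc]
  have := congrFun (congrFun h i) j
  simpa using this

theorem pf_act (g : Matrix (Fin 4) (Fin 4) F) (u : Fin 3 ⊕ Fin 3 → F) :
    Cfsg.quadFormPlus 3 F (ofAlt (g * toAlt u * gᵀ)) = g.det * Cfsg.quadFormPlus 3 F u := by
  rw [det_four]
  simp [Cfsg.quadFormPlus, Fin.sum_univ_three, toAlt, ofAlt, Matrix.mul_apply, Fin.sum_univ_four]
  ring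

/-- the action on Pluecker coordinates -/
def act (g : Matrix (Fin 4) (Fin 4) F) : (Fin 3 ⊕ Fin 3 → F) →ₗ[F] (Fin 3 ⊕ Fin 3 → F) where
  toFun u := ofAlt (g * toAlt u * gᵀ)
  map_add' u v := by
    rw [toAlt_add, Matrix.mul_add, Matrix.add_mul, ofAlt_add]
  map_smul' c u := by
    rw [toAlt_smul, Matrix.mul_smul, Matrix.smul_mul, ofAlt_smul]
    rfl

theorem act_apply (g : Matrix (Fin 4) (Fin 4) F) (u : Fin 3 ⊕ Fin 3 → F) :
    act g u = ofAlt (g * toAlt u * gᵀ) := rfl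

theorem toAlt_act (g : Matrix (Fin 4) (Fin 4) F) (u : Fin 3 ⊕ Fin 3 → F) :
    toAlt (act g u) = g * toAlt u * gᵀ := toAlt_ofAlt g u

theorem act_mul (g h : Matrix (Fin 4) (Fin 4) F) (u : Fin 3 ⊕ Fin 3 → F) :
    act (g * h) u = act g (act h u) := by
  rw [act_apply g, toAlt_act, act_apply, Matrix.transpose_mul]
  simp only [Matrix.mul_assoc]

theorem quad_act (g : Matrix (Fin 4) (Fin 4) F) (u : Fin 3 ⊕ Fin 3 → F) :
    Cfsg.quadFormPlus 3 F (act g u) = g.det * Cfsg.quadFormPlus 3 F u := pf_act g u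

/-- the elementary alternating matrices -/
def E (i j : Fin 4) : Matrix (Fin 4) (Fin 4) F := Matrix.single i j 1 - Matrix.single j i 1

theorem E_apply (i j a b : Fin 4) : (E i j : Matrix (Fin 4) (Fin 4) F) a b =
    (if i = a ∧ j = b then 1 else 0) - (if j = a ∧ i = b then 1 else 0) := by
  simp [E, Matrix.single_apply]

theorem conj_single (g : Matrix (Fin 4) (Fin 4) F) (i j a b : Fin 4) :
    (g * E i j * gᵀ : Matrix (Fin 4) (Fin 4) F) a b = g a i * g b j - g a j * g b i := by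
  rw [E, Matrix.mul_sub, Matrix.sub_mul, Matrix.sub_apply]
  simp [Matrix.mul_apply, Matrix.single_apply, ite_and, ite_mul]

theorem entries_of_fix (g : Matrix (Fin 4) (Fin 4) F) (h : ∀ u, act g u = u) (i j a b : Fin 4)
    (hij : i ≠ j) : g a i * g b j - g a j * g b i =
      (if i = a ∧ j = b then 1 else 0) - (if j = a ∧ i = b then 1 else 0) := by
  have h1 : toAlt (ofAlt (E i j : Matrix (Fin 4) (Fin 4) F)) = E i j := by
    apply toAlt_ofAlt_of
    · intro a b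
      rw [E_apply, E_apply]
      simp [and_comm]
    · intro a
      rw [E_apply]
      have : ¬ (i = a ∧ j = a) := fun hh => hij (hh.1.trans hh.2.symm)
      have h' : ¬ (j = a ∧ i = a) := fun hh => hij (hh.2.trans hh.1.symm)
      simp [this, h']
  have h2 := toAlt_act g (ofAlt (E i j : Matrix (Fin 4) (Fin 4) F))
  rw [h, h1] at h2
  rw [← conj_single, ← h2, E_apply]

theorem scalar_of_fix (g : Matrix (Fin 4) (Fin 4) F) (h : ∀ u, act g u = u) :
    g = 1 ∨ g = -1 := by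
  have hE := entries_of_fix g h
  have hex : ∀ a i : Fin 4, ∃ j, j ≠ a ∧ j ≠ i := by decide
  have hoff : ∀ a i, a ≠ i → g a i = 0 := by
    intro a i hai
    obtain ⟨j, hja, hji⟩ := hex a i
    have e1 := hE i j a j (Ne.symm hji)
    have e2 := hE i j a i (Ne.symm hji)
    have e3 := hE i j i j (Ne.symm hji)
    simp [hai, hai.symm, hja, hja.symm, hji, hji.symm] at e1 e2 e3
    linear_combination (g a i) * e3 * (-1) + g i i * e1 - g j i * e2
  have hdiag : ∀ i j, i ≠ j → g i i * g j j = 1 := by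
    intro i j hij
    have e3 := hE i j i j hij
    simp [hij, hij.symm, hoff i j hij] at e3
    exact e3
  have heq : ∀ i, g i i = g 0 0 := by
    intro i
    by_cases hi : i = 0
    · rw [hi]
    obtain ⟨j, hj0, hji⟩ := hex 0 i
    have e1 := hdiag 0 j (Ne.symm hj0)
    have e2 := hdiag i j (Ne.symm hji)
    have hne : g j j ≠ 0 := by
      intro hz
      rw [hz, mul_zero] at e1
      exact zero_ne_one e1
    exact mul_right_cancel₀ hne (e2.trans e1.symm)
  have hsq : g 0 0 * g 0 0 = 1 := by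
    have := hdiag 0 1 (by decide)
    rwa [heq 1] at this
  have hpm : g 0 0 = 1 ∨ g 0 0 = -1 := mul_self_eq_one_iff.mp hsq
  rcases hpm with hp | hp
  · left
    ext a b
    by_cases hab : a = b
    · subst hab; rw [heq, hp]; simp
    · rw [hoff a b hab]; simp [hab]
  · right
    ext a b
    by_cases hab : a = b
    · subst hab; rw [heq, hp]; simp
    · rw [hoff a b hab]; simp [hab]

end Cfsg.Agent.Lib.Helper5.Klein
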