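import Mathlib
import Cfsg.Prelude.Def_ClassicalGeometry
import Cfsg.Agent.Lib.Helper5.DicksonApp

set_option autoImplicit false
set_option linter.unusedSectionVars false

namespace Cfsg.Agent.Lib.Helper5.OrthSum

open Matrix Cfsg.Agent.Lib.Helper5.OrthCard Cfsg.Agent.Lib.Helper5.Orth
  Cfsg.Agent.Lib.Helper5.OrthGen QuadraticMap Cfsg.Agent.Lib.Helper5.OrthRefl
  Cfsg.Agent.Lib.Helper5.Dickson Cfsg.Agent.Lib.Helper5.Spinor

variable {F : Type*} [Field F] {ι₁ ι₂ : Type} [Fintype ι₁] [DecidableEq ι₁] [Fintype ι₂]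
  [DecidableEq ι₂]

/-- the orthogonal direct sum -/
noncomputable def sumForm (Q₁ : QuadraticForm F (ι₁ → F)) (Q₂ : QuadraticForm F (ι₂ → F)) :
    QuadraticForm F (ι₁ ⊕ ι₂ → F) :=
  Q₁.comp (LinearMap.funLeft F F Sum.inl) + Q₂.comp (LinearMap.funLeft F F Sum.inr)

variable (Q₁ : QuadraticForm F (ι₁ → F)) (Q₂ : QuadraticForm F (ι₂ → F))

theorem sumForm_apply (v : ι₁ ⊕ ι₂ → F) :
    sumForm Q₁ Q₂ v = Q₁ (v ∘ Sum.inl) + Q₂ (v ∘ Sum.inr) := rfl

theorem sumForm_coe :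
    ⇑(sumForm Q₁ Q₂) = fun v : ι₁ ⊕ ι₂ → F => Q₁ (v ∘ Sum.inl) + Q₂ (v ∘ Sum.inr) := rfl

theorem polar_sum (x y : ι₁ ⊕ ι₂ → F) :
    polar ⇑(sumForm Q₁ Q₂) x y =
      polar ⇑Q₁ (x ∘ Sum.inl) (y ∘ Sum.inl) + polar ⇑Q₂ (x ∘ Sum.inr) (y ∘ Sum.inr) := by
  simp only [polar, sumForm_apply]
  have e1 : (x + y) ∘ Sum.inl = x ∘ (Sum.inl : ι₁ → ι₁ ⊕ ι₂) + y ∘ Sum.inl := rfl
  have e2 : (x + y) ∘ Sum.inr = x ∘ (Sum.inr : ι₂ → ι₁ ⊕ ι₂) + y ∘ Sum.inr := rfl
  rw [e1, e2]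
  ring

theorem sum_nondeg (h₁ : (QuadraticMap.polarBilin Q₁).Nondegenerate)
    (h₂ : (QuadraticMap.polarBilin Q₂).Nondegenerate) :
    (QuadraticMap.polarBilin (sumForm Q₁ Q₂)).Nondegenerate := by
  have key : ∀ x : ι₁ ⊕ ι₂ → F, (∀ y, polar ⇑(sumForm Q₁ Q₂) x y = 0) → x = 0 := by
    intro x hx
    have e1 : x ∘ Sum.inl = 0 := by
      apply h₁.1
      intro y
      have := hx (Sum.elim y 0)
      rw [polar_sum] at this
      simpa using this
    have e2 : x ∘ Sum.inr = 0 := by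
      apply h₂.1
      intro y
      have := hx (Sum.elim 0 y)
      rw [polar_sum] at this
      simpa using this
    funext i
    rcases i with i | i
    · exact congrFun e1 i
    · exact congrFun e2 i
  constructor
  · intro x hx
    exact key x hx
  · intro x hx
    apply key x
    intro y
    rw [polar_comm]
    exact hx y

theorem blocks_mulVec (A : Matrix ι₁ ι₁ F) (D : Matrix ι₂ ι₂ F) (x : ι₁ ⊕ ι₂ → F) :
    Matrix.fromBlocks A 0 0 D *ᵥ x = Sum.elim (A *ᵥ (x ∘ Sum.inl)) (D *ᵥ (x ∘ Sum.inr)) := by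
  rw [Matrix.fromBlocks_mulVec]
  simp

/-- block diagonal isometries -/
noncomputable def blk (h₁ : (QuadraticMap.polarBilin Q₁).Nondegenerate)
    (h₂ : (QuadraticMap.polarBilin Q₂).Nondegenerate) :
    ↥(Cfsg.isometryGroup F ⇑Q₁) × ↥(Cfsg.isometryGroup F ⇑Q₂) →*
      ↥(Cfsg.isometryGroup F ⇑(sumForm Q₁ Q₂)) :=
  MonoidHom.mk' (fun p => ofMat (Matrix.fromBlocks (mat p.1) 0 0 (mat p.2))
    (by
      rw [Matrix.det_fromBlocks_zero₂₁]
      apply mul_ne_zero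
      · rcases det_sq_of_preserves Q₁ h₁ _ (mat_preserves p.1) with h | h <;> rw [h] <;> simp
      · rcases det_sq_of_preserves Q₂ h₂ _ (mat_preserves p.2) with h | h <;> rw [h] <;> simp)
    (by
      intro x
      rw [blocks_mulVec, sumForm_apply, sumForm_apply, Sum.elim_comp_inl, Sum.elim_comp_inr,
        mat_preserves p.1, mat_preserves p.2]))
    (by
      intro p p'
      apply mat_injective
      rw [mat_mul, mat_ofMat, mat_ofMat, mat_ofMat, Matrix.fromBlocks_multiply]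
      simp [mat_mul])

theorem mat_blk (h₁ : (QuadraticMap.polarBilin Q₁).Nondegenerate)
    (h₂ : (QuadraticMap.polarBilin Q₂).Nondegenerate)
    (p : ↥(Cfsg.isometryGroup F ⇑Q₁) × ↥(Cfsg.isometryGroup F ⇑Q₂)) :
    mat (blk Q₁ Q₂ h₁ h₂ p) = Matrix.fromBlocks (mat p.1) 0 0 (mat p.2) := rfl

theorem blk_refl_left (h₁ : (QuadraticMap.polarBilin Q₁).Nondegenerate)
    (h₂ : (QuadraticMap.polarBilin Q₂).Nondegenerate) (v : ι₁ → F) (hv : Q₁ v ≠ 0)
    (hv' : sumForm Q₁ Q₂ (Sum.elim v 0) ≠ 0) :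
    blk Q₁ Q₂ h₁ h₂ (refl Q₁ v hv, 1) = refl (sumForm Q₁ Q₂) (Sum.elim v 0) hv' := by
  apply ext_mulVec
  intro x
  rw [mat_blk, blocks_mulVec, mat_refl, mat_refl, reflectionMatrix_mulVec, reflectionMatrix_mulVec,
    polar_sum, sumForm_apply]
  funext i
  rcases i with i | i <;> simp [mat_one]

theorem blk_refl_right (h₁ : (QuadraticMap.polarBilin Q₁).Nondegenerate)
    (h₂ : (QuadraticMap.polarBilin Q₂).Nondegenerate) (v : ι₂ → F) (hv : Q₂ v ≠ 0)
    (hv' : sumForm Q₁ Q₂ (Sum.elim 0 v) ≠ 0) :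
    blk Q₁ Q₂ h₁ h₂ (1, refl Q₂ v hv) = refl (sumForm Q₁ Q₂) (Sum.elim 0 v) hv' := by
  apply ext_mulVec
  intro x
  rw [mat_blk, blocks_mulVec, mat_refl, mat_refl, reflectionMatrix_mulVec, reflectionMatrix_mulVec,
    polar_sum, sumForm_apply]
  funext i
  rcases i with i | i <;> simp [mat_one]

theorem sum_left (v : ι₁ → F) : sumForm Q₁ Q₂ (Sum.elim v 0) = Q₁ v := by
  rw [sumForm_apply]; simp

theorem sum_right (v : ι₂ → F) : sumForm Q₁ Q₂ (Sum.elim 0 v) = Q₂ v := by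
  rw [sumForm_apply]; simp

theorem hom_ext_refl {ι : Type} [Fintype ι] [DecidableEq ι] (Q : QuadraticForm F (ι → F))
    (hR : R Q = ⊤) {N : Type*} [Group N] (f f' : ↥(Cfsg.isometryGroup F ⇑Q) →* N)
    (h : ∀ v hv, f (refl Q v hv) = f' (refl Q v hv)) : f = f' := by
  apply MonoidHom.eq_of_eqOn_dense hR
  rintro y ⟨v, hv, hy⟩
  have hy' : y = refl Q v hv := mat_injective hy
  rw [hy']
  exact h v hv

theorem dfix_blk (h₁ : (QuadraticMap.polarBilin Q₁).Nondegenerate)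
    (h₂ : (QuadraticMap.polarBilin Q₂).Nondegenerate)
    (p : ↥(Cfsg.isometryGroup F ⇑Q₁) × ↥(Cfsg.isometryGroup F ⇑Q₂)) :
    dfix (blk Q₁ Q₂ h₁ h₂ p) = dfix p.1 + dfix p.2 := by
  have hmem : ∀ x : ι₁ ⊕ ι₂ → F, x ∈ fx (blk Q₁ Q₂ h₁ h₂ p) ↔
      x ∘ Sum.inl ∈ fx p.1 ∧ x ∘ Sum.inr ∈ fx p.2 := by
    intro x
    rw [mem_fx, mem_fx, mem_fx, mat_blk, blocks_mulVec]
    constructor
    · intro h
      constructor
      · have := congrArg (fun z : ι₁ ⊕ ι₂ → F => z ∘ Sum.inl) h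
        simpa using this
      · have := congrArg (fun z : ι₁ ⊕ ι₂ → F => z ∘ Sum.inr) h
        simpa using this
    · rintro ⟨a, b⟩
      rw [a, b]
      exact Sum.elim_comp_inl_inr x
  let e : ↥(fx (blk Q₁ Q₂ h₁ h₂ p)) ≃ₗ[F] ↥(fx p.1) × ↥(fx p.2) :=
    { toFun := fun x => (⟨x.1 ∘ Sum.inl, ((hmem x.1).mp x.2).1⟩, ⟨x.1 ∘ Sum.inr, ((hmem x.1).mp x.2).2⟩)
      invFun := fun y => ⟨Sum.elim y.1.1 y.2.1, (hmem _).mpr ⟨by simpa using y.1.2, by simpa using y.2.2⟩⟩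
      map_add' := fun x y => rfl
      map_smul' := fun c x => rfl
      left_inv := fun x => Subtype.ext (Sum.elim_comp_inl_inr x.1)
      right_inv := fun y => by
        apply Prod.ext <;> apply Subtype.ext <;> simp }
  unfold dfix
  rw [e.finrank_eq, Module.finrank_prod]

theorem det_eq_one_of_mem_omega {ι : Type} [Fintype ι] [DecidableEq ι] {Q : (ι → F) → F}
    (g : ↥(Cfsg.isometryGroup F Q)) (hg : g ∈ Cfsg.Omega F Q) : (mat g).det = 1 := by
  have h1 : g ∈ (Matrix.GeneralLinearGroup.det.comp (Cfsg.isometryGroup F Q).subtype).ker :=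
    Abelianization.commutator_subset_ker _ hg
  exact (mem_special_iff Q g).mp h1

theorem map_mem_omega {ι ι' : Type} [Fintype ι] [DecidableEq ι] [Fintype ι'] [DecidableEq ι']
    {Q : (ι → F) → F} {Q' : (ι' → F) → F}
    (f : ↥(Cfsg.isometryGroup F Q) →* ↥(Cfsg.isometryGroup F Q')) (g : ↥(Cfsg.isometryGroup F Q))
    (hg : g ∈ Cfsg.Omega F Q) : f g ∈ Cfsg.Omega F Q' := by
  have h1 : f g ∈ (commutator ↥(Cfsg.isometryGroup F Q)).map f := ⟨g, hg, rfl⟩
  rw [commutator_def, Subgroup.map_commutator] at h1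
  exact Subgroup.commutator_mono le_top le_top h1

theorem summand_iff [Fintype F] (h₁ : (QuadraticMap.polarBilin Q₁).Nondegenerate)
    (h₂ : (QuadraticMap.polarBilin Q₂).Nondegenerate)
    (h : Fintype.card F ≠ 2 ∨ (Fintype.card ι₁ ≠ 4 ∧ Fintype.card ι₁ + Fintype.card ι₂ ≠ 4))
    (g₁ : ↥(Cfsg.isometryGroup F ⇑Q₁)) :
    (∃ g : ↥(Cfsg.isometryGroup F ⇑(sumForm Q₁ Q₂)), g ∈ Cfsg.Omega F ⇑(sumForm Q₁ Q₂) ∧
      mat g = Matrix.fromBlocks (mat g₁) 0 0 1) ↔ g₁ ∈ Cfsg.Omega F ⇑Q₁ := by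
  classical
  have hs := sum_nondeg Q₁ Q₂ h₁ h₂
  let emb : ↥(Cfsg.isometryGroup F ⇑Q₁) →* ↥(Cfsg.isometryGroup F ⇑(sumForm Q₁ Q₂)) :=
    (blk Q₁ Q₂ h₁ h₂).comp (MonoidHom.inl _ _)
  have hemb : ∀ x, mat (emb x) = Matrix.fromBlocks (mat x) 0 0 1 := fun x => rfl
  have hembr : ∀ v hv, emb (refl Q₁ v hv) = refl (sumForm Q₁ Q₂) (Sum.elim v 0)
      (by rw [sum_left]; exact hv) := fun v hv => blk_refl_left Q₁ Q₂ h₁ h₂ v hv _
  constructor
  · rintro ⟨g, hg, hgm⟩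
    have hge : g = emb g₁ := mat_injective (hgm.trans (hemb g₁).symm)
    subst hge
    by_cases h2 : (2 : F) = 0
    · have hex1 : Fintype.card F ≠ 2 ∨ Fintype.card ι₁ ≠ 4 := h.imp id (fun x => x.1)
      have hex2 : Fintype.card F ≠ 2 ∨ Fintype.card (ι₁ ⊕ ι₂) ≠ 4 := by
        rw [Fintype.card_sum]; exact h.imp id (fun x => x.2)
      rw [Dickson.omega_iff _ h2 hs hex2] at hg
      rw [Dickson.omega_iff _ h2 h₁ hex1]
      have := hom_ext_refl Q₁ (R_eq_top' Q₁ h₁ hex1) ((dkHom _ hs hex2).comp emb) (dkHom _ h₁ hex1)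
        (by
          intro v hv
          rw [MonoidHom.comp_apply, hembr, dkHom_apply, dkHom_apply, dk_refl _ hs, dk_refl _ h₁])
      have h3 := DFunLike.congr_fun this g₁
      rw [MonoidHom.comp_apply, dkHom_apply, dkHom_apply] at h3
      rw [← h3]; exact hg
    · by_cases hk : 2 ≤ Fintype.card ι₁
      · obtain ⟨θ, sd, hθ, hsd, _, hΩ⟩ := Spinor.main (sumForm Q₁ Q₂) h2 hs (by
          rw [Fintype.card_sum]; omega)
        obtain ⟨θ', sd', hθ', hsd', _, hΩ'⟩ := Spinor.main Q₁ h2 h₁ hk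
        have e1 := hom_ext_refl Q₁ (R_eq_top h2 Q₁ h₁) (θ.comp emb) θ' (by
          intro v hv
          rw [MonoidHom.comp_apply, hembr, hθ, hθ', sum_left])
        have e2 := hom_ext_refl Q₁ (R_eq_top h2 Q₁ h₁) (sd.comp emb) sd' (by
          intro v hv
          rw [MonoidHom.comp_apply, hembr, hsd, hsd'])
        rw [hΩ] at hg
        rw [hΩ', ← e1, ← e2]
        exact hg
      · have hdet := det_eq_one_of_mem_omega _ hg
        rw [hemb, Matrix.det_fromBlocks_zero₂₁, Matrix.det_one, mul_one] at hdet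
        have hsub : Subsingleton ι₁ := Fintype.card_le_one_iff_subsingleton.mp (by omega)
        have : g₁ = 1 := by
          apply mat_injective
          rw [mat_one]
          ext i j
          rw [Subsingleton.elim j i, ← Matrix.det_eq_elem_of_subsingleton (mat g₁) i, hdet]
          simp
        rw [this]
        exact Subgroup.one_mem _
  · intro hg
    exact ⟨emb g₁, map_mem_omega emb g₁ hg, hemb g₁⟩

theorem diag_mem [Fintype F] (Q : QuadraticForm F (ι₁ → F))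
    (hQ : (QuadraticMap.polarBilin Q).Nondegenerate)
    (h : Fintype.card F ≠ 2 ∨ Fintype.card ι₁ ≠ 2) (g : ↥(Cfsg.isometryGroup F ⇑Q)) :
    ∃ x : ↥(Cfsg.isometryGroup F ⇑(sumForm Q Q)), x ∈ Cfsg.Omega F ⇑(sumForm Q Q) ∧
      mat x = Matrix.fromBlocks (mat g) 0 0 (mat g) := by
  classical
  have hs := sum_nondeg Q Q hQ hQ
  refine ⟨blk Q Q hQ hQ (g, g), ?_, rfl⟩
  by_cases h2 : (2 : F) = 0
  · have hex2 : Fintype.card F ≠ 2 ∨ Fintype.card (ι₁ ⊕ ι₁) ≠ 4 := by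
      rw [Fintype.card_sum]; exact h.imp id (fun x => by omega)
    rw [Dickson.omega_iff _ h2 hs hex2]
    unfold dk
    rw [dfix_blk, Fintype.card_sum, neg_one_pow_eq_one_iff_even (by decide)]
    exact ⟨Fintype.card ι₁ + dfix g, by simp only; ring⟩
  · by_cases hk : 1 ≤ Fintype.card ι₁
    · obtain ⟨θ, sd, hθ, hsd, _, hΩ⟩ := Spinor.main (sumForm Q Q) h2 hs (by
        rw [Fintype.card_sum]; omega)
      let Δ : ↥(Cfsg.isometryGroup F ⇑Q) →* ↥(Cfsg.isometryGroup F ⇑(sumForm Q Q)) :=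
        (blk Q Q hQ hQ).comp ((MonoidHom.id _).prod (MonoidHom.id _))
      have hΔ : ∀ v hv, Δ (refl Q v hv) = refl (sumForm Q Q) (Sum.elim v 0)
          (by rw [sum_left]; exact hv) * refl (sumForm Q Q) (Sum.elim 0 v)
          (by rw [sum_right]; exact hv) := by
        intro v hv
        rw [← blk_refl_left Q Q hQ hQ v hv, ← blk_refl_right Q Q hQ hQ v hv, ← map_mul]
        simp [Δ]
      have e1 := hom_ext_refl Q (R_eq_top h2 Q hQ) (θ.comp Δ) 1 (by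
        intro v hv
        rw [MonoidHom.comp_apply, hΔ, map_mul, hθ, hθ, sum_left, sum_right, MonoidHom.one_apply]
        exact Int.units_mul_self _)
      have e2 := hom_ext_refl Q (R_eq_top h2 Q hQ) (sd.comp Δ) 1 (by
        intro v hv
        rw [MonoidHom.comp_apply, hΔ, map_mul, hsd, hsd, MonoidHom.one_apply]
        rfl)
      rw [hΩ]
      exact ⟨DFunLike.congr_fun e1 g, DFunLike.congr_fun e2 g⟩
    · have hemp : IsEmpty ι₁ := Fintype.card_eq_zero_iff.mp (by omega)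
      have : blk Q Q hQ hQ (g, g) = 1 := by
        apply mat_injective
        ext i j
        rcases i with i | i <;> exact hemp.elim i
      rw [this]
      exact Subgroup.one_mem _

end Cfsg.Agent.Lib.Helper5.OrthSum
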