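import Mathlib
import Cfsg.Prelude.Def_ClassicalGeometry
import Cfsg.Agent.Lib.Helper5.OrthSum

set_option autoImplicit false
set_option linter.unusedSectionVars false

namespace Cfsg.Agent.Lib.Helper5.OrthCenter

open Matrix Cfsg.Agent.Lib.Helper5.OrthCard Cfsg.Agent.Lib.Helper5.Orth
  Cfsg.Agent.Lib.Helper5.OrthGen QuadraticMap Cfsg.Agent.Lib.Helper5.OrthRefl
  Cfsg.Agent.Lib.Helper5.Dickson Cfsg.Agent.Lib.Helper5.Spinor Cfsg.Agent.Lib.Helper5.SpinorDiag

variable {F : Type*} [Field F] {ι : Type} [Fintype ι] [DecidableEq ι]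
variable (Q : QuadraticForm F (ι → F))

/-- a nontrivial isometry with totally singular image moves a space of codimension at least two -/
theorem dfix_add_two_le (hQ : (QuadraticMap.polarBilin Q).Nondegenerate)
    (g : ↥(Cfsg.isometryGroup F ⇑Q)) (hts : ∀ x, Q (mat g *ᵥ x - x) = 0) (hg : g ≠ 1) :
    dfix g + 2 ≤ Fintype.card ι := by
  obtain ⟨x₀, hx₀⟩ := exists_moved g hg
  obtain ⟨y₀, hy₀⟩ := exists_polar_ne Q hQ (mat g *ᵥ x₀ - x₀) (sub_ne_zero.mpr hx₀)
  have h1 : fx g < fx g ⊔ (F ∙ x₀) := by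
    apply lt_of_le_of_ne le_sup_left
    intro h
    apply hx₀
    have : x₀ ∈ fx g := by
      rw [h]
      exact Submodule.mem_sup_right (Submodule.mem_span_singleton_self x₀)
    exact this
  have h2 : fx g ⊔ (F ∙ x₀) < (fx g ⊔ (F ∙ x₀)) ⊔ (F ∙ y₀) := by
    apply lt_of_le_of_ne le_sup_left
    intro h
    apply hy₀
    have : y₀ ∈ fx g ⊔ (F ∙ x₀) := by
      rw [h]
      exact Submodule.mem_sup_right (Submodule.mem_span_singleton_self y₀)
    obtain ⟨f, hf, x', hx', rfl⟩ := Submodule.mem_sup.mp this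
    obtain ⟨t, rfl⟩ := Submodule.mem_span_singleton.mp hx'
    rw [polar_add_right, polar_smul_right, polar_fix Q g x₀ f hf, ts_self hts]
    simp
  have h3 := Submodule.finrank_lt_finrank_of_lt h1
  have h4 := Submodule.finrank_lt_finrank_of_lt h2
  have h5 := Submodule.finrank_le ((fx g ⊔ (F ∙ x₀)) ⊔ (F ∙ y₀))
  rw [Module.finrank_fintype_fun_eq_card] at h5
  unfold dfix
  omega

theorem siegel_ts (hQ : (QuadraticMap.polarBilin Q).Nondegenerate) (u v : ι → F)
    (hu : Q u = 0) (hv : Q v = 0) (huv : polar ⇑Q u v = 0) (c : F) (x : ι → F) :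
    Q (mat (siegelEl Q hQ u v hu hv huv c) *ᵥ x - x) = 0 := by
  rw [mat_siegelEl, siegelMatrix_mulVec]
  have : x + (c * polar ⇑Q u x) • v - (c * polar ⇑Q v x) • u - x =
      (c * polar ⇑Q u x) • v - (c * polar ⇑Q v x) • u := by abel
  rw [this, map_sub_smul, QuadraticMap.map_smul, hu, hv, polar_smul_right, huv]
  simp

theorem siegelEl_mul (hQ : (QuadraticMap.polarBilin Q).Nondegenerate) (u v : ι → F)
    (hu : Q u = 0) (hv : Q v = 0) (huv : polar ⇑Q u v = 0) (c d : F) :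
    siegelEl Q hQ u v hu hv huv c * siegelEl Q hQ u v hu hv huv d =
      siegelEl Q hQ u v hu hv huv (c + d) :=
  mat_injective (siegel_mul Q u v hu hv huv c d)

theorem siegel_mem_omega [Fintype F] (hQ : (QuadraticMap.polarBilin Q).Nondegenerate)
    (hex : Fintype.card F ≠ 2 ∨ Fintype.card ι ≠ 4) (hn : 2 ≤ Fintype.card ι) (u v : ι → F)
    (hu : Q u = 0) (hv : Q v = 0) (huv : polar ⇑Q u v = 0) (c : F) :
    siegelEl Q hQ u v hu hv huv c ∈ Cfsg.Omega F ⇑Q := by
  classical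
  by_cases h2 : (2 : F) = 0
  · rw [Dickson.omega_iff Q h2 hQ hex]
    by_cases h1 : siegelEl Q hQ u v hu hv huv c = 1
    · rw [h1, dk_one]
    · have e1 := dfix_add_two_le Q hQ _ (siegel_ts Q hQ u v hu hv huv c) h1
      have e2 := dfix_siegel Q hQ u v hu hv huv c
      unfold dk
      rw [neg_one_pow_eq_one_iff_even (by decide)]
      exact ⟨dfix (siegelEl Q hQ u v hu hv huv c) + 1, by omega⟩
  · obtain ⟨θ, sd, _, _, _, hΩ⟩ := Spinor.main Q h2 hQ hn
    have : siegelEl Q hQ u v hu hv huv c =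
        siegelEl Q hQ u v hu hv huv (c / 2) * siegelEl Q hQ u v hu hv huv (c / 2) := by
      rw [siegelEl_mul]
      congr 1
      field_simp
      ring
    rw [hΩ, this, map_mul, map_mul]
    exact ⟨Int.units_mul_self _, Int.units_mul_self _⟩

/-- the basic consequence of commuting with a Siegel transformation -/
theorem comm_siegel (hQ : (QuadraticMap.polarBilin Q).Nondegenerate)
    (z : ↥(Cfsg.isometryGroup F ⇑Q)) (u v : ι → F)
    (hu : Q u = 0) (hv : Q v = 0) (huv : polar ⇑Q u v = 0)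
    (hz : z * siegelEl Q hQ u v hu hv huv 1 = siegelEl Q hQ u v hu hv huv 1 * z) (x : ι → F)
    (hx1 : polar ⇑Q u x = 0) (hx2 : polar ⇑Q v x = -1) :
    ∃ α β : F, mat z *ᵥ u = α • v + β • u := by
  have h1 := congrArg (fun g => mat g *ᵥ x) hz
  simp only [mat_mul_mulVec, mat_siegelEl, siegelMatrix_mulVec, hx1, hx2] at h1
  refine ⟨polar ⇑Q u (mat z *ᵥ x), - polar ⇑Q v (mat z *ᵥ x), ?_⟩
  simp only [mul_zero, zero_smul, add_zero, mul_neg, mul_one, neg_smul, one_smul, sub_neg_eq_add,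
    mulVec_add, one_mul] at h1
  have h3 := add_left_cancel (a := mat z *ᵥ x) (b := mat z *ᵥ u)
    (c := polar ⇑Q u (mat z *ᵥ x) • v + -(polar ⇑Q v (mat z *ᵥ x)) • u) (by
      rw [h1, neg_smul]; abel)
  exact h3

theorem HypCoords.symm' {Q : QuadraticForm F (ι → F)} {κ : Type*} {ea eb : κ → ι}
    (H : HypCoords Q ea eb) : HypCoords Q eb ea where
  inj := by
    have : Sum.elim eb ea = Sum.elim ea eb ∘ Sum.swap := by
      funext k
      rcases k with k | k <;> rfl
    rw [this]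
    exact H.inj.comp Sum.swap_leftInverse.injective
  pa := H.pb
  pb := H.pa
  qa := H.qb
  qb := H.qa

section scalar

variable {Q}
variable {κ : Type*} {ea eb : κ → ι} (H : HypCoords Q ea eb)
  (hQ : (QuadraticMap.polarBilin Q).Nondegenerate) (z : ↥(Cfsg.isometryGroup F ⇑Q))
  (hz : ∀ u v hu hv huv, z * siegelEl Q hQ u v hu hv huv 1 = siegelEl Q hQ u v hu hv huv 1 * z)

include H hz

theorem fix_e (i j : κ) (hij : i ≠ j) :
    ∃ β : F, mat z *ᵥ (Pi.single (ea i) 1) = β • Pi.single (ea i) 1 := by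
  have n1 := H.ea_ne_eb
  have n2 : ∀ j j', eb j ≠ ea j' := fun j j' h => n1 j' j h.symm
  obtain ⟨α, β, h1⟩ := comm_siegel Q hQ z (Pi.single (ea i) 1) (Pi.single (ea j) 1) (H.qa i)
    (H.qa j) (by rw [H.pa]; simp [n2]) (hz _ _ _ _ _) (-Pi.single (eb j) 1)
    (by rw [H.pa]; simp [H.eb_inj, hij]) (by rw [H.pa]; simp)
  obtain ⟨α', β', h2⟩ := comm_siegel Q hQ z (Pi.single (ea i) 1) (Pi.single (eb j) 1) (H.qa i)
    (H.qb j) (by rw [H.pa]; simp [H.eb_inj, hij]) (hz _ _ _ _ _) (-Pi.single (ea j) 1)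
    (by rw [H.pa]; simp [n2]) (by rw [H.pb]; simp)
  have h3 := congrFun (h1.symm.trans h2) (ea j)
  simp [n1, H.ea_inj, hij.symm] at h3
  refine ⟨β, ?_⟩
  rw [h1, h3, zero_smul, zero_add]

theorem coeff_eq (i j : κ) (hij : i ≠ j) (βi βj : F)
    (hi : mat z *ᵥ (Pi.single (ea i) 1) = βi • Pi.single (ea i) 1)
    (hj : mat z *ᵥ (Pi.single (ea j) 1) = βj • Pi.single (ea j) 1) : βi = βj := by
  have n1 := H.ea_ne_eb
  have n2 : ∀ j j', eb j ≠ ea j' := fun j j' h => n1 j' j h.symm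
  obtain ⟨α, β, h1⟩ := comm_siegel Q hQ z (Pi.single (ea i) 1 + Pi.single (ea j) 1)
    (Pi.single (eb i) 1 - Pi.single (eb j) 1)
    (by rw [QuadraticMap.map_add Q, H.qa, H.qa, H.pa]; simp [n2])
    (by rw [OrthGen.map_sub', H.qb, H.qb, H.pb]; simp [n1])
    (by rw [polar_add_left, H.pa, H.pa]; simp [H.eb_inj, hij, hij.symm])
    (hz _ _ _ _ _) (-Pi.single (ea i) 1)
    (by rw [polar_add_left, H.pa, H.pa]; simp [n2])
    (by rw [polar_sub_left, H.pb, H.pb]; simp [H.ea_inj, hij.symm])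
  rw [mulVec_add, hi, hj] at h1
  have h3 := congrFun h1 (ea i)
  have h4 := congrFun h1 (ea j)
  simp [n1, H.ea_inj, hij, hij.symm] at h3 h4
  rw [h3, h4]

theorem coeff_eq' (i j : κ) (hij : i ≠ j) (βi γj : F)
    (hi : mat z *ᵥ (Pi.single (ea i) 1) = βi • Pi.single (ea i) 1)
    (hj : mat z *ᵥ (Pi.single (eb j) 1) = γj • Pi.single (eb j) 1) : βi = γj := by
  have n1 := H.ea_ne_eb
  have n2 : ∀ j j', eb j ≠ ea j' := fun j j' h => n1 j' j h.symm
  obtain ⟨α, β, h1⟩ := comm_siegel Q hQ z (Pi.single (ea i) 1 + Pi.single (eb j) 1)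
    (Pi.single (ea j) 1 - Pi.single (eb i) 1)
    (by rw [QuadraticMap.map_add Q, H.qa, H.qb, H.pa]; simp [H.eb_inj, hij])
    (by rw [OrthGen.map_sub', H.qa, H.qb, H.pb]; simp [H.ea_inj, hij])
    (by rw [polar_add_left, H.pa, H.pb]; simp [n1, n2])
    (hz _ _ _ _ _) (Pi.single (ea i) 1)
    (by rw [polar_add_left, H.pa, H.pb]; simp [n2, H.ea_inj, hij.symm])
    (by rw [polar_sub_left, H.pa, H.pb]; simp [n2])
  rw [mulVec_add, hi, hj] at h1
  have h3 := congrFun h1 (ea i)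
  have h4 := congrFun h1 (eb j)
  simp [n1, n2, H.ea_inj, H.eb_inj, hij, hij.symm] at h3 h4
  rw [h3, h4]

theorem scalar_rest (i j : κ) (hij : i ≠ j) (l : F)
    (hei : mat z *ᵥ (Pi.single (ea i) 1) = l • Pi.single (ea i) 1)
    (hfi : mat z *ᵥ (Pi.single (eb i) 1) = l • Pi.single (eb i) 1)
    (d : ι → F) (d1 : d (ea i) = 0) (d2 : d (eb i) = 0) (d3 : d (ea j) = 0) (d4 : d (eb j) = 0) :
    mat z *ᵥ d = l • d := by
  have n1 := H.ea_ne_eb
  have n2 : ∀ j j', eb j ≠ ea j' := fun j j' h => n1 j' j h.symm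
  have hl2 : l * l = 1 := by
    have := mat_polar z (Pi.single (ea i) 1) (Pi.single (eb i) 1)
    rw [hei, hfi, polar_smul_left, polar_smul_right, H.pa] at this
    simpa using this
  have hl0 : l ≠ 0 := by
    rintro rfl
    simp at hl2
  obtain ⟨s, hs⟩ : ∃ s, s = d + (Pi.single (ea i) 1 - Q d • Pi.single (eb i) 1) := ⟨_, rfl⟩
  have hQs : Q s = 0 := by
    rw [hs, QuadraticMap.map_add Q, map_sub_smul, H.qa, H.qb, H.pb, polar_sub_right,
      polar_smul_right, polar_comm ⇑Q d, polar_comm ⇑Q d, H.pa, H.pb, d1, d2]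
    simp
  have s1 : s (ea i) = 1 := by rw [hs]; simp [d1, n1]
  have s3 : s (ea j) = 0 := by rw [hs]; simp [d3, n1, H.ea_inj, hij.symm]
  have s4 : s (eb j) = 0 := by rw [hs]; simp [d4, n2, H.eb_inj, hij.symm]
  obtain ⟨α, β, h1⟩ := comm_siegel Q hQ z s (Pi.single (ea j) 1) hQs (H.qa j)
    (by rw [polar_comm, H.pa, s4]) (hz _ _ _ _ _) (-Pi.single (eb j) 1)
    (by rw [polar_neg_right, polar_comm, H.pb, s3, neg_zero]) (by rw [H.pa]; simp)
  obtain ⟨α', β', h2⟩ := comm_siegel Q hQ z s (Pi.single (eb j) 1) hQs (H.qb j)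
    (by rw [polar_comm, H.pb, s3]) (hz _ _ _ _ _) (-Pi.single (ea j) 1)
    (by rw [polar_neg_right, polar_comm, H.pa, s4, neg_zero]) (by rw [H.pb]; simp)
  have h3 := congrFun (h1.symm.trans h2) (ea j)
  simp [n1, s3] at h3
  rw [h3, zero_smul, zero_add] at h1
  have hβ : β = l := by
    have := mat_polar z s (Pi.single (eb i) 1)
    rw [h1, hfi, polar_smul_left, polar_smul_right, polar_comm, H.pb, s1] at this
    simp only [smul_eq_mul, mul_one] at this
    have h5 : β * l = l * l := by rw [this, hl2]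
    exact mul_right_cancel₀ hl0 h5
  rw [hβ, hs, mulVec_add, mulVec_sub, mulVec_smul, hei, hfi] at h1
  have h6 : mat z *ᵥ d = l • (d + (Pi.single (ea i) 1 - Q d • Pi.single (eb i) 1)) -
      (l • Pi.single (ea i) 1 - Q d • l • Pi.single (eb i) 1) := by
    rw [← h1]; abel
  rw [h6]
  module

theorem scalar (i j : κ) (hij : i ≠ j) : ∃ l : F, l * l = 1 ∧ ∀ x, mat z *ᵥ x = l • x := by
  have n1 := H.ea_ne_eb
  have n2 : ∀ j j', eb j ≠ ea j' := fun j j' h => n1 j' j h.symm
  obtain ⟨βi, hei⟩ := fix_e H hQ z hz i j hij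
  obtain ⟨βj, hej⟩ := fix_e H hQ z hz j i hij.symm
  obtain ⟨γi, hfi⟩ := fix_e (HypCoords.symm' H) hQ z hz i j hij
  obtain ⟨γj, hfj⟩ := fix_e (HypCoords.symm' H) hQ z hz j i hij.symm
  have e1 := coeff_eq H hQ z hz i j hij βi βj hei hej
  have e2 := coeff_eq' H hQ z hz i j hij βi γj hei hfj
  have e3 := coeff_eq' H hQ z hz j i hij.symm βj γi hej hfi
  rw [← e1] at hej e3
  rw [← e2] at hfj
  rw [← e3] at hfi
  have hl2 : βi * βi = 1 := by
    have := mat_polar z (Pi.single (ea i) 1) (Pi.single (eb i) 1)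
    rw [hei, hfi, polar_smul_left, polar_smul_right, H.pa] at this
    simpa using this
  refine ⟨βi, hl2, ?_⟩
  intro x
  have hd := scalar_rest H hQ z hz i j hij βi hei hfi
    (x - (x (ea i) • Pi.single (ea i) 1 + x (eb i) • Pi.single (eb i) 1 +
      x (ea j) • Pi.single (ea j) 1 + x (eb j) • Pi.single (eb j) 1))
    (by simp [n1, H.ea_inj, hij]) (by simp [n2, H.eb_inj, hij])
    (by simp [n1, H.ea_inj, hij.symm]) (by simp [n2, H.eb_inj, hij.symm])
  rw [mulVec_sub, mulVec_add, mulVec_add, mulVec_add, mulVec_smul, mulVec_smul, mulVec_smul,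
    mulVec_smul, hei, hfi, hej, hfj] at hd
  have h6 : mat z *ᵥ x = βi • (x - (x (ea i) • Pi.single (ea i) 1 + x (eb i) • Pi.single (eb i) 1 +
      x (ea j) • Pi.single (ea j) 1 + x (eb j) • Pi.single (eb j) 1)) +
      (x (ea i) • βi • Pi.single (ea i) 1 + x (eb i) • βi • Pi.single (eb i) 1 +
      x (ea j) • βi • Pi.single (ea j) 1 + x (eb j) • βi • Pi.single (eb j) 1) := by
    rw [← hd]; abel
  rw [h6]
  module

end scalar

section center

variable {Q}
variable {κ : Type*} {ea eb : κ → ι} (H : HypCoords Q ea eb)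
  (hQ : (QuadraticMap.polarBilin Q).Nondegenerate)

include H hQ

theorem mem_center_iff [Fintype F] (hex : Fintype.card F ≠ 2 ∨ Fintype.card ι ≠ 4)
    (hn : 2 ≤ Fintype.card ι) (i j : κ) (hij : i ≠ j) (z : ↥(Cfsg.Omega F ⇑Q)) :
    z ∈ Subgroup.center ↥(Cfsg.Omega F ⇑Q) ↔ (mat z.1 = 1 ∨ mat z.1 = -1) := by
  constructor
  · intro hz
    rw [Subgroup.mem_center_iff] at hz
    obtain ⟨l, hl, hzl⟩ := scalar H hQ z.1 (by
      intro u v hu hv huv
      have := hz ⟨siegelEl Q hQ u v hu hv huv 1, siegel_mem_omega Q hQ hex hn u v hu hv huv 1⟩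
      exact (congrArg Subtype.val this).symm) i j hij
    have hl' : l = 1 ∨ l = -1 := by
      have : (l - 1) * (l + 1) = 0 := by linear_combination hl
      rcases mul_eq_zero.mp this with h | h
      · left; linear_combination h
      · right; linear_combination h
    rcases hl' with rfl | rfl
    · left
      rw [Matrix.ext_iff_mulVec]
      intro x
      rw [hzl, one_smul, one_mulVec]
    · right
      rw [Matrix.ext_iff_mulVec]
      intro x
      rw [hzl, neg_mulVec, one_mulVec, neg_smul, one_smul]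
  · intro hz
    rw [Subgroup.mem_center_iff]
    intro g
    apply Subtype.ext
    apply mat_injective
    show mat g.1 * mat z.1 = mat z.1 * mat g.1
    rcases hz with h | h <;> rw [h] <;> simp

theorem card_pomega_of_not [Fintype F] (hex : Fintype.card F ≠ 2 ∨ Fintype.card ι ≠ 4)
    (hn : 2 ≤ Fintype.card ι) (i j : κ) (hij : i ≠ j)
    (h : (¬ ∃ g : ↥(Cfsg.isometryGroup F ⇑Q), g ∈ Cfsg.Omega F ⇑Q ∧ mat g = -1) ∨ (2 : F) = 0) :
    Nat.card (Cfsg.POmega F ⇑Q) = Nat.card ↥(Cfsg.Omega F ⇑Q) := by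
  have hbot : Subgroup.center ↥(Cfsg.Omega F ⇑Q) = ⊥ := by
    rw [eq_bot_iff]
    intro z hz
    rw [mem_center_iff H hQ hex hn i j hij] at hz
    rw [Subgroup.mem_bot]
    have h1 : mat z.1 = 1 := by
      rcases hz with hz | hz
      · exact hz
      · rcases h with h | h
        · exact absurd ⟨z.1, z.2, hz⟩ h
        · rw [hz]
          have : (-1 : F) = 1 := by linear_combination -h
          ext a b
          by_cases hab : a = b
          · subst hab; simp [this]
          · simp [hab]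
    apply Subtype.ext
    exact mat_injective h1
  have := Subgroup.card_eq_card_quotient_mul_card_subgroup (Subgroup.center ↥(Cfsg.Omega F ⇑Q))
  have hc : Nat.card (Subgroup.center ↥(Cfsg.Omega F ⇑Q)) = 1 := by
    rw [hbot, Subgroup.card_bot]
  rw [hc, mul_one] at this
  exact this.symm

theorem card_pomega_of_neg [Fintype F] (hex : Fintype.card F ≠ 2 ∨ Fintype.card ι ≠ 4)
    (hn : 2 ≤ Fintype.card ι) (i j : κ) (hij : i ≠ j)
    (h : ∃ g : ↥(Cfsg.isometryGroup F ⇑Q), g ∈ Cfsg.Omega F ⇑Q ∧ mat g = -1) (h2 : (2 : F) ≠ 0) :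
    Nat.card (Cfsg.POmega F ⇑Q) * 2 = Nat.card ↥(Cfsg.Omega F ⇑Q) := by
  obtain ⟨g, hg, hgm⟩ := h
  have hne : Nonempty ι := Fintype.card_pos_iff.mp (by omega)
  have hc : Nat.card (Subgroup.center ↥(Cfsg.Omega F ⇑Q)) = 2 := by
    rw [Nat.card_eq_two_iff]
    refine ⟨⟨1, Subgroup.one_mem _⟩, ⟨⟨g, hg⟩, (mem_center_iff H hQ hex hn i j hij _).mpr
      (Or.inr hgm)⟩, ?_, ?_⟩
    · intro h
      have h3 : (1 : ↥(Cfsg.Omega F ⇑Q)) = ⟨g, hg⟩ := congrArg Subtype.val h
      have h4 : (1 : ↥(Cfsg.isometryGroup F ⇑Q)) = g := congrArg Subtype.val h3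
      have h5 : (1 : Matrix ι ι F) = -1 := by rw [← hgm, ← h4, mat_one]
      obtain ⟨a⟩ := hne
      have h6 := congrFun (congrFun h5 a) a
      simp at h6
      apply h2
      linear_combination h6
    · rw [Set.eq_univ_iff_forall]
      intro z
      have hz := (mem_center_iff H hQ hex hn i j hij z.1).mp z.2
      rcases hz with hz | hz
      · left
        apply Subtype.ext
        apply Subtype.ext
        exact mat_injective hz
      · right
        apply Subtype.ext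
        apply Subtype.ext
        exact mat_injective (hz.trans hgm.symm)
  have := Subgroup.card_eq_card_quotient_mul_card_subgroup (Subgroup.center ↥(Cfsg.Omega F ⇑Q))
  rw [hc] at this
  exact this.symm

end center

end Cfsg.Agent.Lib.Helper5.OrthCenter
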