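import Mathlib
import Cfsg.Prelude.Def_ClassicalGeometry
import Cfsg.Agent.Lib.Helper5.OrthSum

set_option autoImplicit false
set_option linter.unusedSectionVars false

namespace Cfsg.Agent.Lib.Helper5.OrthTrans

open Matrix Cfsg.Agent.Lib.Helper5.OrthCard Cfsg.Agent.Lib.Helper5.Orth
  Cfsg.Agent.Lib.Helper5.OrthGen QuadraticMap Cfsg.Agent.Lib.Helper5.OrthRefl
  Cfsg.Agent.Lib.Helper5.Dickson Cfsg.Agent.Lib.Helper5.Spinor

variable {F : Type*} [Field F] {ι : Type} [Fintype ι] [DecidableEq ι]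
variable (Q : QuadraticForm F (ι → F))

/-- Witt's theorem for the matrix isometry group -/
theorem witt_iso (hQ : (QuadraticMap.polarBilin Q).Nondegenerate) (X Y : Submodule F (ι → F))
    (φ : X ≃ₗ[F] Y) (hq : ∀ x : X, Q (φ x : ι → F) = Q (x : ι → F)) :
    ∃ A : ↥(Cfsg.isometryGroup F ⇑Q), ∀ x : X, mat A *ᵥ (x : ι → F) = (φ x : ι → F) := by
  obtain ⟨g, hg, hgx⟩ := Cfsg.Agent.Lib.Helper5.WittGen.witt (wd_of_quadratic Q hQ) X Y φ (by
    intro x x'
    show polar ⇑Q (φ x : ι → F) (φ x' : ι → F) = polar ⇑Q (x : ι → F) (x' : ι → F)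
    unfold polar
    have h1 := hq (x + x')
    rw [map_add] at h1
    simp only [Submodule.coe_add] at h1
    rw [h1, hq, hq]) hq
  obtain ⟨A, hA⟩ := exists_iso_of_linearMap Q hQ (g : (ι → F) →ₗ[F] (ι → F)) hg.2
  exact ⟨A, fun x => by rw [hA]; exact hgx x⟩

/-- the image of a subspace -/
def img {Q : (ι → F) → F} (g : ↥(Cfsg.isometryGroup F Q)) (U : Submodule F (ι → F)) :
    Submodule F (ι → F) := U.map (Matrix.mulVecLin (mat g))

theorem mem_img {Q : (ι → F) → F} (g : ↥(Cfsg.isometryGroup F Q)) (U : Submodule F (ι → F))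
    (y : ι → F) : y ∈ img g U ↔ ∃ x ∈ U, mat g *ᵥ x = y := by
  unfold img
  rw [Submodule.mem_map]
  rfl

theorem img_mul {Q : (ι → F) → F} (g h : ↥(Cfsg.isometryGroup F Q)) (U : Submodule F (ι → F)) :
    img (g * h) U = img g (img h U) := by
  ext y
  simp only [mem_img]
  constructor
  · rintro ⟨x, hx, rfl⟩
    exact ⟨mat h *ᵥ x, ⟨x, hx, rfl⟩, by rw [mat_mul_mulVec]⟩
  · rintro ⟨_, ⟨x, hx, rfl⟩, rfl⟩
    exact ⟨x, hx, by rw [mat_mul_mulVec]⟩

theorem img_one {Q : (ι → F) → F} (U : Submodule F (ι → F)) :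
    img (1 : ↥(Cfsg.isometryGroup F Q)) U = U := by
  ext y
  simp only [mem_img, mat_one_mulVec]
  simp

theorem mulVec_injective {Q : (ι → F) → F} (g : ↥(Cfsg.isometryGroup F Q)) :
    Function.Injective (Matrix.mulVecLin (mat g)) := by
  intro x y h
  have := congrArg (fun z => mat g⁻¹ *ᵥ z) h
  simp only [Matrix.mulVecLin_apply, mat_inv_mulVec] at this
  exact this

theorem finrank_img {Q : (ι → F) → F} (g : ↥(Cfsg.isometryGroup F Q)) (U : Submodule F (ι → F)) :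
    Module.finrank F (img g U) = Module.finrank F U :=
  (Submodule.equivMapOfInjective _ (mulVec_injective g) U).finrank_eq.symm

theorem img_eq_of_le {Q : (ι → F) → F} (g : ↥(Cfsg.isometryGroup F Q)) (W : Submodule F (ι → F))
    (h : ∀ x ∈ W, mat g *ᵥ x ∈ W) : img g W = W := by
  apply Submodule.eq_of_le_of_finrank_eq
  · intro y hy
    obtain ⟨x, hx, rfl⟩ := (mem_img g W y).mp hy
    exact h x hx
  · exact finrank_img g W

theorem img_of_witt {Q : (ι → F) → F} (A : ↥(Cfsg.isometryGroup F Q)) (X Y : Submodule F (ι → F))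
    (φ : X ≃ₗ[F] Y) (hA : ∀ x : X, mat A *ᵥ (x : ι → F) = (φ x : ι → F)) : img A X = Y := by
  ext y
  rw [mem_img]
  constructor
  · rintro ⟨x, hx, rfl⟩
    rw [hA ⟨x, hx⟩]
    exact (φ ⟨x, hx⟩).2
  · intro hy
    refine ⟨(φ.symm ⟨y, hy⟩ : ι → F), (φ.symm ⟨y, hy⟩).2, ?_⟩
    rw [hA, LinearEquiv.apply_symm_apply]

theorem img_refl_of_mem (W : Submodule F (ι → F)) (a : ι → F) (ha : Q a ≠ 0) (haW : a ∈ W) :
    img (refl Q a ha) W = W := by
  apply img_eq_of_le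
  intro x hx
  rw [mat_refl, reflectionMatrix_mulVec]
  exact W.sub_mem hx (W.smul_mem _ haW)

theorem img_refl_of_orth (W : Submodule F (ι → F)) (a : ι → F) (ha : Q a ≠ 0)
    (haW : ∀ x ∈ W, polar ⇑Q a x = 0) : img (refl Q a ha) W = W := by
  apply img_eq_of_le
  intro x hx
  rw [mat_refl, reflection_fix Q a x (haW x hx)]
  exact hx

/-- adjusting into `Ω` in characteristic two -/
theorem adjust_two [Fintype F] (h2 : (2 : F) = 0) (hQ : (QuadraticMap.polarBilin Q).Nondegenerate)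
    (hex : Fintype.card F ≠ 2 ∨ Fintype.card ι ≠ 4) (U W : Submodule F (ι → F))
    (g₀ : ↥(Cfsg.isometryGroup F ⇑Q)) (hg₀ : img g₀ U = W)
    (x : ↥(Cfsg.isometryGroup F ⇑Q)) (hx : img x W = W) (hdx : dk x = -1) :
    ∃ g : ↥(Cfsg.isometryGroup F ⇑Q), g ∈ Cfsg.Omega F ⇑Q ∧ img g U = W := by
  rcases Int.units_eq_one_or (dk g₀) with h | h
  · exact ⟨g₀, (Dickson.omega_iff Q h2 hQ hex g₀).mpr h, hg₀⟩
  · refine ⟨x * g₀, (Dickson.omega_iff Q h2 hQ hex _).mpr ?_, ?_⟩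
    · rw [dk_mul Q hQ hex, hdx, h]; rfl
    · rw [img_mul, hg₀, hx]

/-- adjusting into `Ω` in odd characteristic -/
theorem adjust_odd (θ sd : ↥(Cfsg.isometryGroup F ⇑Q) →* ℤˣ)
    (hΩ : ∀ g, g ∈ Cfsg.Omega F ⇑Q ↔ θ g = 1 ∧ sd g = 1) (U W : Submodule F (ι → F))
    (g₀ : ↥(Cfsg.isometryGroup F ⇑Q)) (hg₀ : img g₀ U = W)
    (x y : ↥(Cfsg.isometryGroup F ⇑Q)) (hx : img x W = W) (hy : img y W = W)
    (hsx : sd x = -1 ∨ sd g₀ = 1) (hty : θ y = -1) (hsy : sd y = 1) :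
    ∃ g : ↥(Cfsg.isometryGroup F ⇑Q), g ∈ Cfsg.Omega F ⇑Q ∧ img g U = W := by
  obtain ⟨g₁, hg₁, hs₁⟩ : ∃ g₁ : ↥(Cfsg.isometryGroup F ⇑Q), img g₁ U = W ∧ sd g₁ = 1 := by
    rcases Int.units_eq_one_or (sd g₀) with h | h
    · exact ⟨g₀, hg₀, h⟩
    · rcases hsx with h' | h'
      · exact ⟨x * g₀, by rw [img_mul, hg₀, hx], by rw [map_mul, h', h]; rfl⟩
      · exact ⟨g₀, hg₀, h'⟩
  rcases Int.units_eq_one_or (θ g₁) with h | h
  · exact ⟨g₁, (hΩ g₁).mpr ⟨h, hs₁⟩, hg₁⟩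
  · exact ⟨y * g₁, (hΩ _).mpr ⟨by rw [map_mul, hty, h]; rfl, by rw [map_mul, hsy, hs₁]; rfl⟩,
      by rw [img_mul, hg₁, hy]⟩

/-- a singular partner -/
theorem exists_partner (hQ : (QuadraticMap.polarBilin Q).Nondegenerate) (e : ι → F) (he0 : e ≠ 0)
    (he : Q e = 0) : ∃ f, Q f = 0 ∧ polar ⇑Q e f = 1 := by
  obtain ⟨y, hy⟩ := exists_polar_ne Q hQ e he0
  refine ⟨(polar ⇑Q e y)⁻¹ • y - (Q ((polar ⇑Q e y)⁻¹ • y)) • e, ?_, ?_⟩
  · rw [map_sub_smul, he, polar_smul_right, smul_eq_mul, inv_mul_cancel₀ hy]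
    ring
  · rw [polar_sub_right, polar_smul_right, polar_smul_right, polar_self', he, smul_eq_mul,
      inv_mul_cancel₀ hy]
    simp

/-- the hyperbolic rotation -/
theorem exists_rotation (e f : ι → F) (he : Q e = 0) (hf : Q f = 0) (hef : polar ⇑Q e f = 1)
    (l : F) (hl : l ≠ 0) :
    ∃ (h1 : Q (e - (1 : F) • f) ≠ 0) (h2 : Q (e - l • f) ≠ 0),
      Q (e - (1 : F) • f) = -1 ∧ Q (e - l • f) = -l ∧
      ∀ x, polar ⇑Q e x = 0 →
        mat (refl Q _ h1 * refl Q _ h2) *ᵥ x = x + ((l - 1) * polar ⇑Q f x) • e := by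
  have q : ∀ c : F, Q (e - c • f) = -c := by
    intro c
    rw [map_sub_smul, he, hf, polar_comm, hef]; ring
  refine ⟨by rw [q]; simp, by rw [q]; simpa using hl, q 1, q l, ?_⟩
  intro x hx
  rw [mat_mul_mulVec, mat_refl, mat_refl, reflectionMatrix_mulVec, reflectionMatrix_mulVec, q, q]
  have hfe : polar ⇑Q f e = 1 := by rw [polar_comm, hef]
  simp only [polar_sub_left, polar_sub_right, polar_smul_left, polar_smul_right, polar_self', he,
    hf, hef, hfe, hx, smul_eq_mul]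
  have e1 : (-l)⁻¹ * (0 - l * polar ⇑Q f x) = polar ⇑Q f x := by
    field_simp
    ring
  rw [e1]
  have e2 : (-1 : F)⁻¹ * (0 - 1 * polar ⇑Q f x - polar ⇑Q f x *
      (2 * 0 - 1 * 1 - l * (1 - 1 * (2 * 0)))) = - (l * polar ⇑Q f x) := by
    field_simp
    ring
  rw [e2]
  module

theorem polar_of_ts (W : Submodule F (ι → F)) (hW : ∀ w ∈ W, Q w = 0) (x y : ι → F) (hx : x ∈ W)
    (hy : y ∈ W) : polar ⇑Q x y = 0 := by
  unfold polar
  rw [hW _ hx, hW _ hy, hW _ (W.add_mem hx hy)]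
  simp

theorem exists_nonsing_orth (hQ : (QuadraticMap.polarBilin Q).Nondegenerate)
    (W : Submodule F (ι → F)) (hk : 2 * Module.finrank F W < Fintype.card ι) :
    ∃ a, Q a ≠ 0 ∧ ∀ x ∈ W, polar ⇑Q a x = 0 := by
  by_contra hcon
  push Not at hcon
  have hts : ∀ a ∈ LinearMap.BilinForm.orthogonal (QuadraticMap.polarBilin Q) W, Q a = 0 := by
    intro a ha
    by_contra h0
    obtain ⟨x, hx, hne⟩ := hcon a h0
    apply hne
    rw [polar_comm]
    exact (LinearMap.BilinForm.mem_orthogonal_iff.mp ha) x hx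
  have h1 : LinearMap.BilinForm.orthogonal (QuadraticMap.polarBilin Q) W ≤
      LinearMap.BilinForm.orthogonal (QuadraticMap.polarBilin Q)
        (LinearMap.BilinForm.orthogonal (QuadraticMap.polarBilin Q) W) := by
    intro x hx
    rw [LinearMap.BilinForm.mem_orthogonal_iff]
    intro y hy
    exact polar_of_ts Q _ hts y x hy hx
  have h2 := Submodule.finrank_mono h1
  have h3 := LinearMap.BilinForm.finrank_orthogonal hQ W
  have h4 := LinearMap.BilinForm.finrank_orthogonal hQ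
    (LinearMap.BilinForm.orthogonal (QuadraticMap.polarBilin Q) W)
  rw [Module.finrank_fintype_fun_eq_card] at h3 h4
  omega

theorem trans_ts [Fintype F] (hQ : (QuadraticMap.polarBilin Q).Nondegenerate)
    (hex : Fintype.card F ≠ 2 ∨ Fintype.card ι ≠ 4) (U W : Submodule F (ι → F)) {k : ℕ}
    (hk : 2 * k < Fintype.card ι) (hU : Module.finrank F U = k) (hW : Module.finrank F W = k)
    (hU0 : ∀ u ∈ U, Q u = 0) (hW0 : ∀ w ∈ W, Q w = 0) :
    ∃ g : ↥(Cfsg.isometryGroup F ⇑Q), g ∈ Cfsg.Omega F ⇑Q ∧ img g U = W := by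
  classical
  obtain ⟨g₀, hg₀⟩ := witt_iso Q hQ U W (LinearEquiv.ofFinrankEq U W (by rw [hU, hW])) (by
    intro x
    rw [hU0 _ x.2, hW0 _ (Subtype.prop _)])
  have hg₀' := img_of_witt g₀ U W _ hg₀
  obtain ⟨a, ha, haW⟩ := exists_nonsing_orth Q hQ W (by rw [hW]; exact hk)
  by_cases h2 : (2 : F) = 0
  · exact adjust_two Q h2 hQ hex U W g₀ hg₀' (refl Q a ha) (img_refl_of_orth Q W a ha haW)
      (dk_refl Q hQ a ha)
  · by_cases hk0 : k = 0
    · subst hk0
      rw [Submodule.finrank_eq_zero] at hU hW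
      exact ⟨1, Subgroup.one_mem _, by rw [img_one, hU, hW]⟩
    · obtain ⟨θ, sd, hθ, hsd, _, hΩ⟩ := Spinor.main Q h2 hQ (by omega)
      have hWne : W ≠ ⊥ := by
        intro h
        rw [h, finrank_bot] at hW
        exact hk0 hW.symm
      obtain ⟨e, heW, he0⟩ := Submodule.exists_mem_ne_zero_of_ne_bot hWne
      obtain ⟨f, hf, hef⟩ := exists_partner Q hQ e he0 (hW0 e heW)
      obtain ⟨η, hη⟩ := exists_nonsq (F := F) h2
      have hη0 : η ≠ 0 := by
        rintro rfl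
        exact hη ⟨0, by simp⟩
      obtain ⟨h1, h3, q1, q2, hrot⟩ := exists_rotation Q e f (hW0 e heW) hf hef η hη0
      refine adjust_odd Q θ sd hΩ U W g₀ hg₀' (refl Q a ha) (refl Q _ h1 * refl Q _ h3)
        (img_refl_of_orth Q W a ha haW) ?_ (Or.inl (hsd a ha)) ?_ ?_
      · apply img_eq_of_le
        intro x hx
        rw [hrot x (polar_of_ts Q W hW0 e x heW hx)]
        exact W.add_mem hx (W.smul_mem _ heW)
      · rw [map_mul, hθ, hθ, q1, q2, ← qs_mul (by simp) (by simpa using hη0)]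
        have : (-1 : F) * -η = η := by ring
        rw [this]
        exact qs_of_not_isSquare hη
      · rw [map_mul, hsd, hsd]; rfl

theorem repr_sub [Fintype F] (W : Submodule F (ι → F))
    (hW : W ⊓ LinearMap.BilinForm.orthogonal (QuadraticMap.polarBilin Q) W = ⊥)
    (h2 : 2 ≤ Module.finrank F W) (c : F) : ∃ a ∈ W, Q a = c := by
  obtain ⟨v, hv⟩ := Cfsg.Agent.Lib.Helper4.QuadFin.represents (Q := Q.comp W.subtype) (by
    intro v hv
    have h1 : (v : ι → F) ∈ W ⊓ LinearMap.BilinForm.orthogonal (QuadraticMap.polarBilin Q) W := by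
      refine ⟨v.2, ?_⟩
      show (v : ι → F) ∈ LinearMap.BilinForm.orthogonal (QuadraticMap.polarBilin Q) W
      rw [LinearMap.BilinForm.mem_orthogonal_iff]
      intro w hw
      show polar ⇑Q w v = 0
      rw [polar_comm]
      exact hv ⟨w, hw⟩
    rw [hW, Submodule.mem_bot] at h1
    exact Subtype.ext h1) h2 c
  exact ⟨v.1, v.2, hv⟩

theorem trans_nondeg [Fintype F] (hQ : (QuadraticMap.polarBilin Q).Nondegenerate)
    (hn : 3 ≤ Fintype.card ι)
    (hex : Fintype.card F ≠ 2 ∨ Fintype.card ι ≠ 4) (U W : Submodule F (ι → F))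
    (hW : W ⊓ LinearMap.BilinForm.orthogonal (QuadraticMap.polarBilin Q) W = ⊥)
    (e : U ≃ₗ[F] W) (he : ∀ u : U, Q (e u : ι → F) = Q (u : ι → F)) :
    ∃ g : ↥(Cfsg.isometryGroup F ⇑Q), g ∈ Cfsg.Omega F ⇑Q ∧ img g U = W := by
  classical
  obtain ⟨g₀, hg₀⟩ := witt_iso Q hQ U W e he
  have hg₀' := img_of_witt g₀ U W _ hg₀
  have hrefl : (QuadraticMap.polarBilin Q).IsRefl := by
    intro x y h
    show polar ⇑Q y x = 0
    rw [polar_comm]
    exact h
  have key : ∀ c : F, c ≠ 0 → ∃ (a : ι → F) (ha : Q a ≠ 0), Q a = c ∧ img (refl Q a ha) W = W := by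
    intro c hc
    by_cases h2 : 2 ≤ Module.finrank F W
    · obtain ⟨a, haW, hac⟩ := repr_sub Q W hW h2 c
      exact ⟨a, by rw [hac]; exact hc, hac, img_refl_of_mem Q W a _ haW⟩
    · obtain ⟨a, haW, hac⟩ := repr_sub Q
        (LinearMap.BilinForm.orthogonal (QuadraticMap.polarBilin Q) W) (by
          rw [LinearMap.BilinForm.orthogonal_orthogonal hQ hrefl, inf_comm]
          exact hW) (by
          rw [LinearMap.BilinForm.finrank_orthogonal hQ, Module.finrank_fintype_fun_eq_card]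
          omega) c
      refine ⟨a, by rw [hac]; exact hc, hac, img_refl_of_orth Q W a _ ?_⟩
      intro x hx
      rw [polar_comm]
      exact (LinearMap.BilinForm.mem_orthogonal_iff.mp haW) x hx
  obtain ⟨a, ha, hac, haW⟩ := key 1 one_ne_zero
  by_cases h2 : (2 : F) = 0
  · exact adjust_two Q h2 hQ hex U W g₀ hg₀' (refl Q a ha) haW (dk_refl Q hQ a ha)
  · obtain ⟨θ, sd, hθ, hsd, _, hΩ⟩ := Spinor.main Q h2 hQ (by omega)
    obtain ⟨η, hη⟩ := exists_nonsq (F := F) h2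
    have hη0 : η ≠ 0 := by
      rintro rfl
      exact hη ⟨0, by simp⟩
    obtain ⟨b, hb, hbc, hbW⟩ := key η hη0
    refine adjust_odd Q θ sd hΩ U W g₀ hg₀' (refl Q a ha) (refl Q a ha * refl Q b hb) haW
      (by rw [img_mul, hbW, haW]) (Or.inl (hsd a ha)) ?_ ?_
    · rw [map_mul, hθ, hθ, hac, hbc, qs_of_isSquare ⟨1, by simp⟩, qs_of_not_isSquare hη]; rfl
    · rw [map_mul, hsd, hsd]; rfl

end Cfsg.Agent.Lib.Helper5.OrthTrans
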