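import Mathlib
import Cfsg.Prelude.Def_ClassicalGeometry
import Cfsg.Agent.Lib.Helper5.OrthTrans

set_option autoImplicit false
set_option linter.unusedSectionVars false

namespace Cfsg.Agent.Lib.Helper5.OrthClass

open Matrix Cfsg.Agent.Lib.Helper5.OrthCard Cfsg.Agent.Lib.Helper5.Orth
  Cfsg.Agent.Lib.Helper5.OrthGen QuadraticMap Cfsg.Agent.Lib.Helper5.OrthRefl
  Cfsg.Agent.Lib.Helper5.Dickson Cfsg.Agent.Lib.Helper5.Spinor Cfsg.Agent.Lib.Helper5.OrthTrans
  Cfsg.Agent.Lib.Helper5.OrthSum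

variable {F : Type*} [Field F] {ι : Type} [Fintype ι] [DecidableEq ι]
variable (Q : QuadraticForm F (ι → F))

/-- maximal totally singular subspaces of a hyperbolic space -/
def Lag (U : Submodule F (ι → F)) : Prop :=
  (∀ x ∈ U, Q x = 0) ∧ 2 * Module.finrank F U = Fintype.card ι

theorem Lag.orth {U : Submodule F (ι → F)} (hU : Lag Q U)
    (hQ : (QuadraticMap.polarBilin Q).Nondegenerate) :
    LinearMap.BilinForm.orthogonal (QuadraticMap.polarBilin Q) U = U := by
  symm
  apply Submodule.eq_of_le_of_finrank_eq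
  · intro x hx
    rw [LinearMap.BilinForm.mem_orthogonal_iff]
    intro y hy
    exact polar_of_ts Q U hU.1 y x hy hx
  · rw [LinearMap.BilinForm.finrank_orthogonal hQ, Module.finrank_fintype_fun_eq_card]
    have := hU.2
    omega

theorem Lag.img {U : Submodule F (ι → F)} (hU : Lag Q U) (g : ↥(Cfsg.isometryGroup F ⇑Q)) :
    Lag Q (img g U) := by
  constructor
  · intro y hy
    obtain ⟨x, hx, rfl⟩ := (mem_img g U y).mp hy
    rw [mat_preserves g x]
    exact hU.1 x hx
  · rw [finrank_img]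
    exact hU.2

theorem orth_inf (hQ : (QuadraticMap.polarBilin Q).Nondegenerate) {U U' : Submodule F (ι → F)}
    (hU : Lag Q U) (hU' : Lag Q U') :
    LinearMap.BilinForm.orthogonal (QuadraticMap.polarBilin Q) (U ⊓ U') = U ⊔ U' := by
  have hrefl : (QuadraticMap.polarBilin Q).IsRefl := by
    intro x y h
    show polar ⇑Q y x = 0
    rw [polar_comm]
    exact h
  have h1 : LinearMap.BilinForm.orthogonal (QuadraticMap.polarBilin Q) (U ⊔ U') = U ⊓ U' := by
    ext x
    rw [LinearMap.BilinForm.mem_orthogonal_iff, Submodule.mem_inf]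
    constructor
    · intro h
      constructor
      · rw [← hU.orth Q hQ, LinearMap.BilinForm.mem_orthogonal_iff]
        intro y hy
        exact h y (Submodule.mem_sup_left hy)
      · rw [← hU'.orth Q hQ, LinearMap.BilinForm.mem_orthogonal_iff]
        intro y hy
        exact h y (Submodule.mem_sup_right hy)
    · rintro ⟨h1, h2⟩ y hy
      obtain ⟨a, ha, b, hb, rfl⟩ := Submodule.mem_sup.mp hy
      show polar ⇑Q (a + b) x = 0
      rw [polar_add_left, polar_of_ts Q U hU.1 a x ha h1, polar_of_ts Q U' hU'.1 b x hb h2,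
        add_zero]
  rw [← h1, LinearMap.BilinForm.orthogonal_orthogonal hQ hrefl]

theorem parity (hQ : (QuadraticMap.polarBilin Q).Nondegenerate) {U U' : Submodule F (ι → F)}
    (hU : Lag Q U) (hU' : Lag Q U') (v : ι → F) (hv : Q v ≠ 0) :
    Module.finrank F (U ⊓ img (refl Q v hv) U' : Submodule F (ι → F)) =
        Module.finrank F (U ⊓ U' : Submodule F (ι → F)) + 1 ∨
      Module.finrank F (U ⊓ img (refl Q v hv) U' : Submodule F (ι → F)) + 1 =
        Module.finrank F (U ⊓ U' : Submodule F (ι → F)) := by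
  have hrr : ∀ y, Cfsg.reflectionMatrix ⇑Q v *ᵥ (Cfsg.reflectionMatrix ⇑Q v *ᵥ y) = y := by
    intro y
    rw [mulVec_mulVec, reflection_sq Q v hv, one_mulVec]
  have j1 : (U ⊓ U') ⊓ LinearMap.ker (QuadraticMap.polarBilin Q v) ≤
      U ⊓ img (refl Q v hv) U' := by
    rintro x ⟨⟨h1, h2⟩, h3⟩
    exact ⟨h1, (mem_img _ _ _).mpr ⟨x, h2, by rw [mat_refl, reflection_fix Q v x h3]⟩⟩
  have j2 : (U ⊓ img (refl Q v hv) U') ⊓ LinearMap.ker (QuadraticMap.polarBilin Q v) ≤
      U ⊓ U' := by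
    rintro x ⟨⟨h1, h2⟩, h3⟩
    refine ⟨h1, ?_⟩
    obtain ⟨y, hy, hyx⟩ := (mem_img _ _ _).mp h2
    rw [mat_refl] at hyx
    have : y = x := by
      have h4 := hrr y
      rw [hyx, reflection_fix Q v x h3] at h4
      exact h4.symm
    rw [← this]; exact hy
  have k1 := (finrank_inf_ker (U ⊓ U') (QuadraticMap.polarBilin Q v)).trans
    (Nat.add_le_add_right (Submodule.finrank_mono j1) 1)
  have k2 := (finrank_inf_ker (U ⊓ img (refl Q v hv) U') (QuadraticMap.polarBilin Q v)).trans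
    (Nat.add_le_add_right (Submodule.finrank_mono j2) 1)
  by_cases hf : ∃ f ∈ U ⊓ U', polar ⇑Q v f ≠ 0
  · right
    obtain ⟨f, ⟨hf1, hf2⟩, hvf⟩ := hf
    have key : ∀ x ∈ U ⊓ img (refl Q v hv) U', x ∈ U' ∧ polar ⇑Q v x = 0 := by
      rintro x ⟨h1, h2⟩
      obtain ⟨y, hy, hyx⟩ := (mem_img _ _ _).mp h2
      rw [mat_refl, reflectionMatrix_mulVec] at hyx
      have e1 := polar_of_ts Q U hU.1 x f h1 hf1
      have e2 := polar_of_ts Q U' hU'.1 y f hy hf2
      rw [← hyx, polar_sub_left, polar_smul_left, e2, smul_eq_mul] at e1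
      have e3 : polar ⇑Q v y = 0 := by
        have : (Q v)⁻¹ * polar ⇑Q v y * polar ⇑Q v f = 0 := by linear_combination -e1
        rcases mul_eq_zero.mp this with h | h
        · exact (mul_eq_zero.mp h).resolve_left (inv_ne_zero hv)
        · exact absurd h hvf
      rw [e3, mul_zero, zero_smul, sub_zero] at hyx
      rw [← hyx]
      exact ⟨hy, e3⟩
    have hlt : U ⊓ img (refl Q v hv) U' < U ⊓ U' := by
      rw [SetLike.lt_iff_le_and_exists]
      refine ⟨fun x hx => ⟨hx.1, (key x hx).1⟩, f, ⟨hf1, hf2⟩, ?_⟩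
      intro h
      exact hvf (key f h).2
    have := Submodule.finrank_lt_finrank_of_lt hlt
    omega
  · left
    push Not at hf
    have hvmem : v ∈ U ⊔ U' := by
      rw [← orth_inf Q hQ hU hU', LinearMap.BilinForm.mem_orthogonal_iff]
      intro f hf'
      show polar ⇑Q f v = 0
      rw [polar_comm]
      exact hf f hf'
    obtain ⟨u₀, hu₀, u₁, hu₁, huv⟩ := Submodule.mem_sup.mp hvmem
    have hlt : U ⊓ U' < U ⊓ img (refl Q v hv) U' := by
      rw [SetLike.lt_iff_le_and_exists]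
      refine ⟨?_, u₀, ⟨hu₀, ?_⟩, ?_⟩
      · intro x hx
        exact j1 ⟨hx, hf x hx⟩
      · show u₀ ∈ img (refl Q v hv) U'
        rw [mem_img]
        refine ⟨-u₁, U'.neg_mem hu₁, ?_⟩
        rw [mat_refl, reflectionMatrix_mulVec]
        have e1 : polar ⇑Q v (-u₁) = - Q v := by
          rw [polar_neg_right, ← huv, polar_add_left, polar_self', hU'.1 u₁ hu₁,
            QuadraticMap.map_add Q, hU.1 u₀ hu₀, hU'.1 u₁ hu₁]
          ring
        rw [e1, mul_neg, inv_mul_cancel₀ hv, neg_smul, one_smul, ← huv]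
        abel
      · rintro ⟨_, h⟩
        apply hv
        rw [← huv]
        exact hU'.1 _ (U'.add_mem h hu₁)
    have := Submodule.finrank_lt_finrank_of_lt hlt
    omega

theorem class_eq_dk [Fintype F] (hQ : (QuadraticMap.polarBilin Q).Nondegenerate)
    (hex : Fintype.card F ≠ 2 ∨ Fintype.card ι ≠ 4) {U : Submodule F (ι → F)} (hU : Lag Q U)
    (g : ↥(Cfsg.isometryGroup F ⇑Q)) :
    (-1 : ℤˣ) ^ Module.finrank F (U ⊓ img g U : Submodule F (ι → F)) =
      (-1) ^ Module.finrank F U * dk g := by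
  have hg : g ∈ R Q := by rw [R_eq_top' Q hQ hex]; trivial
  have step : ∀ (v : ι → F) (hv : Q v ≠ 0) (y : ↥(Cfsg.isometryGroup F ⇑Q)),
      (-1 : ℤˣ) ^ Module.finrank F (U ⊓ img y U : Submodule F (ι → F)) =
        (-1) ^ Module.finrank F U * dk y →
      (-1 : ℤˣ) ^ Module.finrank F (U ⊓ img (refl Q v hv * y) U : Submodule F (ι → F)) =
        (-1) ^ Module.finrank F U * dk (refl Q v hv * y) := by
    intro v hv y ih
    rw [img_mul, dk_mul Q hQ hex, dk_refl Q hQ]
    rcases parity Q hQ hU (hU.img Q y) v hv with h | h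
    · rw [h, pow_succ, ih]; simp
    · rw [← h, pow_succ] at ih
      have : (-1 : ℤˣ) ^ Module.finrank F (U ⊓ img (refl Q v hv) (img y U) : Submodule F (ι → F)) =
          (-1) ^ Module.finrank F U * dk y * -1 := by
        rw [← ih, mul_assoc]; simp
      rw [this]; simp
  induction hg using Subgroup.closure_induction_left with
  | one => rw [img_one, inf_idem, dk_one, mul_one]
  | mul_left x hx y hy ih =>
    obtain ⟨v, hv, hx'⟩ := hx
    have hx'' : x = refl Q v hv := mat_injective hx'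
    rw [hx'']
    exact step v hv y ih
  | inv_mul_cancel x hx y hy ih =>
    obtain ⟨v, hv, hx'⟩ := hx
    have hx'' : x = refl Q v hv := mat_injective hx'
    rw [hx'', refl_inv]
    exact step v hv y ih

theorem even_iff_dk [Fintype F] (hQ : (QuadraticMap.polarBilin Q).Nondegenerate)
    (hex : Fintype.card F ≠ 2 ∨ Fintype.card ι ≠ 4) {U : Submodule F (ι → F)} (hU : Lag Q U)
    (g : ↥(Cfsg.isometryGroup F ⇑Q)) :
    Even (Module.finrank F U - Module.finrank F (U ⊓ img g U : Submodule F (ι → F))) ↔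
      dk g = 1 := by
  have h1 := class_eq_dk Q hQ hex hU g
  have hle : Module.finrank F (U ⊓ img g U : Submodule F (ι → F)) ≤ Module.finrank F U :=
    Submodule.finrank_mono inf_le_left
  obtain ⟨d, hd⟩ := Nat.exists_eq_add_of_le hle
  rw [hd, Nat.add_sub_cancel_left]
  rw [hd, pow_add] at h1
  have h2 : (-1 : ℤˣ) ^ d * dk g = 1 := by
    have h3 : (-1 : ℤˣ) ^ Module.finrank F (U ⊓ img g U : Submodule F (ι → F)) *
        ((-1 : ℤˣ) ^ d * dk g) =
        (-1 : ℤˣ) ^ Module.finrank F (U ⊓ img g U : Submodule F (ι → F)) * 1 := by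
      rw [mul_one, ← mul_assoc, ← h1]
    exact mul_left_cancel h3
  rw [← neg_one_pow_eq_one_iff_even (R := ℤˣ) (by decide)]
  constructor
  · intro h
    rw [h, one_mul] at h2
    exact h2
  · intro h
    rw [h, mul_one] at h2
    exact h2

theorem dk_eq_one_iff_det [Fintype F] (h2 : (2 : F) ≠ 0)
    (hQ : (QuadraticMap.polarBilin Q).Nondegenerate) (g : ↥(Cfsg.isometryGroup F ⇑Q)) :
    dk g = 1 ↔ (mat g).det = 1 := by
  classical
  have hex : Fintype.card F ≠ 2 ∨ Fintype.card ι ≠ 4 := by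
    left
    intro h
    apply h2
    have h3 : ((Fintype.card F : ℕ) : F) = 0 := Nat.cast_card_eq_zero F
    rw [h] at h3
    exact_mod_cast h3
  obtain ⟨sd, hsd1, hsd⟩ := exists_sd Q h2 hQ
  have := hom_ext_refl Q (R_eq_top h2 Q hQ) (dkHom Q hQ hex) sd (by
    intro v hv
    rw [dkHom_apply, dk_refl Q hQ, hsd])
  rw [← hsd1, ← this, dkHom_apply]

variable {m : ℕ}

theorem lag_std (Qf : QuadraticForm F (Fin m ⊕ Fin m → F)) (hQf : ⇑Qf = Cfsg.quadFormPlus m F) :
    Lag Qf (LinearMap.ker (LinearMap.funLeft F F (Sum.inr : Fin m → Fin m ⊕ Fin m))) ∧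
    Module.finrank F (LinearMap.ker (LinearMap.funLeft F F (Sum.inr : Fin m → Fin m ⊕ Fin m))) =
      m := by
  have hfr : Module.finrank F
      (LinearMap.ker (LinearMap.funLeft F F (Sum.inr : Fin m → Fin m ⊕ Fin m))) = m := by
    have h1 := LinearMap.finrank_range_add_finrank_ker
      (LinearMap.funLeft F F (Sum.inr : Fin m → Fin m ⊕ Fin m))
    rw [LinearMap.range_eq_top.mpr (LinearMap.funLeft_surjective_of_injective F F _
      Sum.inr_injective), finrank_top, Module.finrank_fintype_fun_eq_card,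
      Module.finrank_fintype_fun_eq_card, Fintype.card_sum, Fintype.card_fin] at h1
    omega
  refine ⟨⟨?_, ?_⟩, hfr⟩
  · intro x hx
    rw [LinearMap.mem_ker] at hx
    have hx' : ∀ i, x (Sum.inr i) = 0 := fun i => congrFun hx i
    rw [hQf]
    unfold Cfsg.quadFormPlus
    apply Finset.sum_eq_zero
    intro i _
    rw [hx' i, mul_zero]
  · rw [hfr, Fintype.card_sum, Fintype.card_fin]
    ring

theorem trans_lag [Fintype F] (hQ : (QuadraticMap.polarBilin Q).Nondegenerate)
    (hex : Fintype.card F ≠ 2 ∨ Fintype.card ι ≠ 4) (hn : 2 ≤ Fintype.card ι)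
    {U W : Submodule F (ι → F)} (hU : Lag Q U) (hW : Lag Q W)
    (he : Even (Module.finrank F U - Module.finrank F (U ⊓ W : Submodule F (ι → F)))) :
    ∃ g : ↥(Cfsg.isometryGroup F ⇑Q), g ∈ Cfsg.Omega F ⇑Q ∧ img g U = W := by
  classical
  obtain ⟨g₀, hg₀⟩ := witt_iso Q hQ U W (LinearEquiv.ofFinrankEq U W (by
    have := hU.2
    have := hW.2
    omega)) (by
    intro x
    rw [hU.1 _ x.2, hW.1 _ (Subtype.prop _)])
  have hg₀' := img_of_witt g₀ U W _ hg₀
  have hdk : dk g₀ = 1 := by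
    rw [← even_iff_dk Q hQ hex hU g₀, hg₀']
    exact he
  by_cases h2 : (2 : F) = 0
  · exact ⟨g₀, (Dickson.omega_iff Q h2 hQ hex g₀).mpr hdk, hg₀'⟩
  · obtain ⟨θ, sd, hθ, hsd, hsd1, hΩ⟩ := Spinor.main Q h2 hQ hn
    have hWne : W ≠ ⊥ := by
      intro h
      have := hW.2
      rw [h, finrank_bot] at this
      omega
    obtain ⟨e, heW, he0⟩ := Submodule.exists_mem_ne_zero_of_ne_bot hWne
    obtain ⟨f, hf, hef⟩ := exists_partner Q hQ e he0 (hW.1 e heW)
    obtain ⟨η, hη⟩ := exists_nonsq (F := F) h2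
    have hη0 : η ≠ 0 := by
      rintro rfl
      exact hη ⟨0, by simp⟩
    obtain ⟨h1, h3, q1, q2, hrot⟩ := exists_rotation Q e f (hW.1 e heW) hf hef η hη0
    refine adjust_odd Q θ sd hΩ U W g₀ hg₀' 1 (refl Q _ h1 * refl Q _ h3)
      (img_one W) ?_ (Or.inr ?_) ?_ ?_
    · apply img_eq_of_le
      intro x hx
      rw [hrot x (polar_of_ts Q W hW.1 e x heW hx)]
      exact W.add_mem hx (W.smul_mem _ heW)
    · rw [hsd1, ← dk_eq_one_iff_det Q h2 hQ]
      exact hdk
    · rw [map_mul, hθ, hθ, q1, q2, ← qs_mul (by simp) (by simpa using hη0)]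
      have : (-1 : F) * -η = η := by ring
      rw [this]
      exact qs_of_not_isSquare hη
    · rw [map_mul, hsd, hsd]; rfl

end Cfsg.Agent.Lib.Helper5.OrthClass
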