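import Mathlib
import Cfsg.Prelude.Def_ClassicalGeometry
import Cfsg.Prelude.Def_SporadicB
import Cfsg.Prelude.Def_FischerSpaces
import Cfsg.Agent.Lib.Helper5.OrthClass
import Cfsg.Agent.Lib.Helper5.OrthCenter
import Cfsg.Agent.Lib.Helper5.DicksonApp

set_option autoImplicit false
set_option linter.unusedSectionVars false

namespace Cfsg.Agent.Lib.Helper5.OrthThree

open Matrix Cfsg.Agent.Lib.Helper5.OrthCard Cfsg.Agent.Lib.Helper5.Orth
  Cfsg.Agent.Lib.Helper5.OrthGen QuadraticMap Cfsg.Agent.Lib.Helper5.OrthRefl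
  Cfsg.Agent.Lib.Helper5.OrthTrans Cfsg.Agent.Lib.Helper5.Dickson Cfsg.Agent.Lib.Helper5.Spinor
  Cfsg.Agent.Lib.Helper5.OrthCenter Cfsg.Agent.Lib.Helper5.DicksonApp

variable {F : Type*} [Field F] {ι : Type} [Fintype ι] [DecidableEq ι]
variable (Q : QuadraticForm F (ι → F))

theorem dfix_one : dfix (1 : ↥(Cfsg.isometryGroup F ⇑Q)) = Fintype.card ι := by
  have : fx (1 : ↥(Cfsg.isometryGroup F ⇑Q)) = ⊤ := by
    ext x
    simp [mem_fx, mat_one_mulVec]
  unfold dfix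
  rw [this, finrank_top, Module.finrank_fintype_fun_eq_card]

theorem dfix_refl (hQ : (QuadraticMap.polarBilin Q).Nondegenerate) (v : ι → F) (hv : Q v ≠ 0) :
    dfix (refl Q v hv) + 1 = Fintype.card ι := by
  rcases dfix_parity Q hQ 1 v hv with h | h
  · rw [one_mul, dfix_one] at h
    have := dfix_le (refl Q v hv)
    omega
  · rw [one_mul, dfix_one] at h
    exact h

theorem refl_ne_one (hQ : (QuadraticMap.polarBilin Q).Nondegenerate) (v : ι → F) (hv : Q v ≠ 0) :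
    refl Q v hv ≠ 1 := by
  intro h
  have h1 := dfix_refl Q hQ v hv
  rw [h, dfix_one] at h1
  omega

theorem orderOf_refl (hQ : (QuadraticMap.polarBilin Q).Nondegenerate) (v : ι → F)
    (hv : Q v ≠ 0) : orderOf (refl Q v hv) = 2 := by
  apply orderOf_eq_prime
  · rw [pow_two, refl_mul_self]
  · exact refl_ne_one Q hQ v hv

theorem rank_one_iff (hQ : (QuadraticMap.polarBilin Q).Nondegenerate)
    (g : ↥(Cfsg.isometryGroup F ⇑Q)) :
    (mat g - 1).rank = 1 ↔ ∃ (v : ι → F) (hv : Q v ≠ 0), g = refl Q v hv := by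
  have h0 := rank_add_dfix g
  constructor
  · intro h
    by_cases hts : ∀ x, Q (mat g *ᵥ x - x) = 0
    · exfalso
      have hg : g ≠ 1 := by
        rintro rfl
        rw [dfix_one] at h0
        omega
      have := dfix_add_two_le Q hQ g hts hg
      omega
    · push Not at hts
      obtain ⟨y, hy⟩ := hts
      have h1 := dfix_lt_of_nonsing Q g y hy
      have h2 := eq_one_of_dfix (g * refl Q _ hy) (by omega)
      refine ⟨_, hy, ?_⟩
      rw [← refl_inv]
      exact eq_inv_of_mul_eq_one_left h2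
  · rintro ⟨v, hv, rfl⟩
    have := dfix_refl Q hQ v hv
    omega

theorem conj_refl' (A : ↥(Cfsg.isometryGroup F ⇑Q)) (v : ι → F) (hv : Q v ≠ 0)
    (hv' : Q (mat A *ᵥ v) ≠ 0) :
    A * refl Q v hv * A⁻¹ = refl Q (mat A *ᵥ v) hv' := by
  apply ext_mulVec
  intro x
  rw [mat_mul_mulVec, mat_mul_mulVec, mat_refl, mat_refl, reflectionMatrix_mulVec,
    reflectionMatrix_mulVec, mulVec_sub, mulVec_smul]
  have h1 : mat A *ᵥ (mat A⁻¹ *ᵥ x) = x := by
    have := mat_inv_mulVec A⁻¹ x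
    rwa [inv_inv] at this
  have h3 : polar ⇑Q (mat A *ᵥ v) x = polar ⇑Q v (mat A⁻¹ *ᵥ x) := by
    rw [← mat_polar A v (mat A⁻¹ *ᵥ x), h1]
  rw [h1, h3, mat_preserves A v]

theorem refl_smul' (s : F) (hs : s ≠ 0) (v : ι → F) (hv : Q v ≠ 0) (hv' : Q (s • v) ≠ 0) :
    refl Q (s • v) hv' = refl Q v hv := by
  apply ext_mulVec
  intro x
  rw [mat_refl, mat_refl, reflectionMatrix_mulVec, reflectionMatrix_mulVec, QuadraticMap.map_smul,
    polar_smul_left, smul_smul]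
  congr 2
  simp only [smul_eq_mul]
  field_simp

theorem refl_comm_sq (u v : ι → F) (hu : Q u ≠ 0) (hv : Q v ≠ 0) (h : polar ⇑Q u v = 0) :
    (refl Q u hu * refl Q v hv) ^ 2 = 1 := by
  have h1 : refl Q u hu * refl Q v hv * (refl Q u hu)⁻¹ = refl Q v hv := by
    have hv' : Q (mat (refl Q u hu) *ᵥ v) ≠ 0 := by rw [mat_preserves (refl Q u hu) v]; exact hv
    rw [conj_refl' Q _ v hv hv']
    apply refl_congr
    rw [mat_refl, reflection_fix Q u v h]
  rw [refl_inv] at h1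
  rw [pow_two, ← mul_assoc, h1, refl_mul_self]

theorem braid_conj (u v : ι → F) (hu : Q u ≠ 0) (hv : Q v ≠ 0) (huv : Q u = Q v) (ε : F)
    (hε : ε * ε = 1) (h : polar ⇑Q u v = ε * Q u) :
    (refl Q u hu * refl Q v hv) * refl Q u hu * (refl Q u hu * refl Q v hv)⁻¹ = refl Q v hv := by
  have hε0 : -ε ≠ 0 := by
    intro h0
    have : ε = 0 := by linear_combination -h0
    rw [this] at hε
    simp at hε
  have e1 : mat (refl Q u hu * refl Q v hv) *ᵥ u = (-ε) • v := by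
    have e0 : Cfsg.reflectionMatrix ⇑Q v *ᵥ u = u - ε • v := by
      rw [reflectionMatrix_mulVec, polar_comm, h, huv]
      congr 2
      field_simp
    have e2 : Cfsg.reflectionMatrix ⇑Q u *ᵥ v = v - ε • u := by
      rw [reflectionMatrix_mulVec, h]
      congr 2
      field_simp
    rw [mat_mul_mulVec, mat_refl, mat_refl, e0, mulVec_sub, mulVec_smul, e2,
      reflection_self Q u hu, smul_sub, smul_smul, hε]
    module
  have hv' : Q (mat (refl Q u hu * refl Q v hv) *ᵥ u) ≠ 0 := by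
    rw [mat_preserves (refl Q u hu * refl Q v hv) u]; exact hu
  rw [conj_refl' Q _ u hu hv']
  have hv'' : Q ((-ε) • v) ≠ 0 := by rw [← e1]; exact hv'
  rw [refl_congr Q e1 hv' hv'', refl_smul' Q (-ε) hε0 v hv hv'']

theorem braid_cube (u v : ι → F) (hu : Q u ≠ 0) (hv : Q v ≠ 0) (huv : Q u = Q v) (ε : F)
    (hε : ε * ε = 1) (h : polar ⇑Q u v = ε * Q u) :
    (refl Q u hu * refl Q v hv) ^ 3 = 1 := by
  have h1 := braid_conj Q u v hu hv huv ε hε h
  rw [_root_.mul_inv_rev, refl_inv, refl_inv] at h1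
  have h2 : (refl Q u hu * refl Q v hv) ^ 3 =
      (refl Q u hu * refl Q v hv * refl Q u hu * (refl Q v hv * refl Q u hu)) * refl Q v hv := by
    rw [pow_succ, pow_two]
    simp only [mul_assoc]
  rw [h2, h1, refl_mul_self]

section two

variable (Q : QuadraticForm (ZMod 2) (ι → ZMod 2))

theorem three_two (hQ : (QuadraticMap.polarBilin Q).Nondegenerate) (hn : Fintype.card ι ≠ 4)
    (hn1 : 1 ≤ Fintype.card ι) :
    Cfsg.IsThreeTranspositionClass {g : ↥(Cfsg.isometryGroup (ZMod 2) ⇑Q) |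
      (mat g - 1).rank = 1} := by
  have h01 : ∀ x : ZMod 2, x ≠ 0 → x = 1 := by decide
  have hex : Fintype.card (ZMod 2) ≠ 2 ∨ Fintype.card ι ≠ 4 := Or.inr hn
  refine ⟨⟨?_, ?_⟩, ?_, ?_⟩
  · intro d hd
    obtain ⟨v, hv, rfl⟩ := (rank_one_iff Q hQ d).mp hd
    exact orderOf_refl Q hQ v hv
  · intro d hd e he
    obtain ⟨u, hu, rfl⟩ := (rank_one_iff Q hQ d).mp hd
    obtain ⟨v, hv, rfl⟩ := (rank_one_iff Q hQ e).mp he
    by_cases h : polar ⇑Q u v = 0
    · exact Or.inl (refl_comm_sq Q u v hu hv h)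
    · right
      apply braid_cube Q u v hu hv (by rw [h01 _ hu, h01 _ hv]) 1 (by simp)
      rw [h01 _ h, h01 _ hu]
      simp
  · obtain ⟨v₀, hv₀⟩ := exists_nonsing Q hQ hn1
    refine ⟨refl Q v₀ hv₀, (rank_one_iff Q hQ _).mpr ⟨v₀, hv₀, rfl⟩, ?_⟩
    ext g
    show _ ↔ IsConj _ g
    rw [isConj_iff]
    constructor
    · intro hg
      obtain ⟨v, hv, rfl⟩ := (rank_one_iff Q hQ g).mp hg
      obtain ⟨A, _, hA⟩ := trans_nonsing (by decide) Q hQ hex v₀ v hv₀ hv
      refine ⟨A, ?_⟩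
      have hv' : Q (mat A *ᵥ v₀) ≠ 0 := by rw [mat_preserves A v₀]; exact hv₀
      rw [conj_refl' Q A v₀ hv₀ hv']
      have h1 : mat A *ᵥ v₀ ∈ (ZMod 2 ∙ v) := by
        rw [← hA]
        exact Submodule.mem_span_singleton_self _
      obtain ⟨s, hs⟩ := Submodule.mem_span_singleton.mp h1
      have hs0 : s ≠ 0 := by
        rintro rfl
        rw [zero_smul] at hs
        apply hv'
        rw [← hs, QuadraticMap.map_zero]
      apply refl_congr
      rw [← hs, h01 s hs0, one_smul]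
    · rintro ⟨A, rfl⟩
      have hv' : Q (mat A *ᵥ v₀) ≠ 0 := by rw [mat_preserves A v₀]; exact hv₀
      rw [conj_refl' Q A v₀ hv₀ hv']
      exact (rank_one_iff Q hQ _).mpr ⟨_, hv', rfl⟩
  · rw [eq_top_iff, ← R_eq_top' Q hQ hex]
    unfold R
    apply Subgroup.closure_mono
    rintro g ⟨v, hv, hg⟩
    exact (rank_one_iff Q hQ g).mpr ⟨v, hv, mat_injective hg⟩

end two

section three

variable (Q : QuadraticForm (ZMod 3) (ι → ZMod 3))

theorem exists_link (hQ : (QuadraticMap.polarBilin Q).Nondegenerate) (hn : 5 ≤ Fintype.card ι)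
    (c : ZMod 3) (hc : c ≠ 0) (u v : ι → ZMod 3) (hu : Q u = c) (hv : Q v = c)
    (huv : polar ⇑Q u v = 0) : ∃ w, Q w = c ∧ polar ⇑Q u w ≠ 0 ∧ polar ⇑Q v w ≠ 0 := by
  have hrefl : (QuadraticMap.polarBilin Q).IsRefl := by
    intro x y h
    show polar ⇑Q y x = 0
    rw [polar_comm]
    exact h
  have h2c : 2 * c ≠ 0 := mul_ne_zero (by decide) hc
  set S : Submodule (ZMod 3) (ι → ZMod 3) := Submodule.span (ZMod 3) {u, v} with hS
  have huS : u ∈ S := Submodule.subset_span (by simp)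
  have hvS : v ∈ S := Submodule.subset_span (by simp)
  have hW : LinearMap.BilinForm.orthogonal (QuadraticMap.polarBilin Q) S ⊓
      LinearMap.BilinForm.orthogonal (QuadraticMap.polarBilin Q)
        (LinearMap.BilinForm.orthogonal (QuadraticMap.polarBilin Q) S) = ⊥ := by
    rw [LinearMap.BilinForm.orthogonal_orthogonal hQ hrefl, eq_bot_iff]
    rintro x ⟨hx1, hx2⟩
    rw [SetLike.mem_coe, LinearMap.BilinForm.mem_orthogonal_iff] at hx1
    obtain ⟨a, b, rfl⟩ := Submodule.mem_span_pair.mp hx2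
    have e1 : polar ⇑Q u (a • u + b • v) = 0 := hx1 u huS
    have e2 : polar ⇑Q v (a • u + b • v) = 0 := hx1 v hvS
    rw [polar_add_right, polar_smul_right, polar_smul_right, huv, polar_self', hu, smul_zero,
      add_zero, smul_eq_mul] at e1
    rw [polar_add_right, polar_smul_right, polar_smul_right, polar_comm, huv, polar_self', hv,
      smul_zero, zero_add, smul_eq_mul] at e2
    rw [(mul_eq_zero.mp e1).resolve_right h2c, (mul_eq_zero.mp e2).resolve_right h2c]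
    simp
  have hfr : 2 ≤ Module.finrank (ZMod 3)
      (LinearMap.BilinForm.orthogonal (QuadraticMap.polarBilin Q) S) := by
    rw [LinearMap.BilinForm.finrank_orthogonal hQ, Module.finrank_fintype_fun_eq_card]
    have h1 : Module.finrank (ZMod 3) S ≤ 2 := by
      have h2 := finrank_span_finset_le_card (R := ZMod 3) ({u, v} : Finset (ι → ZMod 3))
      rw [Finset.coe_pair] at h2
      exact h2.trans Finset.card_le_two
    omega
  obtain ⟨z, hz, hQz⟩ := repr_sub Q _ hW hfr (-c)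
  rw [LinearMap.BilinForm.mem_orthogonal_iff] at hz
  have hzu : polar ⇑Q u z = 0 := hz u huS
  have hzv : polar ⇑Q v z = 0 := hz v hvS
  refine ⟨u + v + z, ?_, ?_, ?_⟩
  · rw [QuadraticMap.map_add Q, QuadraticMap.map_add Q, hu, hv, hQz, huv, polar_add_left, hzu,
      hzv]
    ring
  · rw [polar_add_right, polar_add_right, polar_self', hu, huv, hzu]
    simpa using h2c
  · rw [polar_add_right, polar_add_right, polar_self', hv, polar_comm, huv, hzv]
    simpa using h2c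

theorem conj_in (hQ : (QuadraticMap.polarBilin Q).Nondegenerate) (hn : 5 ≤ Fintype.card ι)
    (c : ZMod 3) (hc : c ≠ 0) (u v : ι → ZMod 3) (hu : Q u ≠ 0) (hv : Q v ≠ 0) (hu' : Q u = c)
    (hv' : Q v = c) :
    ∃ A ∈ Cfsg.reflectionSubgroup ⇑Q c, A * refl Q u hu * A⁻¹ = refl Q v hv := by
  have hsq : ∀ x : ZMod 3, x ≠ 0 → x * x = 1 := by decide
  have hmem : ∀ (w : ι → ZMod 3) (hw : Q w ≠ 0), Q w = c →
      refl Q w hw ∈ Cfsg.reflectionSubgroup ⇑Q c := by
    intro w hw hw'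
    exact Subgroup.subset_closure ⟨w, hw', mat_refl Q w hw⟩
  have near : ∀ (u v : ι → ZMod 3) (hu : Q u ≠ 0) (hv : Q v ≠ 0), Q u = c → Q v = c →
      polar ⇑Q u v ≠ 0 →
      ∃ A ∈ Cfsg.reflectionSubgroup ⇑Q c, A * refl Q u hu * A⁻¹ = refl Q v hv := by
    intro u v hu hv hu' hv' h
    refine ⟨refl Q u hu * refl Q v hv, Subgroup.mul_mem _ (hmem u hu hu') (hmem v hv hv'), ?_⟩
    apply braid_conj Q u v hu hv (by rw [hu', hv']) (polar ⇑Q u v * (Q u)⁻¹)
    · exact hsq _ (mul_ne_zero h (inv_ne_zero hu))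
    · field_simp
  by_cases h : polar ⇑Q u v = 0
  · obtain ⟨w, hw, h1, h2⟩ := exists_link Q hQ hn c hc u v hu' hv' h
    have hw0 : Q w ≠ 0 := by rw [hw]; exact hc
    obtain ⟨A, hA, hA'⟩ := near u w hu hw0 hu' hw h1
    obtain ⟨B, hB, hB'⟩ := near w v hw0 hv hw hv' (by rw [polar_comm]; exact h2)
    refine ⟨B * A, Subgroup.mul_mem _ hB hA, ?_⟩
    rw [← hB', ← hA']
    group
  · exact near u v hu hv hu' hv' h

theorem three_three (hQ : (QuadraticMap.polarBilin Q).Nondegenerate) (hn : 5 ≤ Fintype.card ι)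
    (c : ZMod 3) (hc : c ≠ 0) :
    Cfsg.IsThreeTranspositionClass {g : ↥(Cfsg.reflectionSubgroup ⇑Q c) |
      (g : ↥(Cfsg.isometryGroup (ZMod 3) ⇑Q)) ∈ Cfsg.reflectionsOfNorm ⇑Q c} := by
  have hsq : ∀ x : ZMod 3, x ≠ 0 → x * x = 1 := by decide
  have hform : ∀ g : ↥(Cfsg.isometryGroup (ZMod 3) ⇑Q), g ∈ Cfsg.reflectionsOfNorm ⇑Q c ↔
      ∃ (v : ι → ZMod 3) (hv : Q v ≠ 0), Q v = c ∧ g = refl Q v hv := by
    intro g
    constructor
    · rintro ⟨v, hv, hg⟩
      exact ⟨v, by rw [hv]; exact hc, hv, mat_injective hg⟩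
    · rintro ⟨v, hv, hv', rfl⟩
      exact ⟨v, hv', mat_refl Q v hv⟩
  refine ⟨⟨?_, ?_⟩, ?_, ?_⟩
  · intro d hd
    obtain ⟨v, hv, hv', hd'⟩ := (hform _).mp hd
    rw [← Subgroup.orderOf_coe, hd']
    exact orderOf_refl Q hQ v hv
  · intro d hd e he
    obtain ⟨u, hu, hu', hd'⟩ := (hform _).mp hd
    obtain ⟨v, hv, hv', he'⟩ := (hform _).mp he
    by_cases h : polar ⇑Q u v = 0
    · left
      apply Subtype.ext
      show ((d : ↥(Cfsg.isometryGroup (ZMod 3) ⇑Q)) * e) ^ 2 = 1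
      rw [hd', he']
      exact refl_comm_sq Q u v hu hv h
    · right
      apply Subtype.ext
      show ((d : ↥(Cfsg.isometryGroup (ZMod 3) ⇑Q)) * e) ^ 3 = 1
      rw [hd', he']
      apply braid_cube Q u v hu hv (by rw [hu', hv']) (polar ⇑Q u v * (Q u)⁻¹)
      · exact hsq _ (mul_ne_zero h (inv_ne_zero hu))
      · field_simp
  · obtain ⟨v₀, hv₀⟩ := exists_norm Q hQ (by omega) c
    have hv₀' : Q v₀ ≠ 0 := by rw [hv₀]; exact hc
    have hmem : refl Q v₀ hv₀' ∈ Cfsg.reflectionSubgroup ⇑Q c :=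
      Subgroup.subset_closure ⟨v₀, hv₀, mat_refl Q v₀ hv₀'⟩
    refine ⟨⟨refl Q v₀ hv₀', hmem⟩, (hform _).mpr ⟨v₀, hv₀', hv₀, rfl⟩, ?_⟩
    ext g
    show _ ↔ IsConj _ g
    rw [isConj_iff]
    constructor
    · intro hg
      obtain ⟨v, hv, hv', hg'⟩ := (hform _).mp hg
      obtain ⟨A, hA, hA'⟩ := conj_in Q hQ hn c hc v₀ v hv₀' hv hv₀ hv'
      refine ⟨⟨A, hA⟩, ?_⟩
      apply Subtype.ext
      show A * refl Q v₀ hv₀' * A⁻¹ = g
      rw [hA', hg']
    · rintro ⟨A, rfl⟩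
      have hv' : Q (mat (A : ↥(Cfsg.isometryGroup (ZMod 3) ⇑Q)) *ᵥ v₀) ≠ 0 := by
        rw [mat_preserves (A : ↥(Cfsg.isometryGroup (ZMod 3) ⇑Q)) v₀]; exact hv₀'
      apply (hform _).mpr
      refine ⟨_, hv', ?_, ?_⟩
      · rw [mat_preserves (A : ↥(Cfsg.isometryGroup (ZMod 3) ⇑Q)) v₀]; exact hv₀
      · exact conj_refl' Q A v₀ hv₀' hv'
  · exact Subgroup.closure_closure_coe_preimage

end three

end Cfsg.Agent.Lib.Helper5.OrthThree
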