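import Mathlib
import Cfsg.Prelude.Def_ClassicalGeometry
import Cfsg.Agent.Lib.Helper5.OrthThree

set_option autoImplicit false
set_option linter.unusedSectionVars false

namespace Cfsg.Agent.Lib.Helper5.OrthEich

open Matrix Cfsg.Agent.Lib.Helper5.OrthCard Cfsg.Agent.Lib.Helper5.Orth
  Cfsg.Agent.Lib.Helper5.OrthGen QuadraticMap Cfsg.Agent.Lib.Helper5.OrthRefl
  Cfsg.Agent.Lib.Helper5.OrthTrans Cfsg.Agent.Lib.Helper5.Dickson
  Cfsg.Agent.Lib.Helper5.OrthCenter Cfsg.Agent.Lib.Helper5.OrthThree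

variable {F : Type*} [Field F] {ι : Type} [Fintype ι] [DecidableEq ι]
variable (Q : QuadraticForm F (ι → F))

/-- the Eichler (Siegel) formula -/
def eform (e a x : ι → F) : ι → F :=
  x + (polar ⇑Q a x) • e - (polar ⇑Q e x) • a - (Q a * polar ⇑Q e x) • e

/-- `g` is the Eichler transformation `ρ_{e,a}` -/
def IsEich (g : ↥(Cfsg.isometryGroup F ⇑Q)) (e a : ι → F) : Prop :=
  ∀ x, mat g *ᵥ x = eform Q e a x

theorem polar_eform_e (e a x : ι → F) (he : Q e = 0) (hea : polar ⇑Q e a = 0) :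
    polar ⇑Q e (eform Q e a x) = polar ⇑Q e x := by
  unfold eform
  rw [polar_sub_right, polar_sub_right, polar_add_right, polar_smul_right, polar_smul_right,
    polar_smul_right, polar_self', he, hea]
  simp

theorem eform_comp (e a b x : ι → F) (he : Q e = 0) (hea : polar ⇑Q e a = 0)
    (heb : polar ⇑Q e b = 0) : eform Q e a (eform Q e b x) = eform Q e (a + b) x := by
  have h1 := polar_eform_e Q e b x he heb
  have h2 : polar ⇑Q a (eform Q e b x) = polar ⇑Q a x - polar ⇑Q e x * polar ⇑Q a b := by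
    unfold eform
    rw [polar_sub_right, polar_sub_right, polar_add_right, polar_smul_right, polar_smul_right,
      polar_smul_right, polar_comm ⇑Q a e, hea]
    simp
  have h3 : eform Q e a (eform Q e b x) = eform Q e b x + (polar ⇑Q a (eform Q e b x)) • e -
      (polar ⇑Q e (eform Q e b x)) • a - (Q a * polar ⇑Q e (eform Q e b x)) • e := rfl
  rw [h3, h1, h2]
  unfold eform
  rw [QuadraticMap.map_add Q, polar_add_left]
  module

theorem eform_zero (e x : ι → F) : eform Q e 0 x = x := by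
  unfold eform
  simp

theorem eform_smul (s : F) (e a x : ι → F) : eform Q (s • e) a x = eform Q e (s • a) x := by
  unfold eform
  rw [polar_smul_left, polar_smul_left, QuadraticMap.map_smul]
  simp only [smul_eq_mul]
  module

theorem eform_self (e a : ι → F) (he : Q e = 0) (hea : polar ⇑Q e a = 0) :
    eform Q e a e = e := by
  unfold eform
  rw [polar_self', he, polar_comm, hea]
  simp

theorem eform_add_e (s : F) (e a x : ι → F) (he : Q e = 0) (hea : polar ⇑Q e a = 0) :
    eform Q e (a + s • e) x = eform Q e a x := by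
  unfold eform
  rw [polar_add_left, polar_smul_left, QuadraticMap.map_add Q, QuadraticMap.map_smul, he,
    polar_smul_right, polar_comm ⇑Q a e, hea]
  simp only [smul_eq_mul]
  module

variable {Q}

theorem IsEich.ext {g h : ↥(Cfsg.isometryGroup F ⇑Q)} {e a : ι → F} (hg : IsEich Q g e a)
    (hh : IsEich Q h e a) : g = h :=
  ext_mulVec (fun x => by rw [hg x, hh x])

theorem IsEich.one (e : ι → F) : IsEich Q 1 e 0 := by
  intro x
  rw [mat_one_mulVec, eform_zero]

theorem IsEich.mul {g h : ↥(Cfsg.isometryGroup F ⇑Q)} {e a b : ι → F} (hg : IsEich Q g e a)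
    (hh : IsEich Q h e b) (he : Q e = 0) (hea : polar ⇑Q e a = 0) (heb : polar ⇑Q e b = 0) :
    IsEich Q (g * h) e (a + b) := by
  intro x
  rw [mat_mul_mulVec, hh x, hg, eform_comp Q e a b x he hea heb]

theorem IsEich.inv {g : ↥(Cfsg.isometryGroup F ⇑Q)} {e a : ι → F} (hg : IsEich Q g e a)
    (he : Q e = 0) (hea : polar ⇑Q e a = 0) : IsEich Q g⁻¹ e (-a) := by
  intro x
  have h1 : mat g *ᵥ (eform Q e (-a) x) = x := by
    rw [hg, eform_comp Q e a (-a) x he hea (by rw [polar_neg_right, hea, neg_zero]),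
      add_neg_cancel, eform_zero]
  rw [← mat_inv_mulVec g (eform Q e (-a) x), h1]

theorem IsEich.conj {g : ↥(Cfsg.isometryGroup F ⇑Q)} {e a : ι → F} (hg : IsEich Q g e a)
    (k : ↥(Cfsg.isometryGroup F ⇑Q)) : IsEich Q (k * g * k⁻¹) (mat k *ᵥ e) (mat k *ᵥ a) := by
  intro x
  have h1 : mat k *ᵥ (mat k⁻¹ *ᵥ x) = x := by
    have := mat_inv_mulVec k⁻¹ x
    rwa [inv_inv] at this
  have h2 : ∀ v, polar ⇑Q (mat k *ᵥ v) x = polar ⇑Q v (mat k⁻¹ *ᵥ x) := by
    intro v
    rw [← mat_polar k v (mat k⁻¹ *ᵥ x), h1]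
  rw [mat_mul_mulVec, mat_mul_mulVec, hg]
  unfold eform
  rw [mulVec_sub, mulVec_sub, mulVec_add, mulVec_smul, mulVec_smul, mulVec_smul, h1, h2, h2,
    mat_preserves k a]

theorem IsEich.smul {g : ↥(Cfsg.isometryGroup F ⇑Q)} {e a : ι → F} {s : F}
    (hg : IsEich Q g (s • e) a) : IsEich Q g e (s • a) := by
  intro x
  rw [hg, eform_smul]

theorem IsEich.smul' {g : ↥(Cfsg.isometryGroup F ⇑Q)} {e a : ι → F} {s : F}
    (hg : IsEich Q g e (s • a)) : IsEich Q g (s • e) a := by
  intro x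
  rw [hg, eform_smul]

theorem IsEich.congr {g : ↥(Cfsg.isometryGroup F ⇑Q)} {e a e' a' : ι → F}
    (hg : IsEich Q g e a) (he : e = e') (ha : a = a') : IsEich Q g e' a' := by
  subst he; subst ha; exact hg

variable (Q)

theorem isEich_refl (e a : ι → F) (he : Q e = 0) (hea : polar ⇑Q e a = 0) (ha : Q a ≠ 0)
    (ha' : Q (a - Q a • e) ≠ 0) : IsEich Q (refl Q a ha * refl Q (a - Q a • e) ha') e a := by
  intro x
  have hq : Q (a - Q a • e) = Q a := by
    rw [map_sub_smul, he, hea]; ring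
  rw [mat_mul_mulVec, mat_refl, mat_refl, reflectionMatrix_mulVec Q (a - Q a • e), hq,
    reflectionMatrix_mulVec, polar_sub_right, polar_smul_right, polar_sub_right, polar_smul_right,
    polar_self', polar_comm ⇑Q a e, hea, polar_sub_left, polar_smul_left]
  unfold eform
  simp only [smul_eq_mul, mul_zero, sub_zero]
  have e1 : (Q a)⁻¹ * (polar ⇑Q a x - (Q a)⁻¹ * (polar ⇑Q a x - Q a * polar ⇑Q e x) * (2 * Q a)) =
      - (Q a)⁻¹ * polar ⇑Q a x + 2 * polar ⇑Q e x := by
    field_simp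
    ring
  have e2 : (Q a)⁻¹ * (polar ⇑Q a x - Q a * polar ⇑Q e x) =
      (Q a)⁻¹ * polar ⇑Q a x - polar ⇑Q e x := by
    field_simp
  rw [e1, e2, smul_sub, smul_smul]
  have e3 : ((Q a)⁻¹ * polar ⇑Q a x - polar ⇑Q e x) * Q a = polar ⇑Q a x - Q a * polar ⇑Q e x := by
    field_simp
  rw [e3]
  module

theorem exists_eich [Fintype F] (hQ : (QuadraticMap.polarBilin Q).Nondegenerate)
    (hex : Fintype.card F ≠ 2 ∨ Fintype.card ι ≠ 4) (hn : 2 ≤ Fintype.card ι) (e a : ι → F)
    (he : Q e = 0) (hea : polar ⇑Q e a = 0) :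
    ∃ g : ↥(Cfsg.isometryGroup F ⇑Q), g ∈ Cfsg.Omega F ⇑Q ∧ IsEich Q g e a := by
  classical
  by_cases ha : Q a = 0
  · refine ⟨siegelEl Q hQ a e ha he (by rw [polar_comm]; exact hea) 1,
      siegel_mem_omega Q hQ hex hn _ _ _ _ _ _, ?_⟩
    intro x
    rw [mat_siegelEl, siegelMatrix_mulVec]
    unfold eform
    rw [ha]
    simp
  · have hq : Q (a - Q a • e) = Q a := by
      rw [map_sub_smul, he, hea]; ring
    have ha' : Q (a - Q a • e) ≠ 0 := by rw [hq]; exact ha
    refine ⟨_, ?_, isEich_refl Q e a he hea ha ha'⟩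
    by_cases h2 : (2 : F) = 0
    · rw [Dickson.omega_iff Q h2 hQ hex, dk_mul Q hQ hex, dk_refl Q hQ, dk_refl Q hQ]
      rfl
    · obtain ⟨θ, sd, hθ, hsd, _, hΩ⟩ := Spinor.main Q h2 hQ hn
      rw [hΩ, map_mul, map_mul, hθ, hθ, hsd, hsd, hq]
      exact ⟨Int.units_mul_self _, rfl⟩

/-- the moving lemma -/
theorem eform_move (x u w : ι → F) (huw : Q u = Q w) (β : F) (hβ : β ≠ 0)
    (hu : polar ⇑Q x u = β) (hw : polar ⇑Q x w = β) :
    eform Q x (β⁻¹ • (u - w)) u = w := by
  unfold eform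
  rw [hu, polar_smul_left, polar_sub_left, polar_self', QuadraticMap.map_smul, OrthGen.map_sub',
    ← huw]
  simp only [smul_eq_mul]
  have e1 : β⁻¹ * β⁻¹ * (Q u + Q u - polar ⇑Q w u) * β = β⁻¹ * (2 * Q u - polar ⇑Q w u) := by
    field_simp
    ring
  rw [e1, smul_smul, mul_inv_cancel₀ hβ]
  module

/-! ### geometry -/

theorem isRefl : (QuadraticMap.polarBilin Q).IsRefl := by
  intro x y h
  show polar ⇑Q y x = 0
  rw [polar_comm]
  exact h

theorem exists_orth_ne (hQ : (QuadraticMap.polarBilin Q).Nondegenerate)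
    (S : Submodule F (ι → F)) (v : ι → F) (hv : v ∉ S) :
    ∃ y, (∀ s ∈ S, polar ⇑Q s y = 0) ∧ polar ⇑Q y v ≠ 0 := by
  by_contra hcon
  push Not at hcon
  apply hv
  rw [← LinearMap.BilinForm.orthogonal_orthogonal hQ (isRefl Q) S,
    LinearMap.BilinForm.mem_orthogonal_iff]
  intro y hy
  rw [LinearMap.BilinForm.mem_orthogonal_iff] at hy
  exact hcon y hy

/-- a hyperbolic partner inside the span of `x` and `y` -/
theorem partner_of (x y : ι → F) (hx : Q x = 0) (hxy : polar ⇑Q x y ≠ 0) :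
    ∃ c d : F, Q (c • y + d • x) = 0 ∧ polar ⇑Q x (c • y + d • x) = 1 := by
  refine ⟨(polar ⇑Q x y)⁻¹, - (polar ⇑Q x y)⁻¹ * (polar ⇑Q x y)⁻¹ * Q y, ?_, ?_⟩
  · rw [QuadraticMap.map_add Q, QuadraticMap.map_smul, QuadraticMap.map_smul, hx, polar_smul_left,
      polar_smul_right, polar_comm ⇑Q y x]
    simp only [smul_eq_mul]
    field_simp
    ring
  · rw [polar_add_right, polar_smul_right, polar_smul_right, polar_self', hx]
    simp only [smul_eq_mul]
    field_simp
    ring

/-- hyperbolic pairs orthogonal to any two given vectors -/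
def HP2 : Prop := ∀ d₁ d₂ : ι → F, ∃ x x' : ι → F, Q x = 0 ∧ Q x' = 0 ∧ polar ⇑Q x x' = 1 ∧
  polar ⇑Q d₁ x = 0 ∧ polar ⇑Q d₂ x = 0 ∧ polar ⇑Q d₁ x' = 0 ∧ polar ⇑Q d₂ x' = 0

theorem hp2_of_ts (hQ : (QuadraticMap.polarBilin Q).Nondegenerate) (L : Submodule F (ι → F))
    (hL : ∀ x ∈ L, Q x = 0) (hL3 : 3 ≤ Module.finrank F L) : HP2 Q := by
  intro d₁ d₂
  set D : Submodule F (ι → F) := Submodule.span F {d₁, d₂} with hD
  have hd₁ : d₁ ∈ D := Submodule.subset_span (by simp)
  have hd₂ : d₂ ∈ D := Submodule.subset_span (by simp)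
  have hD2 : Module.finrank F D ≤ 2 := by
    classical
    have h2 := finrank_span_finset_le_card (R := F) ({d₁, d₂} : Finset (ι → F))
    rw [Finset.coe_pair] at h2
    exact h2.trans Finset.card_le_two
  have hnle : ¬ (L ⊓ LinearMap.BilinForm.orthogonal (QuadraticMap.polarBilin Q) D ≤ D) := by
    intro hle
    have h1 : LinearMap.BilinForm.orthogonal (QuadraticMap.polarBilin Q)
        (LinearMap.BilinForm.orthogonal (QuadraticMap.polarBilin Q) L ⊔ D) =
        L ⊓ LinearMap.BilinForm.orthogonal (QuadraticMap.polarBilin Q) D := by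
      ext x
      rw [LinearMap.BilinForm.mem_orthogonal_iff, Submodule.mem_inf]
      constructor
      · intro h
        constructor
        · rw [← LinearMap.BilinForm.orthogonal_orthogonal hQ (isRefl Q) L,
            LinearMap.BilinForm.mem_orthogonal_iff]
          intro y hy
          exact h y (Submodule.mem_sup_left hy)
        · rw [LinearMap.BilinForm.mem_orthogonal_iff]
          intro y hy
          exact h y (Submodule.mem_sup_right hy)
      · rintro ⟨h1, h2⟩ y hy
        obtain ⟨a, ha, b, hb, rfl⟩ := Submodule.mem_sup.mp hy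
        show polar ⇑Q (a + b) x = 0
        rw [LinearMap.BilinForm.mem_orthogonal_iff] at ha h2
        have e1 : polar ⇑Q x a = 0 := ha x h1
        have e2 : polar ⇑Q b x = 0 := h2 b hb
        rw [polar_add_left, polar_comm, e1, e2, add_zero]
    have h2 := LinearMap.BilinForm.finrank_orthogonal hQ
      (LinearMap.BilinForm.orthogonal (QuadraticMap.polarBilin Q) L ⊔ D)
    have h3 := LinearMap.BilinForm.finrank_orthogonal hQ L
    have h4 := Submodule.finrank_sup_add_finrank_inf_eq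
      (LinearMap.BilinForm.orthogonal (QuadraticMap.polarBilin Q) L) D
    have h5 : L ⊓ LinearMap.BilinForm.orthogonal (QuadraticMap.polarBilin Q) D ≤
        LinearMap.BilinForm.orthogonal (QuadraticMap.polarBilin Q) L ⊓ D := by
      apply le_inf _ hle
      intro x hx
      rw [LinearMap.BilinForm.mem_orthogonal_iff]
      intro y hy
      exact polar_of_ts Q L hL y x hy hx.1
    have h6 := Submodule.finrank_mono h5
    have h7 := Submodule.finrank_le L
    have h8 := Submodule.finrank_le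
      (LinearMap.BilinForm.orthogonal (QuadraticMap.polarBilin Q) L ⊔ D)
    rw [h1] at h2
    omega
  obtain ⟨x, hx, hxD⟩ := SetLike.not_le_iff_exists.mp hnle
  have hxperp := hx.2
  rw [SetLike.mem_coe, LinearMap.BilinForm.mem_orthogonal_iff] at hxperp
  have hQx : Q x = 0 := hL x hx.1
  obtain ⟨y, hy, hyx⟩ := exists_orth_ne Q hQ D x hxD
  obtain ⟨c, d, h1, h2⟩ := partner_of Q x y hQx (by rw [polar_comm]; exact hyx)
  have e1 : polar ⇑Q d₁ x = 0 := hxperp d₁ hd₁
  have e2 : polar ⇑Q d₂ x = 0 := hxperp d₂ hd₂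
  refine ⟨x, c • y + d • x, hQx, h1, h2, e1, e2, ?_, ?_⟩
  · rw [polar_add_right, polar_smul_right, polar_smul_right, hy d₁ hd₁, e1]
    simp
  · rw [polar_add_right, polar_smul_right, polar_smul_right, hy d₂ hd₂, e2]
    simp

variable {Q}

/-- singular vectors in a hyperplane, off another one -/
theorem HP2.exists_sing (hP : HP2 Q) (hQ : (QuadraticMap.polarBilin Q).Nondegenerate)
    (d u : ι → F) (hu : u ∉ Submodule.span F {d}) :
    ∃ s, Q s = 0 ∧ polar ⇑Q d s = 0 ∧ polar ⇑Q u s ≠ 0 := by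
  obtain ⟨y, hy, hyu⟩ := exists_orth_ne Q hQ _ u hu
  have hyd : polar ⇑Q d y = 0 := hy d (Submodule.mem_span_singleton_self d)
  obtain ⟨x, x', hx, hx', hxx', h1, -, h2, -⟩ := hP d d
  by_cases c1 : polar ⇑Q u x = 0
  · by_cases c2 : polar ⇑Q u x' = 0
    · obtain ⟨y', hy'⟩ : ∃ y', y' = y - (polar ⇑Q x' y) • x - (polar ⇑Q x y) • x' := ⟨_, rfl⟩
      have p1 : polar ⇑Q x y' = 0 := by
        rw [hy', polar_sub_right, polar_sub_right, polar_smul_right, polar_smul_right, polar_self',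
          hx, hxx']
        simp
      have p2 : polar ⇑Q x' y' = 0 := by
        rw [hy', polar_sub_right, polar_sub_right, polar_smul_right, polar_smul_right, polar_self',
          hx', polar_comm ⇑Q x' x, hxx']
        simp
      refine ⟨y' + (x - Q y' • x'), ?_, ?_, ?_⟩
      · rw [QuadraticMap.map_add Q, map_sub_smul, hx, hx', polar_comm ⇑Q x' x, hxx',
          polar_sub_right, polar_smul_right, polar_comm ⇑Q y' x, polar_comm ⇑Q y' x', p1, p2]
        simp
      · rw [polar_add_right, polar_sub_right, polar_smul_right, h1, h2, hy', polar_sub_right,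
          polar_sub_right, polar_smul_right, polar_smul_right, h1, h2, hyd]
        simp
      · rw [polar_add_right, polar_sub_right, polar_smul_right, c1, c2, hy', polar_sub_right,
          polar_sub_right, polar_smul_right, polar_smul_right, c1, c2, polar_comm]
        simpa using hyu
    · exact ⟨x', hx', h2, c2⟩
  · exact ⟨x, hx, h1, c1⟩

variable (Q)

/-- a singular vector off two singular hyperplanes -/
theorem exists_sing_off (hQ : (QuadraticMap.polarBilin Q).Nondegenerate) (a w : ι → F)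
    (ha0 : a ≠ 0) (hw0 : w ≠ 0) (ha : Q a = 0) (hw : Q w = 0) (haw : polar ⇑Q a w = 0) :
    ∃ z, Q z = 0 ∧ polar ⇑Q a z ≠ 0 ∧ polar ⇑Q w z ≠ 0 := by
  obtain ⟨f, hf, haf⟩ := exists_partner Q hQ a ha0 ha
  obtain ⟨f', hf', hwf'⟩ := exists_partner Q hQ w hw0 hw
  by_cases c1 : polar ⇑Q w f = 0
  · by_cases c2 : polar ⇑Q a f' = 0
    · refine ⟨f + f' - polar ⇑Q f f' • a, ?_, ?_, ?_⟩
      · rw [map_sub_smul, QuadraticMap.map_add Q, hf, hf', ha, polar_add_right, haf, c2]
        ring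
      · rw [polar_sub_right, polar_add_right, polar_smul_right, polar_self', ha, haf, c2]
        simp
      · rw [polar_sub_right, polar_add_right, polar_smul_right, polar_comm ⇑Q w a, haw, c1, hwf']
        simp
    · exact ⟨f', hf', c2, by rw [hwf']; exact one_ne_zero⟩
  · exact ⟨f, hf, by rw [haf]; exact one_ne_zero, c1⟩

/-! ### generation -/

theorem comm_le_of_gens {G : Type*} [Group G] (S : Set G) (hS : Subgroup.closure S = ⊤)
    (N : Subgroup G) [N.Normal] (h : ∀ a ∈ S, ∀ b ∈ S, a * b * a⁻¹ * b⁻¹ ∈ N) :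
    commutator G ≤ N := by
  have hcl : Subgroup.closure ((QuotientGroup.mk' N) '' S) = ⊤ := by
    rw [← MonoidHom.map_closure, hS, ← MonoidHom.range_eq_map,
      MonoidHom.range_eq_top.mpr (QuotientGroup.mk'_surjective N)]
  have hc := Subgroup.isMulCommutative_closure (k := (QuotientGroup.mk' N) '' S) (by
    rintro _ ⟨a, ha, rfl⟩ _ ⟨b, hb, rfl⟩
    have h1 := (QuotientGroup.eq_one_iff _).mpr (h a ha b hb)
    have h2 : (QuotientGroup.mk' N a) * (QuotientGroup.mk' N b) * (QuotientGroup.mk' N a)⁻¹ *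
        (QuotientGroup.mk' N b)⁻¹ = 1 := h1
    have h3 := mul_inv_eq_one.mp h2
    exact mul_inv_eq_iff_eq_mul.mp h3)
  have hcomm : ∀ x y : G ⧸ N, x * y = y * x := by
    intro x y
    have hx : x ∈ Subgroup.closure ((QuotientGroup.mk' N) '' S) := by rw [hcl]; trivial
    have hy : y ∈ Subgroup.closure ((QuotientGroup.mk' N) '' S) := by rw [hcl]; trivial
    have := hc.is_comm.comm ⟨x, hx⟩ ⟨y, hy⟩
    exact congrArg Subtype.val this
  rw [commutator_def, Subgroup.commutator_le]
  intro a _ b _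
  rw [← QuotientGroup.eq_one_iff]
  show (QuotientGroup.mk' N a) * (QuotientGroup.mk' N b) * (QuotientGroup.mk' N a)⁻¹ *
        (QuotientGroup.mk' N b)⁻¹ = 1
  rw [hcomm (QuotientGroup.mk' N a)]
  group

/-- the subgroup generated by the Eichler transformations -/
def TT : Subgroup ↥(Cfsg.isometryGroup F ⇑Q) :=
  Subgroup.closure {g | ∃ e a : ι → F, Q e = 0 ∧ polar ⇑Q e a = 0 ∧ IsEich Q g e a}

theorem TT_normal : (TT Q).Normal := by
  constructor
  intro n hn g
  unfold TT at hn ⊢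
  induction hn using Subgroup.closure_induction with
  | mem x hx =>
    obtain ⟨e, a, he, hea, hx⟩ := hx
    apply Subgroup.subset_closure
    exact ⟨mat g *ᵥ e, mat g *ᵥ a, by rw [mat_preserves g e]; exact he,
      by rw [mat_polar]; exact hea, hx.conj g⟩
  | one => simp
  | mul x y _ _ hx hy =>
    have : g * (x * y) * g⁻¹ = (g * x * g⁻¹) * (g * y * g⁻¹) := by group
    rw [this]
    exact Subgroup.mul_mem _ hx hy
  | inv x _ hx =>
    have : g * x⁻¹ * g⁻¹ = (g * x * g⁻¹)⁻¹ := by group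
    rw [this]
    exact Subgroup.inv_mem _ hx

variable {Q}

theorem HP2.refl_mul_mem [Fintype F] (hP : HP2 Q) (hQ : (QuadraticMap.polarBilin Q).Nondegenerate)
    (hex : Fintype.card F ≠ 2 ∨ Fintype.card ι ≠ 4) (hn : 2 ≤ Fintype.card ι) (u w : ι → F)
    (hu : Q u ≠ 0) (hw : Q w ≠ 0) (huw : Q u = Q w) : refl Q u hu * refl Q w hw ∈ TT Q := by
  by_cases h : u ∈ Submodule.span F {u - w}
  · obtain ⟨l, hl⟩ := Submodule.mem_span_singleton.mp h
    have hl0 : l ≠ 0 := by
      rintro rfl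
      rw [zero_smul] at hl
      apply hu
      rw [← hl, QuadraticMap.map_zero]
    have hw' : w = (1 - l⁻¹) • u := by
      have h1 : l⁻¹ • (l • (u - w)) = l⁻¹ • u := by rw [hl]
      rw [smul_smul, inv_mul_cancel₀ hl0, one_smul] at h1
      rw [sub_smul, one_smul, ← h1]
      abel
    have hm0 : (1 - l⁻¹) ≠ 0 := by
      intro h0
      rw [h0, zero_smul] at hw'
      apply hw
      rw [hw', QuadraticMap.map_zero]
    have hw'' : Q ((1 - l⁻¹) • u) ≠ 0 := by rw [← hw']; exact hw
    rw [refl_congr Q hw' hw hw'', OrthThree.refl_smul' Q _ hm0 u hu hw'', refl_mul_self]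
    exact Subgroup.one_mem _
  · obtain ⟨s, hs, hsd, hsu⟩ := hP.exists_sing hQ (u - w) u h
    have hβ : polar ⇑Q s u ≠ 0 := by rw [polar_comm]; exact hsu
    have hsw : polar ⇑Q s w = polar ⇑Q s u := by
      rw [polar_sub_left, polar_comm ⇑Q u s, polar_comm ⇑Q w s] at hsd
      linear_combination -hsd
    obtain ⟨t, _, ht⟩ := exists_eich Q hQ hex hn s ((polar ⇑Q s u)⁻¹ • (u - w)) hs (by
      rw [polar_smul_right, polar_sub_right, hsw]
      simp)
    have htu : mat t *ᵥ u = w := by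
      rw [ht u]
      exact eform_move Q s u w huw _ hβ rfl hsw
    have htT : t ∈ TT Q := Subgroup.subset_closure ⟨s, _, hs, by
      rw [polar_smul_right, polar_sub_right, hsw]
      simp, ht⟩
    have hw' : Q (mat t *ᵥ u) ≠ 0 := by rw [htu]; exact hw
    have h1 : refl Q w hw = t * refl Q u hu * t⁻¹ := by
      rw [conj_refl' Q t u hu hw']
      exact refl_congr Q htu.symm hw hw'
    have h2 : refl Q u hu * refl Q w hw = (refl Q u hu * t * (refl Q u hu)⁻¹) * t⁻¹ := by
      rw [h1, refl_inv]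
      group
    rw [h2]
    exact Subgroup.mul_mem _ ((TT_normal Q).conj_mem t htT _) (Subgroup.inv_mem _ htT)

theorem HP2.omega_le [Fintype F] (hP : HP2 Q) (hQ : (QuadraticMap.polarBilin Q).Nondegenerate)
    (hex : Fintype.card F ≠ 2 ∨ Fintype.card ι ≠ 4) (hn : 2 ≤ Fintype.card ι) :
    Cfsg.Omega F ⇑Q ≤ TT Q := by
  haveI := TT_normal Q
  apply comm_le_of_gens {g : ↥(Cfsg.isometryGroup F ⇑Q) | ∃ v : ι → F, Q v ≠ 0 ∧
      ((g : Matrix.GeneralLinearGroup ι F) : Matrix ι ι F) = Cfsg.reflectionMatrix ⇑Q v}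
      (R_eq_top' Q hQ hex)
  rintro a ⟨u, hu, ha⟩ b ⟨v, hv, hb⟩
  have ha' : a = refl Q u hu := mat_injective ha
  have hb' : b = refl Q v hv := mat_injective hb
  have hu' : Q (mat (refl Q v hv) *ᵥ u) ≠ 0 := by rw [mat_preserves (refl Q v hv) u]; exact hu
  have h1 : a * b * a⁻¹ * b⁻¹ = refl Q u hu * refl Q _ hu' := by
    rw [← conj_refl' Q (refl Q v hv) u hu hu', ha', hb', refl_inv]
    group
  rw [h1]
  exact hP.refl_mul_mem hQ hex hn _ _ hu hu' (mat_preserves (refl Q v hv) u).symm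

variable (Q)

end Cfsg.Agent.Lib.Helper5.OrthEich
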