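import Mathlib
import Cfsg.Prelude.Def_ClassicalGeometry
import Cfsg.Agent.Lib.Helper5.OrthEich

set_option autoImplicit false
set_option linter.unusedSectionVars false

namespace Cfsg.Agent.Lib.Helper5.OrthEich2

open Matrix Cfsg.Agent.Lib.Helper5.OrthCard Cfsg.Agent.Lib.Helper5.Orth
  Cfsg.Agent.Lib.Helper5.OrthGen QuadraticMap Cfsg.Agent.Lib.Helper5.OrthRefl
  Cfsg.Agent.Lib.Helper5.OrthTrans Cfsg.Agent.Lib.Helper5.OrthCenter
  Cfsg.Agent.Lib.Helper5.OrthThree Cfsg.Agent.Lib.Helper5.OrthEich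

variable {F : Type*} [Field F] {ι : Type} [Fintype ι] [DecidableEq ι]
variable (Q : QuadraticForm F (ι → F))

/-- a nondegenerate subspace orthogonal to `D`, meeting `D` trivially -/
theorem exists_nondeg_orth (hQ : (QuadraticMap.polarBilin Q).Nondegenerate)
    (D : Submodule F (ι → F)) :
    ∃ M : Submodule F (ι → F), (∀ m ∈ M, ∀ d ∈ D, polar ⇑Q d m = 0) ∧ M ⊓ D = ⊥ ∧
      M ⊓ LinearMap.BilinForm.orthogonal (QuadraticMap.polarBilin Q) M = ⊥ ∧
      Fintype.card ι ≤ Module.finrank F M + 2 * Module.finrank F D := by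
  obtain ⟨C, hC⟩ := Submodule.exists_isCompl
    (D ⊓ LinearMap.BilinForm.orthogonal (QuadraticMap.polarBilin Q) D)
  have hMD : LinearMap.BilinForm.orthogonal (QuadraticMap.polarBilin Q) D ⊓ C ⊓ D = ⊥ := by
    rw [eq_bot_iff]
    rintro x ⟨⟨h1, h2⟩, h3⟩
    have : x ∈ (D ⊓ LinearMap.BilinForm.orthogonal (QuadraticMap.polarBilin Q) D) ⊓ C :=
      ⟨⟨h3, h1⟩, h2⟩
    rwa [hC.inf_eq_bot] at this
  refine ⟨LinearMap.BilinForm.orthogonal (QuadraticMap.polarBilin Q) D ⊓ C, ?_, hMD, ?_, ?_⟩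
  · rintro m ⟨hm, _⟩ d hd
    rw [SetLike.mem_coe, LinearMap.BilinForm.mem_orthogonal_iff] at hm
    exact hm d hd
  · rw [eq_bot_iff]
    rintro x ⟨hx1, hx2⟩
    rw [← hMD]
    refine ⟨hx1, ?_⟩
    show x ∈ D
    rw [← LinearMap.BilinForm.orthogonal_orthogonal hQ (isRefl Q) D,
      LinearMap.BilinForm.mem_orthogonal_iff]
    intro y hy
    -- decompose `y`
    have hy' : y ∈ (D ⊓ LinearMap.BilinForm.orthogonal (QuadraticMap.polarBilin Q) D) ⊔ C := by
      rw [hC.sup_eq_top]; trivial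
    obtain ⟨r, hr, c, hc, rfl⟩ := Submodule.mem_sup.mp hy'
    have hcperp : c ∈ LinearMap.BilinForm.orthogonal (QuadraticMap.polarBilin Q) D := by
      have : c = (r + c) - r := by abel
      rw [this]
      exact Submodule.sub_mem _ hy hr.2
    rw [SetLike.mem_coe, LinearMap.BilinForm.mem_orthogonal_iff] at hx2
    have e1 : polar ⇑Q c x = 0 := hx2 c ⟨hcperp, hc⟩
    have hx1' := hx1.1
    rw [SetLike.mem_coe, LinearMap.BilinForm.mem_orthogonal_iff] at hx1'
    have e2 : polar ⇑Q r x = 0 := hx1' r hr.1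
    show polar ⇑Q (r + c) x = 0
    rw [polar_add_left, e1, e2, add_zero]
  · have h1 := LinearMap.BilinForm.finrank_orthogonal hQ D
    have h2 := Submodule.finrank_sup_add_finrank_inf_eq
      (LinearMap.BilinForm.orthogonal (QuadraticMap.polarBilin Q) D) C
    have h3 := Submodule.finrank_sup_add_finrank_inf_eq
      (D ⊓ LinearMap.BilinForm.orthogonal (QuadraticMap.polarBilin Q) D) C
    rw [hC.sup_eq_top, hC.inf_eq_bot, finrank_top, finrank_bot] at h3
    have h4 : Module.finrank F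
        (D ⊓ LinearMap.BilinForm.orthogonal (QuadraticMap.polarBilin Q) D : Submodule F (ι → F)) ≤
        Module.finrank F D := Submodule.finrank_mono inf_le_left
    have h5 := Submodule.finrank_le
      (LinearMap.BilinForm.orthogonal (QuadraticMap.polarBilin Q) D ⊔ C)
    have h6 := Submodule.finrank_le D
    rw [Module.finrank_fintype_fun_eq_card] at h1 h3 h5 h6
    omega

/-- a vector of prescribed norm orthogonal to `D` -/
theorem exists_norm_orth [Fintype F] (hQ : (QuadraticMap.polarBilin Q).Nondegenerate)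
    (D : Submodule F (ι → F)) (hD : 2 * Module.finrank F D + 2 ≤ Fintype.card ι) (c : F) :
    ∃ z, Q z = c ∧ ∀ d ∈ D, polar ⇑Q d z = 0 := by
  obtain ⟨M, h1, _, h3, h4⟩ := exists_nondeg_orth Q hQ D
  obtain ⟨z, hz, hQz⟩ := repr_sub Q M h3 (by omega) c
  exact ⟨z, hQz, h1 z hz⟩

/-- a hyperbolic pair orthogonal to `D` -/
theorem exists_hyp_orth [Fintype F] (hQ : (QuadraticMap.polarBilin Q).Nondegenerate)
    (D : Submodule F (ι → F)) (hD : 2 * Module.finrank F D + 3 ≤ Fintype.card ι) :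
    ∃ x x' : ι → F, Q x = 0 ∧ Q x' = 0 ∧ polar ⇑Q x x' = 1 ∧ (∀ d ∈ D, polar ⇑Q d x = 0) ∧
      ∀ d ∈ D, polar ⇑Q d x' = 0 := by
  obtain ⟨M, h1, h2, _, h4⟩ := exists_nondeg_orth Q hQ D
  obtain ⟨v, hv0, hv⟩ := Cfsg.Agent.Lib.Helper4.QuadFin.exists_singular (Q.comp M.subtype)
    (by omega)
  have hvD : (v : ι → F) ∉ D := by
    intro h
    have : (v : ι → F) ∈ M ⊓ D := ⟨v.2, h⟩
    rw [h2, Submodule.mem_bot] at this
    exact hv0 (Subtype.ext this)
  have hQv : Q (v : ι → F) = 0 := hv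
  obtain ⟨y, hy, hyv⟩ := exists_orth_ne Q hQ D v hvD
  obtain ⟨c, d, e1, e2⟩ := partner_of Q v y hQv (by rw [polar_comm]; exact hyv)
  refine ⟨v, c • y + d • (v : ι → F), hQv, e1, e2, h1 v v.2, ?_⟩
  intro z hz
  rw [polar_add_right, polar_smul_right, polar_smul_right, hy z hz, h1 v v.2 z hz]
  simp

theorem finrank_span_one (d : ι → F) : Module.finrank F (Submodule.span F {d}) ≤ 1 := by
  classical
  have h2 := finrank_span_finset_le_card (R := F) ({d} : Finset (ι → F))
  rw [Finset.coe_singleton, Finset.card_singleton] at h2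
  exact h2

theorem finrank_span_two (d₁ d₂ : ι → F) : Module.finrank F (Submodule.span F {d₁, d₂}) ≤ 2 := by
  classical
  have h2 := finrank_span_finset_le_card (R := F) ({d₁, d₂} : Finset (ι → F))
  rw [Finset.coe_pair] at h2
  exact h2.trans Finset.card_le_two

theorem hp2_of_card [Fintype F] (hQ : (QuadraticMap.polarBilin Q).Nondegenerate)
    (hn : 7 ≤ Fintype.card ι) : HP2 Q := by
  intro d₁ d₂
  have := finrank_span_two d₁ d₂
  obtain ⟨x, x', h1, h2, h3, h4, h5⟩ := exists_hyp_orth Q hQ (Submodule.span F {d₁, d₂})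
    (by omega)
  exact ⟨x, x', h1, h2, h3, h4 d₁ (Submodule.subset_span (by simp)),
    h4 d₂ (Submodule.subset_span (by simp)), h5 d₁ (Submodule.subset_span (by simp)),
    h5 d₂ (Submodule.subset_span (by simp))⟩

section five

variable [Fintype F] (hQ : (QuadraticMap.polarBilin Q).Nondegenerate)
  (hn : 5 ≤ Fintype.card ι)

include hQ hn

/-- singular vectors in a hyperplane, off another one -/
theorem exists_sing (d u : ι → F) (hu : u ∉ Submodule.span F {d}) :
    ∃ s, Q s = 0 ∧ polar ⇑Q d s = 0 ∧ polar ⇑Q u s ≠ 0 := by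
  obtain ⟨y, hy, hyu⟩ := exists_orth_ne Q hQ _ u hu
  have hyd : polar ⇑Q d y = 0 := hy d (Submodule.mem_span_singleton_self d)
  have := finrank_span_one d
  obtain ⟨x, x', hx, hx', hxx', h1', h2'⟩ := exists_hyp_orth Q hQ (Submodule.span F {d})
    (by omega)
  have h1 := h1' d (Submodule.mem_span_singleton_self d)
  have h2 := h2' d (Submodule.mem_span_singleton_self d)
  by_cases c1 : polar ⇑Q u x = 0
  · by_cases c2 : polar ⇑Q u x' = 0
    · obtain ⟨y', hy'⟩ : ∃ y', y' = y - (polar ⇑Q x' y) • x - (polar ⇑Q x y) • x' := ⟨_, rfl⟩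
      have p1 : polar ⇑Q x y' = 0 := by
        rw [hy', polar_sub_right, polar_sub_right, polar_smul_right, polar_smul_right, polar_self',
          hx, hxx']
        simp
      have p2 : polar ⇑Q x' y' = 0 := by
        rw [hy', polar_sub_right, polar_sub_right, polar_smul_right, polar_smul_right, polar_self',
          hx', polar_comm ⇑Q x' x, hxx']
        simp
      refine ⟨y' + (x - Q y' • x'), ?_, ?_, ?_⟩
      · rw [QuadraticMap.map_add Q, map_sub_smul, hx, hx', polar_comm ⇑Q x' x, hxx',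
          polar_sub_right, polar_smul_right, polar_comm ⇑Q y' x, polar_comm ⇑Q y' x', p1, p2]
        simp
      · rw [polar_add_right, polar_sub_right, polar_smul_right, h1, h2, hy', polar_sub_right,
          polar_sub_right, polar_smul_right, polar_smul_right, h1, h2, hyd]
        simp
      · rw [polar_add_right, polar_sub_right, polar_smul_right, c1, c2, hy', polar_sub_right,
          polar_sub_right, polar_smul_right, polar_smul_right, c1, c2, polar_comm]
        simpa using hyu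
    · exact ⟨x', hx', h2, c2⟩
  · exact ⟨x, hx, h1, c1⟩

theorem refl_mul_mem (u w : ι → F)
    (hu : Q u ≠ 0) (hw : Q w ≠ 0) (huw : Q u = Q w) : refl Q u hu * refl Q w hw ∈ TT Q := by
  have hex : Fintype.card F ≠ 2 ∨ Fintype.card ι ≠ 4 := Or.inr (by omega)
  by_cases h : u ∈ Submodule.span F {u - w}
  · obtain ⟨l, hl⟩ := Submodule.mem_span_singleton.mp h
    have hl0 : l ≠ 0 := by
      rintro rfl
      rw [zero_smul] at hl
      apply hu
      rw [← hl, QuadraticMap.map_zero]
    have hw' : w = (1 - l⁻¹) • u := by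
      have h1 : l⁻¹ • (l • (u - w)) = l⁻¹ • u := by rw [hl]
      rw [smul_smul, inv_mul_cancel₀ hl0, one_smul] at h1
      rw [sub_smul, one_smul, ← h1]
      abel
    have hm0 : (1 - l⁻¹) ≠ 0 := by
      intro h0
      rw [h0, zero_smul] at hw'
      apply hw
      rw [hw', QuadraticMap.map_zero]
    have hw'' : Q ((1 - l⁻¹) • u) ≠ 0 := by rw [← hw']; exact hw
    rw [refl_congr Q hw' hw hw'', OrthThree.refl_smul' Q _ hm0 u hu hw'', refl_mul_self]
    exact Subgroup.one_mem _
  · obtain ⟨s, hs, hsd, hsu⟩ := exists_sing Q hQ hn (u - w) u h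
    have hβ : polar ⇑Q s u ≠ 0 := by rw [polar_comm]; exact hsu
    have hsw : polar ⇑Q s w = polar ⇑Q s u := by
      rw [polar_sub_left, polar_comm ⇑Q u s, polar_comm ⇑Q w s] at hsd
      linear_combination -hsd
    obtain ⟨t, _, ht⟩ := exists_eich Q hQ hex (by omega) s ((polar ⇑Q s u)⁻¹ • (u - w)) hs (by
      rw [polar_smul_right, polar_sub_right, hsw]
      simp)
    have htu : mat t *ᵥ u = w := by
      rw [ht u]
      exact eform_move Q s u w huw _ hβ rfl hsw
    have htT : t ∈ TT Q := Subgroup.subset_closure ⟨s, _, hs, by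
      rw [polar_smul_right, polar_sub_right, hsw]
      simp, ht⟩
    have hw' : Q (mat t *ᵥ u) ≠ 0 := by rw [htu]; exact hw
    have h1 : refl Q w hw = t * refl Q u hu * t⁻¹ := by
      rw [conj_refl' Q t u hu hw']
      exact refl_congr Q htu.symm hw hw'
    have h2 : refl Q u hu * refl Q w hw = (refl Q u hu * t * (refl Q u hu)⁻¹) * t⁻¹ := by
      rw [h1, refl_inv]
      group
    rw [h2]
    exact Subgroup.mul_mem _ ((TT_normal Q).conj_mem t htT _) (Subgroup.inv_mem _ htT)

theorem omega_le : Cfsg.Omega F ⇑Q ≤ TT Q := by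
  have hex : Fintype.card F ≠ 2 ∨ Fintype.card ι ≠ 4 := Or.inr (by omega)
  have := TT_normal Q
  apply comm_le_of_gens {g : ↥(Cfsg.isometryGroup F ⇑Q) | ∃ v : ι → F, Q v ≠ 0 ∧
      ((g : Matrix.GeneralLinearGroup ι F) : Matrix ι ι F) = Cfsg.reflectionMatrix ⇑Q v}
      (R_eq_top' Q hQ hex)
  rintro a ⟨u, hu, ha⟩ b ⟨v, hv, hb⟩
  have ha' : a = refl Q u hu := mat_injective ha
  have hb' : b = refl Q v hv := mat_injective hb
  have hu' : Q (mat (refl Q v hv) *ᵥ u) ≠ 0 := by rw [mat_preserves (refl Q v hv) u]; exact hu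
  have h1 : a * b * a⁻¹ * b⁻¹ = refl Q u hu * refl Q _ hu' := by
    rw [← conj_refl' Q (refl Q v hv) u hu hu', ha', hb', refl_inv]
    group
  rw [h1]
  exact refl_mul_mem Q hQ hn _ _ hu hu' (mat_preserves (refl Q v hv) u).symm

/-- `Ω` is generated by the Siegel transformations -/
theorem omega_eq_siegel : Cfsg.Omega F ⇑Q = Subgroup.closure {g : ↥(Cfsg.isometryGroup F ⇑Q) |
    ∃ (u v : ι → F) (c : F), Q u = 0 ∧ Q v = 0 ∧ polar ⇑Q u v = 0 ∧
      ((g : Matrix.GeneralLinearGroup ι F) : Matrix ι ι F) = Cfsg.siegelMatrix ⇑Q u v c} := by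
  have hex : Fintype.card F ≠ 2 ∨ Fintype.card ι ≠ 4 := Or.inr (by omega)
  apply le_antisymm
  · apply (omega_le Q hQ hn).trans
    unfold TT
    rw [Subgroup.closure_le]
    rintro g ⟨e, a, he, hea, hg⟩
    have sing : ∀ (b : ι → F) (h : ↥(Cfsg.isometryGroup F ⇑Q)), Q b = 0 → polar ⇑Q e b = 0 →
        IsEich Q h e b → h ∈ Subgroup.closure {g : ↥(Cfsg.isometryGroup F ⇑Q) |
          ∃ (u v : ι → F) (c : F), Q u = 0 ∧ Q v = 0 ∧ polar ⇑Q u v = 0 ∧
          ((g : Matrix.GeneralLinearGroup ι F) : Matrix ι ι F) = Cfsg.siegelMatrix ⇑Q u v c} := by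
      intro b h hb heb hh
      apply Subgroup.subset_closure
      refine ⟨b, e, 1, hb, he, by rw [polar_comm]; exact heb, ?_⟩
      show mat h = _
      rw [Matrix.ext_iff_mulVec]
      intro x
      rw [hh x, siegelMatrix_mulVec]
      unfold eform
      rw [hb]
      simp
    by_cases ha : Q a = 0
    · exact sing a g ha hea hg
    · have hnot : a ∉ Submodule.span F {e} := by
        intro h
        obtain ⟨s, rfl⟩ := Submodule.mem_span_singleton.mp h
        apply ha
        rw [QuadraticMap.map_smul, he, smul_zero]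
      obtain ⟨s, hs, hes, has⟩ := exists_sing Q hQ hn e a hnot
      have q1 : Q (a - (Q a / polar ⇑Q a s) • s) = 0 := by
        rw [map_sub_smul, hs, polar_comm ⇑Q s a]
        field_simp
        ring
      have p1 : polar ⇑Q e (a - (Q a / polar ⇑Q a s) • s) = 0 := by
        rw [polar_sub_right, polar_smul_right, hea, hes]
        simp
      have q2 : Q ((Q a / polar ⇑Q a s) • s) = 0 := by
        rw [QuadraticMap.map_smul, hs, smul_zero]
      have p2 : polar ⇑Q e ((Q a / polar ⇑Q a s) • s) = 0 := by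
        rw [polar_smul_right, hes, smul_zero]
      obtain ⟨g₁, _, hg₁⟩ := exists_eich Q hQ hex (by omega) e _ he p1
      obtain ⟨g₂, _, hg₂⟩ := exists_eich Q hQ hex (by omega) e _ he p2
      have c1 := hg₁.mul hg₂ he p1 p2
      rw [sub_add_cancel] at c1
      rw [hg.ext c1]
      exact Subgroup.mul_mem _ (sing _ g₁ q1 p1 hg₁) (sing _ g₂ q2 p2 hg₂)
  · rw [Subgroup.closure_le]
    rintro g ⟨u, v, c, hu, hv, huv, hg⟩
    have : g = siegelEl Q hQ u v hu hv huv c := mat_injective hg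
    rw [this]
    exact siegel_mem_omega Q hQ hex (by omega) u v hu hv huv c

end five

end Cfsg.Agent.Lib.Helper5.OrthEich2
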