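import Mathlib
import Cfsg.Prelude.Def_ClassicalGeometry
import Cfsg.Agent.Lib.Helper5.OrthClass

set_option autoImplicit false
set_option linter.unusedSectionVars false

namespace Cfsg.Agent.Lib.Helper5.OrthFam2

open Matrix Cfsg.Agent.Lib.Helper5.OrthCard Cfsg.Agent.Lib.Helper5.Orth
  Cfsg.Agent.Lib.Helper5.OrthGen QuadraticMap Cfsg.Agent.Lib.Helper5.OrthRefl
  Cfsg.Agent.Lib.Helper5.OrthTrans Cfsg.Agent.Lib.Helper5.OrthClass

variable {F : Type*} [Field F] {ι : Type} [Fintype ι] [DecidableEq ι]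
variable (Q : QuadraticForm F (ι → F))

/-- one step towards `X` -/
theorem step (hQ : (QuadraticMap.polarBilin Q).Nondegenerate) {W X : Submodule F (ι → F)}
    (hW : Lag Q W) (hX : Lag Q X) (hne : W ≠ X) :
    ∃ (v : ι → F) (hv : Q v ≠ 0),
      Module.finrank F (X ⊓ img (refl Q v hv) W : Submodule F (ι → F)) =
        Module.finrank F (X ⊓ W : Submodule F (ι → F)) + 1 := by
  have hnle : ¬ X ≤ W := by
    intro hle
    apply hne
    symm
    apply Submodule.eq_of_le_of_finrank_eq hle
    have := hW.2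
    have := hX.2
    omega
  obtain ⟨x, hxX, hxW⟩ := SetLike.not_le_iff_exists.mp hnle
  have h1 : ∃ w ∈ W, polar ⇑Q w x ≠ 0 := by
    by_contra hcon
    push Not at hcon
    apply hxW
    rw [← hW.orth Q hQ, LinearMap.BilinForm.mem_orthogonal_iff]
    intro w hw
    exact hcon w hw
  obtain ⟨w, hwW, hwx⟩ := h1
  have hQv : Q (x - w) = - polar ⇑Q w x := by
    rw [OrthGen.map_sub', hX.1 x hxX, hW.1 w hwW, polar_comm]
    ring
  have hv : Q (x - w) ≠ 0 := by
    rw [hQv]
    exact neg_ne_zero.mpr hwx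
  refine ⟨x - w, hv, ?_⟩
  rcases parity Q hQ hX hW (x - w) hv with h | h
  · exact h
  · exfalso
    have hlt : X ⊓ W < X ⊓ img (refl Q (x - w) hv) W := by
      rw [SetLike.lt_iff_le_and_exists]
      refine ⟨?_, x, ⟨hxX, ?_⟩, fun h => hxW h.2⟩
      · rintro y ⟨hyX, hyW⟩
        refine ⟨hyX, ?_⟩
        show y ∈ img (refl Q (x - w) hv) W
        rw [mem_img]
        refine ⟨y, hyW, ?_⟩
        rw [mat_refl]
        apply reflection_fix
        rw [polar_sub_left, polar_of_ts Q X hX.1 x y hxX hyX, polar_of_ts Q W hW.1 w y hwW hyW,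
          sub_zero]
      · show x ∈ img (refl Q (x - w) hv) W
        rw [mem_img]
        refine ⟨w, hwW, ?_⟩
        rw [mat_refl, reflectionMatrix_mulVec]
        have e1 : polar ⇑Q (x - w) w = - Q (x - w) := by
          rw [hQv, polar_sub_left, polar_self', hW.1 w hwW, polar_comm]
          ring
        rw [e1, mul_neg, inv_mul_cancel₀ hv]
        module
    have := Submodule.finrank_lt_finrank_of_lt hlt
    omega

theorem sign_chain (hQ : (QuadraticMap.polarBilin Q).Nondegenerate) {U X : Submodule F (ι → F)}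
    (hU : Lag Q U) (hX : Lag Q X) (k : ℕ) :
    ∀ W : Submodule F (ι → F), Lag Q W →
      Module.finrank F (X ⊓ W : Submodule F (ι → F)) + k = Module.finrank F X →
      (-1 : ℤˣ) ^ Module.finrank F (U ⊓ X : Submodule F (ι → F)) =
        (-1) ^ Module.finrank F (U ⊓ W : Submodule F (ι → F)) * (-1) ^ k := by
  induction k with
  | zero =>
    intro W hW hk
    have h1 : X ⊓ W = X := Submodule.eq_of_le_of_finrank_eq inf_le_left (by omega)
    have h2 : X ≤ W := inf_eq_left.mp h1
    have h3 : X = W := by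
      apply Submodule.eq_of_le_of_finrank_eq h2
      have := hW.2
      have := hX.2
      omega
    rw [h3]; simp
  | succ k ih =>
    intro W hW hk
    have hne : W ≠ X := by
      rintro rfl
      rw [inf_idem] at hk
      omega
    obtain ⟨v, hv, h1⟩ := step Q hQ hW hX hne
    have h2 := ih (img (refl Q v hv) W) (hW.img Q _) (by omega)
    rw [h2]
    rcases parity Q hQ hU hW v hv with h | h
    · rw [h, pow_succ, pow_succ]
      simp
    · rw [← h, pow_succ, pow_succ]
      simp

theorem three (hQ : (QuadraticMap.polarBilin Q).Nondegenerate) {U W X : Submodule F (ι → F)}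
    (hU : Lag Q U) (hW : Lag Q W) (hX : Lag Q X) (m : ℕ) (hm : Fintype.card ι = 2 * m) :
    Even ((m - Module.finrank F (U ⊓ W : Submodule F (ι → F))) +
      (m - Module.finrank F (W ⊓ X : Submodule F (ι → F))) +
      (m - Module.finrank F (U ⊓ X : Submodule F (ι → F)))) := by
  have hU2 := hU.2
  have hW2 := hW.2
  have hX2 := hX.2
  have l1 : Module.finrank F (U ⊓ W : Submodule F (ι → F)) ≤ Module.finrank F U :=
    Submodule.finrank_mono inf_le_left
  have l2 : Module.finrank F (W ⊓ X : Submodule F (ι → F)) ≤ Module.finrank F W :=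
    Submodule.finrank_mono inf_le_left
  have l3 : Module.finrank F (U ⊓ X : Submodule F (ι → F)) ≤ Module.finrank F U :=
    Submodule.finrank_mono inf_le_left
  obtain ⟨a, ha⟩ := Nat.exists_eq_add_of_le l1
  obtain ⟨b, hb⟩ := Nat.exists_eq_add_of_le l2
  obtain ⟨c, hc⟩ := Nat.exists_eq_add_of_le l3
  have h1 := sign_chain Q hQ hU hX b W hW (by rw [inf_comm]; omega)
  have e1 : m - Module.finrank F (U ⊓ W : Submodule F (ι → F)) = a := by omega
  have e2 : m - Module.finrank F (W ⊓ X : Submodule F (ι → F)) = b := by omega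
  have e3 : m - Module.finrank F (U ⊓ X : Submodule F (ι → F)) = c := by omega
  rw [e1, e2, e3]
  rw [← neg_one_pow_eq_one_iff_even (R := ℤˣ) (by decide)]
  have h2 : (-1 : ℤˣ) ^ (Module.finrank F (U ⊓ X : Submodule F (ι → F)) + c) =
      (-1) ^ (Module.finrank F (U ⊓ W : Submodule F (ι → F)) + a) := by
    rw [← hc, ← ha]
  rw [pow_add, pow_add, h1] at h2
  have h3 : ((-1 : ℤˣ) ^ Module.finrank F (U ⊓ W : Submodule F (ι → F))) *
      ((-1) ^ b * (-1) ^ c) = ((-1 : ℤˣ) ^ Module.finrank F (U ⊓ W : Submodule F (ι → F))) *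
      (-1) ^ a := by
    rw [← h2, mul_assoc]
  have h4 := mul_left_cancel h3
  rw [pow_add, pow_add, ← h4, mul_assoc]
  exact Int.units_mul_self _

/-- a neighbour -/
theorem exists_neighbour (hQ : (QuadraticMap.polarBilin Q).Nondegenerate)
    {U : Submodule F (ι → F)} (hU : Lag Q U) (v : ι → F) (hv : Q v ≠ 0) :
    Module.finrank F (U ⊓ img (refl Q v hv) U : Submodule F (ι → F)) + 1 = Module.finrank F U := by
  rcases parity Q hQ hU hU v hv with h | h
  · exfalso
    rw [inf_idem] at h
    have : Module.finrank F (U ⊓ img (refl Q v hv) U : Submodule F (ι → F)) ≤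
      Module.finrank F U := Submodule.finrank_mono inf_le_left
    omega
  · rw [inf_idem] at h
    exact h

/-- every totally singular subspace lies in a maximal one (of the dimension of `L₀`) -/
theorem exists_lag_ge (hQ : (QuadraticMap.polarBilin Q).Nondegenerate)
    {L₀ : Submodule F (ι → F)} (hL : Lag Q L₀) (U : Submodule F (ι → F))
    (hU0 : ∀ u ∈ U, Q u = 0) (hle : Module.finrank F U ≤ Module.finrank F L₀) :
    ∃ W : Submodule F (ι → F), Lag Q W ∧ U ≤ W := by
  obtain ⟨j, hj⟩ := finrank_le_iff_exists_linearMap.mp hle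
  let j' : U →ₗ[F] (ι → F) := L₀.subtype ∘ₗ j
  have hj' : Function.Injective j' := fun a b h => hj (Subtype.ext h)
  obtain ⟨g, hg⟩ := witt_iso Q hQ U (LinearMap.range j') (LinearEquiv.ofInjective j' hj') (by
    intro x
    rw [hU0 _ x.2]
    exact hL.1 _ (j x).2)
  refine ⟨img g⁻¹ L₀, hL.img Q _, ?_⟩
  intro x hx
  rw [mem_img]
  refine ⟨mat g *ᵥ x, ?_, ?_⟩
  · rw [hg ⟨x, hx⟩]
    exact (j ⟨x, hx⟩).2
  · rw [mulVec_mulVec, mat_inv_mul, one_mulVec]

theorem card_over (hQ : (QuadraticMap.polarBilin Q).Nondegenerate)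
    {L₀ : Submodule F (ι → F)} (hL : Lag Q L₀) (m : ℕ) (hm : Fintype.card ι = 2 * m)
    (U : Submodule F (ι → F)) (hU : Module.finrank F U + 1 = m) (hU0 : ∀ u ∈ U, Q u = 0) :
    Nat.card {W : Submodule F (ι → F) // Module.finrank F W = m ∧ (∀ w ∈ W, Q w = 0) ∧ U ≤ W} =
      2 := by
  have hL2 := hL.2
  obtain ⟨W₁, hW₁, hUW₁⟩ := exists_lag_ge Q hQ hL U hU0 (by omega)
  obtain ⟨a, ha, haU⟩ := exists_nonsing_orth Q hQ U (by omega)
  have hn := exists_neighbour Q hQ hW₁ a ha
  have hW₂ := hW₁.img Q (refl Q a ha)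
  have hUW₂ : U ≤ img (refl Q a ha) W₁ := by
    rw [← img_refl_of_orth Q U a ha haU]
    exact Submodule.map_mono hUW₁
  have hne : W₁ ≠ img (refl Q a ha) W₁ := by
    intro h
    rw [← h, inf_idem] at hn
    omega
  have hfr : ∀ W : Submodule F (ι → F), Lag Q W → Module.finrank F W = m := by
    intro W hW
    have := hW.2
    omega
  have hcod : ∀ W W' : Submodule F (ι → F), Lag Q W → Lag Q W' → U ≤ W → U ≤ W' → W ≠ W' →
      m - Module.finrank F (W ⊓ W' : Submodule F (ι → F)) = 1 := by
    intro W W' hW hW' h1 h2 h3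
    have l1 : Module.finrank F U ≤ Module.finrank F (W ⊓ W' : Submodule F (ι → F)) :=
      Submodule.finrank_mono (le_inf h1 h2)
    have l2 : Module.finrank F (W ⊓ W' : Submodule F (ι → F)) < Module.finrank F W := by
      apply Submodule.finrank_lt_finrank_of_lt
      apply lt_of_le_of_ne inf_le_left
      intro h
      apply h3
      apply Submodule.eq_of_le_of_finrank_eq (inf_eq_left.mp h)
      rw [hfr W hW, hfr W' hW']
    have := hfr W hW
    omega
  have hset : {W : Submodule F (ι → F) | Module.finrank F W = m ∧ (∀ w ∈ W, Q w = 0) ∧ U ≤ W} =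
      {W₁, img (refl Q a ha) W₁} := by
    ext W
    simp only [Set.mem_ofPred_eq, Set.mem_insert_iff, Set.mem_singleton_iff]
    constructor
    · rintro ⟨h1, h2, h3⟩
      by_contra hcon
      push Not at hcon
      have hW : Lag Q W := ⟨h2, by omega⟩
      have h4 := three Q hQ hW hW₁ hW₂ m hm
      rw [hcod W W₁ hW hW₁ h3 hUW₁ hcon.1, hcod W₁ _ hW₁ hW₂ hUW₁ hUW₂ hne,
        hcod W _ hW hW₂ h3 hUW₂ hcon.2] at h4
      exact absurd h4 (by decide)
    · rintro (rfl | rfl)
      · exact ⟨hfr _ hW₁, hW₁.1, hUW₁⟩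
      · exact ⟨hfr _ hW₂, hW₂.1, hUW₂⟩
  have : Nat.card {W : Submodule F (ι → F) // Module.finrank F W = m ∧ (∀ w ∈ W, Q w = 0) ∧
      U ≤ W} = Set.ncard {W : Submodule F (ι → F) | Module.finrank F W = m ∧
      (∀ w ∈ W, Q w = 0) ∧ U ≤ W} := rfl
  rw [this, hset]
  exact Set.ncard_pair hne

section plus

variable (F) (m : ℕ)

/-- the hyperbolic form over any field -/
noncomputable def plusForm : QuadraticForm F (Fin m ⊕ Fin m → F) :=
  ∑ i : Fin m, QuadraticMap.linMulLin (LinearMap.proj (Sum.inl i)) (LinearMap.proj (Sum.inr i))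

theorem plusForm_coe : ⇑(plusForm F m) = Cfsg.quadFormPlus m F := by
  funext x
  simp [plusForm, Cfsg.quadFormPlus]

theorem polar_plus (x y : Fin m ⊕ Fin m → F) :
    polar ⇑(plusForm F m) x y =
      ∑ i : Fin m, (x (Sum.inl i) * y (Sum.inr i) + y (Sum.inl i) * x (Sum.inr i)) := by
  rw [plusForm_coe]
  unfold polar Cfsg.quadFormPlus
  rw [← Finset.sum_sub_distrib, ← Finset.sum_sub_distrib]
  apply Finset.sum_congr rfl
  intro i _
  simp only [Pi.add_apply]
  ring

theorem plusForm_nondeg : (QuadraticMap.polarBilin (plusForm F m)).Nondegenerate := by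
  have key : ∀ x : Fin m ⊕ Fin m → F, (∀ y, polar ⇑(plusForm F m) x y = 0) → x = 0 := by
    intro x hx
    funext j
    rcases j with i | i
    · have := hx (Pi.single (Sum.inr i) 1)
      rw [polar_plus] at this
      simpa [Pi.single_apply] using this
    · have := hx (Pi.single (Sum.inl i) 1)
      rw [polar_plus] at this
      simpa [Pi.single_apply] using this
  constructor
  · intro x hx
    exact key x hx
  · intro x hx
    apply key x
    intro y
    rw [polar_comm]
    exact hx y

end plus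

end Cfsg.Agent.Lib.Helper5.OrthFam2
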