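import Mathlib
import Cfsg.Prelude.Def_GeometricClasses
import Cfsg.Agent.Lib.Helper5.OrthEich2
import Cfsg.Agent.Lib.Helper5.OrthFam2

set_option autoImplicit false
set_option linter.unusedSectionVars false

namespace Cfsg.Agent.Lib.Helper5.OrthGeo

open Matrix Cfsg.Agent.Lib.Helper5.OrthCard Cfsg.Agent.Lib.Helper5.Orth
  Cfsg.Agent.Lib.Helper5.OrthGen QuadraticMap Cfsg.Agent.Lib.Helper5.OrthRefl
  Cfsg.Agent.Lib.Helper5.OrthTrans Cfsg.Agent.Lib.Helper5.Dickson
  Cfsg.Agent.Lib.Helper5.OrthCenter Cfsg.Agent.Lib.Helper5.OrthThree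
  Cfsg.Agent.Lib.Helper5.OrthEich Cfsg.Agent.Lib.Helper5.OrthEich2
  Cfsg.Agent.Lib.Helper5.OrthClass Cfsg.Agent.Lib.Helper5.OrthFam2

variable {F : Type*} [Field F] {ι : Type} [Fintype ι] [DecidableEq ι]

/-- a form given as a function is a bundled quadratic form -/
theorem exists_form {Q : (ι → F) → F} (hQ : Cfsg.Geo.IsNondegenerateQuadraticForm Q) :
    ∃ Qf : QuadraticForm F (ι → F), ⇑Qf = Q ∧ (QuadraticMap.polarBilin Qf).Nondegenerate := by
  let B : LinearMap.BilinMap F (ι → F) F := LinearMap.mk₂ F (polar Q) hQ.polar_bilinear.add_left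
    hQ.polar_bilinear.smul_left hQ.polar_bilinear.add_right hQ.polar_bilinear.smul_right
  let Qf : QuadraticForm F (ι → F) :=
    { toFun := Q
      toFun_smul := by
        intro a x
        rw [hQ.smul, smul_eq_mul, _root_.sq]
      exists_companion' := ⟨B, by
        intro x y
        show Q (x + y) = Q x + Q y + polar Q x y
        unfold polar
        ring⟩ }
  refine ⟨Qf, rfl, ?_⟩
  constructor
  · intro x hx
    by_contra h0
    obtain ⟨_, y, hy⟩ := hQ.nondegenerate x h0
    exact hy (hx y)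
  · intro x hx
    by_contra h0
    obtain ⟨⟨y, hy⟩, _⟩ := hQ.nondegenerate x h0
    exact hy (hx y)

theorem mem_omegaGL {Q : (ι → F) → F} (g : ↥(Cfsg.isometryGroup F Q)) :
    (g : Matrix.GeneralLinearGroup ι F) ∈ Cfsg.Geo.omegaGL Q ↔ g ∈ Cfsg.Omega F Q := by
  unfold Cfsg.Geo.omegaGL
  rw [Subgroup.mem_map]
  constructor
  · rintro ⟨h, hh, e⟩
    have : h = g := Subtype.ext e
    rw [← this]
    exact hh
  · intro h
    exact ⟨g, h, rfl⟩

theorem mem_stab {Q : (ι → F) → F} (g : ↥(Cfsg.isometryGroup F Q)) (W : Submodule F (ι → F)) :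
    (g : Matrix.GeneralLinearGroup ι F) ∈ Cfsg.Geo.subspaceStabilizer W ↔ img g W = W := by
  constructor
  · intro h
    apply img_eq_of_le
    intro x hx
    exact (h x).mp hx
  · intro h v
    constructor
    · intro hv
      have : mat g *ᵥ v ∈ img g W := (mem_img g W _).mpr ⟨v, hv, rfl⟩
      rw [h] at this
      exact this
    · intro hv
      have hv' : mat g *ᵥ v ∈ img g W := by rw [h]; exact hv
      obtain ⟨x, hx, e⟩ := (mem_img g W _).mp hv'
      have := mulVec_injective g e
      rw [← this]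
      exact hx

/-- the general shape of the non-maximality statements -/
theorem not_max {Q : (ι → F) → F} (A B : Subgroup (Matrix.GeneralLinearGroup ι F))
    (h1 : ∀ g : ↥(Cfsg.isometryGroup F Q), g ∈ Cfsg.Omega F Q →
      (g : Matrix.GeneralLinearGroup ι F) ∈ A → (g : Matrix.GeneralLinearGroup ι F) ∈ B)
    (h2 : ∃ g : ↥(Cfsg.isometryGroup F Q), g ∈ Cfsg.Omega F Q ∧
      (g : Matrix.GeneralLinearGroup ι F) ∈ B ∧ (g : Matrix.GeneralLinearGroup ι F) ∉ A)
    (h3 : ∃ g : ↥(Cfsg.isometryGroup F Q), g ∈ Cfsg.Omega F Q ∧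
      (g : Matrix.GeneralLinearGroup ι F) ∉ B) :
    ∃ K : Subgroup (Matrix.GeneralLinearGroup ι F),
      A ⊓ Cfsg.Geo.omegaGL Q < K ∧ K < Cfsg.Geo.omegaGL Q := by
  refine ⟨B ⊓ Cfsg.Geo.omegaGL Q, ?_, ?_⟩
  · rw [SetLike.lt_iff_le_and_exists]
    constructor
    · rintro x ⟨hxA, hxΩ⟩
      refine ⟨?_, hxΩ⟩
      obtain ⟨g, hg, rfl⟩ := Subgroup.mem_map.mp hxΩ
      exact h1 g hg hxA
    · obtain ⟨g, hg, hB, hA⟩ := h2
      exact ⟨g, ⟨hB, (mem_omegaGL g).mpr hg⟩, fun h => hA h.1⟩
  · rw [SetLike.lt_iff_le_and_exists]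
    refine ⟨inf_le_right, ?_⟩
    obtain ⟨g, hg, hB⟩ := h3
    exact ⟨g, (mem_omegaGL g).mpr hg, fun h => hB h.1⟩

theorem img_eq_map {Q' : (ι → F) → F} (g : ↥(Cfsg.isometryGroup F Q')) (U : Submodule F (ι → F)) :
    U.map (Matrix.toLin' ((g : Matrix.GeneralLinearGroup ι F) : Matrix ι ι F)) = img g U := rfl

section main

variable [Fintype F] (Q : QuadraticForm F (ι → F))
  (hQ : (QuadraticMap.polarBilin Q).Nondegenerate)

include hQ

theorem dk_of_omega (hex : Fintype.card F ≠ 2 ∨ Fintype.card ι ≠ 4)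
    (g : ↥(Cfsg.isometryGroup F ⇑Q)) (hg : g ∈ Cfsg.Omega F ⇑Q) : dk g = 1 :=
  Abelianization.commutator_subset_ker (dkHom Q hQ hex) hg

/-- some element of `Ω` moves a given maximal totally singular subspace -/
theorem exists_move_lag (hn : 5 ≤ Fintype.card ι) {W₁ : Submodule F (ι → F)} (hW₁ : Lag Q W₁) :
    ∃ g : ↥(Cfsg.isometryGroup F ⇑Q), g ∈ Cfsg.Omega F ⇑Q ∧ img g W₁ ≠ W₁ := by
  have hex : Fintype.card F ≠ 2 ∨ Fintype.card ι ≠ 4 := Or.inr (by omega)
  have hpos : 0 < Module.finrank F W₁ := by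
    have := hW₁.2
    omega
  have hne : W₁ ≠ ⊥ := by
    intro h
    rw [h, finrank_bot] at hpos
    exact lt_irrefl _ hpos
  obtain ⟨e, heW, he0⟩ := Submodule.exists_mem_ne_zero_of_ne_bot hne
  obtain ⟨f, hf, hef⟩ := exists_partner Q hQ e he0 (hW₁.1 e heW)
  have hf0 : f ≠ 0 := by
    rintro rfl
    simp at hef
  have hfW : f ∉ W₁ := by
    intro h
    rw [polar_of_ts Q W₁ hW₁.1 e f heW h] at hef
    exact zero_ne_one hef
  obtain ⟨g, hg, hgi⟩ := trans_ts Q hQ hex (Submodule.span F {e}) (Submodule.span F {f}) (k := 1)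
    (by omega) (finrank_span_singleton he0) (finrank_span_singleton hf0)
    (by
      intro u hu
      obtain ⟨c, rfl⟩ := Submodule.mem_span_singleton.mp hu
      rw [QuadraticMap.map_smul, hW₁.1 e heW, smul_zero])
    (by
      intro u hu
      obtain ⟨c, rfl⟩ := Submodule.mem_span_singleton.mp hu
      rw [QuadraticMap.map_smul, hf, smul_zero])
  refine ⟨g, hg, ?_⟩
  intro h
  have h1 : mat g *ᵥ e ∈ img g (Submodule.span F {e}) :=
    (mem_img g _ _).mpr ⟨e, Submodule.mem_span_singleton_self e, rfl⟩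
  rw [hgi] at h1
  obtain ⟨c, hc⟩ := Submodule.mem_span_singleton.mp h1
  have h2 : mat g *ᵥ e ∈ img g W₁ := (mem_img g _ _).mpr ⟨e, heW, rfl⟩
  rw [h, ← hc] at h2
  have hc0 : c ≠ 0 := by
    rintro rfl
    rw [zero_smul] at hc
    apply he0
    apply mulVec_injective g
    rw [map_zero]
    exact hc.symm
  apply hfW
  have := W₁.smul_mem c⁻¹ h2
  rwa [smul_smul, inv_mul_cancel₀ hc0, one_smul] at this

/-- an element of `Ω` fixing a hyperplane of a maximal totally singular subspace fixes the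
subspace -/
theorem lag_fixed (hex : Fintype.card F ≠ 2 ∨ Fintype.card ι ≠ 4)
    {W W₁ : Submodule F (ι → F)} (hW₁ : Lag Q W₁) (hWW : W ≤ W₁)
    (hdim : Module.finrank F W + 1 = Module.finrank F W₁)
    (g : ↥(Cfsg.isometryGroup F ⇑Q)) (hg : g ∈ Cfsg.Omega F ⇑Q) (hgW : img g W = W) :
    img g W₁ = W₁ := by
  have h1 := (even_iff_dk Q hQ hex hW₁ g).mpr (dk_of_omega Q hQ hex g hg)
  have h2 : W ≤ W₁ ⊓ img g W₁ := by
    refine le_inf hWW ?_
    rw [← hgW]
    exact Submodule.map_mono hWW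
  have h3 := Submodule.finrank_mono h2
  have h4 : Module.finrank F (W₁ ⊓ img g W₁ : Submodule F (ι → F)) ≤ Module.finrank F W₁ :=
    Submodule.finrank_mono inf_le_left
  have h5 : Module.finrank F (W₁ ⊓ img g W₁ : Submodule F (ι → F)) = Module.finrank F W₁ := by
    rcases h1 with ⟨r, hr⟩
    omega
  have h6 : W₁ ⊓ img g W₁ = W₁ := Submodule.eq_of_le_of_finrank_eq inf_le_left h5
  symm
  apply Submodule.eq_of_le_of_finrank_eq
  · intro z hz
    rw [← h6] at hz
    exact hz.2
  · rw [finrank_img]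

/-- the stabiliser of a submaximal totally singular subspace is not maximal -/
theorem submax (hn : 5 ≤ Fintype.card ι) {L₀ : Submodule F (ι → F)} (hL : Lag Q L₀)
    (W : Submodule F (ι → F)) (hW0 : ∀ w ∈ W, Q w = 0)
    (hdim : 2 * (Module.finrank F W + 1) = Fintype.card ι) :
    ∃ K : Subgroup (Matrix.GeneralLinearGroup ι F),
      Cfsg.Geo.subspaceStabilizer W ⊓ Cfsg.Geo.omegaGL ⇑Q < K ∧ K < Cfsg.Geo.omegaGL ⇑Q := by
  have hex : Fintype.card F ≠ 2 ∨ Fintype.card ι ≠ 4 := Or.inr (by omega)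
  have hL2 := hL.2
  obtain ⟨W₁, hW₁, hWW⟩ := exists_lag_ge Q hQ hL W hW0 (by omega)
  have hW₁2 := hW₁.2
  apply not_max (Cfsg.Geo.subspaceStabilizer W) (Cfsg.Geo.subspaceStabilizer W₁)
  · intro g hg hgW
    rw [mem_stab] at hgW ⊢
    exact lag_fixed Q hQ hex hW₁ hWW (by omega) g hg hgW
  · have hlt : W < W₁ := by
      refine lt_of_le_of_ne hWW ?_
      intro h
      rw [h] at hdim
      omega
    obtain ⟨x, hxW₁, hxW⟩ := SetLike.exists_of_lt hlt
    have hne : W ≠ ⊥ := by
      intro h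
      rw [h, finrank_bot] at hdim
      omega
    obtain ⟨y, hyW, hy0⟩ := Submodule.exists_mem_ne_zero_of_ne_bot hne
    have hyx : y ∉ Submodule.span F {x} := by
      intro h
      obtain ⟨c, hc⟩ := Submodule.mem_span_singleton.mp h
      have hc0 : c ≠ 0 := by
        rintro rfl
        rw [zero_smul] at hc
        exact hy0 hc.symm
      apply hxW
      have := W.smul_mem c⁻¹ hyW
      rwa [← hc, smul_smul, inv_mul_cancel₀ hc0, one_smul] at this
    obtain ⟨a, ha, hay⟩ := exists_orth_ne Q hQ _ y hyx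
    have hxa : polar ⇑Q x a = 0 := ha x (Submodule.mem_span_singleton_self x)
    obtain ⟨g, hg, hE⟩ := exists_eich Q hQ hex (by omega) x a (hW₁.1 x hxW₁) hxa
    refine ⟨g, hg, ?_, ?_⟩
    · rw [mem_stab]
      apply img_eq_of_le
      intro z hz
      rw [hE z]
      unfold eform
      rw [polar_of_ts Q W₁ hW₁.1 x z hxW₁ hz]
      simp only [zero_smul, mul_zero, sub_zero]
      exact W₁.add_mem hz (W₁.smul_mem _ hxW₁)
    · rw [mem_stab]
      intro h
      have h1 : mat g *ᵥ y ∈ img g W := (mem_img g _ _).mpr ⟨y, hyW, rfl⟩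
      rw [h, hE y] at h1
      unfold eform at h1
      rw [polar_of_ts Q W₁ hW₁.1 x y hxW₁ (hWW hyW)] at h1
      simp only [zero_smul, mul_zero, sub_zero] at h1
      have h2 := W.sub_mem h1 hyW
      rw [add_sub_cancel_left] at h2
      apply hxW
      have := W.smul_mem (polar ⇑Q a y)⁻¹ h2
      rwa [smul_smul, inv_mul_cancel₀ hay, one_smul] at this
  · obtain ⟨g, hg, h⟩ := exists_move_lag Q hQ hn hW₁
    exact ⟨g, hg, fun h' => h ((mem_stab g W₁).mp h')⟩

/-- the stabiliser of a pair of complementary maximal totally singular subspaces of odd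
dimension is not maximal -/
theorem pair_not_max (hn : 5 ≤ Fintype.card ι) (D : Fin 2 → Submodule F (ι → F))
    (hD : ∀ i, Lag Q (D i)) (hdisj : D 0 ⊓ D 1 = ⊥) (hodd : Odd (Module.finrank F (D 0))) :
    ∃ K : Subgroup (Matrix.GeneralLinearGroup ι F),
      Cfsg.Geo.decompositionStabilizer D ⊓ Cfsg.Geo.omegaGL ⇑Q < K ∧
        K < Cfsg.Geo.omegaGL ⇑Q := by
  have hex : Fintype.card F ≠ 2 ∨ Fintype.card ι ≠ 4 := Or.inr (by omega)
  have h02 := (hD 0).2
  have hne01 : D 0 ≠ D 1 := by
    intro h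
    rw [← h, inf_idem] at hdisj
    rw [hdisj, finrank_bot] at h02
    omega
  apply not_max (Cfsg.Geo.decompositionStabilizer D) (Cfsg.Geo.subspaceStabilizer (D 0))
  · intro g hg hgD
    rw [mem_stab]
    obtain ⟨σ, hσ⟩ := hgD
    have h0 := hσ 0
    rw [img_eq_map] at h0
    have hcases : σ 0 = 0 ∨ σ 0 = 1 := by
      generalize σ 0 = j
      fin_cases j <;> simp
    rcases hcases with h | h
    · rw [h0, h]
    · exfalso
      have h1 := (even_iff_dk Q hQ hex (hD 0) g).mpr (dk_of_omega Q hQ hex g hg)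
      rw [h0, h, hdisj, finrank_bot, Nat.sub_zero] at h1
      exact (Nat.not_even_iff_odd.mpr hodd) h1
  · have hne : D 0 ≠ ⊥ := by
      intro h
      rw [h, finrank_bot] at h02
      omega
    obtain ⟨x, hxD, hx0⟩ := Submodule.exists_mem_ne_zero_of_ne_bot hne
    have hlt : Submodule.span F {x} < D 0 := by
      refine lt_of_le_of_ne ?_ ?_
      · rw [Submodule.span_singleton_le_iff_mem]
        exact hxD
      · intro h
        rw [← h, finrank_span_singleton hx0] at h02
        omega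
    obtain ⟨a, haD, hax⟩ := SetLike.exists_of_lt hlt
    have haS : a ∉ D 1 ⊔ Submodule.span F {x} := by
      intro h
      obtain ⟨d, hd, z, hz, e⟩ := Submodule.mem_sup.mp h
      have hzD : z ∈ D 0 := hlt.le hz
      have hd0 : d ∈ D 0 ⊓ D 1 := by
        refine ⟨?_, hd⟩
        have : d = a - z := by rw [← e]; abel
        rw [this]
        exact (D 0).sub_mem haD hzD
      rw [hdisj, Submodule.mem_bot] at hd0
      rw [hd0, zero_add] at e
      rw [← e] at hax
      exact hax hz
    obtain ⟨y, hy, hya⟩ := exists_orth_ne Q hQ _ a haS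
    have hyD : y ∈ D 1 := by
      rw [← (hD 1).orth Q hQ, LinearMap.BilinForm.mem_orthogonal_iff]
      intro d hd
      exact hy d (Submodule.mem_sup_left hd)
    have hxy : polar ⇑Q x y = 0 :=
      hy x (Submodule.mem_sup_right (Submodule.mem_span_singleton_self x))
    obtain ⟨g, hg, hE⟩ := exists_eich Q hQ hex (by omega) x a ((hD 0).1 x hxD)
      (polar_of_ts Q _ (hD 0).1 x a hxD haD)
    have hg0 : img g (D 0) = D 0 := by
      apply img_eq_of_le
      intro z hz
      rw [hE z]
      unfold eform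
      rw [polar_of_ts Q _ (hD 0).1 x z hxD hz]
      simp only [zero_smul, mul_zero, sub_zero]
      exact (D 0).add_mem hz ((D 0).smul_mem _ hxD)
    refine ⟨g, hg, (mem_stab g _).mpr hg0, ?_⟩
    rintro ⟨σ, hσ⟩
    have h0 := hσ 0
    have h1 := hσ 1
    rw [img_eq_map] at h0 h1
    have hσ0 : σ 0 = 0 := by
      have hcases : σ 0 = 0 ∨ σ 0 = 1 := by
        generalize σ 0 = j
        fin_cases j <;> simp
      rcases hcases with h | h
      · exact h
      · exfalso
        rw [h, hg0] at h0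
        exact hne01 h0
    have hσ1 : σ 1 = 1 := by
      have hcases : σ 1 = 0 ∨ σ 1 = 1 := by
        generalize σ 1 = j
        fin_cases j <;> simp
      rcases hcases with h | h
      · exfalso
        have := σ.injective (h.trans hσ0.symm)
        exact absurd this (by decide)
      · exact h
    rw [hσ1] at h1
    have h2 : mat g *ᵥ y ∈ img g (D 1) := (mem_img g _ _).mpr ⟨y, hyD, rfl⟩
    rw [h1, hE y] at h2
    unfold eform at h2
    rw [hxy] at h2
    simp only [zero_smul, mul_zero, sub_zero] at h2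
    have h3 := (D 1).sub_mem h2 hyD
    rw [add_sub_cancel_left] at h3
    have hay : polar ⇑Q a y ≠ 0 := by rw [polar_comm]; exact hya
    have h4 := (D 1).smul_mem (polar ⇑Q a y)⁻¹ h3
    rw [smul_smul, inv_mul_cancel₀ hay, one_smul] at h4
    have : x ∈ D 0 ⊓ D 1 := ⟨hxD, h4⟩
    rw [hdisj, Submodule.mem_bot] at this
    exact hx0 this
  · obtain ⟨g, hg, h⟩ := exists_move_lag Q hQ hn (hD 0)
    exact ⟨g, hg, fun h' => h ((mem_stab g _).mp h')⟩

omit hQ in
theorem mul_self_of_card (hq : Fintype.card F ≤ 3) (α : F) (hα : α ≠ 0) : α * α = 1 := by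
  have h1 := FiniteField.pow_card_sub_one_eq_one α hα
  have h2 : 1 < Fintype.card F := Fintype.one_lt_card
  have h3 : Fintype.card F = 2 ∨ Fintype.card F = 3 := by omega
  rcases h3 with h | h
  · rw [h] at h1
    norm_num at h1
    rw [h1, one_mul]
  · rw [h] at h1
    rw [← _root_.sq]
    exact h1

/-- the stabiliser of a hyperbolic plane is not maximal over small fields -/
theorem plane_not_max (hn : 7 ≤ Fintype.card ι) (hq : Fintype.card F ≤ 3)
    (W : Submodule F (ι → F)) (hdim : Module.finrank F W = 2)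
    (hW : Cfsg.Geo.IsNondegenerateOn (polar ⇑Q) W) (hWp : Cfsg.Geo.IsPlusTypeOn ⇑Q W) :
    ∃ K : Subgroup (Matrix.GeneralLinearGroup ι F),
      Cfsg.Geo.subspaceStabilizer W ⊓ Cfsg.Geo.omegaGL ⇑Q < K ∧ K < Cfsg.Geo.omegaGL ⇑Q := by
  have hex : Fintype.card F ≠ 2 ∨ Fintype.card ι ≠ 4 := Or.inr (by omega)
  obtain ⟨U, hUW, hU0, hUd⟩ := hWp
  have hUne : U ≠ ⊥ := by
    intro h
    rw [h, finrank_bot] at hUd
    omega
  obtain ⟨e, heU, he0⟩ := Submodule.exists_mem_ne_zero_of_ne_bot hUne
  have heW : e ∈ W := hUW heU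
  have he : Q e = 0 := hU0 e heU
  obtain ⟨_, y, hyW, hey⟩ := hW e heW he0
  obtain ⟨c, d, hf, hef⟩ := partner_of Q e y he hey
  set f := c • y + d • e with hfdef
  have hfW : f ∈ W := W.add_mem (W.smul_mem _ hyW) (W.smul_mem _ heW)
  have hfe : polar ⇑Q f e = 1 := by rw [polar_comm]; exact hef
  have hli : LinearIndependent F ![e, f] := by
    rw [LinearIndependent.pair_iff]
    intro s t hst
    have h1 := congrArg (fun z => polar ⇑Q z f) hst
    have h2 := congrArg (fun z => polar ⇑Q e z) hst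
    simp only [polar_add_left, polar_smul_left, polar_add_right, polar_smul_right, polar_self',
      hef, he, hf, smul_eq_mul] at h1 h2
    simp at h1 h2
    exact ⟨h1, h2⟩
  have hspan : Submodule.span F {e, f} = W := by
    apply Submodule.eq_of_le_of_finrank_eq
    · rw [Submodule.span_le]
      rintro z (rfl | rfl)
      · exact heW
      · exact hfW
    · have := finrank_span_eq_card hli
      have hr : Set.range ![e, f] = {e, f} := by
        simp [Matrix.range_cons, Set.pair_comm]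
      rw [hr, Fintype.card_fin] at this
      rw [hdim, this]
  have hQv : Q (e + f) = 1 := by
    rw [QuadraticMap.map_add Q, he, hf, hef]; ring
  have hvW : e + f ∈ W := W.add_mem heW hfW
  obtain ⟨x, x', hx, hx', hxx', hxW, hx'W⟩ := exists_hyp_orth Q hQ W (by omega)
  have hxnW : x ∉ W := by
    intro h
    rw [hx'W x h] at hxx'
    exact zero_ne_one hxx'
  have hxe : polar ⇑Q x e = 0 := by rw [polar_comm]; exact hxW e heW
  have hxf : polar ⇑Q x f = 0 := by rw [polar_comm]; exact hxW f hfW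
  apply not_max (Cfsg.Geo.subspaceStabilizer W)
    (Cfsg.Geo.subspaceStabilizer (Submodule.span F {e + f}))
  · intro g hg hgW
    rw [mem_stab] at hgW ⊢
    apply img_eq_of_le
    intro z hz
    obtain ⟨r, rfl⟩ := Submodule.mem_span_singleton.mp hz
    rw [mulVec_smul]
    apply Submodule.smul_mem
    have h1 : mat g *ᵥ (e + f) ∈ img g W := (mem_img g _ _).mpr ⟨_, hvW, rfl⟩
    rw [hgW, ← hspan] at h1
    obtain ⟨α, β, hαβ⟩ := Submodule.mem_span_pair.mp h1
    have h2 : Q (mat g *ᵥ (e + f)) = 1 := by rw [mat_preserves g (e + f)]; exact hQv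
    rw [← hαβ, QuadraticMap.map_add Q, QuadraticMap.map_smul, QuadraticMap.map_smul, he, hf,
      polar_smul_left, polar_smul_right, hef] at h2
    simp only [smul_eq_mul, mul_zero, zero_add, mul_one] at h2
    have hα : α ≠ 0 := by
      rintro rfl
      rw [zero_mul] at h2
      exact zero_ne_one h2
    have hβ : β = α := by
      have h3 := mul_self_of_card hq α hα
      have : α * β = α * α := by rw [h2, h3]
      exact mul_left_cancel₀ hα this
    rw [← hαβ, hβ, ← smul_add]
    exact Submodule.smul_mem _ _ (Submodule.mem_span_singleton_self _)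
  · obtain ⟨g, hg, hE⟩ := exists_eich Q hQ hex (by omega) x (e - f) hx
      (by rw [polar_sub_right, hxe, hxf, sub_zero])
    refine ⟨g, hg, ?_, ?_⟩
    · rw [mem_stab]
      apply img_eq_of_le
      intro z hz
      obtain ⟨r, rfl⟩ := Submodule.mem_span_singleton.mp hz
      rw [mulVec_smul]
      apply Submodule.smul_mem
      rw [hE (e + f)]
      unfold eform
      rw [polar_add_right Q x, hxe, hxf, polar_add_right, polar_sub_left, polar_sub_left,
        polar_self', polar_self', he, hf, hef, hfe]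
      simp only [add_zero, zero_smul, mul_zero, sub_zero, zero_sub, sub_zero]
      simp only [neg_add_cancel, zero_smul, add_zero]
      exact Submodule.mem_span_singleton_self _
    · rw [mem_stab]
      intro h
      have h1 : mat g *ᵥ e ∈ img g W := (mem_img g _ _).mpr ⟨e, heW, rfl⟩
      rw [h, hE e] at h1
      unfold eform at h1
      rw [hxe, polar_sub_left, polar_self', he, hfe] at h1
      simp only [zero_smul, mul_zero, sub_zero, zero_sub, neg_smul, one_smul] at h1
      apply hxnW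
      have h2 := W.sub_mem heW h1
      have h3 : e - (e + -x) = x := by abel
      rwa [h3] at h2
  · obtain ⟨g, hg, hE⟩ := exists_eich Q hQ hex (by omega) x e hx hxe
    refine ⟨g, hg, ?_⟩
    rw [mem_stab]
    intro h
    have h1 : mat g *ᵥ (e + f) ∈ img g (Submodule.span F {e + f}) :=
      (mem_img g _ _).mpr ⟨_, Submodule.mem_span_singleton_self _, rfl⟩
    rw [h, hE (e + f)] at h1
    unfold eform at h1
    rw [polar_add_right Q x, hxe, hxf, polar_add_right, polar_self', he, hef] at h1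
    simp only [zero_smul, mul_zero, sub_zero, zero_add, one_smul, add_zero] at h1
    obtain ⟨r, hr⟩ := Submodule.mem_span_singleton.mp h1
    apply hxnW
    have h3 : x = r • (e + f) - (e + f) := by rw [hr]; abel
    rw [h3]
    exact W.sub_mem (W.smul_mem _ hvW) hvW

end main

end Cfsg.Agent.Lib.Helper5.OrthGeo
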