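import Mathlib
import Cfsg.Prelude.Def_ClassicalGeometry
import Cfsg.Agent.Lib.Helper5.OrthSum
import Cfsg.Agent.Lib.Helper3.SLn

set_option autoImplicit false
set_option linter.unusedSectionVars false

namespace Cfsg.Agent.Lib.Helper5.OrthLevi

open Matrix Cfsg.Agent.Lib.Helper5.OrthCard Cfsg.Agent.Lib.Helper5.Orth
  Cfsg.Agent.Lib.Helper5.OrthGen QuadraticMap Cfsg.Agent.Lib.Helper5.OrthRefl
  Cfsg.Agent.Lib.Helper5.Dickson Cfsg.Agent.Lib.Helper5.Spinor Cfsg.Agent.Lib.Helper5.SpinorDiag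
  Cfsg.Agent.Lib.Helper5.OrthSum

variable {F : Type*} [Field F] {m : ℕ}

theorem plus_eq_dot (v : Fin m ⊕ Fin m → F) :
    Cfsg.quadFormPlus m F v = (v ∘ Sum.inl) ⬝ᵥ (v ∘ Sum.inr) := rfl

theorem levi_preserves (A : GL (Fin m) F) (x : Fin m ⊕ Fin m → F) :
    Cfsg.quadFormPlus m F (Matrix.fromBlocks (A : Matrix (Fin m) (Fin m) F) 0 0
      ((A : Matrix (Fin m) (Fin m) F)⁻¹).transpose *ᵥ x) = Cfsg.quadFormPlus m F x := by
  rw [blocks_mulVec, plus_eq_dot, plus_eq_dot, Sum.elim_comp_inl, Sum.elim_comp_inr,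
    Matrix.dotProduct_mulVec, Matrix.vecMul_transpose, Matrix.mulVec_mulVec,
    Matrix.nonsing_inv_mul _ (Matrix.isUnits_det_units A), Matrix.one_mulVec]

variable (Qf : QuadraticForm F (Fin m ⊕ Fin m → F)) (hQf : ⇑Qf = Cfsg.quadFormPlus m F)

/-- the Levi embedding -/
noncomputable def rho : GL (Fin m) F →* ↥(Cfsg.isometryGroup F ⇑Qf) :=
  MonoidHom.mk' (fun A => ofMat (Matrix.fromBlocks (A : Matrix (Fin m) (Fin m) F) 0 0
      ((A : Matrix (Fin m) (Fin m) F)⁻¹).transpose)
    (by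
      rw [Matrix.det_fromBlocks_zero₂₁, Matrix.det_transpose]
      apply mul_ne_zero
      · exact (Matrix.isUnits_det_units A).ne_zero
      · rw [Matrix.det_nonsing_inv, Ring.inverse_eq_inv']
        exact inv_ne_zero (Matrix.isUnits_det_units A).ne_zero)
    (by rw [hQf]; exact levi_preserves A))
    (by
      intro A B
      apply mat_injective
      rw [mat_mul, mat_ofMat, mat_ofMat, mat_ofMat, Matrix.fromBlocks_multiply]
      simp [Matrix.mul_inv_rev, Matrix.transpose_mul])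

theorem mat_rho (A : GL (Fin m) F) :
    mat (rho Qf hQf A) = Matrix.fromBlocks (A : Matrix (Fin m) (Fin m) F) 0 0
      ((A : Matrix (Fin m) (Fin m) F)⁻¹).transpose := rfl

/-- the dilation -/
noncomputable def dil (i₀ : Fin m) (l : F) (hl : l ≠ 0) : GL (Fin m) F :=
  Matrix.GeneralLinearGroup.mkOfDetNeZero (Matrix.diagonal (Function.update 1 i₀ l)) (by
    rw [Matrix.det_diagonal, Finset.prod_update_of_mem (Finset.mem_univ _)]
    simpa using hl)

theorem det_dil (i₀ : Fin m) (l : F) (hl : l ≠ 0) :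
    (dil i₀ l hl : Matrix (Fin m) (Fin m) F).det = l := by
  show (Matrix.diagonal (Function.update 1 i₀ l)).det = l
  rw [Matrix.det_diagonal, Finset.prod_update_of_mem (Finset.mem_univ _)]
  simp

include hQf in
theorem Q_e_sub (i₀ : Fin m) (l : F) :
    Qf (Pi.single (Sum.inl i₀) 1 - l • Pi.single (Sum.inr i₀) 1) = -l := by
  have H := hyp_plus m Qf hQf
  rw [map_sub_smul, H.qa, H.qb, H.pb]
  simp

include hQf in
theorem polar_e_sub (i₀ : Fin m) (l : F) (x : Fin m ⊕ Fin m → F) :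
    polar ⇑Qf (Pi.single (Sum.inl i₀) 1 - l • Pi.single (Sum.inr i₀) 1) x =
      x (Sum.inr i₀) - l * x (Sum.inl i₀) := by
  have H := hyp_plus m Qf hQf
  rw [polar_sub_left, polar_smul_left, H.pa, H.pb, smul_eq_mul]

theorem rho_dil (i₀ : Fin m) (l : F) (hl : l ≠ 0)
    (h1 : Qf (Pi.single (Sum.inl i₀) 1 - (1 : F) • Pi.single (Sum.inr i₀) 1) ≠ 0)
    (h2 : Qf (Pi.single (Sum.inl i₀) 1 - l • Pi.single (Sum.inr i₀) 1) ≠ 0) :
    rho Qf hQf (dil i₀ l hl) = refl Qf _ h1 * refl Qf _ h2 := by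
  apply ext_mulVec
  intro x
  rw [mat_mul_mulVec, mat_refl, mat_refl, reflectionMatrix_mulVec, reflectionMatrix_mulVec,
    mat_rho, blocks_mulVec, Q_e_sub Qf hQf, Q_e_sub Qf hQf, polar_e_sub Qf hQf,
    polar_e_sub Qf hQf]
  have hd : (dil i₀ l hl : Matrix (Fin m) (Fin m) F) = Matrix.diagonal (Function.update 1 i₀ l) :=
    rfl
  have hdi : (Matrix.diagonal (Function.update (1 : Fin m → F) i₀ l))⁻¹ =
      Matrix.diagonal (Function.update 1 i₀ l⁻¹) := by
    apply Matrix.inv_eq_right_inv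
    rw [Matrix.diagonal_mul_diagonal, ← Matrix.diagonal_one]
    congr 1
    funext k
    by_cases hk : k = i₀
    · subst hk; simp [hl]
    · simp [Function.update_of_ne hk]
  rw [hd, hdi, Matrix.diagonal_transpose]
  funext k
  rcases k with k | k
  · simp only [Sum.elim_inl, mulVec_diagonal, Function.comp, Pi.sub_apply, Pi.smul_apply,
      smul_eq_mul]
    by_cases hk : k = i₀
    · subst hk
      simp
      field_simp
      ring
    · have hk' : (Sum.inl k : Fin m ⊕ Fin m) ≠ Sum.inl i₀ := fun h => hk (Sum.inl_injective h)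
      simp [Function.update_of_ne hk, Pi.single_eq_of_ne hk']
  · simp only [Sum.elim_inr, mulVec_diagonal, Function.comp, Pi.sub_apply, Pi.smul_apply,
      smul_eq_mul]
    by_cases hk : k = i₀
    · subst hk
      simp
      field_simp
      ring
    · have hk' : (Sum.inr k : Fin m ⊕ Fin m) ≠ Sum.inr i₀ := fun h => hk (Sum.inr_injective h)
      simp [Function.update_of_ne hk, Pi.single_eq_of_ne hk']

theorem exists_ne_zero_one [Fintype F] (h : Fintype.card F ≠ 2) : ∃ l : F, l ≠ 0 ∧ l ≠ 1 := by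
  classical
  by_contra hc
  push Not at hc
  have h1 : (Finset.univ : Finset F) ⊆ {0, 1} := by
    intro l _
    by_cases hl : l = 0
    · simp [hl]
    · simp [hc l hl]
  have h2 := Finset.card_le_card h1
  rw [Finset.card_univ, Finset.card_pair zero_ne_one] at h2
  have h3 := Fintype.one_lt_card (α := F)
  omega

theorem map_commutator_mem {G : Type*} [Group G] {ι : Type} [Fintype ι] [DecidableEq ι]
    {Q : (ι → F) → F} (f : G →* ↥(Cfsg.isometryGroup F Q)) (g : G) (hg : g ∈ commutator G) :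
    f g ∈ Cfsg.Omega F Q := by
  have h1 : f g ∈ (commutator G).map f := ⟨g, hg, rfl⟩
  rw [commutator_def, Subgroup.map_commutator] at h1
  exact Subgroup.commutator_mono le_top le_top h1

/-- decomposition of the Levi element -/
theorem rho_mem_iff [Fintype F] (hm : 1 ≤ m) (h : Fintype.card F ≠ 2 ∨ m ≠ 2) (A : GL (Fin m) F) :
    rho Qf hQf A ∈ Cfsg.Omega F ⇑Qf ↔
      rho Qf hQf (dil ⟨0, hm⟩ (A : Matrix (Fin m) (Fin m) F).det
        (Matrix.isUnits_det_units A).ne_zero) ∈ Cfsg.Omega F ⇑Qf := by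
  have hcomm := Cfsg.Agent.Lib.Helper3.SLn.gl_commutator_eq_ker_det (ι := Fin m) (F := F) (by
    intro hc
    rw [Fintype.card_fin] at hc
    rcases h with h | h
    · exact exists_ne_zero_one h
    · exact absurd hc h)
  set D := dil ⟨0, hm⟩ (A : Matrix (Fin m) (Fin m) F).det (Matrix.isUnits_det_units A).ne_zero
    with hD
  have hS : A * D⁻¹ ∈ commutator (GL (Fin m) F) := by
    rw [hcomm, MonoidHom.mem_ker, map_mul, map_inv, mul_inv_eq_one]
    apply Units.ext
    rw [Matrix.GeneralLinearGroup.val_det_apply, Matrix.GeneralLinearGroup.val_det_apply, hD,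
      det_dil]
  have h1 := map_commutator_mem (rho Qf hQf) _ hS
  have h2 : rho Qf hQf A = rho Qf hQf (A * D⁻¹) * rho Qf hQf D := by
    rw [← map_mul, inv_mul_cancel_right]
  rw [h2]
  exact Subgroup.mul_mem_cancel_left _ h1

theorem dk_rho [Fintype F] (hnd : (QuadraticMap.polarBilin Qf).Nondegenerate) (hm : 1 ≤ m)
    (h : Fintype.card F ≠ 2 ∨ m ≠ 2) (A : GL (Fin m) F) : dk (rho Qf hQf A) = 1 := by
  have hex : Fintype.card F ≠ 2 ∨ Fintype.card (Fin m ⊕ Fin m) ≠ 4 := by
    rw [Fintype.card_sum, Fintype.card_fin]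
    exact h.imp id (fun x => by omega)
  have hcomm := Cfsg.Agent.Lib.Helper3.SLn.gl_commutator_eq_ker_det (ι := Fin m) (F := F) (by
    intro hc
    rw [Fintype.card_fin] at hc
    rcases h with h | h
    · exact exists_ne_zero_one h
    · exact absurd hc h)
  set D := dil ⟨0, hm⟩ (A : Matrix (Fin m) (Fin m) F).det (Matrix.isUnits_det_units A).ne_zero
    with hD
  have hS : A * D⁻¹ ∈ commutator (GL (Fin m) F) := by
    rw [hcomm, MonoidHom.mem_ker, map_mul, map_inv, mul_inv_eq_one]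
    apply Units.ext
    rw [Matrix.GeneralLinearGroup.val_det_apply, Matrix.GeneralLinearGroup.val_det_apply, hD,
      det_dil]
  have h1 : dk (rho Qf hQf (A * D⁻¹)) = 1 :=
    Abelianization.commutator_subset_ker (dkHom Qf hnd hex) (map_commutator_mem (rho Qf hQf) _ hS)
  have h2 : rho Qf hQf A = rho Qf hQf (A * D⁻¹) * rho Qf hQf D := by
    rw [← map_mul, inv_mul_cancel_right]
  have hl := (Matrix.isUnits_det_units A).ne_zero
  rw [h2, dk_mul Qf hnd hex, h1, one_mul, hD, rho_dil Qf hQf _ _ _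
    (by rw [Q_e_sub Qf hQf]; simp) (by rw [Q_e_sub Qf hQf]; simpa using hl),
    dk_mul_refl Qf hnd, dk_refl Qf hnd]
  simp

include hQf in
theorem levi_iff [Fintype F] (hnd : (QuadraticMap.polarBilin Qf).Nondegenerate) (hm : 1 ≤ m)
    (h : Fintype.card F ≠ 2 ∨ m ≠ 2) (A : GL (Fin m) F) :
    (∃ g : ↥(Cfsg.isometryGroup F ⇑Qf), g ∈ Cfsg.Omega F ⇑Qf ∧
      mat g = Matrix.fromBlocks (A : Matrix (Fin m) (Fin m) F) 0 0
        ((A : Matrix (Fin m) (Fin m) F)⁻¹).transpose) ↔
      IsSquare (A : Matrix (Fin m) (Fin m) F).det := by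
  classical
  have hex : Fintype.card F ≠ 2 ∨ Fintype.card (Fin m ⊕ Fin m) ≠ 4 := by
    rw [Fintype.card_sum, Fintype.card_fin]
    exact h.imp id (fun x => by omega)
  have key : rho Qf hQf A ∈ Cfsg.Omega F ⇑Qf ↔ IsSquare (A : Matrix (Fin m) (Fin m) F).det := by
    by_cases h2 : (2 : F) = 0
    · rw [Dickson.omega_iff Qf h2 hnd hex, dk_rho Qf hQf hnd hm h A]
      simp [isSquare_char_two h2]
    · have hl := (Matrix.isUnits_det_units A).ne_zero
      rw [rho_mem_iff Qf hQf hm h A]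
      have h3 := mem_omega_iff_list Qf h2 hnd (by simp; omega)
        [Pi.single (Sum.inl ⟨0, hm⟩) 1 - (1 : F) • Pi.single (Sum.inr ⟨0, hm⟩) 1,
         Pi.single (Sum.inl ⟨0, hm⟩) 1 - (A : Matrix (Fin m) (Fin m) F).det •
           Pi.single (Sum.inr ⟨0, hm⟩) 1] (by
          intro v hv
          simp only [List.mem_cons, List.not_mem_nil, or_false] at hv
          rcases hv with rfl | rfl
          · rw [Q_e_sub Qf hQf]; simp
          · rw [Q_e_sub Qf hQf]; simpa using hl)
        (rho Qf hQf (dil ⟨0, hm⟩ (A : Matrix (Fin m) (Fin m) F).det hl)) (by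
          rw [rho_dil Qf hQf _ _ _ (by rw [Q_e_sub Qf hQf]; simp)
            (by rw [Q_e_sub Qf hQf]; simpa using hl), mat_mul, mat_refl, mat_refl]
          simp)
      rw [h3]
      simp only [List.length_cons, List.length_nil, List.map_cons, List.map_nil, List.prod_cons,
        List.prod_nil, Q_e_sub Qf hQf]
      have : -1 * (-(A : Matrix (Fin m) (Fin m) F).det * 1) = (A : Matrix (Fin m) (Fin m) F).det := by
        ring
      rw [this]
      simp
  constructor
  · rintro ⟨g, hg, hgm⟩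
    have : g = rho Qf hQf A := mat_injective hgm
    rw [this] at hg
    exact key.mp hg
  · intro hsq
    exact ⟨rho Qf hQf A, key.mpr hsq, rfl⟩

end Cfsg.Agent.Lib.Helper5.OrthLevi
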