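import Mathlib
import Cfsg.Prelude.Def_GeometricClasses
import Cfsg.Agent.Lib.Helper5.OrthGeo

set_option autoImplicit false
set_option linter.unusedSectionVars false

namespace Cfsg.Agent.Lib.Helper5.OrthMax

open Matrix Cfsg.Agent.Lib.Helper5.OrthCard Cfsg.Agent.Lib.Helper5.Orth
  Cfsg.Agent.Lib.Helper5.OrthGen QuadraticMap Cfsg.Agent.Lib.Helper5.OrthRefl
  Cfsg.Agent.Lib.Helper5.OrthTrans Cfsg.Agent.Lib.Helper5.Dickson
  Cfsg.Agent.Lib.Helper5.OrthCenter Cfsg.Agent.Lib.Helper5.OrthThree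
  Cfsg.Agent.Lib.Helper5.OrthEich Cfsg.Agent.Lib.Helper5.OrthEich2
  Cfsg.Agent.Lib.Helper5.OrthClass Cfsg.Agent.Lib.Helper5.OrthFam2
  Cfsg.Agent.Lib.Helper5.OrthGeo

variable {F : Type*} [Field F] {ι : Type} [Fintype ι] [DecidableEq ι]

/-- the general shape of the maximality statements -/
theorem max_of {Q : (ι → F) → F} (A : Subgroup (Matrix.GeneralLinearGroup ι F))
    (h1 : ∃ g : ↥(Cfsg.isometryGroup F Q), g ∈ Cfsg.Omega F Q ∧
      (g : Matrix.GeneralLinearGroup ι F) ∉ A)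
    (h2 : ∀ H : Subgroup ↥(Cfsg.isometryGroup F Q),
      (∀ g : ↥(Cfsg.isometryGroup F Q), g ∈ Cfsg.Omega F Q →
        (g : Matrix.GeneralLinearGroup ι F) ∈ A → g ∈ H) →
      (∃ g : ↥(Cfsg.isometryGroup F Q), g ∈ H ∧ g ∈ Cfsg.Omega F Q ∧
        (g : Matrix.GeneralLinearGroup ι F) ∉ A) → Cfsg.Omega F Q ≤ H) :
    Cfsg.Geo.IsMaximalIn (Cfsg.Geo.omegaGL Q) (A ⊓ Cfsg.Geo.omegaGL Q) := by
  constructor
  · rw [SetLike.lt_iff_le_and_exists]
    refine ⟨inf_le_right, ?_⟩
    obtain ⟨g, hg, hA⟩ := h1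
    exact ⟨g, (mem_omegaGL g).mpr hg, fun h => hA h.1⟩
  · intro M hM1 hM2
    by_cases hc : M ≤ A
    · left
      exact le_antisymm (le_inf hc hM2) hM1
    · right
      apply le_antisymm hM2
      obtain ⟨x, hxM, hxA⟩ := SetLike.not_le_iff_exists.mp hc
      obtain ⟨g, hg, rfl⟩ := Subgroup.mem_map.mp (hM2 hxM)
      have := h2 (M.comap (Cfsg.isometryGroup F Q).subtype)
        (fun k hk hkA => hM1 ⟨hkA, (mem_omegaGL k).mpr hk⟩) ⟨g, hxM, hg, hxA⟩
      intro y hy
      obtain ⟨k, hk, rfl⟩ := Subgroup.mem_map.mp hy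
      exact this hk

section main

variable [Fintype F] (Q : QuadraticForm F (ι → F))
  (hQ : (QuadraticMap.polarBilin Q).Nondegenerate)

/-- the singular vectors all of whose Eichler transformations lie in `H` -/
def YY (H : Subgroup ↥(Cfsg.isometryGroup F ⇑Q)) : Set (ι → F) :=
  {x | Q x = 0 ∧ ∀ (a : ι → F) (g : ↥(Cfsg.isometryGroup F ⇑Q)), polar ⇑Q x a = 0 →
    IsEich Q g x a → g ∈ H}

variable {Q}

theorem YY_img {H : Subgroup ↥(Cfsg.isometryGroup F ⇑Q)} {h : ↥(Cfsg.isometryGroup F ⇑Q)}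
    (hh : h ∈ H) {x : ι → F} (hx : x ∈ YY Q H) : mat h *ᵥ x ∈ YY Q H := by
  refine ⟨by rw [mat_preserves h x]; exact hx.1, ?_⟩
  intro a g hpa hg
  have h1 := hg.conj h⁻¹
  rw [mat_inv_mulVec h x] at h1
  have h2 : polar ⇑Q x (mat h⁻¹ *ᵥ a) = 0 := by
    rw [← mat_polar h x (mat h⁻¹ *ᵥ a)]
    have : mat h *ᵥ (mat h⁻¹ *ᵥ a) = a := by
      have := mat_inv_mulVec h⁻¹ a
      rwa [inv_inv] at this
    rw [this]
    exact hpa
  have h3 := hx.2 _ _ h2 h1
  have h4 : g = h * (h⁻¹ * g * h⁻¹⁻¹) * h⁻¹ := by group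
  rw [h4]
  exact H.mul_mem (H.mul_mem hh h3) (H.inv_mem hh)

theorem YY_smul {H : Subgroup ↥(Cfsg.isometryGroup F ⇑Q)} {x : ι → F} (hx : x ∈ YY Q H) (s : F) :
    s • x ∈ YY Q H := by
  refine ⟨by rw [QuadraticMap.map_smul, hx.1, smul_zero], ?_⟩
  intro a g hpa hg
  by_cases hs : s = 0
  · subst hs
    have : g = 1 := by
      apply mat_injective
      rw [Matrix.ext_iff_mulVec]
      intro z
      rw [hg z, mat_one, one_mulVec]
      unfold eform
      simp
    rw [this]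
    exact H.one_mem
  · apply hx.2 (s • a) g _ hg.smul
    rw [polar_smul_left, smul_eq_mul] at hpa
    rw [polar_smul_right, smul_eq_mul]
    exact hpa

include hQ

theorem YY_step (hex : Fintype.card F ≠ 2 ∨ Fintype.card ι ≠ 4) (hn : 2 ≤ Fintype.card ι)
    {H : Subgroup ↥(Cfsg.isometryGroup F ⇑Q)} {x y z : ι → F}
    (hx : x ∈ YY Q H) (hy : y ∈ YY Q H) (hxy : polar ⇑Q x y ≠ 0) (hz : Q z = 0)
    (hxz : polar ⇑Q x z ≠ 0) : z ∈ YY Q H := by
  set β := polar ⇑Q x y with hβ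
  set z' := (β / polar ⇑Q x z) • z with hz'
  have h1 : polar ⇑Q x z' = β := by
    rw [hz', polar_smul_right, smul_eq_mul, div_mul_cancel₀ _ hxz]
  have h2 : Q z' = 0 := by rw [hz', QuadraticMap.map_smul, hz, smul_zero]
  have h3 : polar ⇑Q x (β⁻¹ • (y - z')) = 0 := by
    rw [polar_smul_right, polar_sub_right, h1, ← hβ, sub_self, smul_zero]
  obtain ⟨g, _, hE⟩ := exists_eich Q hQ hex hn x (β⁻¹ • (y - z')) hx.1 h3
  have hgH := hx.2 _ g h3 hE
  have h4 : mat g *ᵥ y = z' := by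
    rw [hE y]
    exact eform_move Q x y z' (by rw [hy.1, h2]) β hxy hβ.symm h1
  have h5 : z' ∈ YY Q H := by
    rw [← h4]
    exact YY_img hgH hy
  have h6 : z = (polar ⇑Q x z / β) • z' := by
    rw [hz', smul_smul]
    have : polar ⇑Q x z / β * (β / polar ⇑Q x z) = 1 := by
      field_simp
    rw [this, one_smul]
  rw [h6]
  exact YY_smul h5 _

theorem YY_all (hex : Fintype.card F ≠ 2 ∨ Fintype.card ι ≠ 4) (hn : 2 ≤ Fintype.card ι)
    {H : Subgroup ↥(Cfsg.isometryGroup F ⇑Q)} {x y : ι → F}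
    (hx : x ∈ YY Q H) (hy : y ∈ YY Q H) (hxy : polar ⇑Q x y ≠ 0) (z : ι → F) (hz : Q z = 0) :
    z ∈ YY Q H := by
  by_cases hz0 : z = 0
  · have := YY_smul hx 0
    rwa [zero_smul, ← hz0] at this
  have hx0 : x ≠ 0 := by
    rintro rfl
    simp at hxy
  by_cases hxz : polar ⇑Q x z = 0
  · obtain ⟨w, hw, hxw, hzw⟩ := exists_sing_off Q hQ x z hx0 hz0 hx.1 hz hxz
    have hwY := YY_step hQ hex hn hx hy hxy hw hxw
    exact YY_step hQ hex hn hwY hx (by rw [polar_comm]; exact hxw) hz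
      (by rw [polar_comm]; exact hzw)
  · exact YY_step hQ hex hn hx hy hxy hz hxz

theorem omega_le_of_YY (hn : 5 ≤ Fintype.card ι)
    {H : Subgroup ↥(Cfsg.isometryGroup F ⇑Q)} {x y : ι → F}
    (hx : x ∈ YY Q H) (hy : y ∈ YY Q H) (hxy : polar ⇑Q x y ≠ 0) : Cfsg.Omega F ⇑Q ≤ H := by
  have hex : Fintype.card F ≠ 2 ∨ Fintype.card ι ≠ 4 := Or.inr (by omega)
  refine (OrthEich2.omega_le Q hQ hn).trans ?_
  unfold TT
  rw [Subgroup.closure_le]
  rintro g ⟨e, a, he, hea, hg⟩
  exact (YY_all hQ hex (by omega) hx hy hxy e he).2 a g hea hg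

omit [Fintype F] in
/-- totally singular subspaces have at most half the dimension -/
theorem ts_finrank_le (L : Submodule F (ι → F)) (hL : ∀ x ∈ L, Q x = 0) :
    2 * Module.finrank F L ≤ Fintype.card ι := by
  have h1 : L ≤ LinearMap.BilinForm.orthogonal (QuadraticMap.polarBilin Q) L := by
    intro x hx
    rw [LinearMap.BilinForm.mem_orthogonal_iff]
    intro y hy
    exact polar_of_ts Q _ hL y x hy hx
  have h2 := Submodule.finrank_mono h1
  have h3 := LinearMap.BilinForm.finrank_orthogonal hQ L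
  rw [Module.finrank_fintype_fun_eq_card] at h3
  omega

/-- some element of `Ω` moves a given totally singular subspace -/
theorem exists_move_ts (hn : 5 ≤ Fintype.card ι) {W₁ : Submodule F (ι → F)}
    (hW₁ : ∀ x ∈ W₁, Q x = 0) (hne : W₁ ≠ ⊥) :
    ∃ g : ↥(Cfsg.isometryGroup F ⇑Q), g ∈ Cfsg.Omega F ⇑Q ∧ img g W₁ ≠ W₁ := by
  have hex : Fintype.card F ≠ 2 ∨ Fintype.card ι ≠ 4 := Or.inr (by omega)
  obtain ⟨e, heW, he0⟩ := Submodule.exists_mem_ne_zero_of_ne_bot hne
  obtain ⟨f, hf, hef⟩ := exists_partner Q hQ e he0 (hW₁ e heW)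
  have hf0 : f ≠ 0 := by
    rintro rfl
    simp at hef
  have hfW : f ∉ W₁ := by
    intro h
    rw [polar_of_ts Q W₁ hW₁ e f heW h] at hef
    exact zero_ne_one hef
  obtain ⟨g, hg, hgi⟩ := trans_ts Q hQ hex (Submodule.span F {e}) (Submodule.span F {f}) (k := 1)
    (by omega) (finrank_span_singleton he0) (finrank_span_singleton hf0)
    (by
      intro u hu
      obtain ⟨c, rfl⟩ := Submodule.mem_span_singleton.mp hu
      rw [QuadraticMap.map_smul, hW₁ e heW, smul_zero])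
    (by
      intro u hu
      obtain ⟨c, rfl⟩ := Submodule.mem_span_singleton.mp hu
      rw [QuadraticMap.map_smul, hf, smul_zero])
  refine ⟨g, hg, ?_⟩
  intro h
  have h1 : mat g *ᵥ e ∈ img g (Submodule.span F {e}) :=
    (mem_img g _ _).mpr ⟨e, Submodule.mem_span_singleton_self e, rfl⟩
  rw [hgi] at h1
  obtain ⟨c, hc⟩ := Submodule.mem_span_singleton.mp h1
  have h2 : mat g *ᵥ e ∈ img g W₁ := (mem_img g _ _).mpr ⟨e, heW, rfl⟩
  rw [h, ← hc] at h2
  have hc0 : c ≠ 0 := by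
    rintro rfl
    rw [zero_smul] at hc
    apply he0
    apply mulVec_injective g
    rw [map_zero]
    exact hc.symm
  apply hfW
  have := W₁.smul_mem c⁻¹ h2
  rwa [smul_smul, inv_mul_cancel₀ hc0, one_smul] at this

omit [Fintype F] in
/-- a nonsingular vector orthogonal to `W`, `x` and `y` -/
theorem exists_nonsing_aux (W : Submodule F (ι → F)) (hW : ∀ w ∈ W, Q w = 0)
    (hyp : ¬ (2 * (Module.finrank F W + 1) = Fintype.card ι ∧ ∃ L, Lag Q L))
    (x y : ι → F) (hy : Q y = 0) (hyW : ∀ w ∈ W, polar ⇑Q w y = 0) (hynW : y ∉ W)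
    (hxy : polar ⇑Q x y ≠ 0) :
    ∃ a, Q a ≠ 0 ∧ (∀ w ∈ W, polar ⇑Q w a = 0) ∧ polar ⇑Q x a = 0 ∧ polar ⇑Q y a = 0 := by
  by_contra hcon
  push Not at hcon
  set D := W ⊔ Submodule.span F {x, y} with hD
  set M := LinearMap.BilinForm.orthogonal (QuadraticMap.polarBilin Q) D with hM
  have hM0 : ∀ a ∈ M, Q a = 0 := by
    intro a ha
    by_contra h0
    rw [hM, LinearMap.BilinForm.mem_orthogonal_iff] at ha
    exact hcon a h0 (fun w hw => ha w (Submodule.mem_sup_left hw))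
      (ha x (Submodule.mem_sup_right (Submodule.subset_span (by simp))))
      (ha y (Submodule.mem_sup_right (Submodule.subset_span (by simp))))
  have hMy : ∀ a ∈ M, polar ⇑Q y a = 0 := by
    intro a ha
    rw [hM, LinearMap.BilinForm.mem_orthogonal_iff] at ha
    exact ha y (Submodule.mem_sup_right (Submodule.subset_span (by simp)))
  have hyM : y ∉ M := by
    intro h
    rw [hM, LinearMap.BilinForm.mem_orthogonal_iff] at h
    exact hxy (h x (Submodule.mem_sup_right (Submodule.subset_span (by simp))))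
  have hsing : ∀ (N : Submodule F (ι → F)), (∀ a ∈ N, Q a = 0) → (∀ a ∈ N, polar ⇑Q y a = 0) →
      ∀ z ∈ N ⊔ Submodule.span F {y}, Q z = 0 := by
    intro N hN0 hNy z hz
    obtain ⟨a, ha, b, hb, rfl⟩ := Submodule.mem_sup.mp hz
    obtain ⟨c, rfl⟩ := Submodule.mem_span_singleton.mp hb
    rw [QuadraticMap.map_add Q, hN0 a ha, QuadraticMap.map_smul, hy, polar_smul_right,
      polar_comm, hNy a ha]
    simp
  have hfr : ∀ (N : Submodule F (ι → F)), y ∉ N →
      Module.finrank F (N ⊔ Submodule.span F {y} : Submodule F (ι → F)) =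
        Module.finrank F N + 1 := by
    intro N hyN
    have hy0 : y ≠ 0 := by
      rintro rfl
      exact hyN N.zero_mem
    have h1 := Submodule.finrank_sup_add_finrank_inf_eq N (Submodule.span F {y})
    have h2 : N ⊓ Submodule.span F {y} = ⊥ := by
      rw [eq_bot_iff]
      rintro z ⟨hz1, hz2⟩
      obtain ⟨c, rfl⟩ := Submodule.mem_span_singleton.mp hz2
      by_cases hc : c = 0
      · rw [hc, zero_smul]; exact Submodule.zero_mem _
      · exfalso
        apply hyN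
        have := N.smul_mem c⁻¹ hz1
        rwa [smul_smul, inv_mul_cancel₀ hc, one_smul] at this
    rw [h2, finrank_bot, finrank_span_singleton hy0] at h1
    omega
  have e1 := ts_finrank_le hQ _ (hsing M hM0 hMy)
  have e2 := ts_finrank_le hQ _ (hsing W hW (fun a ha => by rw [polar_comm]; exact hyW a ha))
  rw [hfr M hyM] at e1
  rw [hfr W hynW] at e2
  have e3 := LinearMap.BilinForm.finrank_orthogonal hQ D
  rw [Module.finrank_fintype_fun_eq_card, ← hM] at e3
  have e4 : Module.finrank F D ≤ Module.finrank F W + 2 := by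
    have h1 := Submodule.finrank_add_le_finrank_add_finrank W (Submodule.span F {x, y})
    have h2 := finrank_span_two x y
    rw [hD]
    omega
  have e5 : Module.finrank F D ≤ Fintype.card ι := by
    have := Submodule.finrank_le D
    rwa [Module.finrank_fintype_fun_eq_card] at this
  apply hyp
  refine ⟨by omega, M ⊔ Submodule.span F {y}, hsing M hM0 hMy, ?_⟩
  rw [hfr M hyM]
  omega

/-- the stabiliser in `Ω` of a totally singular subspace is maximal -/
theorem parabolic_max (hn : 5 ≤ Fintype.card ι) (W : Submodule F (ι → F)) (hW0 : W ≠ ⊥)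
    (hW : ∀ w ∈ W, Q w = 0)
    (hyp : ¬ (2 * (Module.finrank F W + 1) = Fintype.card ι ∧ ∃ L, Lag Q L)) :
    Cfsg.Geo.IsMaximalIn (Cfsg.Geo.omegaGL ⇑Q)
      (Cfsg.Geo.subspaceStabilizer W ⊓ Cfsg.Geo.omegaGL ⇑Q) := by
  have hex : Fintype.card F ≠ 2 ∨ Fintype.card ι ≠ 4 := Or.inr (by omega)
  apply max_of
  · obtain ⟨g, hg, h⟩ := exists_move_ts hQ hn hW hW0
    exact ⟨g, hg, fun h' => h ((mem_stab g W).mp h')⟩
  · rintro H hPH ⟨g₀, hg₀H, hg₀Ω, hg₀W⟩
    rw [mem_stab] at hg₀W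
    -- Eichler transformations in `H`
    have hWY : ∀ x ∈ W, x ∈ YY Q H := by
      intro x hx
      refine ⟨hW x hx, ?_⟩
      intro a g hxa hg
      obtain ⟨g', hg'Ω, hg'⟩ := exists_eich Q hQ hex (by omega) x a (hW x hx) hxa
      have : g = g' := hg.ext hg'
      rw [this]
      apply hPH g' hg'Ω
      rw [mem_stab]
      apply img_eq_of_le
      intro z hz
      rw [hg' z]
      unfold eform
      rw [polar_of_ts Q W hW x z hx hz]
      simp only [zero_smul, mul_zero, sub_zero]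
      exact W.add_mem hz (W.smul_mem _ hx)
    have hW'Y : ∀ y ∈ img g₀ W, y ∈ YY Q H := by
      intro y hy
      obtain ⟨x, hx, rfl⟩ := (mem_img g₀ W y).mp hy
      exact YY_img hg₀H (hWY x hx)
    by_cases hc : ∃ x ∈ W, ∃ y ∈ img g₀ W, polar ⇑Q x y ≠ 0
    · obtain ⟨x, hx, y, hy, hxy⟩ := hc
      exact omega_le_of_YY hQ hn (hWY x hx) (hW'Y y hy) hxy
    · push Not at hc
      have hnle : ¬ img g₀ W ≤ W := by
        intro h
        exact hg₀W (Submodule.eq_of_le_of_finrank_eq h (finrank_img g₀ W))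
      obtain ⟨y, hyW', hynW⟩ := SetLike.not_le_iff_exists.mp hnle
      have hyY := hW'Y y hyW'
      have hyW : ∀ w ∈ W, polar ⇑Q w y = 0 := fun w hw => hc w hw y hyW'
      obtain ⟨t, ht, hty⟩ := exists_orth_ne Q hQ W y hynW
      obtain ⟨c, d, hx, hyx⟩ := partner_of Q y t hyY.1 (by rw [polar_comm]; exact hty)
      set x := c • t + d • y with hxdef
      have hxW : ∀ w ∈ W, polar ⇑Q w x = 0 := by
        intro w hw
        rw [hxdef, polar_add_right, polar_smul_right, polar_smul_right, ht w hw, hyW w hw]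
        simp
      have hxy : polar ⇑Q x y = 1 := by rw [polar_comm]; exact hyx
      obtain ⟨a, ha, haW, hxa, hya⟩ := exists_nonsing_aux hQ W hW hyp x y hyY.1 hyW hynW
        (by rw [hxy]; exact one_ne_zero)
      obtain ⟨g, hgΩ, hg⟩ := exists_eich Q hQ hex (by omega) x a hx hxa
      have hgH : g ∈ H := by
        apply hPH g hgΩ
        rw [mem_stab]
        apply img_eq_of_le
        intro z hz
        rw [hg z]
        unfold eform
        rw [polar_comm ⇑Q a z, haW z hz, polar_comm ⇑Q x z, hxW z hz]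
        simp only [zero_smul, mul_zero, sub_zero, add_zero]
        exact hz
      have hy' := YY_img hgH hyY
      apply omega_le_of_YY hQ hn hyY hy'
      rw [hg y]
      unfold eform
      rw [hxy, polar_sub_right, polar_sub_right, polar_add_right, polar_smul_right,
        polar_smul_right, polar_smul_right, polar_self', hyY.1, hyx, hya, polar_comm ⇑Q a y, hya]
      simp only [smul_eq_mul, mul_zero, mul_one, add_zero, sub_zero, zero_sub]
      exact neg_ne_zero.mpr ha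

end main

end Cfsg.Agent.Lib.Helper5.OrthMax
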