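import Mathlib
import Cfsg.Prelude.Def_GeometricClasses
import Cfsg.Agent.Lib.Helper5.OrthMax

set_option autoImplicit false
set_option linter.unusedSectionVars false

namespace Cfsg.Agent.Lib.Helper5.OrthMax2

open Matrix Cfsg.Agent.Lib.Helper5.OrthCard Cfsg.Agent.Lib.Helper5.Orth
  Cfsg.Agent.Lib.Helper5.OrthGen QuadraticMap Cfsg.Agent.Lib.Helper5.OrthRefl
  Cfsg.Agent.Lib.Helper5.OrthTrans Cfsg.Agent.Lib.Helper5.Dickson
  Cfsg.Agent.Lib.Helper5.OrthCenter Cfsg.Agent.Lib.Helper5.OrthThree
  Cfsg.Agent.Lib.Helper5.OrthEich Cfsg.Agent.Lib.Helper5.OrthEich2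
  Cfsg.Agent.Lib.Helper5.OrthClass Cfsg.Agent.Lib.Helper5.OrthFam2
  Cfsg.Agent.Lib.Helper5.OrthGeo Cfsg.Agent.Lib.Helper5.OrthMax

variable {F : Type*} [Field F] {ι : Type} [Fintype ι] [DecidableEq ι]

theorem two_eq_zero_of_not_odd [Fintype F] (h : ¬ Odd (Fintype.card F)) : (2 : F) = 0 := by
  rw [Nat.not_odd_iff_even] at h
  obtain ⟨p, hp⟩ := CharP.exists F
  obtain ⟨n, hpp, hn⟩ := FiniteField.card F p
  have h2 : p = 2 := by
    rw [hn] at h
    have := (Nat.Prime.even_iff hpp).mp ((Nat.even_pow.mp h).1)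
    exact this
  subst h2
  exact_mod_cast CharP.cast_eq_zero F 2

section main

variable [Fintype F] {Q : QuadraticForm F (ι → F)}
  (hQ : (QuadraticMap.polarBilin Q).Nondegenerate)

include hQ

/-- a singular vector orthogonal to `D` and not to `u` -/
theorem exists_sing_orth (D : Submodule F (ι → F))
    (hD : 2 * Module.finrank F D + 7 ≤ Fintype.card ι) (u : ι → F) (hu : u ∉ D) :
    ∃ s, Q s = 0 ∧ (∀ d ∈ D, polar ⇑Q d s = 0) ∧ polar ⇑Q u s ≠ 0 := by
  obtain ⟨y, hy, hyu⟩ := exists_orth_ne Q hQ D u hu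
  have hfr : Module.finrank F (D ⊔ Submodule.span F {u, y} : Submodule F (ι → F)) ≤
      Module.finrank F D + 2 := by
    have h1 := Submodule.finrank_add_le_finrank_add_finrank D (Submodule.span F {u, y})
    have h2 := finrank_span_two u y
    omega
  obtain ⟨x, x', hx, hx', hxx', h1, h2⟩ := exists_hyp_orth Q hQ (D ⊔ Submodule.span F {u, y})
    (by omega)
  have hux : polar ⇑Q u x = 0 := h1 u (Submodule.mem_sup_right (Submodule.subset_span (by simp)))
  have hux' : polar ⇑Q u x' = 0 :=
    h2 u (Submodule.mem_sup_right (Submodule.subset_span (by simp)))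
  have hyx : polar ⇑Q y x = 0 := h1 y (Submodule.mem_sup_right (Submodule.subset_span (by simp)))
  have hyx' : polar ⇑Q y x' = 0 :=
    h2 y (Submodule.mem_sup_right (Submodule.subset_span (by simp)))
  refine ⟨y + x - Q y • x', ?_, ?_, ?_⟩
  · rw [map_sub_smul, QuadraticMap.map_add Q, hx, hx', hyx, polar_add_right,
      polar_comm ⇑Q x' y, hyx', polar_comm ⇑Q x' x, hxx']
    ring
  · intro d hd
    rw [polar_sub_right, polar_add_right, polar_smul_right, hy d hd,
      h1 d (Submodule.mem_sup_left hd), h2 d (Submodule.mem_sup_left hd)]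
    simp
  · rw [polar_sub_right, polar_add_right, polar_smul_right, hux, hux', polar_comm ⇑Q u y]
    simpa using hyu

/-- moving `u` to `w` while fixing `v` -/
theorem move_fix (hn : 11 ≤ Fintype.card ι) (v u w : ι → F) (huw : Q u = Q w)
    (hp : polar ⇑Q v u = polar ⇑Q v w) (hu : u ∉ Submodule.span F {v})
    (hw : w ∉ Submodule.span F {v, u}) :
    ∃ s : ↥(Cfsg.isometryGroup F ⇑Q), s ∈ Cfsg.Omega F ⇑Q ∧ mat s *ᵥ v = v ∧ mat s *ᵥ u = w := by
  have hex : Fintype.card F ≠ 2 ∨ Fintype.card ι ≠ 4 := Or.inr (by omega)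
  have huD : u ∉ Submodule.span F {v, u - w} := by
    intro h
    obtain ⟨α, β, e⟩ := Submodule.mem_span_pair.mp h
    by_cases hβ : β = 0
    · apply hu
      rw [hβ, zero_smul, add_zero] at e
      rw [← e]
      exact Submodule.smul_mem _ _ (Submodule.mem_span_singleton_self v)
    · apply hw
      have : w = (β⁻¹ * α) • v + (β⁻¹ * (β - 1)) • u := by
        have e2 : β • w = α • v + (β - 1) • u := by
          have : β • w = α • v + β • u - (α • v + β • (u - w)) := by module
          rw [this, e]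
          module
        rw [mul_smul, mul_smul, ← smul_add, ← e2, smul_smul, inv_mul_cancel₀ hβ, one_smul]
      rw [this]
      exact Submodule.mem_span_pair.mpr ⟨_, _, rfl⟩
  have := finrank_span_two v (u - w)
  obtain ⟨x, hx, hxD, hux⟩ := exists_sing_orth hQ _ (by omega) u huD
  have hvx : polar ⇑Q x v = 0 := by
    rw [polar_comm]; exact hxD v (Submodule.subset_span (by simp))
  have hdx : polar ⇑Q x (u - w) = 0 := by
    rw [polar_comm]; exact hxD (u - w) (Submodule.subset_span (by simp))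
  have hxu : polar ⇑Q x u ≠ 0 := by rw [polar_comm]; exact hux
  have hxw : polar ⇑Q x w = polar ⇑Q x u := by
    rw [polar_sub_right] at hdx
    exact (sub_eq_zero.mp hdx).symm
  obtain ⟨g, hg, hE⟩ := exists_eich Q hQ hex (by omega) x ((polar ⇑Q x u)⁻¹ • (u - w)) hx
    (by rw [polar_smul_right, hdx, smul_zero])
  refine ⟨g, hg, ?_, ?_⟩
  · rw [hE v]
    unfold eform
    rw [hvx, polar_smul_left, polar_sub_left, polar_comm ⇑Q u v, polar_comm ⇑Q w v, hp]
    simp
  · rw [hE u]
    exact eform_move Q x u w huw _ hxu rfl hxw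

omit hQ [Fintype F] in
/-- in characteristic two an isometry stabilising a nonsingular line fixes its vectors -/
theorem fix_of_mem_span (h2 : (2 : F) = 0) (v w : ι → F) (hv : Q v ≠ 0) (hw : Q w = Q v)
    (h : w ∈ Submodule.span F {v}) : w = v := by
  obtain ⟨c, rfl⟩ := Submodule.mem_span_singleton.mp h
  rw [QuadraticMap.map_smul, smul_eq_mul] at hw
  have h1 : c * c = 1 := by
    have : c * c * Q v = 1 * Q v := by rw [hw, one_mul]
    exact mul_right_cancel₀ hv this
  have h3 : (c - 1) * (c - 1) = 0 := by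
    have : (c - 1) * (c - 1) = c * c - 2 * c + 1 := by ring
    rw [this, h1, h2]
    have : (1 : F) + 1 = 0 := by rw [one_add_one_eq_two, h2]
    linear_combination this
  have h4 : c = 1 := by
    rcases mul_self_eq_zero.mp h3 with h
    exact sub_eq_zero.mp h
  rw [h4, one_smul]

omit hQ [Fintype F] in
theorem stab_line_iff (h2 : (2 : F) = 0) (v : ι → F) (hv : Q v ≠ 0)
    (g : ↥(Cfsg.isometryGroup F ⇑Q)) :
    (g : Matrix.GeneralLinearGroup ι F) ∈ Cfsg.Geo.subspaceStabilizer (Submodule.span F {v}) ↔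
      mat g *ᵥ v = v := by
  rw [mem_stab]
  constructor
  · intro h
    apply fix_of_mem_span h2 v _ hv (mat_preserves g v)
    rw [← h]
    exact (mem_img g _ _).mpr ⟨v, Submodule.mem_span_singleton_self v, rfl⟩
  · intro h
    apply img_eq_of_le
    intro z hz
    obtain ⟨c, rfl⟩ := Submodule.mem_span_singleton.mp hz
    rw [mulVec_smul, h]
    exact hz

omit [Fintype F] in
/-- prescribing two polar values -/
theorem exists_two_values (v w : ι → F) (hv : v ∉ Submodule.span F {w})
    (hw : w ∉ Submodule.span F {v}) (c d : F) :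
    ∃ t, polar ⇑Q v t = c ∧ polar ⇑Q w t = d := by
  obtain ⟨t₁, h1, h1'⟩ := exists_orth_ne Q hQ _ v hv
  obtain ⟨t₂, h2, h2'⟩ := exists_orth_ne Q hQ _ w hw
  have e1 : polar ⇑Q w t₁ = 0 := h1 w (Submodule.mem_span_singleton_self w)
  have e2 : polar ⇑Q v t₂ = 0 := h2 v (Submodule.mem_span_singleton_self v)
  rw [polar_comm] at h1' h2'
  refine ⟨(c / polar ⇑Q v t₁) • t₁ + (d / polar ⇑Q w t₂) • t₂, ?_, ?_⟩
  · rw [polar_add_right, polar_smul_right, polar_smul_right, e2, smul_eq_mul,
      div_mul_cancel₀ _ h1']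
    simp
  · rw [polar_add_right, polar_smul_right, polar_smul_right, e1, smul_eq_mul, smul_eq_mul,
      div_mul_cancel₀ _ h2']
    simp

/-- the stabiliser in `Ω` of a nonsingular vector is maximal in characteristic two -/
theorem nonsing_max (h2 : (2 : F) = 0) (hn : 11 ≤ Fintype.card ι) (v : ι → F) (hv : Q v ≠ 0) :
    Cfsg.Geo.IsMaximalIn (Cfsg.Geo.omegaGL ⇑Q)
      (Cfsg.Geo.subspaceStabilizer (Submodule.span F {v}) ⊓ Cfsg.Geo.omegaGL ⇑Q) := by
  have hex : Fintype.card F ≠ 2 ∨ Fintype.card ι ≠ 4 := Or.inr (by omega)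
  apply max_of
  · have := finrank_span_one v
    obtain ⟨x, x', hx, hx', hxx', h1, _⟩ := exists_hyp_orth Q hQ (Submodule.span F {v})
      (by omega)
    have hx0 : x ≠ 0 := by
      rintro rfl
      simp at hxx'
    have hvx : v ∉ Submodule.span F {x} := by
      intro h
      obtain ⟨c, rfl⟩ := Submodule.mem_span_singleton.mp h
      apply hv
      rw [QuadraticMap.map_smul, hx, smul_zero]
    obtain ⟨a, ha, hav⟩ := exists_orth_ne Q hQ _ v hvx
    obtain ⟨g, hg, hE⟩ := exists_eich Q hQ hex (by omega) x a hx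
      (ha x (Submodule.mem_span_singleton_self x))
    refine ⟨g, hg, ?_⟩
    rw [stab_line_iff h2 v hv, hE v]
    unfold eform
    rw [polar_comm ⇑Q x v, h1 v (Submodule.mem_span_singleton_self v)]
    simp only [zero_smul, mul_zero, sub_zero]
    intro h
    have h3 : polar ⇑Q a v • x = 0 := by
      have := add_left_cancel (h.trans (add_zero v).symm)
      exact this
    rcases smul_eq_zero.mp h3 with h | h
    · exact hav h
    · exact hx0 h
  · rintro H hPH ⟨g₀, hg₀H, hg₀Ω, hg₀v⟩
    rw [stab_line_iff h2 v hv] at hg₀v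
    have hS : ∀ g : ↥(Cfsg.isometryGroup F ⇑Q), g ∈ Cfsg.Omega F ⇑Q → mat g *ᵥ v = v → g ∈ H := by
      intro g hg hgv
      exact hPH g hg ((stab_line_iff h2 v hv g).mpr hgv)
    intro k hk
    by_cases hkv : mat k *ᵥ v = v
    · exact hS k hk hkv
    set u := mat g₀ *ᵥ v with hu
    set w := mat k *ᵥ v with hw
    have hQu : Q u = Q v := mat_preserves g₀ v
    have hQw : Q w = Q v := mat_preserves k v
    have huv : u ∉ Submodule.span F {v} := fun h => hg₀v (fix_of_mem_span h2 v u hv hQu h)
    have hwv : w ∉ Submodule.span F {v} := fun h => hkv (fix_of_mem_span h2 v w hv hQw h)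
    have hvw : v ∉ Submodule.span F {w} := by
      intro h
      exact hkv (fix_of_mem_span h2 w v (by rw [hQw]; exact hv) hQw.symm h).symm
    obtain ⟨w₀, hw1, hw2⟩ := exists_two_values hQ v w hvw hwv (polar ⇑Q v u) (polar ⇑Q v u)
    set D := Submodule.span F {v, u} ⊔ Submodule.span F {w, w₀} with hD
    have hDfr : Module.finrank F D ≤ 4 := by
      have h1 := Submodule.finrank_add_le_finrank_add_finrank (Submodule.span F {v, u})
        (Submodule.span F {w, w₀})
      have h2 := finrank_span_two v u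
      have h3 := finrank_span_two w w₀
      rw [hD]
      omega
    obtain ⟨x, x', hx, hx', hxx', h1, h1'⟩ := exists_hyp_orth Q hQ D (by omega)
    have hvD : v ∈ D := Submodule.mem_sup_left (Submodule.subset_span (by simp))
    have huD : u ∈ D := Submodule.mem_sup_left (Submodule.subset_span (by simp))
    have hwD : w ∈ D := Submodule.mem_sup_right (Submodule.subset_span (by simp))
    have hw₀D : w₀ ∈ D := Submodule.mem_sup_right (Submodule.subset_span (by simp))
    set b := w₀ + (x + (Q v - Q w₀) • x') with hb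
    have hQb : Q b = Q v := by
      rw [hb, QuadraticMap.map_add Q, QuadraticMap.map_add Q x, QuadraticMap.map_smul, hx, hx',
        polar_smul_right, hxx', polar_add_right, polar_smul_right, h1 w₀ hw₀D, h1' w₀ hw₀D]
      simp
    have hpb : ∀ d ∈ D, polar ⇑Q d b = polar ⇑Q d w₀ := by
      intro d hd
      rw [hb, polar_add_right, polar_add_right, polar_smul_right, h1 d hd, h1' d hd]
      simp
    have hbD : b ∉ D := by
      intro h
      have e1 := h1' b h
      rw [hb, polar_add_left, polar_add_left, polar_smul_left, h1' w₀ hw₀D, hxx', polar_self',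
        hx'] at e1
      simp at e1
    have hb1 : b ∉ Submodule.span F {v, u} := fun h => hbD (Submodule.mem_sup_left h)
    have hb2 : b ∉ Submodule.span F {v, w} := by
      intro h
      apply hbD
      obtain ⟨α, β, e⟩ := Submodule.mem_span_pair.mp h
      rw [← e]
      exact D.add_mem (D.smul_mem _ hvD) (D.smul_mem _ hwD)
    obtain ⟨s₁, hs₁, hs₁v, hs₁u⟩ := move_fix hQ hn v u b (by rw [hQu, hQb])
      (by rw [hpb v hvD, hw1]) huv hb1
    have hs₁H := hS s₁ hs₁ hs₁v
    have hv0 : v ≠ 0 := by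
      rintro rfl
      simp at hv
    obtain ⟨s₂, hs₂, hs₂b, hs₂v⟩ := move_fix hQ hn b v w hQw.symm
      (by rw [polar_comm ⇑Q b v, polar_comm ⇑Q b w, hpb v hvD, hpb w hwD, hw1, hw2])
      (by
        intro h
        obtain ⟨α, e⟩ := Submodule.mem_span_singleton.mp h
        have hα : α ≠ 0 := by
          rintro rfl
          rw [zero_smul] at e
          exact hv0 e.symm
        apply hbD
        have : b = α⁻¹ • v := by rw [← e, smul_smul, inv_mul_cancel₀ hα, one_smul]
        rw [this]
        exact D.smul_mem _ hvD)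
      (by
        intro h
        obtain ⟨α, β, e⟩ := Submodule.mem_span_pair.mp h
        by_cases hα : α = 0
        · apply hwv
          rw [hα, zero_smul, zero_add] at e
          rw [← e]
          exact Submodule.smul_mem _ _ (Submodule.mem_span_singleton_self v)
        · apply hbD
          have : b = α⁻¹ • (w - β • v) := by
            rw [← e, add_sub_cancel_right, smul_smul, inv_mul_cancel₀ hα, one_smul]
          rw [this]
          exact D.smul_mem _ (D.sub_mem hwD (D.smul_mem _ hvD)))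
    set h := s₁ * g₀ with hh
    have hhH : h ∈ H := H.mul_mem hs₁H hg₀H
    have hhΩ : h ∈ Cfsg.Omega F ⇑Q := Subgroup.mul_mem _ hs₁ hg₀Ω
    have hhv : mat h *ᵥ v = b := by rw [hh, mat_mul_mulVec, ← hu, hs₁u]
    have hs₂H : s₂ ∈ H := by
      have e1 : h⁻¹ * s₂ * h ∈ H := by
        apply hS _ (Subgroup.mul_mem _ (Subgroup.mul_mem _ (Subgroup.inv_mem _ hhΩ) hs₂) hhΩ)
        rw [mat_mul_mulVec, mat_mul_mulVec, hhv, hs₂b, ← hhv, mat_inv_mulVec]
      have e2 : s₂ = h * (h⁻¹ * s₂ * h) * h⁻¹ := by group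
      rw [e2]
      exact H.mul_mem (H.mul_mem hhH e1) (H.inv_mem hhH)
    have e3 : s₂⁻¹ * k ∈ H := by
      apply hS _ (Subgroup.mul_mem _ (Subgroup.inv_mem _ hs₂) hk)
      rw [mat_mul_mulVec, ← hw, ← hs₂v, mat_inv_mulVec]
    have e4 : k = s₂ * (s₂⁻¹ * k) := by group
    rw [e4]
    exact H.mul_mem hs₂H e3

end main

end Cfsg.Agent.Lib.Helper5.OrthMax2
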