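import Mathlib
import Cfsg.Prelude.Def_GeometricClasses
import Cfsg.Agent.Lib.Helper5.OrthMax

set_option autoImplicit false
set_option linter.unusedSectionVars false

namespace Cfsg.Agent.Lib.Helper5.OrthPair

open Matrix Cfsg.Agent.Lib.Helper5.OrthCard Cfsg.Agent.Lib.Helper5.Orth
  Cfsg.Agent.Lib.Helper5.OrthGen QuadraticMap Cfsg.Agent.Lib.Helper5.OrthRefl
  Cfsg.Agent.Lib.Helper5.OrthTrans Cfsg.Agent.Lib.Helper5.Dickson
  Cfsg.Agent.Lib.Helper5.OrthCenter Cfsg.Agent.Lib.Helper5.OrthThree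
  Cfsg.Agent.Lib.Helper5.OrthEich Cfsg.Agent.Lib.Helper5.OrthEich2
  Cfsg.Agent.Lib.Helper5.OrthClass Cfsg.Agent.Lib.Helper5.OrthFam2
  Cfsg.Agent.Lib.Helper5.OrthGeo Cfsg.Agent.Lib.Helper5.OrthMax

variable {F : Type*} [Field F] {ι : Type} [Fintype ι] [DecidableEq ι]

theorem map_eq {Q : (ι → F) → F} (g : ↥(Cfsg.isometryGroup F Q)) (X Y : Submodule F (ι → F))
    (h : ∀ x ∈ X, mat g *ᵥ x ∈ Y) (hfin : Module.finrank F X = Module.finrank F Y) :
    img g X = Y := by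
  apply Submodule.eq_of_le_of_finrank_eq
  · intro y hy
    obtain ⟨x, hx, rfl⟩ := (mem_img g X y).mp hy
    exact h x hx
  · rw [finrank_img, hfin]

theorem mem_decomp_of {Q : (ι → F) → F} (D : Fin 2 → Submodule F (ι → F))
    (hfin : Module.finrank F (D 0) = Module.finrank F (D 1))
    (g : ↥(Cfsg.isometryGroup F Q))
    (h : ((∀ x ∈ D 0, mat g *ᵥ x ∈ D 0) ∧ (∀ x ∈ D 1, mat g *ᵥ x ∈ D 1)) ∨
      ((∀ x ∈ D 0, mat g *ᵥ x ∈ D 1) ∧ (∀ x ∈ D 1, mat g *ᵥ x ∈ D 0))) :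
    (g : Matrix.GeneralLinearGroup ι F) ∈ Cfsg.Geo.decompositionStabilizer D := by
  rcases h with ⟨h0, h1⟩ | ⟨h0, h1⟩
  · refine ⟨1, fun i => ?_⟩
    rw [img_eq_map]
    fin_cases i
    · exact map_eq g _ _ h0 rfl
    · exact map_eq g _ _ h1 rfl
  · refine ⟨Equiv.swap 0 1, fun i => ?_⟩
    rw [img_eq_map]
    fin_cases i
    · exact map_eq g _ _ h0 hfin
    · exact map_eq g _ _ h1 hfin.symm

theorem cases_of_mem {Q : (ι → F) → F} (D : Fin 2 → Submodule F (ι → F))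
    (g : ↥(Cfsg.isometryGroup F Q))
    (h : (g : Matrix.GeneralLinearGroup ι F) ∈ Cfsg.Geo.decompositionStabilizer D) :
    ((∀ x ∈ D 0, mat g *ᵥ x ∈ D 0) ∧ (∀ x ∈ D 1, mat g *ᵥ x ∈ D 1)) ∨
      ((∀ x ∈ D 0, mat g *ᵥ x ∈ D 1) ∧ (∀ x ∈ D 1, mat g *ᵥ x ∈ D 0)) := by
  obtain ⟨σ, hσ⟩ := h
  have hm : ∀ i, ∀ x ∈ D i, mat g *ᵥ x ∈ D (σ i) := by
    intro i x hx
    rw [← hσ i]
    exact ⟨x, hx, rfl⟩
  have hcases : σ 0 = 0 ∨ σ 0 = 1 := by
    generalize σ 0 = j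
    fin_cases j <;> simp
  have hcases1 : σ 1 = 0 ∨ σ 1 = 1 := by
    generalize σ 1 = j
    fin_cases j <;> simp
  have hne : σ 0 ≠ σ 1 := fun h => absurd (σ.injective h) (by decide)
  rcases hcases with h0 | h0 <;> rcases hcases1 with h1 | h1
  · exact absurd (h0.trans h1.symm) hne
  · left
    exact ⟨fun x hx => h0 ▸ hm 0 x hx, fun x hx => h1 ▸ hm 1 x hx⟩
  · right
    exact ⟨fun x hx => h0 ▸ hm 0 x hx, fun x hx => h1 ▸ hm 1 x hx⟩
  · exact absurd (h0.trans h1.symm) hne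

theorem all_in {Q : (ι → F) → F} (W U X : Submodule F (ι → F))
    (g : ↥(Cfsg.isometryGroup F Q))
    (h : ∀ x ∈ X, mat g *ᵥ x ∈ W ∨ mat g *ᵥ x ∈ U)
    (x₀ : ι → F) (hx₀ : x₀ ∈ X) (hx₀W : mat g *ᵥ x₀ ∉ W) :
    ∀ x ∈ X, mat g *ᵥ x ∈ U := by
  have hx₀U := (h x₀ hx₀).resolve_left hx₀W
  intro x hx
  rcases h x hx with h1 | h1
  · rcases h (x₀ + x) (X.add_mem hx₀ hx) with h2 | h2
    · exfalso
      apply hx₀W
      rw [mulVec_add] at h2
      have := W.sub_mem h2 h1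
      rwa [add_sub_cancel_right] at this
    · rw [mulVec_add] at h2
      have := U.sub_mem h2 hx₀U
      rwa [add_sub_cancel_left] at this
  · exact h1

variable (Q : QuadraticForm F (ι → F))

/-- a pair of complementary totally singular subspaces -/
structure Pol (E E' : Submodule F (ι → F)) : Prop where
  ts : ∀ u ∈ E, Q u = 0
  ts' : ∀ u ∈ E', Q u = 0
  dec : ∀ v, ∃ v₀ ∈ E, ∃ v₁ ∈ E', v = v₀ + v₁

theorem exists_in (E : Submodule F (ι → F)) (z₁ z₂ z₃ w : ι → F)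
    (hE : 5 ≤ Module.finrank F E) :
    ∃ a ∈ E, polar ⇑Q a z₁ = 0 ∧ polar ⇑Q a z₂ = 0 ∧ polar ⇑Q a z₃ = 0 ∧
      a ∉ Submodule.span F {w} := by
  set φ : (ι → F) → ((ι → F) →ₗ[F] F) := fun z => QuadraticMap.polarBilin Q z with hφ
  have h1 := OrthRefl.finrank_inf_ker E (φ z₁)
  have h2 := OrthRefl.finrank_inf_ker (E ⊓ LinearMap.ker (φ z₁)) (φ z₂)
  have h3 := OrthRefl.finrank_inf_ker (E ⊓ LinearMap.ker (φ z₁) ⊓ LinearMap.ker (φ z₂)) (φ z₃)
  by_contra hcon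
  push Not at hcon
  have hle : E ⊓ LinearMap.ker (φ z₁) ⊓ LinearMap.ker (φ z₂) ⊓ LinearMap.ker (φ z₃) ≤
      Submodule.span F {w} := by
    rintro a ⟨⟨⟨ha, h1⟩, h2⟩, h3⟩
    exact hcon a ha ((polar_comm _ _ _).trans h1) ((polar_comm _ _ _).trans h2)
      ((polar_comm _ _ _).trans h3)
  have h4 := Submodule.finrank_mono hle
  have h5 : Module.finrank F (Submodule.span F {w}) ≤ 1 := by
    have := finrank_span_le_card (R := F) ({w} : Set (ι → F))
    simpa using this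
  omega

variable {Q}
variable {E E' : Submodule F (ι → F)}

theorem Pol.symm (h : Pol Q E E') : Pol Q E' E :=
  ⟨h.ts', h.ts, fun v => by
    obtain ⟨a, ha, b, hb, rfl⟩ := h.dec v
    exact ⟨b, hb, a, ha, add_comm _ _⟩⟩

theorem Pol.pol (h : Pol Q E E') (u v : ι → F) (hu : u ∈ E) (hv : v ∈ E) : polar ⇑Q u v = 0 :=
  polar_of_ts Q E h.ts u v hu hv

theorem Pol.pol' (h : Pol Q E E') (u v : ι → F) (hu : u ∈ E') (hv : v ∈ E') :
    polar ⇑Q u v = 0 :=
  polar_of_ts Q E' h.ts' u v hu hv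

theorem Pol.dual (hQ : (QuadraticMap.polarBilin Q).Nondegenerate) (h : Pol Q E E')
    (S : Submodule F (ι → F)) (hS : S ≤ E)
    (u : ι → F) (hu : u ∈ E) (huS : u ∉ S) :
    ∃ b ∈ E', (∀ s ∈ S, polar ⇑Q s b = 0) ∧ polar ⇑Q b u ≠ 0 := by
  obtain ⟨y, hy, hyu⟩ := OrthEich.exists_orth_ne Q hQ S u huS
  obtain ⟨y₀, hy₀, y₁, hy₁, rfl⟩ := h.dec y
  refine ⟨y₁, hy₁, ?_, ?_⟩
  · intro s hs
    have := hy s hs
    rwa [polar_add_right, h.pol s y₀ (hS hs) hy₀, zero_add] at this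
  · rwa [polar_add_left, h.pol y₀ u hy₀ hu, zero_add] at hyu

theorem Pol.disj (hQ : (QuadraticMap.polarBilin Q).Nondegenerate) (h : Pol Q E E')
    (x : ι → F) (hx : x ∈ E) (hx' : x ∈ E') : x = 0 := by
  apply hQ.1 x
  intro y
  obtain ⟨y₀, hy₀, y₁, hy₁, rfl⟩ := h.dec y
  show polar ⇑Q x (y₀ + y₁) = 0
  rw [polar_add_right, h.pol x y₀ hx hy₀, h.pol' x y₁ hx' hy₁, add_zero]

theorem eich_stab (h : Pol Q E E') (a b : ι → F) (ha : a ∈ E) (hb : b ∈ E')
    (g : ↥(Cfsg.isometryGroup F ⇑Q)) (hg : IsEich Q g a b) :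
    (∀ x ∈ E, mat g *ᵥ x ∈ E) ∧ (∀ x ∈ E', mat g *ᵥ x ∈ E') := by
  constructor
  · intro x hx
    rw [hg x]
    unfold eform
    rw [h.pol a x ha hx]
    simp only [zero_smul, mul_zero, sub_zero]
    exact E.add_mem hx (E.smul_mem _ ha)
  · intro x hx
    rw [hg x]
    unfold eform
    rw [h.pol' b x hb hx, h.ts' b hb]
    simp only [zero_smul, zero_mul, sub_zero, add_zero]
    exact E'.sub_mem hx (E'.smul_mem _ hb)

theorem Pol.push (hQ : (QuadraticMap.polarBilin Q).Nondegenerate) (h : Pol Q E E')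
    (y₀ y₁ a₁ : ι → F) (hy₀ : y₀ ∈ E) (hy₁ : y₁ ∈ E')
    (ha₁ : a₁ ∈ E) (h1 : polar ⇑Q a₁ y₁ = 0) (hn : y₀ ∉ Submodule.span F {a₁}) :
    ∃ b₁ ∈ E', polar ⇑Q a₁ b₁ = 0 ∧ ∃ c : F, c ≠ 0 ∧
      eform Q a₁ b₁ (y₀ + y₁) = y₀ + y₁ + c • a₁ := by
  obtain ⟨b, hb, hbS, hbu⟩ := h.dual hQ (Submodule.span F {a₁})
    (by rw [Submodule.span_singleton_le_iff_mem]; exact ha₁) y₀ hy₀ hn
  have hab := hbS a₁ (Submodule.mem_span_singleton_self a₁)
  refine ⟨b, hb, hab, polar ⇑Q b y₀, hbu, ?_⟩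
  unfold eform
  rw [polar_add_right, polar_add_right, h.pol a₁ y₀ ha₁ hy₀, h1, h.pol' b y₁ hb hy₁]
  simp

/-- the Eichler transformation with the given parameters lies in `H` -/
def InH (H : Subgroup ↥(Cfsg.isometryGroup F ⇑Q)) (a u : ι → F) : Prop :=
  polar ⇑Q a u = 0 ∧ ∀ g : ↥(Cfsg.isometryGroup F ⇑Q), IsEich Q g a u → g ∈ H

variable {H : Subgroup ↥(Cfsg.isometryGroup F ⇑Q)}

theorem InH.conj {a u : ι → F} (h1 : InH H a u) {k : ↥(Cfsg.isometryGroup F ⇑Q)} (hk : k ∈ H) :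
    InH H (mat k *ᵥ a) (mat k *ᵥ u) := by
  refine ⟨by rw [mat_polar]; exact h1.1, fun g hg => ?_⟩
  have h2 := hg.conj k⁻¹
  rw [mat_inv_mulVec, mat_inv_mulVec] at h2
  have h3 := h1.2 _ h2
  have : g = k * (k⁻¹ * g * k⁻¹⁻¹) * k⁻¹ := by group
  rw [this]
  exact H.mul_mem (H.mul_mem hk h3) (H.inv_mem hk)

section fin

variable [Fintype F] (hQ : (QuadraticMap.polarBilin Q).Nondegenerate)
  (hex : Fintype.card F ≠ 2 ∨ Fintype.card ι ≠ 4) (hn : 2 ≤ Fintype.card ι)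

include hQ hex hn

theorem InH.add {a u v : ι → F} (ha : Q a = 0) (h1 : InH H a u) (h2 : InH H a v) :
    InH H a (u + v) := by
  refine ⟨by rw [polar_add_right, h1.1, h2.1, add_zero], fun g hg => ?_⟩
  obtain ⟨g1, _, hg1⟩ := exists_eich Q hQ hex hn a u ha h1.1
  obtain ⟨g2, _, hg2⟩ := exists_eich Q hQ hex hn a v ha h2.1
  rw [hg.ext (hg1.mul hg2 ha h1.1 h2.1)]
  exact H.mul_mem (h1.2 _ hg1) (h2.2 _ hg2)

theorem InH.neg {a u : ι → F} (ha : Q a = 0) (h1 : InH H a u) : InH H a (-u) := by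
  refine ⟨by rw [polar_neg_right, h1.1, neg_zero], fun g hg => ?_⟩
  obtain ⟨g1, _, hg1⟩ := exists_eich Q hQ hex hn a u ha h1.1
  rw [hg.ext (hg1.inv ha h1.1)]
  exact H.inv_mem (h1.2 _ hg1)


theorem step_a (h : Pol Q E E') (hA : 5 ≤ Module.finrank F E)
    (hP : ∀ a ∈ E, ∀ b ∈ E', polar ⇑Q a b = 0 → InH H a b)
    (p r : ι → F) (s : ↥(Cfsg.isometryGroup F ⇑Q)) (hsH : s ∈ H) (hs : IsEich Q s p r)
    (x : ι → F) (hx : x ∈ E') (hsx : mat s *ᵥ x ∉ E') :
    ∃ a ∈ E, a ≠ 0 ∧ a ∈ YY Q H := by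
  set X := mat s *ᵥ x with hX
  obtain ⟨wA, hwA, wB, hwB, hw⟩ := h.dec X
  have hwA0 : wA ≠ 0 := by
    rintro rfl
    apply hsx
    rw [hw, zero_add]
    exact hwB
  obtain ⟨a, ha, hap, har, hax, haw⟩ := exists_in Q E p r x wA hA
  have hQa := h.ts a ha
  have ha0 : a ≠ 0 := by
    rintro rfl
    exact haw (Submodule.zero_mem _)
  have hwa : wA ∉ Submodule.span F {a} := by
    intro hc
    obtain ⟨c, hc⟩ := Submodule.mem_span_singleton.mp hc
    have hc0 : c ≠ 0 := by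
      rintro rfl
      rw [zero_smul] at hc
      exact hwA0 hc.symm
    apply haw
    rw [Submodule.mem_span_singleton]
    refine ⟨c⁻¹, ?_⟩
    rw [← hc, smul_smul, inv_mul_cancel₀ hc0, one_smul]
  have hfix : mat s *ᵥ a = a := by
    rw [hs a]
    unfold eform
    rw [polar_comm ⇑Q r a, polar_comm ⇑Q p a, hap, har]
    simp
  have h1 : InH H a X := by
    have := (hP a ha x hx hax).conj hsH
    rwa [hfix] at this
  have hawB : polar ⇑Q a wB = 0 := by
    have := h1.1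
    rwa [hw, polar_add_right, h.pol a wA ha hwA, zero_add] at this
  have h2 : InH H a wA := by
    have := InH.add hQ hex hn hQa h1 (InH.neg hQ hex hn hQa (hP a ha wB hwB hawB))
    rwa [hw, add_neg_cancel_right] at this
  set S := Submodule.span F {a, wA} with hS
  have claim1 : ∀ z ∈ E, z ∉ S → InH H a z := by
    intro z hz hzS
    have hn1 : wA ∉ Submodule.span F {a, z} := by
      intro hc
      obtain ⟨α, β, e⟩ := Submodule.mem_span_pair.mp hc
      by_cases hβ : β = 0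
      · rw [hβ, zero_smul, add_zero] at e
        exact hwa (Submodule.mem_span_singleton.mpr ⟨α, e⟩)
      · apply hzS
        rw [hS, Submodule.mem_span_pair]
        refine ⟨-β⁻¹ * α, β⁻¹, ?_⟩
        rw [← e, smul_add, smul_smul, smul_smul, inv_mul_cancel₀ hβ]
        module
    obtain ⟨b, hb, hbS, hbu⟩ := h.dual hQ (Submodule.span F {a, z})
      (by
        rw [Submodule.span_le]
        rintro y (rfl | rfl)
        · exact ha
        · exact hz) wA hwA hn1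
    have hab := hbS a (Submodule.subset_span (by simp))
    have hzb := hbS z (Submodule.subset_span (by simp))
    set b' := (polar ⇑Q b wA)⁻¹ • b with hb'
    have hzb' : polar ⇑Q z b' = 0 := by rw [hb', polar_smul_right, hzb, smul_zero]
    have hb'a : polar ⇑Q b' a = 0 := by
      rw [hb', polar_smul_left, polar_comm ⇑Q b a, hab, smul_zero]
    have hb'w : polar ⇑Q b' wA = 1 := by
      rw [hb', polar_smul_left, smul_eq_mul, inv_mul_cancel₀ hbu]
    obtain ⟨k, _, hk⟩ := exists_eich Q hQ hex hn z b' (h.ts z hz) hzb'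
    have hkH := (hP z hz b' (E'.smul_mem _ hb) hzb').2 k hk
    have hka : mat k *ᵥ a = a := by
      rw [hk a]
      unfold eform
      rw [hb'a, h.pol z a hz ha]
      simp
    have hkw : mat k *ᵥ wA = wA + z := by
      rw [hk wA]
      unfold eform
      rw [hb'w, h.pol z wA hz hwA]
      simp
    have h3 := h2.conj hkH
    rw [hka, hkw] at h3
    have h4 := InH.add hQ hex hn hQa h3 (InH.neg hQ hex hn hQa h2)
    have h5 : wA + z + -wA = z := by abel
    rwa [h5] at h4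
  have hSfin : Module.finrank F S ≤ 2 := finrank_span_two a wA
  have hex' : ∃ z' ∈ E, z' ∉ S := by
    by_contra hcon
    push Not at hcon
    have := Submodule.finrank_mono (show E ≤ S from hcon)
    omega
  obtain ⟨z', hz', hz'S⟩ := hex'
  have claim2 : ∀ z ∈ E, InH H a z := by
    intro z hz
    by_cases hzS : z ∈ S
    · have h3 : z - z' ∉ S := by
        intro hc
        apply hz'S
        have := S.sub_mem hzS hc
        rwa [sub_sub_cancel] at this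
      have h4 := InH.add hQ hex hn hQa (claim1 _ (E.sub_mem hz hz') h3) (claim1 z' hz' hz'S)
      rwa [sub_add_cancel] at h4
    · exact claim1 z hz hzS
  refine ⟨a, ha, ha0, hQa, ?_⟩
  intro u g hau hg
  obtain ⟨u₀, hu₀, u₁, hu₁, rfl⟩ := h.dec u
  have hau₁ : polar ⇑Q a u₁ = 0 := by
    rwa [polar_add_right, h.pol a u₀ ha hu₀, zero_add] at hau
  exact (InH.add hQ hex hn hQa (claim2 u₀ hu₀) (hP a ha u₁ hu₁ hau₁)).2 g hg

theorem step_all (h : Pol Q E E')
    (hP : ∀ a ∈ E, ∀ b ∈ E', polar ⇑Q a b = 0 → InH H a b)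
    (a : ι → F) (ha : a ∈ E) (ha0 : a ≠ 0) (haY : a ∈ YY Q H) :
    ∀ z ∈ E, z ∈ YY Q H := by
  intro z hz
  by_cases hza : z ∈ Submodule.span F {a}
  · obtain ⟨c, rfl⟩ := Submodule.mem_span_singleton.mp hza
    exact YY_smul haY c
  have hn1 : a ∉ Submodule.span F {z - a} := by
    intro hc
    obtain ⟨c, hc⟩ := Submodule.mem_span_singleton.mp hc
    have hc0 : c ≠ 0 := by
      rintro rfl
      rw [zero_smul] at hc
      exact ha0 hc.symm
    apply hza
    rw [Submodule.mem_span_singleton]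
    refine ⟨1 + c⁻¹, ?_⟩
    have : c⁻¹ • a = z - a := by
      have h0 : c⁻¹ • (c • (z - a)) = c⁻¹ • a := by rw [hc]
      rw [← h0, smul_smul, inv_mul_cancel₀ hc0, one_smul]
    rw [add_smul, one_smul, this]
    abel
  obtain ⟨b, hb, hbS, hbu⟩ := h.dual hQ (Submodule.span F {z - a})
    (by rw [Submodule.span_singleton_le_iff_mem]; exact E.sub_mem hz ha) a ha hn1
  have hab := hbS _ (Submodule.mem_span_singleton_self _)
  set b' := (polar ⇑Q b a)⁻¹ • b with hb'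
  have hzb : polar ⇑Q (z - a) b' = 0 := by
    rw [hb', polar_smul_right, hab, smul_zero]
  have hb'a : polar ⇑Q b' a = 1 := by
    rw [hb', polar_smul_left, smul_eq_mul, inv_mul_cancel₀ hbu]
  obtain ⟨k, _, hk⟩ := exists_eich Q hQ hex hn (z - a) b' (h.ts _ (E.sub_mem hz ha)) hzb
  have hkH := (hP _ (E.sub_mem hz ha) b' (E'.smul_mem _ hb) hzb).2 k hk
  have h1 := YY_img hkH haY
  have h2 : mat k *ᵥ a = z := by
    rw [hk a]
    unfold eform
    rw [hb'a, h.pol (z - a) a (E.sub_mem hz ha) ha]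
    simp
  rwa [h2] at h1

theorem refl_pair_mem (u w : ι → F) (hu : Q u ≠ 0) (hw : Q w ≠ 0) (huw : Q u = Q w) :
    refl Q u hu * refl Q w hw ∈ Cfsg.Omega F ⇑Q := by
  classical
  by_cases h2 : (2 : F) = 0
  · rw [Dickson.omega_iff Q h2 hQ hex, dk_mul Q hQ hex, dk_refl Q hQ, dk_refl Q hQ]
    rfl
  · obtain ⟨θ, sd, hθ, hsd, _, hΩ⟩ := Spinor.main Q h2 hQ hn
    rw [hΩ, map_mul, map_mul, hθ, hθ, hsd, hsd, huw]
    exact ⟨Int.units_mul_self _, rfl⟩


theorem exists_swap (h : Pol Q E E') (k : ℕ) (hA : Module.finrank F E = k) (hk : Even k) :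
    ∃ σ : ↥(Cfsg.isometryGroup F ⇑Q), σ ∈ Cfsg.Omega F ⇑Q ∧
      (∀ x ∈ E, mat σ *ᵥ x ∈ E') ∧ (∀ x ∈ E', mat σ *ᵥ x ∈ E) := by
  classical
  let bs := Module.finBasisOfFinrankEq F E hA
  let e : Fin k → (ι → F) := fun i => (bs i : ι → F)
  have heE : ∀ i, e i ∈ E := fun i => (bs i).2
  have hli : LinearIndependent F e :=
    bs.linearIndependent.map' E.subtype (Submodule.ker_subtype E)
  have hspan : Submodule.span F (Set.range e) = E := by
    have : Set.range e = E.subtype '' (Set.range bs) := by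
      rw [← Set.range_comp]; rfl
    rw [this, ← Submodule.map_span, bs.span_eq, Submodule.map_top, Submodule.range_subtype]
  have hf : ∀ j, ∃ b ∈ E', ∀ i, polar ⇑Q (e i) b = if i = j then 1 else 0 := by
    intro j
    have hj := (linearIndependent_iff_notMem_span.mp hli) j
    obtain ⟨b, hb, hbS, hbu⟩ := h.dual hQ (Submodule.span F (e '' (Set.univ \ {j})))
      (by
        rw [Submodule.span_le]
        rintro _ ⟨i, _, rfl⟩
        exact heE i) (e j) (heE j) hj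
    have hjb : polar ⇑Q (e j) b ≠ 0 := by
      rw [polar_comm]; exact hbu
    refine ⟨(polar ⇑Q (e j) b)⁻¹ • b, E'.smul_mem _ hb, fun i => ?_⟩
    rw [polar_smul_right, smul_eq_mul]
    by_cases hij : i = j
    · rw [if_pos hij, hij, inv_mul_cancel₀ hjb]
    · rw [if_neg hij, hbS (e i) (Submodule.subset_span ⟨i, ⟨trivial, hij⟩, rfl⟩), mul_zero]
  choose f hfB hf using hf
  have hQu : ∀ i, Q (e i - f i) = -1 := by
    intro i
    rw [OrthGen.map_sub', h.ts _ (heE i), h.ts' _ (hfB i), polar_comm, hf i i, if_pos rfl]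
    ring
  have hu : ∀ i, Q (e i - f i) ≠ 0 := by
    intro i
    rw [hQu]
    simp
  have hrr : ∀ i x, mat (refl Q (e i - f i) (hu i)) *ᵥ x =
      x + polar ⇑Q (e i - f i) x • (e i - f i) := by
    intro i x
    rw [mat_refl, reflectionMatrix_mulVec, hQu]
    have : ((-1 : F))⁻¹ = -1 := by norm_num
    rw [this]
    module
  have rr_e : ∀ i j, mat (refl Q (e i - f i) (hu i)) *ᵥ e j = if i = j then f j else e j := by
    intro i j
    rw [hrr, polar_sub_left, h.pol _ _ (heE i) (heE j), polar_comm ⇑Q (f i) (e j), hf i j]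
    by_cases hij : i = j
    · subst hij
      simp
    · simp [hij, Ne.symm hij]
  have rr_f : ∀ i j, mat (refl Q (e i - f i) (hu i)) *ᵥ f j = if i = j then e j else f j := by
    intro i j
    rw [hrr, polar_sub_left, h.pol' _ _ (hfB i) (hfB j), hf j i]
    by_cases hij : i = j
    · subst hij
      simp
    · simp [hij]
  have claim : ∀ s : ℕ, 2 * s ≤ k → ∃ σ : ↥(Cfsg.isometryGroup F ⇑Q), σ ∈ Cfsg.Omega F ⇑Q ∧
      ∀ i : Fin k, (i.val < 2 * s → mat σ *ᵥ e i = f i ∧ mat σ *ᵥ f i = e i) ∧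
        (2 * s ≤ i.val → mat σ *ᵥ e i = e i ∧ mat σ *ᵥ f i = f i) := by
    intro s
    induction s with
    | zero =>
      intro _
      refine ⟨1, Subgroup.one_mem _, fun i => ⟨fun hi => absurd hi (by omega), fun _ => ?_⟩⟩
      rw [mat_one_mulVec, mat_one_mulVec]
      exact ⟨rfl, rfl⟩
    | succ s ih =>
      intro hs
      obtain ⟨σ, hσΩ, hσ⟩ := ih (by omega)
      set i₀ : Fin k := ⟨2 * s, by omega⟩ with hi₀
      set i₁ : Fin k := ⟨2 * s + 1, by omega⟩ with hi₁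
      have h01 : i₀ ≠ i₁ := by
        intro hc
        have := congrArg Fin.val hc
        simp [hi₀, hi₁] at this
      set τ := refl Q (e i₀ - f i₀) (hu i₀) * refl Q (e i₁ - f i₁) (hu i₁) with hτ
      have hτΩ : τ ∈ Cfsg.Omega F ⇑Q :=
        refl_pair_mem hQ hex hn _ _ _ _ (by rw [hQu, hQu])
      have hτe : ∀ i, mat τ *ᵥ e i = if (i = i₀ ∨ i = i₁) then f i else e i := by
        intro i
        rw [hτ, mat_mul_mulVec, rr_e]
        by_cases c1 : i₁ = i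
        · subst c1
          simp [rr_f, h01]
        · by_cases c0 : i₀ = i
          · subst c0
            simp [rr_e, h01, Ne.symm h01]
          · simp [rr_e, c0, c1, Ne.symm c0, Ne.symm c1]
      have hτf : ∀ i, mat τ *ᵥ f i = if (i = i₀ ∨ i = i₁) then e i else f i := by
        intro i
        rw [hτ, mat_mul_mulVec, rr_f]
        by_cases c1 : i₁ = i
        · subst c1
          simp [rr_e, h01]
        · by_cases c0 : i₀ = i
          · subst c0
            simp [rr_f, h01, Ne.symm h01]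
          · simp [rr_f, c0, c1, Ne.symm c0, Ne.symm c1]
      clear_value τ
      refine ⟨σ * τ, Subgroup.mul_mem _ hσΩ hτΩ, fun i => ?_⟩
      rw [mat_mul_mulVec σ τ (e i), mat_mul_mulVec σ τ (f i), hτe, hτf]
      by_cases c : i = i₀ ∨ i = i₁
      · rw [if_pos c, if_pos c]
        have hi : 2 * s ≤ i.val ∧ i.val < 2 * (s + 1) := by
          rcases c with rfl | rfl
          · simp [hi₀]
          · simp [hi₁]; omega
        refine ⟨fun _ => ⟨((hσ i).2 hi.1).2, ((hσ i).2 hi.1).1⟩, fun hc => absurd hc (by omega)⟩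
      · rw [if_neg c, if_neg c]
        push Not at c
        have c0 : i.val ≠ 2 * s := fun hc => c.1 (Fin.ext hc)
        have c1 : i.val ≠ 2 * s + 1 := fun hc => c.2 (Fin.ext hc)
        exact ⟨fun hi => (hσ i).1 (by omega), fun hi => (hσ i).2 (by omega)⟩
  obtain ⟨s, hs⟩ := hk
  obtain ⟨σ, hσΩ, hσ'⟩ := claim s (by omega)
  have hσ : ∀ i, mat σ *ᵥ e i = f i ∧ mat σ *ᵥ f i = e i := fun i => (hσ' i).1 (by
    have := i.2
    omega)
  refine ⟨σ, hσΩ, ?_, ?_⟩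
  · intro x hx
    rw [← hspan] at hx
    induction hx using Submodule.span_induction with
    | mem x hx =>
      obtain ⟨i, rfl⟩ := hx
      rw [(hσ i).1]
      exact hfB i
    | zero => rw [mulVec_zero]; exact E'.zero_mem
    | add x y _ _ hx hy => rw [mulVec_add]; exact E'.add_mem hx hy
    | smul c x _ hx => rw [mulVec_smul]; exact E'.smul_mem c hx
  · intro x hx
    obtain ⟨z₀, hz₀, z₁, hz₁, hz⟩ := h.dec (mat σ *ᵥ x)
    have hz1 : z₁ = 0 := by
      apply hQ.1 z₁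
      intro y
      obtain ⟨y₀, hy₀, y₁, hy₁, rfl⟩ := h.dec y
      show polar ⇑Q z₁ (y₀ + y₁) = 0
      rw [polar_add_right, h.pol' z₁ y₁ hz₁ hy₁, add_zero]
      rw [← hspan] at hy₀
      induction hy₀ using Submodule.span_induction with
      | mem y hy =>
        obtain ⟨i, rfl⟩ := hy
        have h1 : polar ⇑Q (mat σ *ᵥ x) (e i) = 0 := by
          rw [← (hσ i).2, mat_polar]
          exact h.pol' x _ hx (hfB i)
        rwa [hz, polar_add_left, h.pol z₀ _ hz₀ (heE i), zero_add] at h1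
      | zero => simp
      | add x y _ _ hx hy => rw [polar_add_right, hx, hy, add_zero]
      | smul c x _ hx => rw [polar_smul_right, hx, smul_zero]
    rw [hz, hz1, add_zero]
    exact hz₀


omit hex hn [Fintype F] in
theorem no_collapse (h : Pol Q E E') (Y : Submodule F (ι → F))
    (hfin : Module.finrank F E = Module.finrank F Y) (hE' : E' ≠ ⊥)
    (g : ↥(Cfsg.isometryGroup F ⇑Q))
    (h0 : ∀ x ∈ E, mat g *ᵥ x ∈ Y) (h1 : ∀ x ∈ E', mat g *ᵥ x ∈ Y) : False := by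
  obtain ⟨x, hx, hx0⟩ := Submodule.exists_mem_ne_zero_of_ne_bot hE'
  have h2 := h1 x hx
  rw [← map_eq g E Y h0 hfin] at h2
  obtain ⟨x', hx', e⟩ := (mem_img g E _).mp h2
  have : x' = x := mulVec_injective g e
  rw [this] at hx'
  exact hx0 (h.disj hQ x hx' hx)

theorem close (hn5 : 5 ≤ Fintype.card ι) (h : Pol Q E E') (k : ℕ)
    (hA : Module.finrank F E = k) (hk5 : 5 ≤ k)
    (hk : Even k) (hP : ∀ a ∈ E, ∀ b ∈ E', polar ⇑Q a b = 0 → InH H a b)
    (hσ : ∀ σ : ↥(Cfsg.isometryGroup F ⇑Q), σ ∈ Cfsg.Omega F ⇑Q →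
      (∀ x ∈ E, mat σ *ᵥ x ∈ E') → (∀ x ∈ E', mat σ *ᵥ x ∈ E) → σ ∈ H)
    (p r : ι → F) (s : ↥(Cfsg.isometryGroup F ⇑Q)) (hsH : s ∈ H) (hs : IsEich Q s p r)
    (x : ι → F) (hx : x ∈ E') (hsx : mat s *ᵥ x ∉ E') : Cfsg.Omega F ⇑Q ≤ H := by
  obtain ⟨a, ha, ha0, haY⟩ := step_a hQ hex hn h (by omega) hP p r s hsH hs x hx hsx
  have hE := step_all hQ hex hn h hP a ha ha0 haY
  obtain ⟨σ, hσΩ, hσ1, hσ2⟩ := exists_swap hQ hex hn h k hA hk
  have hσH := hσ σ hσΩ hσ1 hσ2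
  have hE' : ∀ z ∈ E', z ∈ YY Q H := by
    intro z hz
    have h1 := YY_img (H.inv_mem hσH) (hE _ (hσ2 z hz))
    rwa [mat_inv_mulVec] at h1
  obtain ⟨b, hb, _, hbu⟩ := h.dual hQ ⊥ bot_le a ha (by simpa using ha0)
  exact omega_le_of_YY hQ hn5 (hE' b hb) haY hbu

theorem pair_max (k : ℕ) (hk5 : 5 ≤ k) (hk : Even k) (D : Fin 2 → Submodule F (ι → F))
    (hfin : ∀ i, Module.finrank F (D i) = k) (h : Pol Q (D 0) (D 1)) :
    Cfsg.Geo.IsMaximalIn (Cfsg.Geo.omegaGL ⇑Q)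
      (Cfsg.Geo.decompositionStabilizer D ⊓ Cfsg.Geo.omegaGL ⇑Q) := by
  have hn5 : 5 ≤ Fintype.card ι := by
    have := ts_finrank_le hQ (D 0) h.ts
    rw [hfin] at this
    omega
  have hfin01 : Module.finrank F (D 0) = Module.finrank F (D 1) := by rw [hfin, hfin]
  have hne : ∀ i, D i ≠ ⊥ := by
    intro i hi
    have := hfin i
    rw [hi, finrank_bot] at this
    omega
  apply max_of
  · obtain ⟨a, ha, ha0⟩ := Submodule.exists_mem_ne_zero_of_ne_bot (hne 0)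
    obtain ⟨a₂, ha₂, _, _, _, ha₂a⟩ := exists_in Q (D 0) a a a a (by rw [hfin]; omega)
    obtain ⟨b, hb, hbS, hbu⟩ := h.dual hQ (Submodule.span F {a})
      (by rw [Submodule.span_singleton_le_iff_mem]; exact ha) a₂ ha₂ ha₂a
    have hab := hbS a (Submodule.mem_span_singleton_self a)
    obtain ⟨g, hgΩ, hg⟩ := exists_eich Q hQ hex hn a a₂ (h.ts a ha) (h.pol a a₂ ha ha₂)
    refine ⟨g, hgΩ, fun hc => ?_⟩
    rcases cases_of_mem D _ hc with ⟨_, h1⟩ | ⟨h0, _⟩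
    · have h3 := h1 b hb
      rw [hg b] at h3
      unfold eform at h3
      rw [hab, polar_comm ⇑Q a₂ b] at h3
      simp only [zero_smul, mul_zero, sub_zero] at h3
      have h4 := (D 1).sub_mem h3 hb
      rw [add_sub_cancel_left] at h4
      have h5 := (D 1).smul_mem (polar ⇑Q b a₂)⁻¹ h4
      rw [smul_smul, inv_mul_cancel₀ hbu, one_smul] at h5
      exact ha0 (h.disj hQ a ha h5)
    · have h3 := h0 a ha
      rw [hg a, eform_self Q a a₂ (h.ts a ha) (h.pol a a₂ ha ha₂)] at h3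
      exact ha0 (h.disj hQ a ha h3)
  · rintro H hPH ⟨g, hgH, _, hgD⟩
    have hP01 : ∀ a ∈ D 0, ∀ b ∈ D 1, polar ⇑Q a b = 0 → InH H a b := by
      intro a ha b hb hab
      refine ⟨hab, fun t ht => ?_⟩
      obtain ⟨t', ht'Ω, ht'⟩ := exists_eich Q hQ hex hn a b (h.ts a ha) hab
      rw [ht.ext ht']
      exact hPH _ ht'Ω (mem_decomp_of D hfin01 _ (Or.inl (eich_stab h a b ha hb t' ht')))
    have hP10 : ∀ a ∈ D 1, ∀ b ∈ D 0, polar ⇑Q a b = 0 → InH H a b := by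
      intro a ha b hb hab
      refine ⟨hab, fun t ht => ?_⟩
      obtain ⟨t', ht'Ω, ht'⟩ := exists_eich Q hQ hex hn a b (h.ts' a ha) hab
      rw [ht.ext ht']
      exact hPH _ ht'Ω (mem_decomp_of D hfin01 _
        (Or.inl (eich_stab h.symm a b ha hb t' ht').symm))
    have hmul_inv : ∀ x, mat g *ᵥ (mat g⁻¹ *ᵥ x) = x := by
      intro x
      have := mat_inv_mulVec g⁻¹ x
      rwa [inv_inv] at this
    have hmix : ∃ y₀ ∈ D 0, ∃ y₁ ∈ D 1, y₀ ≠ 0 ∧ y₁ ≠ 0 ∧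
        (mat g *ᵥ (y₀ + y₁) ∈ D 0 ∨ mat g *ᵥ (y₀ + y₁) ∈ D 1) := by
      by_contra hcon
      push Not at hcon
      apply hgD
      have hpure : ∀ x, (x ∈ D 0 ∨ x ∈ D 1) → mat g⁻¹ *ᵥ x ∈ D 0 ∨ mat g⁻¹ *ᵥ x ∈ D 1 := by
        intro x hx
        obtain ⟨y₀, hy₀, y₁, hy₁, e⟩ := h.dec (mat g⁻¹ *ᵥ x)
        by_cases c0 : y₀ = 0
        · right; rw [e, c0, zero_add]; exact hy₁
        by_cases c1 : y₁ = 0
        · left; rw [e, c1, add_zero]; exact hy₀
        exfalso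
        have := hcon y₀ hy₀ y₁ hy₁ c0 c1
        rw [← e, hmul_inv] at this
        tauto
      have hi : ∀ X, (X = D 0 ∨ X = D 1) →
          (∀ x ∈ X, mat g⁻¹ *ᵥ x ∈ D 0) ∨ (∀ x ∈ X, mat g⁻¹ *ᵥ x ∈ D 1) := by
        intro X hX
        by_cases c : ∀ x ∈ X, mat g⁻¹ *ᵥ x ∈ D 0
        · left; exact c
        · right
          push Not at c
          obtain ⟨x₀, hx₀, hx₀'⟩ := c
          refine all_in (D 0) (D 1) X g⁻¹ (fun x hx => hpure x ?_) x₀ hx₀ hx₀'
          rcases hX with rfl | rfl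
          · left; exact hx
          · right; exact hx
      have hinv : ((g⁻¹ : ↥(Cfsg.isometryGroup F ⇑Q)) : Matrix.GeneralLinearGroup ι F) ∈
          Cfsg.Geo.decompositionStabilizer D := by
        apply mem_decomp_of D hfin01
        rcases hi (D 0) (Or.inl rfl) with h0 | h0 <;> rcases hi (D 1) (Or.inr rfl) with h1 | h1
        · exact (no_collapse hQ h (D 0) rfl (hne 1) g⁻¹ h0 h1).elim
        · left; exact ⟨h0, h1⟩
        · right; exact ⟨h0, h1⟩
        · exact (no_collapse hQ h (D 1) hfin01 (hne 1) g⁻¹ h0 h1).elim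
      rw [Subgroup.coe_inv] at hinv
      exact (Subgroup.inv_mem_iff _).mp hinv
    obtain ⟨y₀, hy₀, y₁, hy₁, hy₀0, hy₁0, hx⟩ := hmix
    obtain ⟨a₁, ha₁, h1, _, _, ha₁y⟩ := exists_in Q (D 0) y₁ y₁ y₁ y₀ (by rw [hfin]; omega)
    obtain ⟨b₂, hb₂, hb₂S, hb₂a⟩ := h.dual hQ (Submodule.span F {y₀})
      (by rw [Submodule.span_singleton_le_iff_mem]; exact hy₀) a₁ ha₁ ha₁y
    have hy₀b := hb₂S y₀ (Submodule.mem_span_singleton_self y₀)
    have hn1 : y₀ ∉ Submodule.span F {a₁} := by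
      intro hc
      obtain ⟨c, hc⟩ := Submodule.mem_span_singleton.mp hc
      have hc0 : c ≠ 0 := by
        rintro rfl
        rw [zero_smul] at hc
        exact hy₀0 hc.symm
      apply ha₁y
      rw [Submodule.mem_span_singleton]
      refine ⟨c⁻¹, ?_⟩
      rw [← hc, smul_smul, inv_mul_cancel₀ hc0, one_smul]
    have hn2 : y₁ ∉ Submodule.span F {b₂} := by
      intro hc
      obtain ⟨c, hc⟩ := Submodule.mem_span_singleton.mp hc
      rw [← hc, polar_smul_right, polar_comm, smul_eq_mul] at h1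
      have hc0 : c = 0 := by
        rcases mul_eq_zero.mp h1 with h | h
        · exact h
        · exact absurd h hb₂a
      rw [hc0, zero_smul] at hc
      exact hy₁0 hc.symm
    have key : ∀ B : Submodule F (ι → F), (∀ u ∈ B, Q u = 0) →
        mat g *ᵥ (y₀ + y₁) ∈ B →
        ∃ (p r : ι → F) (s : ↥(Cfsg.isometryGroup F ⇑Q)), s ∈ H ∧ IsEich Q s p r ∧
          mat s *ᵥ (mat g *ᵥ (y₀ + y₁)) ∉ B := by
      intro B hB hgy
      by_cases c : mat g *ᵥ a₁ ∈ B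
      · have c' : mat g *ᵥ b₂ ∉ B := by
          intro c'
          apply hb₂a
          rw [← mat_polar g]
          exact polar_of_ts Q B hB _ _ c' c
        obtain ⟨a₂, ha₂, hab, cc, hcc, e⟩ := h.symm.push hQ y₁ y₀ b₂ hy₁ hy₀ hb₂
          (by rw [polar_comm, hy₀b]) hn2
        obtain ⟨t, _, ht⟩ := exists_eich Q hQ hex hn b₂ a₂ (h.ts' b₂ hb₂) hab
        refine ⟨mat g *ᵥ b₂, mat g *ᵥ a₂, g * t * g⁻¹,
          H.mul_mem (H.mul_mem hgH ((hP10 b₂ hb₂ a₂ ha₂ hab).2 t ht)) (H.inv_mem hgH),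
          ht.conj g, ?_⟩
        intro hcon
        rw [mat_mul_mulVec, mat_mul_mulVec, mat_inv_mulVec, ht, add_comm y₀ y₁, e,
          mulVec_add, mulVec_smul, add_comm y₁ y₀] at hcon
        have h4 := B.sub_mem hcon hgy
        rw [add_sub_cancel_left] at h4
        have h5 := B.smul_mem cc⁻¹ h4
        rw [smul_smul, inv_mul_cancel₀ hcc, one_smul] at h5
        exact c' h5
      · obtain ⟨b₁, hb₁, hab, cc, hcc, e⟩ := h.push hQ y₀ y₁ a₁ hy₀ hy₁ ha₁ h1 hn1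
        obtain ⟨t, _, ht⟩ := exists_eich Q hQ hex hn a₁ b₁ (h.ts a₁ ha₁) hab
        refine ⟨mat g *ᵥ a₁, mat g *ᵥ b₁, g * t * g⁻¹,
          H.mul_mem (H.mul_mem hgH ((hP01 a₁ ha₁ b₁ hb₁ hab).2 t ht)) (H.inv_mem hgH),
          ht.conj g, ?_⟩
        intro hcon
        rw [mat_mul_mulVec, mat_mul_mulVec, mat_inv_mulVec, ht, e,
          mulVec_add, mulVec_smul] at hcon
        have h4 := B.sub_mem hcon hgy
        rw [add_sub_cancel_left] at h4
        have h5 := B.smul_mem cc⁻¹ h4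
        rw [smul_smul, inv_mul_cancel₀ hcc, one_smul] at h5
        exact c h5
    rcases hx with hx | hx
    · obtain ⟨p, r, s, hsH, hs, hns⟩ := key (D 0) h.ts hx
      exact close hQ hex hn hn5 h.symm k (hfin 1) hk5 hk hP10
        (fun σ hσΩ h1 h0 => hPH _ hσΩ (mem_decomp_of D hfin01 _ (Or.inr ⟨h0, h1⟩)))
        p r s hsH hs _ hx hns
    · obtain ⟨p, r, s, hsH, hs, hns⟩ := key (D 1) h.ts' hx
      exact close hQ hex hn hn5 h k (hfin 0) hk5 hk hP01
        (fun σ hσΩ h0 h1 => hPH _ hσΩ (mem_decomp_of D hfin01 _ (Or.inr ⟨h0, h1⟩)))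
        p r s hsH hs _ hx hns

end fin

end Cfsg.Agent.Lib.Helper5.OrthPair
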