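import Mathlib
import Cfsg.Prelude.Def_GeometricClasses
import Cfsg.Agent.Lib.Helper5.OrthPair

set_option autoImplicit false
set_option linter.unusedSectionVars false

namespace Cfsg.Agent.Lib.Helper5.OrthNdStab

open Matrix Cfsg.Agent.Lib.Helper5.OrthCard Cfsg.Agent.Lib.Helper5.Orth
  Cfsg.Agent.Lib.Helper5.OrthGen QuadraticMap Cfsg.Agent.Lib.Helper5.OrthRefl
  Cfsg.Agent.Lib.Helper5.OrthTrans Cfsg.Agent.Lib.Helper5.Dickson
  Cfsg.Agent.Lib.Helper5.OrthCenter Cfsg.Agent.Lib.Helper5.OrthThree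
  Cfsg.Agent.Lib.Helper5.OrthEich Cfsg.Agent.Lib.Helper5.OrthEich2
  Cfsg.Agent.Lib.Helper5.OrthClass Cfsg.Agent.Lib.Helper5.OrthFam2
  Cfsg.Agent.Lib.Helper5.OrthGeo Cfsg.Agent.Lib.Helper5.OrthMax
  Cfsg.Agent.Lib.Helper5.OrthPair

variable {F : Type*} [Field F] {ι : Type} [Fintype ι] [DecidableEq ι]
variable (Q : QuadraticForm F (ι → F))

/-- an orthogonal splitting of the space -/
structure Spl (W U : Submodule F (ι → F)) : Prop where
  orth : ∀ w ∈ W, ∀ u ∈ U, polar ⇑Q w u = 0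
  dec : ∀ v, ∃ w ∈ W, ∃ u ∈ U, v = w + u

variable {Q}
variable {W U : Submodule F (ι → F)}

theorem Spl.symm (h : Spl Q W U) : Spl Q U W :=
  ⟨fun u hu w hw => by rw [polar_comm]; exact h.orth w hw u hu, fun v => by
    obtain ⟨a, ha, b, hb, rfl⟩ := h.dec v
    exact ⟨b, hb, a, ha, add_comm _ _⟩⟩

section nd

variable (hQ : (QuadraticMap.polarBilin Q).Nondegenerate)
include hQ

theorem Spl.nd (h : Spl Q W U) (w : ι → F) (hw : w ∈ W) (hw0 : w ≠ 0) :
    ∃ x ∈ W, polar ⇑Q w x ≠ 0 := by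
  obtain ⟨y, hy⟩ := exists_polar_ne Q hQ w hw0
  obtain ⟨a, ha, b, hb, rfl⟩ := h.dec y
  rw [polar_add_right, h.orth w hw b hb, add_zero] at hy
  exact ⟨a, ha, hy⟩

theorem Spl.disj (h : Spl Q W U) (x : ι → F) (hx : x ∈ W) (hx' : x ∈ U) : x = 0 := by
  by_contra h0
  obtain ⟨y, hy, hne⟩ := h.nd hQ x hx h0
  apply hne
  rw [polar_comm]
  exact h.orth y hy x hx'

theorem Spl.orth_ne (h : Spl Q W U) (S₀ : Submodule F (ι → F)) (hS₀ : S₀ ≤ W) (v : ι → F)
    (hv : v ∈ W) (hvS : v ∉ S₀) :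
    ∃ a ∈ W, (∀ s ∈ S₀, polar ⇑Q s a = 0) ∧ polar ⇑Q a v ≠ 0 := by
  obtain ⟨y, hy, hyv⟩ := OrthEich.exists_orth_ne Q hQ S₀ v hvS
  obtain ⟨a, ha, b, hb, rfl⟩ := h.dec y
  refine ⟨a, ha, ?_, ?_⟩
  · intro s hs
    have := hy s hs
    rwa [polar_add_right, h.orth s (hS₀ hs) b hb, add_zero] at this
  · rwa [polar_add_left, polar_comm ⇑Q b v, h.orth v hv b hb, add_zero] at hyv

/-- the nonsingular vectors are not contained in a proper subspace -/
theorem nonsing_off [Fintype F] (h : Spl Q W U)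
    (hexc : ¬ (Fintype.card F ≤ 3 ∧ Module.finrank F W = 2 ∧ ∃ z ∈ W, z ≠ 0 ∧ Q z = 0))
    (X : Submodule F (ι → F)) (hX : X < W) : ∃ n ∈ W, Q n ≠ 0 ∧ n ∉ X := by
  classical
  by_contra hcon
  push Not at hcon
  have hsing : ∀ v ∈ W, v ∉ X → Q v = 0 := by
    intro v hv hvX
    by_contra hne
    exact hvX (hcon v hv hne)
  obtain ⟨y, hyW, hyX⟩ := SetLike.exists_of_lt hX
  have hQy := hsing y hyW hyX
  have hy0 : y ≠ 0 := by
    rintro rfl
    exact hyX X.zero_mem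
  obtain ⟨v₀, hv₀, hyv₀⟩ := h.nd hQ y hyW hy0
  by_cases hc : ∃ y' ∈ W, y' ∉ X ⊔ Submodule.span F {y}
  · obtain ⟨y', hy'W, hy'⟩ := hc
    have key : ∀ z ∈ W, z ∉ X ⊔ Submodule.span F {y} → polar ⇑Q y z = 0 := by
      intro z hz hzn
      have h1 : z ∉ X := fun hc => hzn (Submodule.mem_sup_left hc)
      have h2 : y + z ∉ X := by
        intro hc
        apply hzn
        have : z = (y + z) + (-y) := by abel
        rw [this]
        exact Submodule.add_mem_sup hc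
          (Submodule.neg_mem _ (Submodule.mem_span_singleton_self y))
      unfold polar
      rw [hsing _ (W.add_mem hyW hz) h2, hQy, hsing z hz h1]
      ring
    apply hyv₀
    by_cases hv : v₀ ∈ X ⊔ Submodule.span F {y}
    · have h3 : v₀ + y' ∉ X ⊔ Submodule.span F {y} := by
        intro hc
        apply hy'
        have := Submodule.sub_mem _ hc hv
        rwa [add_sub_cancel_left] at this
      have h4 := key _ (W.add_mem hv₀ hy'W) h3
      rw [polar_add_right, key y' hy'W hy', add_zero] at h4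
      exact h4
    · exact key v₀ hv₀ hv
  · push Not at hc
    have claimA : ∀ x ∈ X, ∀ l : F, l ≠ 0 → Q x = - (l * polar ⇑Q y x) := by
      intro x hx l hl
      have h1 : l • y + x ∉ X := by
        intro hc
        apply hyX
        have h2 := X.sub_mem hc hx
        rw [add_sub_cancel_right] at h2
        have h3 := X.smul_mem l⁻¹ h2
        rwa [smul_smul, inv_mul_cancel₀ hl, one_smul] at h3
      have h2 := hsing _ (W.add_mem (W.smul_mem l hyW) (hX.le hx)) h1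
      rw [QuadraticMap.map_add Q, QuadraticMap.map_smul, hQy, polar_smul_left, smul_eq_mul,
        smul_eq_mul] at h2
      linear_combination h2
    have hdecW : ∀ v ∈ W, ∃ x ∈ X, ∃ c : F, v = x + c • y := by
      intro v hv
      obtain ⟨x, hx, z, hz, e⟩ := Submodule.mem_sup.mp (hc v hv)
      obtain ⟨c, rfl⟩ := Submodule.mem_span_singleton.mp hz
      exact ⟨x, hx, c, e.symm⟩
    have hyy : polar ⇑Q y y = 0 := by rw [polar_self', hQy, mul_zero]
    by_cases hq : ∃ l : F, l ≠ 0 ∧ l ≠ 1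
    · obtain ⟨l, hl0, hl1⟩ := hq
      apply hyv₀
      obtain ⟨x, hx, c, rfl⟩ := hdecW v₀ hv₀
      have e1 := claimA x hx l hl0
      have e2 := claimA x hx 1 one_ne_zero
      have e3 : (l - 1) * polar ⇑Q y x = 0 := by linear_combination e1 - e2
      have e4 : polar ⇑Q y x = 0 := by
        rcases mul_eq_zero.mp e3 with h' | h'
        · exact absurd (sub_eq_zero.mp h') hl1
        · exact h'
      rw [polar_add_right, e4, polar_smul_right, hyy, smul_zero, add_zero]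
    · push Not at hq
      have hcard : Fintype.card F ≤ 3 := by
        have h1 : (Finset.univ : Finset F) = {0, 1} := by
          ext c
          simp only [Finset.mem_univ, Finset.mem_insert, Finset.mem_singleton, true_iff]
          by_cases hc : c = 0
          · left; exact hc
          · right; exact hq c hc
        rw [← Finset.card_univ, h1, Finset.card_pair zero_ne_one]
        omega
      have hQX : ∀ x ∈ X, Q x = - polar ⇑Q y x := by
        intro x hx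
        have := claimA x hx 1 one_ne_zero
        rwa [one_mul] at this
      have hXX : ∀ x ∈ X, ∀ x' ∈ X, polar ⇑Q x x' = 0 := by
        intro x hx x' hx'
        unfold polar
        rw [hQX _ (X.add_mem hx hx'), hQX x hx, hQX x' hx', polar_add_right]
        ring
      have hX0 : ∀ x ∈ X, Q x = 0 → x = 0 := by
        intro x hx hQx
        by_contra hx0
        obtain ⟨v, hv, hne⟩ := h.nd hQ x (hX.le hx) hx0
        apply hne
        obtain ⟨x', hx', c, rfl⟩ := hdecW v hv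
        have : polar ⇑Q y x = 0 := by
          have := hQX x hx
          rw [hQx] at this
          linear_combination this
        rw [polar_add_right, hXX x hx x' hx', polar_smul_right, polar_comm ⇑Q x y, this]
        simp
      obtain ⟨n, hn, c₀, rfl⟩ := hdecW v₀ hv₀
      rw [polar_add_right, polar_smul_right, hyy, smul_zero, add_zero] at hyv₀
      have hn0 : n ≠ 0 := by
        rintro rfl
        simp at hyv₀
      have hXn : ∀ x ∈ X, x = 0 ∨ x = n := by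
        intro x hx
        by_cases hx0 : x = 0
        · left; exact hx0
        right
        have h1 : Q x = 1 := hq _ (fun hc => hx0 (hX0 x hx hc))
        have h2 : Q n = 1 := hq _ (fun hc => hn0 (hX0 n hn hc))
        have h3 : Q (x - n) = 0 := by
          rw [hQX _ (X.sub_mem hx hn), polar_sub_right]
          have e1 := hQX x hx
          have e2 := hQX n hn
          rw [h1] at e1
          rw [h2] at e2
          linear_combination e2 - e1
        exact sub_eq_zero.mp (hX0 _ (X.sub_mem hx hn) h3)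
      apply hexc
      refine ⟨hcard, ?_, y, hyW, hy0, hQy⟩
      have hle : W ≤ Submodule.span F {n, y} := by
        intro v hv
        obtain ⟨x, hx, c, rfl⟩ := hdecW v hv
        rw [Submodule.mem_span_pair]
        rcases hXn x hx with rfl | rfl
        · exact ⟨0, c, by simp⟩
        · exact ⟨1, c, by simp⟩
      have h1 := (Submodule.finrank_mono hle).trans (finrank_span_two n y)
      have hlt : Submodule.span F {y} < W := by
        refine lt_of_le_of_ne ?_ ?_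
        · rw [Submodule.span_singleton_le_iff_mem]; exact hyW
        · intro he
          have hnW : n ∈ Submodule.span F {y} := by rw [he]; exact hX.le hn
          obtain ⟨c, hc⟩ := Submodule.mem_span_singleton.mp hnW
          have hc0 : c ≠ 0 := by
            rintro rfl
            rw [zero_smul] at hc
            exact hn0 hc.symm
          apply hyX
          have := X.smul_mem c⁻¹ hn
          rwa [← hc, smul_smul, inv_mul_cancel₀ hc0, one_smul] at this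
      have h2 := Submodule.finrank_lt_finrank_of_lt hlt
      rw [finrank_span_singleton hy0] at h2
      omega


/-- irreducibility of the orthogonal group of `W` on `W` -/
theorem irr [Fintype F] (h : Spl Q W U) (S : Submodule F (ι → F)) (hSW : S ≤ W) (hS0 : S ≠ ⊥)
    (hrefl : ∀ t ∈ W, Q t ≠ 0 → ∀ s ∈ S, s - ((Q t)⁻¹ * polar ⇑Q t s) • t ∈ S)
    (heich : ∀ e ∈ W, ∀ a ∈ W, Q e = 0 → polar ⇑Q e a = 0 → ∀ s ∈ S, eform Q e a s ∈ S)
    (hexc : ¬ (Fintype.card F ≤ 3 ∧ Module.finrank F W = 2 ∧ ∃ z ∈ W, z ≠ 0 ∧ Q z = 0)) :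
    S = W := by
  classical
  by_contra hne
  have hlt : S < W := lt_of_le_of_ne hSW hne
  have dich : ∀ t ∈ W, Q t ≠ 0 → t ∈ S ∨ ∀ s ∈ S, polar ⇑Q t s = 0 := by
    intro t ht hQt
    by_cases hc : ∀ s ∈ S, polar ⇑Q t s = 0
    · right; exact hc
    · left
      push Not at hc
      obtain ⟨s, hs, hts⟩ := hc
      have h1 := S.sub_mem hs (hrefl t ht hQt s hs)
      rw [sub_sub_cancel] at h1
      have hc0 : (Q t)⁻¹ * polar ⇑Q t s ≠ 0 := mul_ne_zero (inv_ne_zero hQt) hts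
      have h2 := S.smul_mem ((Q t)⁻¹ * polar ⇑Q t s)⁻¹ h1
      rwa [smul_smul, inv_mul_cancel₀ hc0, one_smul] at h2
  set S' : Submodule F (ι → F) :=
    W ⊓ LinearMap.BilinForm.orthogonal (QuadraticMap.polarBilin Q) S with hS'
  have memS' : ∀ w, w ∈ S' ↔ w ∈ W ∧ ∀ s ∈ S, polar ⇑Q w s = 0 := by
    intro w
    rw [hS', Submodule.mem_inf, LinearMap.BilinForm.mem_orthogonal_iff]
    constructor
    · rintro ⟨h1, h2⟩
      exact ⟨h1, fun s hs => by rw [polar_comm]; exact h2 s hs⟩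
    · rintro ⟨h1, h2⟩
      exact ⟨h1, fun s hs => by
        show polar ⇑Q s w = 0
        rw [polar_comm]; exact h2 s hs⟩
  have hS'lt : S' < W := by
    refine lt_of_le_of_ne inf_le_left ?_
    intro he
    obtain ⟨s, hs, hs0⟩ := Submodule.exists_mem_ne_zero_of_ne_bot hS0
    obtain ⟨x, hx, hsx⟩ := h.nd hQ s (hSW hs) hs0
    rw [← he] at hx
    apply hsx
    rw [polar_comm]
    exact ((memS' x).mp hx).2 s hs
  obtain ⟨w₁, hw₁W, hQ1, hw₁S'⟩ := nonsing_off hQ h hexc S' hS'lt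
  obtain ⟨w₂, hw₂W, hQ2, hw₂S⟩ := nonsing_off hQ h hexc S hlt
  have hw₁ne : ∃ s ∈ S, polar ⇑Q w₁ s ≠ 0 := by
    by_contra hc
    push Not at hc
    exact hw₁S' ((memS' w₁).mpr ⟨hw₁W, hc⟩)
  have hw₁S : w₁ ∈ S := by
    rcases dich w₁ hw₁W hQ1 with h1 | h1
    · exact h1
    · obtain ⟨s, hs, hne'⟩ := hw₁ne
      exact absurd (h1 s hs) hne'
  have hw₂p : ∀ s ∈ S, polar ⇑Q w₂ s = 0 := (dich w₂ hw₂W hQ2).resolve_left hw₂S
  have star : ∀ u₁ ∈ S, ∀ u₂ ∈ W, (∀ s ∈ S, polar ⇑Q u₂ s = 0) → (∃ s ∈ S, polar ⇑Q u₁ s ≠ 0) →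
      u₂ ∉ S → Q u₁ + Q u₂ = 0 := by
    rintro u₁ hu₁ u₂ hu₂ hperp ⟨s, hs, hne'⟩ hu₂S
    by_contra hc
    have hQsum : Q (u₁ + u₂) = Q u₁ + Q u₂ := by
      rw [QuadraticMap.map_add Q, polar_comm, hperp u₁ hu₁, add_zero]
    rcases dich (u₁ + u₂) (W.add_mem (hSW hu₁) hu₂) (by rw [hQsum]; exact hc) with h1 | h1
    · apply hu₂S
      have := S.sub_mem h1 hu₁
      rwa [add_sub_cancel_left] at this
    · have := h1 s hs
      rw [polar_add_left, hperp s hs, add_zero] at this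
      exact hne' this
  have e1 := star w₁ hw₁S w₂ hw₂W hw₂p hw₁ne hw₂S
  by_cases hl : ∃ l : F, l ≠ 0 ∧ l * l ≠ 1
  · obtain ⟨l, hl0, hl1⟩ := hl
    have e2 := star w₁ hw₁S (l • w₂) (W.smul_mem l hw₂W)
      (fun s hs => by rw [polar_smul_left, hw₂p s hs, smul_zero]) hw₁ne (by
        intro hc
        apply hw₂S
        have := S.smul_mem l⁻¹ hc
        rwa [smul_smul, inv_mul_cancel₀ hl0, one_smul] at this)
    rw [QuadraticMap.map_smul, smul_eq_mul] at e2
    have e3 : (l * l - 1) * Q w₂ = 0 := by linear_combination e2 - e1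
    rcases mul_eq_zero.mp e3 with h' | h'
    · exact hl1 (sub_eq_zero.mp h')
    · exact hQ2 h'
  · push Not at hl
    have hcard : Fintype.card F ≤ 3 := by
      have h1 : (Finset.univ : Finset F) ⊆ {0, 1, -1} := by
        intro c _
        simp only [Finset.mem_insert, Finset.mem_singleton]
        by_cases hc : c = 0
        · left; exact hc
        · right
          have h2 : (c - 1) * (c + 1) = 0 := by linear_combination hl c hc
          rcases mul_eq_zero.mp h2 with h3 | h3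
          · left; exact sub_eq_zero.mp h3
          · right; exact eq_neg_of_add_eq_zero_left h3
      rw [← Finset.card_univ]
      exact (Finset.card_le_card h1).trans Finset.card_le_three
    have h12 : polar ⇑Q w₁ w₂ = 0 := by rw [polar_comm]; exact hw₂p w₁ hw₁S
    set e := w₁ + w₂ with he
    have heW : e ∈ W := W.add_mem hw₁W hw₂W
    have hQe : Q e = 0 := by rw [he, QuadraticMap.map_add Q, h12, add_zero, e1]
    have heS : e ∉ S := by
      intro hc
      apply hw₂S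
      have := S.sub_mem hc hw₁S
      rwa [he, add_sub_cancel_left] at this
    have he0 : e ≠ 0 := by
      intro hc
      rw [hc] at heS
      exact heS S.zero_mem
    have hfr : Module.finrank F W ≠ 2 := fun h2 => hexc ⟨hcard, h2, e, heW, he0, hQe⟩
    by_cases h2 : (2 : F) = 0
    · have hw₁e : w₁ ∉ Submodule.span F {e} := by
        intro hc
        obtain ⟨c, hc⟩ := Submodule.mem_span_singleton.mp hc
        have hc0 : c ≠ 0 := by
          rintro rfl
          rw [zero_smul] at hc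
          rw [← hc] at hQ1
          simp at hQ1
        apply heS
        have := S.smul_mem c⁻¹ hw₁S
        rwa [← hc, smul_smul, inv_mul_cancel₀ hc0, one_smul] at this
      obtain ⟨a, haW, haS, haw⟩ := h.orth_ne hQ (Submodule.span F {e})
        (by rw [Submodule.span_singleton_le_iff_mem]; exact heW) w₁ hw₁W hw₁e
      have hea := haS e (Submodule.mem_span_singleton_self e)
      have h3 := heich e heW a haW hQe hea w₁ hw₁S
      have hew : polar ⇑Q e w₁ = 0 := by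
        rw [he, polar_add_left, polar_self', h2, zero_mul, polar_comm, h12, add_zero]
      unfold eform at h3
      rw [hew] at h3
      simp only [zero_smul, mul_zero, sub_zero] at h3
      have h4 := S.sub_mem h3 hw₁S
      rw [add_sub_cancel_left] at h4
      have h5 := S.smul_mem (polar ⇑Q a w₁)⁻¹ h4
      rw [smul_smul, inv_mul_cancel₀ haw, one_smul] at h5
      exact heS h5
    · -- a third vector
      have hB1 : polar ⇑Q w₁ w₁ ≠ 0 := by rw [polar_self']; exact mul_ne_zero h2 hQ1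
      have hB2 : polar ⇑Q w₂ w₂ ≠ 0 := by rw [polar_self']; exact mul_ne_zero h2 hQ2
      have hproj : ∀ v ∈ W, ∃ z ∈ W, polar ⇑Q w₁ z = 0 ∧ polar ⇑Q w₂ z = 0 ∧
          ∃ α β : F, v = z + α • w₁ + β • w₂ := by
        intro v hv
        refine ⟨v - (polar ⇑Q w₁ v / polar ⇑Q w₁ w₁) • w₁ - (polar ⇑Q w₂ v / polar ⇑Q w₂ w₂) • w₂,
          W.sub_mem (W.sub_mem hv (W.smul_mem _ hw₁W)) (W.smul_mem _ hw₂W), ?_, ?_,
          polar ⇑Q w₁ v / polar ⇑Q w₁ w₁, polar ⇑Q w₂ v / polar ⇑Q w₂ w₂, by abel⟩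
        · rw [polar_sub_right, polar_sub_right, polar_smul_right, polar_smul_right, h12,
            smul_eq_mul, smul_eq_mul, div_mul_cancel₀ _ hB1]
          ring
        · rw [polar_sub_right, polar_sub_right, polar_smul_right, polar_smul_right,
            polar_comm ⇑Q w₂ w₁, h12, smul_eq_mul, smul_eq_mul, div_mul_cancel₀ _ hB2]
          ring
      have hnle : ¬ (W ≤ Submodule.span F {w₁, w₂}) := by
        intro hle
        have h3 := (Submodule.finrank_mono hle).trans (finrank_span_two w₁ w₂)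
        have hlt' : Submodule.span F {w₁} < W := by
          refine lt_of_le_of_ne ?_ ?_
          · rw [Submodule.span_singleton_le_iff_mem]; exact hw₁W
          · intro he'
            have : w₂ ∈ Submodule.span F {w₁} := by rw [he']; exact hw₂W
            obtain ⟨c, hc⟩ := Submodule.mem_span_singleton.mp this
            apply hw₂S
            rw [← hc]
            exact S.smul_mem c hw₁S
        have h4 := Submodule.finrank_lt_finrank_of_lt hlt'
        have hw₁0 : w₁ ≠ 0 := by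
          rintro rfl
          simp at hQ1
        rw [finrank_span_singleton hw₁0] at h4
        omega
      obtain ⟨v, hvW, hvn⟩ := SetLike.not_le_iff_exists.mp hnle
      obtain ⟨z₀, hz₀W, hz₀1, hz₀2, α, β, hvz⟩ := hproj v hvW
      have hz₀0 : z₀ ≠ 0 := by
        rintro rfl
        apply hvn
        rw [hvz, Submodule.mem_span_pair]
        exact ⟨α, β, by simp⟩
      have hw₃ : ∃ w₃ ∈ W, Q w₃ ≠ 0 ∧ polar ⇑Q w₁ w₃ = 0 ∧ polar ⇑Q w₂ w₃ = 0 := by
        by_contra hc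
        push Not at hc
        have hsg : ∀ z ∈ W, polar ⇑Q w₁ z = 0 → polar ⇑Q w₂ z = 0 → Q z = 0 := by
          intro z hz h1 h2'
          by_contra hne'
          exact hc z hz hne' h1 h2'
        obtain ⟨x, hx, hne'⟩ := h.nd hQ z₀ hz₀W hz₀0
        apply hne'
        obtain ⟨z, hzW, hz1, hz2, α', β', rfl⟩ := hproj x hx
        rw [polar_add_right, polar_add_right, polar_smul_right, polar_smul_right,
          polar_comm ⇑Q z₀ w₁, polar_comm ⇑Q z₀ w₂, hz₀1, hz₀2, smul_zero, smul_zero, add_zero,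
          add_zero]
        unfold polar
        rw [hsg _ (W.add_mem hz₀W hzW) (by rw [polar_add_right, hz₀1, hz1, add_zero])
          (by rw [polar_add_right, hz₀2, hz2, add_zero]), hsg z₀ hz₀W hz₀1 hz₀2, hsg z hzW hz1 hz2]
        ring
      obtain ⟨w₃, hw₃W, hQ3, h13, h23⟩ := hw₃
      have hB3 : polar ⇑Q w₃ w₃ ≠ 0 := by rw [polar_self']; exact mul_ne_zero h2 hQ3
      rcases dich w₃ hw₃W hQ3 with h3 | h3
      · have e3 := star w₃ h3 w₂ hw₂W hw₂p ⟨w₃, h3, hB3⟩ hw₂S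
        have hQs : Q (w₁ + w₃) = Q w₁ + Q w₃ := by rw [QuadraticMap.map_add Q, h13, add_zero]
        have hQs0 : Q (w₁ + w₃) ≠ 0 := by
          rw [hQs]
          intro hc
          have : 2 * Q w₁ = 0 := by linear_combination hc + e1 - e3
          exact (mul_ne_zero h2 hQ1) this
        have e4 := star (w₁ + w₃) (S.add_mem hw₁S h3) w₂ hw₂W hw₂p
          ⟨w₁ + w₃, S.add_mem hw₁S h3, by rw [polar_self']; exact mul_ne_zero h2 hQs0⟩ hw₂S
        rw [hQs] at e4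
        apply hQ1
        linear_combination e4 - e3
      · have hw₃S : w₃ ∉ S := fun hc => hB3 (h3 w₃ hc)
        have e3 := star w₁ hw₁S w₃ hw₃W h3 hw₁ne hw₃S
        have hQs : Q (w₂ + w₃) = Q w₂ + Q w₃ := by rw [QuadraticMap.map_add Q, h23, add_zero]
        have hp : ∀ s ∈ S, polar ⇑Q (w₂ + w₃) s = 0 := by
          intro s hs
          rw [polar_add_left, hw₂p s hs, h3 s hs, add_zero]
        have hnS : w₂ + w₃ ∉ S := by
          intro hc
          have h5 := hp _ hc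
          rw [polar_self', hQs] at h5
          have h6 : Q w₂ + Q w₃ = 0 := by
            rcases mul_eq_zero.mp h5 with h' | h'
            · exact absurd h' h2
            · exact h'
          have : 2 * Q w₁ = 0 := by linear_combination e1 + e3 - h6
          exact (mul_ne_zero h2 hQ1) this
        have e4 := star w₁ hw₁S (w₂ + w₃) (W.add_mem hw₂W hw₃W) hp hw₁ne hnS
        rw [hQs] at e4
        apply hQ3
        linear_combination e4 - e1


omit hQ in
theorem coord (U : Submodule F (ι → F))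
    (hUnd : ∀ u ∈ U, u ≠ 0 → ∃ x ∈ U, polar ⇑Q u x ≠ 0) :
    ∃ (Q' : QuadraticForm F (Fin (Module.finrank F U) → F))
      (Φ : (Fin (Module.finrank F U) → F) →ₗ[F] (ι → F)),
      (QuadraticMap.polarBilin Q').Nondegenerate ∧ (∀ v, Φ v ∈ U) ∧ (∀ x ∈ U, ∃ v, Φ v = x) ∧
      (∀ v, Q (Φ v) = Q' v) ∧ (∀ a b, polar ⇑Q (Φ a) (Φ b) = polar ⇑Q' a b) := by
  let b := Module.finBasis F U
  let Φ : (Fin (Module.finrank F U) → F) →ₗ[F] (ι → F) :=
    U.subtype ∘ₗ (b.equivFun.symm : (Fin (Module.finrank F U) → F) ≃ₗ[F] U).toLinearMap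
  let Q' : QuadraticForm F (Fin (Module.finrank F U) → F) := Q.comp Φ
  have hq : ∀ v, Q (Φ v) = Q' v := fun v => rfl
  have hpol : ∀ a b, polar ⇑Q (Φ a) (Φ b) = polar ⇑Q' a b := by
    intro a b
    unfold polar
    rw [← hq, ← hq, ← hq, Φ.map_add]
  have hmem : ∀ v, Φ v ∈ U := fun v => (b.equivFun.symm v).2
  have hsurj : ∀ x ∈ U, ∃ v, Φ v = x := by
    intro x hx
    refine ⟨b.equivFun ⟨x, hx⟩, ?_⟩
    show ((b.equivFun.symm (b.equivFun ⟨x, hx⟩) : U) : ι → F) = x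
    rw [LinearEquiv.symm_apply_apply]
  have hinj : ∀ v, Φ v = 0 → v = 0 := by
    intro v hv
    have h1 : b.equivFun.symm v = 0 := Subtype.ext hv
    exact (LinearEquiv.map_eq_zero_iff _).mp h1
  have hsep : ∀ x, (∀ y, polar ⇑Q' x y = 0) → x = 0 := by
    intro x hx
    by_contra h0
    obtain ⟨y, hy, hne⟩ := hUnd (Φ x) (hmem x) (fun hc => h0 (hinj x hc))
    obtain ⟨v, rfl⟩ := hsurj y hy
    rw [hpol] at hne
    exact hne (hx v)
  refine ⟨Q', Φ, ⟨fun x hx => hsep x hx, fun x hx => hsep x (fun y => ?_)⟩, hmem, hsurj, hq, hpol⟩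
  rw [polar_comm]
  exact hx y

omit hQ in
theorem Spl.polar_proj (h : Spl Q W U) (d : ι → F) :
    ∃ d' ∈ U, ∀ z ∈ U, polar ⇑Q d z = polar ⇑Q d' z := by
  obtain ⟨a, ha, b, hb, rfl⟩ := h.dec d
  exact ⟨b, hb, fun z hz => by rw [polar_add_left, h.orth a ha z hz, zero_add]⟩

theorem Spl.norm_in [Fintype F] (h : Spl Q W U) (hU : 6 ≤ Module.finrank F U) (d₁ d₂ : ι → F)
    (c : F) : ∃ z ∈ U, Q z = c ∧ polar ⇑Q d₁ z = 0 ∧ polar ⇑Q d₂ z = 0 := by
  obtain ⟨Q', Φ, hQ', hmem, hsurj, hq, hpol⟩ := coord U (h.symm.nd hQ)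
  obtain ⟨u₁, hu₁, hd₁⟩ := h.polar_proj d₁
  obtain ⟨u₂, hu₂, hd₂⟩ := h.polar_proj d₂
  obtain ⟨a₁, rfl⟩ := hsurj u₁ hu₁
  obtain ⟨a₂, rfl⟩ := hsurj u₂ hu₂
  have := finrank_span_two a₁ a₂
  obtain ⟨z, hz, hzd⟩ := exists_norm_orth Q' hQ' (Submodule.span F {a₁, a₂})
    (by rw [Fintype.card_fin]; omega) c
  refine ⟨Φ z, hmem z, by rw [hq, hz], ?_, ?_⟩
  · rw [hd₁ _ (hmem z), hpol]
    exact hzd a₁ (Submodule.subset_span (by simp))
  · rw [hd₂ _ (hmem z), hpol]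
    exact hzd a₂ (Submodule.subset_span (by simp))

theorem Spl.hyp_in [Fintype F] (h : Spl Q W U) (hU : 7 ≤ Module.finrank F U) (d₁ d₂ : ι → F) :
    ∃ x ∈ U, ∃ x' ∈ U, Q x = 0 ∧ Q x' = 0 ∧ polar ⇑Q x x' = 1 ∧ polar ⇑Q d₁ x = 0 ∧
      polar ⇑Q d₂ x = 0 ∧ polar ⇑Q d₁ x' = 0 ∧ polar ⇑Q d₂ x' = 0 := by
  obtain ⟨Q', Φ, hQ', hmem, hsurj, hq, hpol⟩ := coord U (h.symm.nd hQ)
  obtain ⟨u₁, hu₁, hd₁⟩ := h.polar_proj d₁
  obtain ⟨u₂, hu₂, hd₂⟩ := h.polar_proj d₂
  obtain ⟨a₁, rfl⟩ := hsurj u₁ hu₁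
  obtain ⟨a₂, rfl⟩ := hsurj u₂ hu₂
  have := finrank_span_two a₁ a₂
  obtain ⟨x, x', hx, hx', hxx', h1, h2⟩ := exists_hyp_orth Q' hQ' (Submodule.span F {a₁, a₂})
    (by rw [Fintype.card_fin]; omega)
  refine ⟨Φ x, hmem x, Φ x', hmem x', by rw [hq, hx], by rw [hq, hx'], by rw [hpol, hxx'],
    ?_, ?_, ?_, ?_⟩
  · rw [hd₁ _ (hmem x), hpol]
    exact h1 a₁ (Submodule.subset_span (by simp))
  · rw [hd₂ _ (hmem x), hpol]
    exact h1 a₂ (Submodule.subset_span (by simp))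
  · rw [hd₁ _ (hmem x'), hpol]
    exact h2 a₁ (Submodule.subset_span (by simp))
  · rw [hd₂ _ (hmem x'), hpol]
    exact h2 a₂ (Submodule.subset_span (by simp))

theorem Spl.sing_in [Fintype F] (h : Spl Q W U) (hU : 5 ≤ Module.finrank F U) (d c : ι → F)
    (hd : d ∈ U) (hc : c ∈ U) (hcd : c ∉ Submodule.span F {d}) :
    ∃ s ∈ U, Q s = 0 ∧ polar ⇑Q d s = 0 ∧ polar ⇑Q c s ≠ 0 := by
  obtain ⟨Q', Φ, hQ', hmem, hsurj, hq, hpol⟩ := coord U (h.symm.nd hQ)
  obtain ⟨a₁, rfl⟩ := hsurj d hd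
  obtain ⟨a₂, rfl⟩ := hsurj c hc
  obtain ⟨s, hs, h1, h2⟩ := OrthEich2.exists_sing Q' hQ' (by rw [Fintype.card_fin]; omega) a₁ a₂
    (by
      intro hcon
      obtain ⟨l, hl⟩ := Submodule.mem_span_singleton.mp hcon
      apply hcd
      rw [Submodule.mem_span_singleton]
      exact ⟨l, by rw [← hl, map_smul]⟩)
  exact ⟨Φ s, hmem s, by rw [hq, hs], by rw [hpol, h1], by rw [hpol]; exact h2⟩

omit hQ in
theorem sing3 [Fintype F] (X : Submodule F (ι → F)) (hX : 3 ≤ Module.finrank F X) :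
    ∃ x ∈ X, x ≠ 0 ∧ Q x = 0 := by
  obtain ⟨v, hv0, hv⟩ := Cfsg.Agent.Lib.Helper4.QuadFin.exists_singular (Q.comp X.subtype) hX
  exact ⟨v.1, v.2, fun hc => hv0 (Subtype.ext hc), hv⟩

omit hQ in
theorem exists_sing_perp3 [Fintype F] (U : Submodule F (ι → F)) (hU : 6 ≤ Module.finrank F U)
    (z₁ z₂ z₃ : ι → F) :
    ∃ x ∈ U, x ≠ 0 ∧ Q x = 0 ∧ polar ⇑Q x z₁ = 0 ∧ polar ⇑Q x z₂ = 0 ∧ polar ⇑Q x z₃ = 0 := by
  set φ : (ι → F) → ((ι → F) →ₗ[F] F) := fun z => QuadraticMap.polarBilin Q z with hφ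
  have h1 := OrthRefl.finrank_inf_ker U (φ z₁)
  have h2 := OrthRefl.finrank_inf_ker (U ⊓ LinearMap.ker (φ z₁)) (φ z₂)
  have h3 := OrthRefl.finrank_inf_ker (U ⊓ LinearMap.ker (φ z₁) ⊓ LinearMap.ker (φ z₂)) (φ z₃)
  obtain ⟨x, ⟨⟨⟨hxU, e1⟩, e2⟩, e3⟩, hx0, hQx⟩ := sing3 (Q := Q)
    (U ⊓ LinearMap.ker (φ z₁) ⊓ LinearMap.ker (φ z₂) ⊓ LinearMap.ker (φ z₃)) (by omega)
  exact ⟨x, hxU, hx0, hQx, (polar_comm _ _ _).trans e1, (polar_comm _ _ _).trans e2,
    (polar_comm _ _ _).trans e3⟩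

end nd

section main

variable [Fintype F] (hQ : (QuadraticMap.polarBilin Q).Nondegenerate)
  (hex : Fintype.card F ≠ 2 ∨ Fintype.card ι ≠ 4) (hn : 2 ≤ Fintype.card ι)
variable {H : Subgroup ↥(Cfsg.isometryGroup F ⇑Q)}

omit [Fintype F] in
theorem refl_maps (U : Submodule F (ι → F)) (a : ι → F) (ha : Q a ≠ 0) (haU : a ∈ U) (z : ι → F)
    (hz : z ∈ U) : mat (refl Q a ha) *ᵥ z ∈ U := by
  rw [mat_refl, reflectionMatrix_mulVec]
  exact U.sub_mem hz (U.smul_mem _ haU)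

omit [Fintype F] in
theorem refl_fix (a : ι → F) (ha : Q a ≠ 0) (z : ι → F) (hz : polar ⇑Q a z = 0) :
    mat (refl Q a ha) *ᵥ z = z := by
  rw [mat_refl, reflection_fix Q a z hz]

omit [Fintype F] in
theorem InH_zero (x : ι → F) : InH H x 0 :=
  ⟨by simp, fun g hg => by rw [hg.ext (IsEich.one x)]; exact H.one_mem⟩

include hQ hex hn

theorem four_refl_mem (a₁ a₂ b₁ b₂ : ι → F) (ha₁ : Q a₁ ≠ 0) (ha₂ : Q a₂ ≠ 0) (hb₁ : Q b₁ ≠ 0)
    (hb₂ : Q b₂ ≠ 0) (e1 : Q a₁ = Q b₁) (e2 : Q a₂ = Q b₂) :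
    (refl Q a₁ ha₁ * refl Q a₂ ha₂) * (refl Q b₁ hb₁ * refl Q b₂ hb₂) ∈ Cfsg.Omega F ⇑Q := by
  classical
  by_cases h2 : (2 : F) = 0
  · rw [Dickson.omega_iff Q h2 hQ hex, dk_mul Q hQ hex, dk_mul Q hQ hex, dk_mul Q hQ hex,
      dk_refl Q hQ, dk_refl Q hQ, dk_refl Q hQ, dk_refl Q hQ]
    rfl
  · obtain ⟨θ, sd, hθ, hsd, _, hΩ⟩ := Spinor.main Q h2 hQ hn
    rw [hΩ]
    simp only [map_mul, hθ, hsd, e1, e2]
    exact ⟨Int.units_mul_self _, rfl⟩

theorem fill_W (h : Spl Q W U) (hU : 7 ≤ Module.finrank F U)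
    (hexc : ¬ (Fintype.card F ≤ 3 ∧ Module.finrank F W = 2 ∧ ∃ z ∈ W, z ≠ 0 ∧ Q z = 0))
    (hPH : ∀ g : ↥(Cfsg.isometryGroup F ⇑Q), g ∈ Cfsg.Omega F ⇑Q →
      (∀ z ∈ U, mat g *ᵥ z ∈ U) → g ∈ H)
    (x : ι → F) (hxU : x ∈ U) (hx0 : x ≠ 0) (hQx : Q x = 0) (w' : ι → F) (hw'W : w' ∈ W)
    (hw'0 : w' ≠ 0) (hw' : InH H x w') : ∀ w ∈ W, InH H x w := by
  obtain ⟨u, hu, hxu⟩ := h.symm.nd hQ x hxU hx0
  obtain ⟨c, d, hQy, hxy⟩ := partner_of Q x u hQx hxu
  obtain ⟨y, hy⟩ : ∃ y, y = c • u + d • x := ⟨_, rfl⟩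
  rw [← hy] at hQy hxy
  have hyU : y ∈ U := by
    rw [hy]; exact U.add_mem (U.smul_mem _ hu) (U.smul_mem _ hxU)
  have hUW : ∀ z ∈ U, ∀ w ∈ W, polar ⇑Q z w = 0 := fun z hz w hw => by
    rw [polar_comm]; exact h.orth w hw z hz
  have hxx : polar ⇑Q x x = 0 := by rw [polar_self', hQx, mul_zero]
  have smul_closed : ∀ (l : F) (w : ι → F), w ∈ W → InH H x w → InH H x (l • w) := by
    intro l w hw hI
    by_cases hl : l = 0
    · rw [hl, zero_smul]; exact InH_zero x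
    obtain ⟨h1, h2, q1, q2, hρ⟩ := exists_rotation Q x y hQx hQy hxy l hl
    obtain ⟨b₁, hb₁U, hQb₁, hb₁x, hb₁y⟩ := h.norm_in hQ (by omega) x y (-1)
    obtain ⟨b₂, hb₂U, hQb₂, hb₂x, hb₂y⟩ := h.norm_in hQ (by omega) x y (-l)
    have hb₁0 : Q b₁ ≠ 0 := by rw [hQb₁]; simp
    have hb₂0 : Q b₂ ≠ 0 := by rw [hQb₂]; simpa using hl
    obtain ⟨k, hk⟩ : ∃ k, k = (refl Q _ h1 * refl Q _ h2) * (refl Q b₁ hb₁0 * refl Q b₂ hb₂0) :=
      ⟨_, rfl⟩
    have hkΩ : k ∈ Cfsg.Omega F ⇑Q := by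
      rw [hk]
      exact four_refl_mem hQ hex hn _ _ _ _ _ _ _ _ (q1.trans hQb₁.symm) (q2.trans hQb₂.symm)
    have hkU : ∀ z ∈ U, mat k *ᵥ z ∈ U := by
      intro z hz
      rw [hk, mat_mul_mulVec, mat_mul_mulVec (refl Q b₁ hb₁0), mat_mul_mulVec (refl Q _ h1)]
      exact refl_maps U _ _ (U.sub_mem hxU (U.smul_mem _ hyU)) _
        (refl_maps U _ _ (U.sub_mem hxU (U.smul_mem _ hyU)) _
          (refl_maps U _ _ hb₁U _ (refl_maps U _ _ hb₂U _ hz)))
    have hkH := hPH k hkΩ hkU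
    have hkx : mat k *ᵥ x = l • x := by
      rw [hk, mat_mul_mulVec, mat_mul_mulVec (refl Q b₁ hb₁0),
        refl_fix b₂ hb₂0 x (by rw [polar_comm]; exact hb₂x),
        refl_fix b₁ hb₁0 x (by rw [polar_comm]; exact hb₁x), hρ x hxx, polar_comm ⇑Q y x, hxy]
      module
    have hkw : mat k *ᵥ w = w := by
      rw [hk, mat_mul_mulVec, mat_mul_mulVec (refl Q b₁ hb₁0),
        refl_fix b₂ hb₂0 w (hUW b₂ hb₂U w hw), refl_fix b₁ hb₁0 w (hUW b₁ hb₁U w hw),
        hρ w (hUW x hxU w hw), hUW y hyU w hw]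
      simp
    have h3 := hI.conj hkH
    rw [hkx, hkw] at h3
    exact ⟨by rw [polar_smul_right, hI.1, smul_zero], fun g hg => h3.2 g hg.smul'⟩
  let S : Submodule F (ι → F) :=
    { carrier := {w | w ∈ W ∧ InH H x w}
      add_mem' := fun {a b} ha hb => ⟨W.add_mem ha.1 hb.1, InH.add hQ hex hn hQx ha.2 hb.2⟩
      zero_mem' := ⟨W.zero_mem, InH_zero x⟩
      smul_mem' := fun l a ha => ⟨W.smul_mem l ha.1, smul_closed l a ha.1 ha.2⟩ }
  have hS : S = W := by
    apply irr hQ h S (fun w hw => hw.1) _ _ _ hexc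
    · intro hc
      have : w' ∈ S := ⟨hw'W, hw'⟩
      rw [hc, Submodule.mem_bot] at this
      exact hw'0 this
    · rintro t ht hQt s ⟨hsW, hsI⟩
      obtain ⟨b, hbU, hQb, hbx, _⟩ := h.norm_in hQ (by omega) x x (Q t)
      have hb0 : Q b ≠ 0 := by rw [hQb]; exact hQt
      have hkΩ := refl_pair_mem hQ hex hn t b hQt hb0 hQb.symm
      have hkU : ∀ z ∈ U, mat (refl Q t hQt * refl Q b hb0) *ᵥ z ∈ U := by
        intro z hz
        rw [mat_mul_mulVec, refl_fix t hQt _ (h.orth t ht _ (refl_maps U _ _ hbU _ hz))]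
        exact refl_maps U _ _ hbU _ hz
      have hkH := hPH _ hkΩ hkU
      have hkx : mat (refl Q t hQt * refl Q b hb0) *ᵥ x = x := by
        rw [mat_mul_mulVec, refl_fix b hb0 x (by rw [polar_comm]; exact hbx),
          refl_fix t hQt x (h.orth t ht x hxU)]
      have hks : mat (refl Q t hQt * refl Q b hb0) *ᵥ s = s - ((Q t)⁻¹ * polar ⇑Q t s) • t := by
        rw [mat_mul_mulVec, refl_fix b hb0 s (hUW b hbU s hsW), mat_refl, reflectionMatrix_mulVec]
      have h3 := hsI.conj hkH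
      rw [hkx, hks] at h3
      exact ⟨W.sub_mem hsW (W.smul_mem _ ht), h3⟩
    · rintro e he a ha hQe hea s ⟨hsW, hsI⟩
      obtain ⟨k, hkΩ, hk⟩ := exists_eich Q hQ hex hn e a hQe hea
      have hfixU : ∀ z ∈ U, mat k *ᵥ z = z := by
        intro z hz
        rw [hk z]
        unfold eform
        rw [h.orth a ha z hz, h.orth e he z hz]
        simp
      have hkH := hPH k hkΩ (fun z hz => by rw [hfixU z hz]; exact hz)
      have h3 := hsI.conj hkH
      rw [hfixU x hxU, hk s] at h3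
      refine ⟨?_, h3⟩
      unfold eform
      exact W.sub_mem (W.sub_mem (W.add_mem hsW (W.smul_mem _ he)) (W.smul_mem _ ha))
        (W.smul_mem _ he)
  intro w hw
  have : w ∈ S := by rw [hS]; exact hw
  exact this.2

theorem close (hn5 : 5 ≤ Fintype.card ι) (h : Spl Q W U) (hU : 7 ≤ Module.finrank F U)
    (hexc : ¬ (Fintype.card F ≤ 3 ∧ Module.finrank F W = 2 ∧ ∃ z ∈ W, z ≠ 0 ∧ Q z = 0))
    (hPH : ∀ g : ↥(Cfsg.isometryGroup F ⇑Q), g ∈ Cfsg.Omega F ⇑Q →
      (∀ z ∈ U, mat g *ᵥ z ∈ U) → g ∈ H)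
    (hP1 : ∀ x ∈ U, ∀ u ∈ U, Q x = 0 → polar ⇑Q x u = 0 → InH H x u)
    (p r : ι → F) (s : ↥(Cfsg.isometryGroup F ⇑Q)) (hsH : s ∈ H) (hs : IsEich Q s p r)
    (u₀ : ι → F) (hu₀ : u₀ ∈ U) (hsu : mat s *ᵥ u₀ ∉ U) : Cfsg.Omega F ⇑Q ≤ H := by
  obtain ⟨x, hxU, hx0, hQx, hxp, hxr, hxu⟩ := exists_sing_perp3 (Q := Q) U (by omega) p r u₀
  have hUW : ∀ z ∈ U, ∀ w ∈ W, polar ⇑Q z w = 0 := fun z hz w hw => by
    rw [polar_comm]; exact h.orth w hw z hz
  have hfix : mat s *ᵥ x = x := by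
    rw [hs x]
    unfold eform
    rw [polar_comm ⇑Q r x, polar_comm ⇑Q p x, hxr, hxp]
    simp
  have h1 : InH H x (mat s *ᵥ u₀) := by
    have := (hP1 x hxU u₀ hu₀ hQx hxu).conj hsH
    rwa [hfix] at this
  obtain ⟨w', hw', u', hu', e⟩ := h.dec (mat s *ᵥ u₀)
  have hw'0 : w' ≠ 0 := by
    rintro rfl
    apply hsu
    rw [e, zero_add]
    exact hu'
  have hxu' : polar ⇑Q x u' = 0 := by
    have := h1.1
    rwa [e, polar_add_right, hUW x hxU w' hw', zero_add] at this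
  have h2 : InH H x w' := by
    have := InH.add hQ hex hn hQx h1 (InH.neg hQ hex hn hQx (hP1 x hxU u' hu' hQx hxu'))
    rwa [e, add_neg_cancel_right] at this
  have hW := fill_W hQ hex hn h hU hexc hPH x hxU hx0 hQx w' hw' hw'0 h2
  have hxY : x ∈ YY Q H := by
    refine ⟨hQx, fun a g hxa hg => ?_⟩
    obtain ⟨a₁, ha₁, a₂, ha₂, rfl⟩ := h.dec a
    have : polar ⇑Q x a₂ = 0 := by
      rwa [polar_add_right, hUW x hxU a₁ ha₁, zero_add] at hxa
    exact (InH.add hQ hex hn hQx (hW a₁ ha₁) (hP1 x hxU a₂ ha₂ hQx this)).2 g hg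
  obtain ⟨u, hu, hxu2⟩ := h.symm.nd hQ x hxU hx0
  obtain ⟨c, d, hQy, hxy⟩ := partner_of Q x u hQx hxu2
  obtain ⟨y, hy⟩ : ∃ y, y = c • u + d • x := ⟨_, rfl⟩
  rw [← hy] at hQy hxy
  have hyU : y ∈ U := by
    rw [hy]; exact U.add_mem (U.smul_mem _ hu) (U.smul_mem _ hxU)
  obtain ⟨b, hbU, hQb, hbx, hby⟩ := h.norm_in hQ (by omega) x y 1
  obtain ⟨k, _, hk⟩ := exists_eich Q hQ hex hn y b hQy hby
  have hkH := (hP1 y hyU b hbU hQy hby).2 k hk
  apply omega_le_of_YY hQ hn5 hxY (YY_img hkH hxY)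
  rw [hk x]
  unfold eform
  rw [polar_comm ⇑Q b x, hbx, polar_comm ⇑Q y x, hxy, hQb, polar_sub_right, polar_sub_right,
    polar_add_right, polar_smul_right, polar_smul_right, polar_smul_right, polar_self', hQx, hbx,
    hxy]
  simp


theorem exists_bad (h : Spl Q W U) (hU : 7 ≤ Module.finrank F U)
    (hP1 : ∀ x ∈ U, ∀ u ∈ U, Q x = 0 → polar ⇑Q x u = 0 → InH H x u)
    (g : ↥(Cfsg.isometryGroup F ⇑Q)) (hgH : g ∈ H)
    (hns : ¬ (∀ x ∈ U, mat g⁻¹ *ᵥ x ∈ W))
    (hgU : ¬ ∀ x ∈ U, mat g *ᵥ x ∈ U) :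
    ∃ (p r : ι → F) (s : ↥(Cfsg.isometryGroup F ⇑Q)), s ∈ H ∧ IsEich Q s p r ∧
      ∃ u₀ ∈ U, mat s *ᵥ u₀ ∉ U := by
  have hmul_inv : ∀ x, mat g *ᵥ (mat g⁻¹ *ᵥ x) = x := by
    intro x
    have := mat_inv_mulVec g⁻¹ x
    rwa [inv_inv] at this
  have hUW : ∀ z ∈ U, ∀ w ∈ W, polar ⇑Q z w = 0 := fun z hz w hw => by
    rw [polar_comm]; exact h.orth w hw z hz
  -- a mixed vector
  have hmix : ∃ a ∈ W, ∃ d ∈ U, a ≠ 0 ∧ d ≠ 0 ∧ mat g *ᵥ (a + d) ∈ U := by
    by_contra hcon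
    push Not at hcon
    have hpure : ∀ x ∈ U, mat g⁻¹ *ᵥ x ∈ W ∨ mat g⁻¹ *ᵥ x ∈ U := by
      intro x hx
      obtain ⟨a, ha, d, hd, e⟩ := h.dec (mat g⁻¹ *ᵥ x)
      by_cases c0 : a = 0
      · right; rw [e, c0, zero_add]; exact hd
      by_cases c1 : d = 0
      · left; rw [e, c1, add_zero]; exact ha
      exfalso
      apply hcon a ha d hd c0 c1
      rw [← e, hmul_inv]
      exact hx
    push Not at hns
    obtain ⟨x₀, hx₀, hx₀W⟩ := hns
    have h1 := OrthPair.all_in W U U g⁻¹ hpure x₀ hx₀ hx₀W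
    apply hgU
    intro x hx
    have h2 := img_eq_of_le g⁻¹ U h1
    have h3 : x ∈ img g⁻¹ U := by rw [h2]; exact hx
    obtain ⟨x', hx', e⟩ := (mem_img g⁻¹ U x).mp h3
    rw [← e, hmul_inv]
    exact hx'
  obtain ⟨a, ha, d, hd, ha0, hd0, hgv⟩ := hmix
  -- the functional
  set U₂ : Submodule F (ι → F) := U ⊓ U.comap (Matrix.mulVecLin (mat g)) with hU₂
  push Not at hgU
  obtain ⟨u₁, hu₁, hgu₁⟩ := hgU
  have hu₁n : u₁ ∉ U₂ := fun hc => hgu₁ hc.2
  obtain ⟨c, hcU, hcS, hcu⟩ := h.symm.orth_ne hQ U₂ inf_le_left u₁ hu₁ hu₁n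
  -- the pair
  have hpair : ∃ y ∈ U, ∃ b ∈ U, Q y = 0 ∧ polar ⇑Q y b = 0 ∧
      polar ⇑Q (polar ⇑Q b d • y - polar ⇑Q y d • b - (Q b * polar ⇑Q y d) • y) c ≠ 0 := by
    by_cases hcd : c ∈ Submodule.span F {d}
    · obtain ⟨l, hl⟩ := Submodule.mem_span_singleton.mp hcd
      have hl0 : l ≠ 0 := by
        rintro rfl
        rw [zero_smul] at hl
        rw [← hl] at hcu
        simp at hcu
      obtain ⟨y, hyU, hQy, _, hdy⟩ := h.sing_in hQ (by omega) 0 d U.zero_mem hd (by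
        simpa using hd0)
      obtain ⟨b, hbU, hQb, hyb, hdb⟩ := h.norm_in hQ (by omega) y d 1
      refine ⟨y, hyU, b, hbU, hQy, hyb, ?_⟩
      rw [← hl, polar_smul_right, polar_sub_left, polar_sub_left, polar_smul_left, polar_smul_left,
        polar_smul_left, polar_comm ⇑Q b d, hdb, hQb, polar_comm ⇑Q y d]
      simp only [smul_eq_mul]
      have : l * (0 * polar ⇑Q d y - polar ⇑Q d y * 0 - 1 * polar ⇑Q d y * polar ⇑Q d y) =
          - (l * (polar ⇑Q d y * polar ⇑Q d y)) := by ring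
      rw [this]
      exact neg_ne_zero.mpr (mul_ne_zero hl0 (mul_ne_zero hdy hdy))
    · obtain ⟨y₁, hy₁U, hQy₁, hdy₁, hcy₁⟩ := h.sing_in hQ (by omega) d c hd hcU hcd
      obtain ⟨x, hxU, x', hx'U, hQx, hQx', hxx', hdx, hy₁x, hdx', hy₁x'⟩ :=
        h.hyp_in hQ hU d y₁
      -- a singular vector orthogonal to `d`, not to `c`, whose span misses `d`
      have hy : ∃ y ∈ U, Q y = 0 ∧ polar ⇑Q d y = 0 ∧ polar ⇑Q c y ≠ 0 ∧ polar ⇑Q y x' = 1 := by
        by_cases hc2 : polar ⇑Q c y₁ + polar ⇑Q c x = 0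
        · refine ⟨x, hxU, hQx, hdx, ?_, hxx'⟩
          intro hc3
          rw [hc3, add_zero] at hc2
          exact hcy₁ hc2
        · refine ⟨y₁ + x, U.add_mem hy₁U hxU, ?_, ?_, ?_, ?_⟩
          · rw [QuadraticMap.map_add Q, hQy₁, hQx, hy₁x]; ring
          · rw [polar_add_right, hdy₁, hdx, add_zero]
          · rw [polar_add_right]; exact hc2
          · rw [polar_add_left, hy₁x', hxx', zero_add]
      obtain ⟨y, hyU, hQy, hdy, hcy, hyx'⟩ := hy
      have hdn : d ∉ Submodule.span F {y} := by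
        intro hc3
        obtain ⟨ν, hν⟩ := Submodule.mem_span_singleton.mp hc3
        have h5 : polar ⇑Q d x' = ν := by
          rw [← hν, polar_smul_left, hyx', smul_eq_mul, mul_one]
        rw [hdx'] at h5
        rw [← h5, zero_smul] at hν
        exact hd0 hν.symm
      obtain ⟨b, hbU, hbS, hbd⟩ := h.symm.orth_ne hQ (Submodule.span F {y})
        (by rw [Submodule.span_singleton_le_iff_mem]; exact hyU) d hd hdn
      have hyb := hbS y (Submodule.mem_span_singleton_self y)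
      refine ⟨y, hyU, b, hbU, hQy, hyb, ?_⟩
      rw [polar_comm ⇑Q y d, hdy]
      simp only [zero_smul, mul_zero, sub_zero]
      rw [polar_smul_left, polar_comm ⇑Q y c, smul_eq_mul]
      exact mul_ne_zero hbd hcy
  obtain ⟨y, hyU, b, hbU, hQy, hyb, hne⟩ := hpair
  obtain ⟨t, _, ht⟩ := exists_eich Q hQ hex hn y b hQy hyb
  have htH := (hP1 y hyU b hbU hQy hyb).2 t ht
  refine ⟨mat g *ᵥ y, mat g *ᵥ b, g * t * g⁻¹, H.mul_mem (H.mul_mem hgH htH) (H.inv_mem hgH),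
    ht.conj g, mat g *ᵥ (a + d), hgv, ?_⟩
  intro hcon
  rw [mat_mul_mulVec, mat_mul_mulVec, mat_inv_mulVec, ht] at hcon
  have e1 : eform Q y b (a + d) = (a + d) +
      (polar ⇑Q b d • y - polar ⇑Q y d • b - (Q b * polar ⇑Q y d) • y) := by
    unfold eform
    rw [polar_add_right, polar_add_right, hUW b hbU a ha, hUW y hyU a ha, zero_add, zero_add]
    abel
  rw [e1, mulVec_add] at hcon
  have h6 := U.sub_mem hcon hgv
  rw [add_sub_cancel_left] at h6
  apply hne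
  apply hcS
  refine ⟨?_, h6⟩
  exact U.sub_mem (U.sub_mem (U.smul_mem _ hyU) (U.smul_mem _ hbU)) (U.smul_mem _ hyU)

theorem split_max (h : Spl Q W U) (hU : 7 ≤ Module.finrank F U) (hW0 : W ≠ ⊥)
    (hexc : ¬ (Fintype.card F ≤ 3 ∧ Module.finrank F W = 2 ∧ ∃ z ∈ W, z ≠ 0 ∧ Q z = 0))
    (hns : ∀ g : ↥(Cfsg.isometryGroup F ⇑Q), ¬ (∀ x ∈ U, mat g *ᵥ x ∈ W))
    (A : Subgroup (Matrix.GeneralLinearGroup ι F))
    (hA : ∀ g : ↥(Cfsg.isometryGroup F ⇑Q),
      (g : Matrix.GeneralLinearGroup ι F) ∈ A ↔ ∀ x ∈ U, mat g *ᵥ x ∈ U) :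
    Cfsg.Geo.IsMaximalIn (Cfsg.Geo.omegaGL ⇑Q) (A ⊓ Cfsg.Geo.omegaGL ⇑Q) := by
  have hn5 : 5 ≤ Fintype.card ι := by
    have := Submodule.finrank_le U
    rw [Module.finrank_fintype_fun_eq_card] at this
    omega
  have hUW : ∀ z ∈ U, ∀ w ∈ W, polar ⇑Q z w = 0 := fun z hz w hw => by
    rw [polar_comm]; exact h.orth w hw z hz
  apply max_of
  · obtain ⟨x, hxU, hx0, hQx, _⟩ := exists_sing_perp3 (Q := Q) U (by omega) 0 0 0
    obtain ⟨w, hw, hw0⟩ := Submodule.exists_mem_ne_zero_of_ne_bot hW0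
    obtain ⟨u, hu, hxu⟩ := h.symm.nd hQ x hxU hx0
    obtain ⟨g, hgΩ, hg⟩ := exists_eich Q hQ hex hn x w hQx (hUW x hxU w hw)
    refine ⟨g, hgΩ, fun hc => ?_⟩
    have h1 := (hA g).mp hc u hu
    rw [hg u] at h1
    unfold eform at h1
    rw [h.orth w hw u hu, zero_smul, add_zero] at h1
    have h2 : polar ⇑Q x u • w ∈ U := by
      have h3 := U.sub_mem (U.sub_mem hu h1) (U.smul_mem (Q w * polar ⇑Q x u) hxU)
      have e : u - (u - polar ⇑Q x u • w - (Q w * polar ⇑Q x u) • x) -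
          (Q w * polar ⇑Q x u) • x = polar ⇑Q x u • w := by abel
      rwa [e] at h3
    have h4 := U.smul_mem (polar ⇑Q x u)⁻¹ h2
    rw [smul_smul, inv_mul_cancel₀ hxu, one_smul] at h4
    exact hw0 (h.disj hQ w hw h4)
  · rintro H hPH' ⟨g, hgH, _, hgA⟩
    have hPH : ∀ k : ↥(Cfsg.isometryGroup F ⇑Q), k ∈ Cfsg.Omega F ⇑Q →
        (∀ z ∈ U, mat k *ᵥ z ∈ U) → k ∈ H := fun k hkΩ hkU => hPH' k hkΩ ((hA k).mpr hkU)
    have hP1 : ∀ x ∈ U, ∀ u ∈ U, Q x = 0 → polar ⇑Q x u = 0 → InH H x u := by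
      intro x hx u hu hQx hxu
      refine ⟨hxu, fun k hk => ?_⟩
      obtain ⟨t, htΩ, ht⟩ := exists_eich Q hQ hex hn x u hQx hxu
      rw [hk.ext ht]
      apply hPH t htΩ
      intro z hz
      rw [ht z]
      unfold eform
      exact U.sub_mem (U.sub_mem (U.add_mem hz (U.smul_mem _ hx)) (U.smul_mem _ hu))
        (U.smul_mem _ hx)
    obtain ⟨p, r, s, hsH, hs, u₀, hu₀, hsu⟩ := exists_bad hQ hex hn h hU hP1 g hgH (hns g⁻¹)
      (fun hc => hgA ((hA g).mpr hc))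
    exact close hQ hex hn hn5 h hU hexc hPH hP1 p r s hsH hs u₀ hu₀ hsu


omit hex hn [Fintype F] in
theorem Spl.stab_of (h : Spl Q W U) (g : ↥(Cfsg.isometryGroup F ⇑Q))
    (hg : ∀ x ∈ U, mat g *ᵥ x ∈ U) : ∀ x ∈ W, mat g *ᵥ x ∈ W := by
  intro x hx
  obtain ⟨a, ha, b, hb, e⟩ := h.dec (mat g *ᵥ x)
  have hb0 : b = 0 := by
    by_contra hne
    obtain ⟨u, hu, hbu⟩ := h.symm.nd hQ b hb hne
    apply hbu
    have h2 := img_eq_of_le g U hg
    have h3 : u ∈ img g U := by rw [h2]; exact hu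
    obtain ⟨u', hu', e'⟩ := (mem_img g U u).mp h3
    have h4 : polar ⇑Q (mat g *ᵥ x) u = 0 := by
      rw [← e', mat_polar]
      exact h.orth x hx u' hu'
    rwa [e, polar_add_left, h.orth a ha u hu, zero_add] at h4
  rw [e, hb0, add_zero]
  exact ha

omit hex hn [Fintype F] in
/-- the splitting defined by a nondegenerate subspace -/
theorem spl_of_nondeg (W : Submodule F (ι → F))
    (hW : Cfsg.Geo.IsNondegenerateOn (polar ⇑Q) W) :
    Spl Q W (LinearMap.BilinForm.orthogonal (QuadraticMap.polarBilin Q) W) ∧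
      Module.finrank F W +
        Module.finrank F (LinearMap.BilinForm.orthogonal (QuadraticMap.polarBilin Q) W) =
        Fintype.card ι := by
  set U := LinearMap.BilinForm.orthogonal (QuadraticMap.polarBilin Q) W with hU
  have horth : ∀ w ∈ W, ∀ u ∈ U, polar ⇑Q w u = 0 := by
    intro w hw u hu
    exact (LinearMap.BilinForm.mem_orthogonal_iff.mp hu) w hw
  have hinf : W ⊓ U = ⊥ := by
    rw [eq_bot_iff]
    rintro x ⟨hxW, hxU⟩
    rw [Submodule.mem_bot]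
    by_contra h0
    obtain ⟨⟨z, hz, hne⟩, _⟩ := hW x hxW h0
    exact hne (horth z hz x hxU)
  have hfrU : Module.finrank F U = Fintype.card ι - Module.finrank F W := by
    have := LinearMap.BilinForm.finrank_orthogonal hQ W
    rw [Module.finrank_fintype_fun_eq_card] at this
    rw [hU, this]
  have hle : Module.finrank F W ≤ Fintype.card ι := by
    have := Submodule.finrank_le W
    rwa [Module.finrank_fintype_fun_eq_card] at this
  have hsup : W ⊔ U = ⊤ := by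
    apply Submodule.eq_top_of_finrank_eq
    have h1 := Submodule.finrank_sup_add_finrank_inf_eq W U
    rw [hinf, finrank_bot] at h1
    rw [Module.finrank_fintype_fun_eq_card]
    omega
  refine ⟨⟨horth, fun v => ?_⟩, by omega⟩
  have : v ∈ W ⊔ U := by rw [hsup]; trivial
  obtain ⟨a, ha, b, hb, e⟩ := Submodule.mem_sup.mp this
  exact ⟨a, ha, b, hb, e.symm⟩

omit hQ hex hn [Fintype F] in
theorem no_inj (X Y : Submodule F (ι → F)) (hXY : Module.finrank F Y < Module.finrank F X)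
    (g : ↥(Cfsg.isometryGroup F ⇑Q)) : ¬ (∀ x ∈ X, mat g *ᵥ x ∈ Y) := by
  intro hc
  have h1 : img g X ≤ Y := by
    intro y hy
    obtain ⟨x, hx, rfl⟩ := (mem_img g X y).mp hy
    exact hc x hx
  have h2 := Submodule.finrank_mono h1
  rw [finrank_img] at h2
  omega

omit hex hn in
theorem stab_max (hn13 : 13 ≤ Fintype.card ι) (W : Submodule F (ι → F)) (hW0 : W ≠ ⊥)
    (hW1 : W ≠ ⊤) (hdim : 2 * Module.finrank F W ≠ Fintype.card ι)
    (hW : Cfsg.Geo.IsNondegenerateOn (polar ⇑Q) W)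
    (hexW : ¬ (Fintype.card F ≤ 3 ∧ Module.finrank F W = 2 ∧ ∃ z ∈ W, z ≠ 0 ∧ Q z = 0))
    (hexU : ¬ (Fintype.card F ≤ 3 ∧
      Module.finrank F (LinearMap.BilinForm.orthogonal (QuadraticMap.polarBilin Q) W) = 2 ∧
      ∃ z ∈ LinearMap.BilinForm.orthogonal (QuadraticMap.polarBilin Q) W, z ≠ 0 ∧ Q z = 0)) :
    Cfsg.Geo.IsMaximalIn (Cfsg.Geo.omegaGL ⇑Q)
      (Cfsg.Geo.subspaceStabilizer W ⊓ Cfsg.Geo.omegaGL ⇑Q) := by
  have hex : Fintype.card F ≠ 2 ∨ Fintype.card ι ≠ 4 := Or.inr (by omega)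
  obtain ⟨h, hfr⟩ := spl_of_nondeg hQ W hW
  set U := LinearMap.BilinForm.orthogonal (QuadraticMap.polarBilin Q) W with hU
  have hAW : ∀ g : ↥(Cfsg.isometryGroup F ⇑Q),
      (g : Matrix.GeneralLinearGroup ι F) ∈ Cfsg.Geo.subspaceStabilizer W ↔
        ∀ x ∈ W, mat g *ᵥ x ∈ W := by
    intro g
    rw [mem_stab]
    constructor
    · intro hc x hx
      rw [← hc]
      exact (mem_img g W _).mpr ⟨x, hx, rfl⟩
    · exact img_eq_of_le g W
  by_cases hlt : Module.finrank F W < Module.finrank F U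
  · apply split_max hQ hex (by omega) h (by omega) hW0 hexW (fun g => no_inj U W hlt g)
    intro g
    rw [hAW]
    exact ⟨h.symm.stab_of hQ g, h.stab_of hQ g⟩
  · have hU0 : U ≠ ⊥ := by
      intro hc
      rw [hc, finrank_bot, add_zero] at hfr
      apply hW1
      apply Submodule.eq_top_of_finrank_eq
      rw [hfr, Module.finrank_fintype_fun_eq_card]
    exact split_max hQ hex (by omega) h.symm (by omega) hU0 hexU
      (fun g => no_inj W U (by omega) g) _ hAW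

end main

end Cfsg.Agent.Lib.Helper5.OrthNdStab
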