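import Mathlib
import Cfsg.Prelude.Def_ClassicalGeometry
import Cfsg.Agent.Lib.Helper5.OrthEich2

set_option autoImplicit false
set_option linter.unusedSectionVars false

namespace Cfsg.Agent.Lib.Helper5.OrthNormClass

open Matrix Cfsg.Agent.Lib.Helper5.OrthCard Cfsg.Agent.Lib.Helper5.Orth
  Cfsg.Agent.Lib.Helper5.OrthGen QuadraticMap Cfsg.Agent.Lib.Helper5.OrthRefl
  Cfsg.Agent.Lib.Helper5.OrthTrans Cfsg.Agent.Lib.Helper5.OrthCenter
  Cfsg.Agent.Lib.Helper5.OrthThree Cfsg.Agent.Lib.Helper5.OrthEich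
  Cfsg.Agent.Lib.Helper5.OrthEich2 Cfsg.Agent.Lib.Helper5.Spinor
  Cfsg.Agent.Lib.Helper5.DicksonApp

variable {F : Type*} [Field F] [Fintype F] [DecidableEq F] {ι : Type} [Fintype ι] [DecidableEq ι]
variable (Q : QuadraticForm F (ι → F))

/-- the subgroup generated by the reflections of one norm class -/
def Hc (c : F) : Subgroup ↥(Cfsg.isometryGroup F ⇑Q) :=
  Subgroup.closure {g : ↥(Cfsg.isometryGroup F ⇑Q) | ∃ (v : ι → F) (t : F), t ≠ 0 ∧
    Q v = c * t ^ 2 ∧ ((g : Matrix.GeneralLinearGroup ι F) : Matrix ι ι F) =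
      Cfsg.reflectionMatrix ⇑Q v}

theorem tc_iff {c : F} (hc : c ≠ 0) (x : F) :
    (∃ t : F, t ≠ 0 ∧ x = c * t ^ 2) ↔ x ≠ 0 ∧ qs x = qs c := by
  constructor
  · rintro ⟨t, ht, rfl⟩
    refine ⟨mul_ne_zero hc (pow_ne_zero 2 ht), ?_⟩
    rw [qs_mul hc (pow_ne_zero 2 ht), qs_of_isSquare ⟨t, pow_two t⟩, mul_one]
  · rintro ⟨hx, hq⟩
    have h1 : qs (x * c) = 1 := by
      rw [qs_mul hx hc, hq]
      exact Int.units_mul_self _
    obtain ⟨r, hr⟩ := (qs_eq_one_iff _).mp h1
    have hr0 : r ≠ 0 := by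
      rintro rfl
      rw [mul_zero] at hr
      exact (mul_ne_zero hx hc) hr
    refine ⟨r / c, div_ne_zero hr0 hc, ?_⟩
    field_simp
    rw [hr]; ring

theorem refl_mem_Hc {c : F} (hc : c ≠ 0) (v : ι → F) (hv : Q v ≠ 0) (hq : qs (Q v) = qs c) :
    refl Q v hv ∈ Hc Q c := by
  obtain ⟨t, ht, h⟩ := (tc_iff hc (Q v)).mpr ⟨hv, hq⟩
  exact Subgroup.subset_closure ⟨v, t, ht, h, mat_refl Q v hv⟩

theorem Hc_normal (c : F) (hc : c ≠ 0) : (Hc Q c).Normal := by
  constructor
  intro n hn g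
  unfold Hc at hn ⊢
  induction hn using Subgroup.closure_induction with
  | mem x hx =>
    obtain ⟨v, t, ht, hv, hx⟩ := hx
    have hv0 : Q v ≠ 0 := by rw [hv]; exact mul_ne_zero hc (pow_ne_zero 2 ht)
    have hx' : x = refl Q v hv0 := mat_injective hx
    have hv' : Q (mat g *ᵥ v) ≠ 0 := by rw [mat_preserves g v]; exact hv0
    apply Subgroup.subset_closure
    refine ⟨mat g *ᵥ v, t, ht, by rw [mat_preserves g v]; exact hv, ?_⟩
    rw [hx', conj_refl' Q g v hv0 hv']
    rfl
  | one => simp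
  | mul x y _ _ hx hy =>
    have : g * (x * y) * g⁻¹ = (g * x * g⁻¹) * (g * y * g⁻¹) := by group
    rw [this]
    exact Subgroup.mul_mem _ hx hy
  | inv x _ hx =>
    have : g * x⁻¹ * g⁻¹ = (g * x * g⁻¹)⁻¹ := by group
    rw [this]
    exact Subgroup.inv_mem _ hx

/-- three reflections in a plane -/
theorem three_refl (hQ : (QuadraticMap.polarBilin Q).Nondegenerate)
    (hex : Fintype.card F ≠ 2 ∨ Fintype.card ι ≠ 4) (u w a : ι → F) (hu : Q u ≠ 0)
    (hw : Q w ≠ 0) (ha : Q a ≠ 0) (α β : F) (haw : a = α • u + β • w) :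
    ∃ (b : ι → F) (hb : Q b ≠ 0), refl Q u hu * refl Q w hw * refl Q a ha = refl Q b hb := by
  rw [← rank_one_iff Q hQ]
  have h1 := finrank_inf_ker (⊤ : Submodule F (ι → F)) (QuadraticMap.polarBilin Q u)
  have h2 := finrank_inf_ker ((⊤ : Submodule F (ι → F)) ⊓ LinearMap.ker (QuadraticMap.polarBilin Q u))
    (QuadraticMap.polarBilin Q w)
  have h3 : ((⊤ : Submodule F (ι → F)) ⊓ LinearMap.ker (QuadraticMap.polarBilin Q u)) ⊓
      LinearMap.ker (QuadraticMap.polarBilin Q w) ≤
      fx (refl Q u hu * refl Q w hw * refl Q a ha) := by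
    rintro x ⟨⟨_, hx1⟩, hx2⟩
    have e1 : polar ⇑Q u x = 0 := hx1
    have e2 : polar ⇑Q w x = 0 := hx2
    have e3 : polar ⇑Q a x = 0 := by
      rw [haw, polar_add_left, polar_smul_left, polar_smul_left, e1, e2]
      simp
    rw [mem_fx, mat_mul_mulVec, mat_mul_mulVec, mat_refl, mat_refl, mat_refl,
      reflection_fix Q a x e3, reflection_fix Q w x e2, reflection_fix Q u x e1]
  have h4 := Submodule.finrank_mono h3
  rw [finrank_top, Module.finrank_fintype_fun_eq_card] at h1
  have h5 : Dickson.dk (refl Q u hu * refl Q w hw * refl Q a ha) = -1 := by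
    rw [Dickson.dk_mul Q hQ hex, Dickson.dk_mul Q hQ hex, Dickson.dk_refl Q hQ,
      Dickson.dk_refl Q hQ, Dickson.dk_refl Q hQ]
    rfl
  unfold Dickson.dk at h5
  rw [neg_one_pow_eq_neg_one_iff_odd (by decide)] at h5
  have h6 := dfix_le (refl Q u hu * refl Q w hw * refl Q a ha)
  have h7 := rank_add_dfix (refl Q u hu * refl Q w hw * refl Q a ha)
  have h8 : Module.finrank F (fx (refl Q u hu * refl Q w hw * refl Q a ha)) =
    dfix (refl Q u hu * refl Q w hw * refl Q a ha) := rfl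
  obtain ⟨k, hk⟩ := h5
  omega

/-- a binary form of nonzero discriminant is universal -/
theorem exists_in_plane (u w : ι → F)
    (hd : polar ⇑Q u w ^ 2 - 4 * Q u * Q w ≠ 0) (c : F) :
    ∃ α β : F, Q (α • u + β • w) = c := by
  let L : (Fin 2 → F) →ₗ[F] (ι → F) :=
    (LinearMap.proj 0).smulRight u + (LinearMap.proj 1).smulRight w
  have hL : ∀ v, L v = v 0 • u + v 1 • w := fun v => rfl
  obtain ⟨v, hv⟩ := Cfsg.Agent.Lib.Helper4.QuadFin.represents (Q := Q.comp L) (by
    intro v hv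
    have hp : ∀ v', polar ⇑Q (L v) (L v') = 0 := by
      intro v'
      have := hv v'
      simpa [polar, map_add] using this
    have e1 := hp ![1, 0]
    have e2 := hp ![0, 1]
    rw [hL, hL] at e1 e2
    simp only [Matrix.cons_val_zero, Matrix.cons_val_one, one_smul, zero_smul, add_zero, zero_add,
      polar_add_left, polar_smul_left, polar_self', smul_eq_mul] at e1 e2
    rw [polar_comm ⇑Q w u] at e1
    have a0 : v 0 * (polar ⇑Q u w ^ 2 - 4 * Q u * Q w) = 0 := by
      linear_combination polar ⇑Q u w * e2 - 2 * Q w * e1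
    have a1 : v 1 * (polar ⇑Q u w ^ 2 - 4 * Q u * Q w) = 0 := by
      linear_combination polar ⇑Q u w * e1 - 2 * Q u * e2
    funext i
    fin_cases i
    · exact (mul_eq_zero.mp a0).resolve_right hd
    · exact (mul_eq_zero.mp a1).resolve_right hd) (by simp) c
  exact ⟨v 0, v 1, hv⟩

theorem exists_param (hq : 4 ≤ Fintype.card F) (h2 : (2 : F) ≠ 0) (η : F) (hη : ¬ IsSquare η) :
    ∃ l m : F, l ≠ 0 ∧ m ≠ 0 ∧ 1 + l ^ 2 * η = m ^ 2 := by
  obtain ⟨s, hs0, hs⟩ : ∃ s : F, s ≠ 0 ∧ s ^ 2 + η ≠ 0 := by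
    by_cases h : IsSquare (-η)
    · obtain ⟨ρ, hρ⟩ := h
      have hcard : ({0, ρ, -ρ} : Finset F).card < (Finset.univ : Finset F).card := by
        rw [Finset.card_univ]
        exact lt_of_le_of_lt Finset.card_le_three (by omega)
      obtain ⟨s, _, hs⟩ := Finset.exists_mem_notMem_of_card_lt_card hcard
      simp only [Finset.mem_insert, Finset.mem_singleton, not_or] at hs
      refine ⟨s, hs.1, ?_⟩
      intro h0
      have : (s - ρ) * (s + ρ) = 0 := by linear_combination h0 + hρ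
      rcases mul_eq_zero.mp this with h3 | h3
      · exact hs.2.1 (by linear_combination h3)
      · exact hs.2.2 (by linear_combination h3)
    · refine ⟨1, one_ne_zero, ?_⟩
      intro h0
      apply h
      exact ⟨1, by linear_combination -h0⟩
  have hd : s ^ 2 - η ≠ 0 := by
    intro h0
    apply hη
    exact ⟨s, by linear_combination -h0⟩
  refine ⟨2 * s / (s ^ 2 - η), (s ^ 2 + η) / (s ^ 2 - η), ?_, ?_, ?_⟩
  · exact div_ne_zero (mul_ne_zero h2 hs0) hd
  · exact div_ne_zero hs hd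
  · field_simp
    ring

theorem exists_a (h2 : (2 : F) ≠ 0) (hQ : (QuadraticMap.polarBilin Q).Nondegenerate)
    (hn : 4 ≤ Fintype.card ι) (hcase : 6 ≤ Fintype.card ι ∨ 4 ≤ Fintype.card F) {c : F}
    (hc : c ≠ 0) (e u : ι → F) (heu : polar ⇑Q e u = 0) (hu : Q u ≠ 0)
    (hqu : qs (Q u) ≠ qs c) :
    ∃ a, polar ⇑Q e a = 0 ∧ Q a ≠ 0 ∧ qs (Q a) = qs c ∧ polar ⇑Q a u ≠ 0 := by
  rcases hcase with h6 | h4
  · have := finrank_span_two e u
    obtain ⟨b, hb, hbD⟩ := exists_norm_orth Q hQ (Submodule.span F {e, u}) (by omega) (c - Q u)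
    have hbe : polar ⇑Q e b = 0 := hbD e (Submodule.subset_span (by simp))
    have hbu : polar ⇑Q u b = 0 := hbD u (Submodule.subset_span (by simp))
    have hQa : Q (u + b) = c := by
      rw [QuadraticMap.map_add Q, hb, hbu]; ring
    refine ⟨u + b, ?_, by rw [hQa]; exact hc, by rw [hQa], ?_⟩
    · rw [polar_add_right, heu, hbe, add_zero]
    · rw [polar_add_left, polar_self', polar_comm ⇑Q b u, hbu, add_zero]
      exact mul_ne_zero h2 hu
  · have := finrank_span_one e
    obtain ⟨a₀, ha₀, ha₀D⟩ := exists_norm_orth Q hQ (Submodule.span F {e}) (by omega) c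
    have ha₀e : polar ⇑Q e a₀ = 0 := ha₀D e (Submodule.mem_span_singleton_self e)
    by_cases h0 : polar ⇑Q a₀ u = 0
    · have hη : ¬ IsSquare (Q u / c) := by
        rintro ⟨r, hr⟩
        apply hqu
        have hr0 : r ≠ 0 := by
          rintro rfl
          rw [mul_zero] at hr
          exact (div_ne_zero hu hc) hr
        exact ((tc_iff hc (Q u)).mp ⟨r, hr0, by
          field_simp at hr
          rw [hr]⟩).2
      obtain ⟨l, m, hl, hm, hlm⟩ := exists_param h4 h2 _ hη
      have hQa : Q (a₀ + l • u) = c * m ^ 2 := by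
        rw [QuadraticMap.map_add Q, QuadraticMap.map_smul, polar_smul_right, h0, ha₀, ← hlm]
        simp only [smul_eq_mul]
        field_simp
        ring
      obtain ⟨k1, k2⟩ := (tc_iff hc _).mp ⟨m, hm, hQa⟩
      refine ⟨a₀ + l • u, ?_, k1, k2, ?_⟩
      · rw [polar_add_right, polar_smul_right, ha₀e, heu]
        simp
      · rw [polar_add_left, polar_smul_left, h0, polar_self', zero_add, smul_eq_mul]
        exact mul_ne_zero hl (mul_ne_zero h2 hu)
    · exact ⟨a₀, ha₀e, by rw [ha₀]; exact hc, by rw [ha₀], h0⟩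

theorem key (h2 : (2 : F) ≠ 0) (hQ : (QuadraticMap.polarBilin Q).Nondegenerate)
    (hcase : Fintype.card ι = 2 ∨
      (4 ≤ Fintype.card ι ∧ (6 ≤ Fintype.card ι ∨ 4 ≤ Fintype.card F))) {c : F}
    (hc : c ≠ 0) (u w : ι → F) (hu : Q u ≠ 0) (hw : Q w ≠ 0) (hqu : qs (Q u) ≠ qs c)
    (hqw : qs (Q w) ≠ qs c) : refl Q u hu * refl Q w hw ∈ Hc Q c := by
  have hn2 : 2 ≤ Fintype.card ι := by omega
  have hF2 : Fintype.card F ≠ 2 := by
    intro h
    apply h2
    have h3 : ((Fintype.card F : ℕ) : F) = 0 := Nat.cast_card_eq_zero F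
    rw [h] at h3
    exact_mod_cast h3
  have hex : Fintype.card F ≠ 2 ∨ Fintype.card ι ≠ 4 := Or.inl hF2
  have hnorm := Hc_normal Q c hc
  obtain ⟨θ, sd, hθ, hsd, _, hΩ⟩ := Spinor.main Q h2 hQ hn2
  have hquw : qs (Q u) * qs (Q w) = 1 := by
    rcases Int.units_eq_one_or (qs (Q u)) with h | h <;>
    rcases Int.units_eq_one_or (qs (Q w)) with h' | h' <;>
    rcases Int.units_eq_one_or (qs c) with h'' | h'' <;>
    simp_all
  by_cases hd : polar ⇑Q u w ^ 2 - 4 * Q u * Q w = 0
  · -- the degenerate case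
    have hp0 : polar ⇑Q u w ≠ 0 := by
      intro h0
      rw [h0] at hd
      have : 4 * Q u * Q w = 0 := by linear_combination -hd
      have h4 : (4 : F) ≠ 0 := by
        have : (4 : F) = 2 * 2 := by norm_num
        rw [this]
        exact mul_ne_zero h2 h2
      exact (mul_ne_zero (mul_ne_zero h4 hu) hw) this
    obtain ⟨μ, hμ⟩ : ∃ μ, μ = polar ⇑Q u w / (2 * Q u) := ⟨_, rfl⟩
    have hμ0 : μ ≠ 0 := by rw [hμ]; exact div_ne_zero hp0 (mul_ne_zero h2 hu)
    obtain ⟨e, he'⟩ : ∃ e, e = w - μ • u := ⟨_, rfl⟩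
    have hwe : w = μ • u + e := by rw [he']; abel
    have heu : polar ⇑Q e u = 0 := by
      rw [he', polar_sub_left, polar_smul_left, polar_self', polar_comm ⇑Q w u, hμ, smul_eq_mul]
      field_simp
      ring
    have he : Q e = 0 := by
      rw [he', map_sub_smul, hμ]
      field_simp
      linear_combination -hd
    by_cases he0 : e = 0
    · rw [he0, add_zero] at hwe
      have hw'' : Q (μ • u) ≠ 0 := by rw [← hwe]; exact hw
      rw [refl_congr Q hwe hw hw'', OrthThree.refl_smul' Q _ hμ0 u hu hw'', refl_mul_self]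
      exact Subgroup.one_mem _
    · rcases hcase with hc2 | ⟨hn4, hcase⟩
      · exfalso
        have h1 := LinearMap.BilinForm.finrank_orthogonal hQ (Submodule.span F {e})
        rw [finrank_span_singleton he0, Module.finrank_fintype_fun_eq_card, hc2] at h1
        have h3 : Module.finrank F (LinearMap.BilinForm.orthogonal (QuadraticMap.polarBilin Q)
          (Submodule.span F {e})) ≤ 1 := by omega
        rw [finrank_le_one_iff] at h3
        obtain ⟨v, hv⟩ := h3
        have hmem : ∀ x, polar ⇑Q e x = 0 → x ∈ LinearMap.BilinForm.orthogonal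
            (QuadraticMap.polarBilin Q) (Submodule.span F {e}) := by
          intro x hx
          rw [LinearMap.BilinForm.mem_orthogonal_iff]
          intro y hy
          obtain ⟨s, rfl⟩ := Submodule.mem_span_singleton.mp hy
          show polar ⇑Q (s • e) x = 0
          rw [polar_smul_left, hx, smul_zero]
        obtain ⟨c₁, hc₁⟩ := hv ⟨e, hmem e (by rw [polar_self', he, mul_zero])⟩
        obtain ⟨c₂, hc₂⟩ := hv ⟨u, hmem u heu⟩
        have e1 : c₁ • v.1 = e := congrArg Subtype.val hc₁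
        have e2 : c₂ • v.1 = u := congrArg Subtype.val hc₂
        have hc₁0 : c₁ ≠ 0 := by
          rintro rfl
          rw [zero_smul] at e1
          exact he0 e1.symm
        apply hu
        have : u = (c₂ / c₁) • e := by
          rw [← e1, ← e2, smul_smul]
          congr 1
          field_simp
        rw [this, QuadraticMap.map_smul, he, smul_zero]
      · obtain ⟨a, hea, ha, hqa, hau⟩ := exists_a Q h2 hQ hn4 hcase hc e u heu hu hqu
        obtain ⟨s, hs⟩ : ∃ s, s = μ⁻¹ / polar ⇑Q a u := ⟨_, rfl⟩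
        have hse : Q (s • e) = 0 := by rw [QuadraticMap.map_smul, he, smul_zero]
        have hsea : polar ⇑Q (s • e) a = 0 := by rw [polar_smul_left, hea, smul_zero]
        have hq : Q (a - Q a • (s • e)) = Q a := by
          rw [map_sub_smul, hse, hsea]; ring
        have ha' : Q (a - Q a • (s • e)) ≠ 0 := by rw [hq]; exact ha
        have ht := isEich_refl Q (s • e) a hse hsea ha ha'
        have htH : refl Q a ha * refl Q (a - Q a • (s • e)) ha' ∈ Hc Q c :=
          Subgroup.mul_mem _ (refl_mem_Hc Q hc a ha hqa)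
            (refl_mem_Hc Q hc _ ha' (by rw [hq]; exact hqa))
        obtain ⟨t, htdef⟩ : ∃ t, t = refl Q a ha * refl Q (a - Q a • (s • e)) ha' := ⟨_, rfl⟩
        rw [← htdef] at ht htH
        have htu : mat t *ᵥ u = μ⁻¹ • w := by
          rw [ht u]
          unfold eform
          rw [polar_smul_left, heu, hwe, hs, smul_add, smul_smul, smul_smul μ⁻¹ μ u,
            inv_mul_cancel₀ hμ0]
          have : polar ⇑Q a u * (μ⁻¹ / polar ⇑Q a u) = μ⁻¹ := by field_simp
          rw [this]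
          simp
        have hw1 : Q (mat t *ᵥ u) ≠ 0 := by rw [mat_preserves t u]; exact hu
        have hw2 : Q (μ⁻¹ • w) ≠ 0 := by rw [← htu]; exact hw1
        have h1 : refl Q w hw = t * refl Q u hu * t⁻¹ := by
          rw [conj_refl' Q t u hu hw1, refl_congr Q htu hw1 hw2,
            OrthThree.refl_smul' Q _ (inv_ne_zero hμ0) w hw hw2]
        have h3 : refl Q u hu * refl Q w hw = (refl Q u hu * t * (refl Q u hu)⁻¹) * t⁻¹ := by
          rw [h1, refl_inv]
          group
        rw [h3]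
        exact Subgroup.mul_mem _ (hnorm.conj_mem t htH _) (Subgroup.inv_mem _ htH)
  · obtain ⟨α, β, hαβ⟩ := exists_in_plane Q u w hd c
    have ha : Q (α • u + β • w) ≠ 0 := by rw [hαβ]; exact hc
    obtain ⟨b, hb, hg⟩ := three_refl Q hQ hex u w _ hu hw ha α β rfl
    have h1 := congrArg θ hg
    rw [map_mul, map_mul, hθ, hθ, hθ, hθ, hquw, one_mul, hαβ] at h1
    have h3 : refl Q u hu * refl Q w hw = refl Q b hb * refl Q _ ha := by
      rw [← hg, mul_assoc, refl_mul_self, mul_one]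
    rw [h3]
    exact Subgroup.mul_mem _ (refl_mem_Hc Q hc b hb h1.symm)
      (refl_mem_Hc Q hc _ ha (by rw [hαβ]))

theorem index_Hc (h2 : (2 : F) ≠ 0) (hQ : (QuadraticMap.polarBilin Q).Nondegenerate)
    (hcase : Fintype.card ι = 2 ∨
      (4 ≤ Fintype.card ι ∧ (6 ≤ Fintype.card ι ∨ 4 ≤ Fintype.card F))) {c : F}
    (hc : c ≠ 0) : (Hc Q c).index = 2 := by
  have hn2 : 2 ≤ Fintype.card ι := by omega
  have hnorm := Hc_normal Q c hc
  obtain ⟨θ, sd, hθ, hsd, _, hΩ⟩ := Spinor.main Q h2 hQ hn2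
  obtain ⟨η, hη⟩ := exists_nonsq (F := F) h2
  have hη0 : η ≠ 0 := by
    rintro rfl
    exact hη ⟨0, by simp⟩
  obtain ⟨u₀, hu₀⟩ := exists_norm Q hQ hn2 (c * η)
  have hu₀0 : Q u₀ ≠ 0 := by rw [hu₀]; exact mul_ne_zero hc hη0
  have hq₀' : qs (Q u₀) = - qs c := by
    rw [hu₀, qs_mul hc hη0, qs_of_not_isSquare hη]
    simp
  have hq₀ : qs (Q u₀) ≠ qs c := by
    rw [hq₀']
    rcases Int.units_eq_one_or (qs c) with h | h <;> rw [h] <;> decide
  have hgen : ∀ g ∈ {g : ↥(Cfsg.isometryGroup F ⇑Q) | ∃ (v : ι → F) (t : F), t ≠ 0 ∧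
      Q v = c * t ^ 2 ∧ ((g : Matrix.GeneralLinearGroup ι F) : Matrix ι ι F) =
      Cfsg.reflectionMatrix ⇑Q v}, θ g = qs c ∧ sd g = -1 := by
    rintro g ⟨v, t, ht, hv, hg⟩
    obtain ⟨k1, k2⟩ := (tc_iff hc _).mp ⟨t, ht, hv⟩
    have hg' : g = refl Q v k1 := mat_injective hg
    rw [hg', hθ, hsd]
    exact ⟨k2, rfl⟩
  have hnot : refl Q u₀ hu₀0 ∉ Hc Q c := by
    intro hmem
    rcases Int.units_eq_one_or (qs c) with h | h
    · have hle : Hc Q c ≤ θ.ker := by
        unfold Hc
        rw [Subgroup.closure_le]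
        intro g hg
        show g ∈ θ.ker
        rw [MonoidHom.mem_ker, (hgen g hg).1, h]
      have h1 := MonoidHom.mem_ker.mp (hle hmem)
      rw [hθ, hq₀', h] at h1
      exact absurd h1 (by decide)
    · have hle : Hc Q c ≤ (θ * sd).ker := by
        unfold Hc
        rw [Subgroup.closure_le]
        intro g hg
        show g ∈ (θ * sd).ker
        rw [MonoidHom.mem_ker, MonoidHom.mul_apply, (hgen g hg).1, (hgen g hg).2, h]
        rfl
      have h1 := MonoidHom.mem_ker.mp (hle hmem)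
      rw [MonoidHom.mul_apply, hθ, hsd, hq₀', h] at h1
      exact absurd h1 (by decide)
  have step : ∀ (v : ι → F) (hv : Q v ≠ 0) (y : ↥(Cfsg.isometryGroup F ⇑Q)),
      (y ∈ Hc Q c ∨ y * refl Q u₀ hu₀0 ∈ Hc Q c) →
      (refl Q v hv * y ∈ Hc Q c ∨ refl Q v hv * y * refl Q u₀ hu₀0 ∈ Hc Q c) := by
    intro v hv y ih
    by_cases hqv : qs (Q v) = qs c
    · have hv' := refl_mem_Hc Q hc v hv hqv
      rcases ih with h | h
      · exact Or.inl (Subgroup.mul_mem _ hv' h)
      · right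
        rw [mul_assoc]
        exact Subgroup.mul_mem _ hv' h
    · have hk := key Q h2 hQ hcase hc v u₀ hv hu₀0 hqv hq₀
      rcases ih with h | h
      · right
        have : refl Q v hv * y * refl Q u₀ hu₀0 =
            (refl Q v hv * y * (refl Q v hv)⁻¹) * (refl Q v hv * refl Q u₀ hu₀0) := by group
        rw [this]
        exact Subgroup.mul_mem _ (hnorm.conj_mem y h _) hk
      · left
        have : refl Q v hv * y =
            (refl Q v hv * (y * refl Q u₀ hu₀0) * (refl Q v hv)⁻¹) *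
              (refl Q v hv * refl Q u₀ hu₀0) := by
          have h5 : refl Q v hv * (y * refl Q u₀ hu₀0) * (refl Q v hv)⁻¹ *
              (refl Q v hv * refl Q u₀ hu₀0) =
              refl Q v hv * y * (refl Q u₀ hu₀0 * refl Q u₀ hu₀0) := by group
          rw [h5, refl_mul_self, mul_one]
        rw [this]
        exact Subgroup.mul_mem _ (hnorm.conj_mem _ h _) hk
  have hor : ∀ b : ↥(Cfsg.isometryGroup F ⇑Q), b ∈ Hc Q c ∨ b * refl Q u₀ hu₀0 ∈ Hc Q c := by
    intro b
    have hb : b ∈ R Q := by rw [R_eq_top h2 Q hQ]; trivial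
    induction hb using Subgroup.closure_induction_left with
    | one => exact Or.inl (Subgroup.one_mem _)
    | mul_left x hx y hy ih =>
      obtain ⟨v, hv, hx'⟩ := hx
      have hx'' : x = refl Q v hv := mat_injective hx'
      rw [hx'']
      exact step v hv y ih
    | inv_mul_cancel x hx y hy ih =>
      obtain ⟨v, hv, hx'⟩ := hx
      have hx'' : x = refl Q v hv := mat_injective hx'
      rw [hx'', refl_inv]
      exact step v hv y ih
  rw [Subgroup.index_eq_two_iff]
  refine ⟨refl Q u₀ hu₀0, fun b => ?_⟩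
  rcases hor b with h | h
  · right
    refine ⟨h, fun h' => hnot ?_⟩
    have : refl Q u₀ hu₀0 = b⁻¹ * (b * refl Q u₀ hu₀0) := by group
    rw [this]
    exact Subgroup.mul_mem _ (Subgroup.inv_mem _ h) h'
  · left
    refine ⟨h, fun h' => hnot ?_⟩
    have : refl Q u₀ hu₀0 = b⁻¹ * (b * refl Q u₀ hu₀0) := by group
    rw [this]
    exact Subgroup.mul_mem _ (Subgroup.inv_mem _ h') h

end Cfsg.Agent.Lib.Helper5.OrthNormClass
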