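import Mathlib
import Cfsg.Prelude.Def_ClassicalGeometry
import Cfsg.Agent.Lib.Helper5.OrthEich
import Cfsg.Agent.Lib.Helper5.SympSimple

set_option autoImplicit false
set_option linter.unusedSectionVars false

namespace Cfsg.Agent.Lib.Helper5.OrthSimple

open Matrix Cfsg.Agent.Lib.Helper5.OrthCard Cfsg.Agent.Lib.Helper5.Orth
  Cfsg.Agent.Lib.Helper5.OrthGen QuadraticMap Cfsg.Agent.Lib.Helper5.OrthRefl
  Cfsg.Agent.Lib.Helper5.OrthTrans Cfsg.Agent.Lib.Helper5.OrthEich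

open scoped Pointwise

variable {F : Type*} [Field F] {ι : Type} [Fintype ι] [DecidableEq ι]
variable (Q : QuadraticForm F (ι → F))

/-- the singular points -/
def Pt : Type _ := {U : Submodule F (ι → F) // ∃ e, e ≠ 0 ∧ Q e = 0 ∧ U = F ∙ e}

variable {Q}

/-- the point of a singular vector -/
def pt (e : ι → F) (he0 : e ≠ 0) (he : Q e = 0) : Pt Q := ⟨F ∙ e, e, he0, he, rfl⟩

theorem img_span {Q' : (ι → F) → F} (g : ↥(Cfsg.isometryGroup F Q')) (e : ι → F) :
    img g (F ∙ e) = F ∙ (mat g *ᵥ e) := by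
  unfold img
  rw [Submodule.map_span, Set.image_singleton, Matrix.mulVecLin_apply]

theorem mulVec_ne_zero {Q' : (ι → F) → F} (g : ↥(Cfsg.isometryGroup F Q')) {e : ι → F}
    (he : e ≠ 0) : mat g *ᵥ e ≠ 0 := by
  intro h
  apply he
  rw [← mat_inv_mulVec g e, h, mulVec_zero]

instance act : MulAction ↥(Cfsg.Omega F ⇑Q) (Pt Q) where
  smul g U := ⟨img g.1 U.1, by
    obtain ⟨e, he0, he, hU⟩ := U.2
    exact ⟨mat g.1 *ᵥ e, mulVec_ne_zero g.1 he0, by rw [mat_preserves g.1 e]; exact he,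
      by rw [hU, img_span]⟩⟩
  one_smul U := Subtype.ext (img_one _)
  mul_smul g h U := Subtype.ext (img_mul g.1 h.1 U.1)

theorem smul_pt (g : ↥(Cfsg.Omega F ⇑Q)) (e : ι → F) (he0 : e ≠ 0) (he : Q e = 0) :
    g • pt e he0 he = pt (mat g.1 *ᵥ e) (mulVec_ne_zero g.1 he0)
      (by rw [mat_preserves g.1 e]; exact he) :=
  Subtype.ext (img_span g.1 e)

theorem pt_congr {e e' : ι → F} (h : e = e') (he0 : e ≠ 0) (he : Q e = 0) (he0' : e' ≠ 0)
    (he' : Q e' = 0) : pt e he0 he = pt e' he0' he' := by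
  subst h; rfl

theorem pt_smul (s : F) (hs : s ≠ 0) (e : ι → F) (he0 : e ≠ 0) (he : Q e = 0)
    (h1 : s • e ≠ 0) (h2 : Q (s • e) = 0) : pt (s • e) h1 h2 = pt e he0 he :=
  Subtype.ext (Submodule.span_singleton_smul_eq (IsUnit.mk0 s hs) e)

theorem pt_eq_iff (e e' : ι → F) (he0 : e ≠ 0) (he : Q e = 0) (he0' : e' ≠ 0)
    (he' : Q e' = 0) : pt e he0 he = pt e' he0' he' ↔ e ∈ Submodule.span F {e'} := by
  constructor
  · intro h
    have h1 : (F ∙ e) = F ∙ e' := congrArg Subtype.val h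
    rw [← h1]
    exact Submodule.mem_span_singleton_self e
  · intro h
    obtain ⟨s, hs⟩ := Submodule.mem_span_singleton.mp h
    have hs0 : s ≠ 0 := by
      rintro rfl
      rw [zero_smul] at hs
      exact he0 hs.symm
    subst hs
    exact pt_smul s hs0 e' he0' he' _ _

section prim

variable [Fintype F] (hP : HP2 Q) (hQ : (QuadraticMap.polarBilin Q).Nondegenerate)
  (hn : 5 ≤ Fintype.card ι)

include hP hQ hn

theorem trans : MulAction.IsPretransitive ↥(Cfsg.Omega F ⇑Q) (Pt Q) := by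
  constructor
  rintro ⟨U, e, he0, he, rfl⟩ ⟨W, e', he0', he', rfl⟩
  obtain ⟨g, hg, hgU⟩ := trans_ts Q hQ (Or.inr (by omega)) (F ∙ e) (F ∙ e') (k := 1) (by omega)
    (finrank_span_singleton he0) (finrank_span_singleton he0')
    (by
      intro u hu
      obtain ⟨s, rfl⟩ := Submodule.mem_span_singleton.mp hu
      rw [QuadraticMap.map_smul, he, smul_zero])
    (by
      intro u hu
      obtain ⟨s, rfl⟩ := Submodule.mem_span_singleton.mp hu
      rw [QuadraticMap.map_smul, he', smul_zero])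
  exact ⟨⟨g, hg⟩, Subtype.ext hgU⟩

theorem prim : MulAction.IsPreprimitive ↥(Cfsg.Omega F ⇑Q) (Pt Q) := by
  have hex : Fintype.card F ≠ 2 ∨ Fintype.card ι ≠ 4 := Or.inr (by omega)
  have htrans := trans hP hQ hn
  refine ⟨?_⟩
  intro B hB
  by_cases hsub : B.Subsingleton
  · exact Or.inl hsub
  right
  have K : ∀ (g : ↥(Cfsg.Omega F ⇑Q)) (P R : Pt Q), P ∈ B → g • P = P → R ∈ B → g • R ∈ B := by
    intro g P R hPB hgP hRB
    rcases hB.smul_eq_or_disjoint g with h | h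
    · rw [← h]
      exact Set.smul_mem_smul_set hRB
    · exfalso
      apply Set.disjoint_left.mp h _ hPB
      rw [← hgP]
      exact Set.smul_mem_smul_set hPB
  have L1 : ∀ (a b c : ι → F) (ha0 : a ≠ 0) (hb0 : b ≠ 0) (hc0 : c ≠ 0) (ha : Q a = 0)
      (hb : Q b = 0) (hc : Q c = 0), pt a ha0 ha ∈ B → pt b hb0 hb ∈ B → polar ⇑Q a b ≠ 0 →
      polar ⇑Q a c ≠ 0 → pt c hc0 hc ∈ B := by
    intro a b c ha0 hb0 hc0 ha hb hc haB hbB hab hac
    have hs0 : polar ⇑Q a b / polar ⇑Q a c ≠ 0 := div_ne_zero hab hac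
    have hw : polar ⇑Q a ((polar ⇑Q a b / polar ⇑Q a c) • c) = polar ⇑Q a b := by
      rw [polar_smul_right, smul_eq_mul]
      field_simp
    have hQw : Q ((polar ⇑Q a b / polar ⇑Q a c) • c) = 0 := by
      rw [QuadraticMap.map_smul, hc, smul_zero]
    obtain ⟨t, htΩ, ht⟩ := exists_eich Q hQ hex (by omega) a
      ((polar ⇑Q a b)⁻¹ • (b - (polar ⇑Q a b / polar ⇑Q a c) • c)) ha (by
        rw [polar_smul_right, polar_sub_right, hw]
        simp)
    have hta : mat t *ᵥ a = a := by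
      rw [ht a]
      apply eform_self Q a _ ha
      rw [polar_smul_right, polar_sub_right, hw]
      simp
    have htb : mat t *ᵥ b = (polar ⇑Q a b / polar ⇑Q a c) • c := by
      rw [ht b]
      exact eform_move Q a b _ (by rw [hb, hQw]) _ hab rfl hw
    have h1 := K ⟨t, htΩ⟩ _ _ haB (by
      rw [smul_pt]
      exact pt_congr hta _ _ _ _) hbB
    rw [smul_pt, pt_congr htb _ _ (smul_ne_zero hs0 hc0) hQw, pt_smul _ hs0 c hc0 hc] at h1
    exact h1
  have L0 : ∀ (a b : ι → F) (ha0 : a ≠ 0) (hb0 : b ≠ 0) (ha : Q a = 0) (hb : Q b = 0),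
      pt a ha0 ha ∈ B → pt b hb0 hb ∈ B → pt a ha0 ha ≠ pt b hb0 hb →
      ∃ (a' : ι → F) (ha0' : a' ≠ 0) (ha' : Q a' = 0), pt a' ha0' ha' ∈ B ∧
        polar ⇑Q a a' ≠ 0 := by
    intro a b ha0 hb0 ha hb haB hbB hne
    have hnot : a ∉ Submodule.span F {b} := by
      intro h
      exact hne ((pt_eq_iff a b ha0 ha hb0 hb).mpr h)
    obtain ⟨x, hx, hbx, hax⟩ := hP.exists_sing hQ b a hnot
    obtain ⟨y, hy, hyW⟩ := exists_nonsing_orth Q hQ (Submodule.span F {x, b}) (by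
      classical
      have h2 := finrank_span_finset_le_card (R := F) ({x, b} : Finset (ι → F))
      rw [Finset.coe_pair] at h2
      have h3 : Module.finrank F (Submodule.span F {x, b}) ≤ 2 := h2.trans Finset.card_le_two
      omega)
    have hyx : polar ⇑Q y x = 0 := hyW x (Submodule.subset_span (by simp))
    have hyb : polar ⇑Q y b = 0 := hyW b (Submodule.subset_span (by simp))
    obtain ⟨t, htΩ, ht⟩ := exists_eich Q hQ hex (by omega) x y hx (by rw [polar_comm]; exact hyx)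
    have htb : mat t *ᵥ b = b := by
      rw [ht b]
      unfold eform
      rw [hyb, polar_comm ⇑Q x b, hbx]
      simp
    have h1 := K ⟨t, htΩ⟩ _ _ hbB (by
      rw [smul_pt]
      exact pt_congr htb _ _ _ _) haB
    rw [smul_pt] at h1
    refine ⟨_, _, _, h1, ?_⟩
    show polar ⇑Q a (mat t *ᵥ a) ≠ 0
    rw [ht a]
    unfold eform
    rw [polar_sub_right, polar_sub_right, polar_add_right, polar_smul_right, polar_smul_right,
      polar_smul_right, polar_self', ha, polar_comm ⇑Q x a, polar_comm ⇑Q y a]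
    simp only [smul_eq_mul]
    have : 2 * 0 + polar ⇑Q a y * polar ⇑Q a x - polar ⇑Q a x * polar ⇑Q a y -
        Q y * polar ⇑Q a x * polar ⇑Q a x = - (Q y * polar ⇑Q a x * polar ⇑Q a x) := by ring
    rw [this]
    exact neg_ne_zero.mpr (mul_ne_zero (mul_ne_zero hy hax) hax)
  rw [Set.not_subsingleton_iff] at hsub
  obtain ⟨⟨_, u, hu0, hu, rfl⟩, hPB, ⟨_, v, hv0, hv, rfl⟩, hRB, hPR⟩ := hsub
  obtain ⟨a', ha0', ha', haB', haa'⟩ : ∃ (a' : ι → F) (ha0' : a' ≠ 0) (ha' : Q a' = 0),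
      pt a' ha0' ha' ∈ B ∧ polar ⇑Q u a' ≠ 0 := by
    by_cases huv : polar ⇑Q u v = 0
    · exact L0 u v hu0 hv0 hu hv hPB hRB hPR
    · exact ⟨v, hv0, hv, hRB, huv⟩
  rw [Set.eq_univ_iff_forall]
  rintro ⟨_, w, hw0, hw, rfl⟩
  by_cases huw : polar ⇑Q u w = 0
  · obtain ⟨z, hz, huz, hwz⟩ := exists_sing_off Q hQ u w hu0 hw0 hu hw huw
    have hz0 : z ≠ 0 := by
      rintro rfl
      simp at huz
    have hzB : pt z hz0 hz ∈ B := L1 u a' z hu0 ha0' hz0 hu ha' hz hPB haB' haa' huz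
    exact L1 z u w hz0 hu0 hw0 hz hu hw hzB hPB (by rw [polar_comm]; exact huz)
      (by rw [polar_comm]; exact hwz)
  · exact L1 u a' w hu0 ha0' hw0 hu ha' hw hPB haB' haa' huw

end prim

/-- the root group of a singular vector -/
def Te (e : ι → F) (he : Q e = 0) : Subgroup ↥(Cfsg.Omega F ⇑Q) where
  carrier := {g | ∃ a, polar ⇑Q e a = 0 ∧ IsEich Q g.1 e a}
  mul_mem' := by
    rintro g h ⟨a, ha, hg⟩ ⟨b, hb, hh⟩
    exact ⟨a + b, by rw [polar_add_right, ha, hb, add_zero], hg.mul hh he ha hb⟩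
  one_mem' := ⟨0, by simp, IsEich.one e⟩
  inv_mem' := by
    rintro g ⟨a, ha, hg⟩
    exact ⟨-a, by rw [polar_neg_right, ha, neg_zero], hg.inv he ha⟩

theorem mem_Te (e : ι → F) (he : Q e = 0) (g : ↥(Cfsg.Omega F ⇑Q)) :
    g ∈ Te e he ↔ ∃ a, polar ⇑Q e a = 0 ∧ IsEich Q g.1 e a := Iff.rfl

theorem Te_congr {e e' : ι → F} (h : e = e') (he : Q e = 0) (he' : Q e' = 0) :
    Te e he = Te e' he' := by
  subst h; rfl

theorem Te_smul (s : F) (hs : s ≠ 0) (e : ι → F) (he : Q e = 0) (he' : Q (s • e) = 0) :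
    Te (s • e) he' = Te e he := by
  ext g
  rw [mem_Te, mem_Te]
  constructor
  · rintro ⟨a, ha, hg⟩
    refine ⟨s • a, ?_, hg.smul⟩
    rw [polar_smul_right, ← polar_smul_left]
    exact ha
  · rintro ⟨a, ha, hg⟩
    refine ⟨s⁻¹ • a, ?_, ?_⟩
    · rw [polar_smul_right, polar_smul_left, ha]
      simp
    · apply IsEich.smul'
      rw [smul_smul, mul_inv_cancel₀ hs, one_smul]
      exact hg

/-- a representative -/
noncomputable def rep (P : Pt Q) : ι → F := P.2.choose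

theorem rep_ne (P : Pt Q) : rep P ≠ 0 := P.2.choose_spec.1

theorem rep_sing (P : Pt Q) : Q (rep P) = 0 := P.2.choose_spec.2.1

theorem rep_span (P : Pt Q) : P.1 = F ∙ rep P := P.2.choose_spec.2.2

theorem Te_rep (e : ι → F) (he0 : e ≠ 0) (he : Q e = 0) :
    Te (rep (pt e he0 he)) (rep_sing _) = Te e he := by
  have h1 : (F ∙ e) = F ∙ rep (pt e he0 he) := rep_span (pt e he0 he)
  have h2 : rep (pt e he0 he) ∈ F ∙ e := by
    rw [h1]
    exact Submodule.mem_span_singleton_self _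
  obtain ⟨s, hs⟩ := Submodule.mem_span_singleton.mp h2
  have hs0 : s ≠ 0 := by
    rintro rfl
    rw [zero_smul] at hs
    exact rep_ne _ hs.symm
  have he' : Q (s • e) = 0 := by rw [QuadraticMap.map_smul, he, smul_zero]
  rw [Te_congr hs.symm (rep_sing _) he', Te_smul s hs0 e he he']

theorem Te_conj (g : ↥(Cfsg.Omega F ⇑Q)) (e : ι → F) (he : Q e = 0)
    (he' : Q (mat g.1 *ᵥ e) = 0) : Te (mat g.1 *ᵥ e) he' = MulAut.conj g • Te e he := by
  ext B
  rw [Subgroup.mem_pointwise_smul_iff_inv_smul_mem, mem_Te, mem_Te]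
  have hB : ((MulAut.conj g)⁻¹ • B : ↥(Cfsg.Omega F ⇑Q)).1 = g.1⁻¹ * B.1 * g.1 := by
    simp [MulAut.smul_def]
  rw [hB]
  constructor
  · rintro ⟨a, ha, hg⟩
    refine ⟨mat g.1⁻¹ *ᵥ a, ?_, ?_⟩
    · rw [← mat_polar g.1, ← mat_mul_mulVec, mul_inv_cancel, mat_one_mulVec]
      exact ha
    · have h1 := hg.conj g.1⁻¹
      rw [inv_inv, mat_inv_mulVec] at h1
      exact h1
  · rintro ⟨a, ha, hg⟩
    refine ⟨mat g.1 *ᵥ a, by rw [mat_polar]; exact ha, ?_⟩
    have h1 := hg.conj g.1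
    have h2 : g.1 * (g.1⁻¹ * B.1 * g.1) * g.1⁻¹ = B.1 := by group
    rw [h2] at h1
    exact h1

section main

variable [Fintype F] (hP : HP2 Q) (hQ : (QuadraticMap.polarBilin Q).Nondegenerate)
  (hn : 5 ≤ Fintype.card ι)

include hP hQ hn

theorem iSup_Te : (⨆ P : Pt Q, Te (rep P) (rep_sing P)) = ⊤ := by
  have hex : Fintype.card F ≠ 2 ∨ Fintype.card ι ≠ 4 := Or.inr (by omega)
  have h1 : TT Q ≤ (⨆ P : Pt Q, Te (rep P) (rep_sing P)).map (Cfsg.Omega F ⇑Q).subtype := by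
    unfold TT
    rw [Subgroup.closure_le]
    rintro x ⟨e, a, he, hea, hx⟩
    by_cases he0 : e = 0
    · have : x = 1 := by
        apply ext_mulVec
        intro y
        rw [hx y, mat_one_mulVec, he0]
        unfold eform
        simp
      rw [this]
      exact Subgroup.one_mem _
    · obtain ⟨t, htΩ, ht⟩ := exists_eich Q hQ hex (by omega) e a he hea
      have hxt : x = t := hx.ext ht
      refine ⟨⟨t, htΩ⟩, ?_, hxt.symm⟩
      apply Subgroup.mem_iSup_of_mem (pt e he0 he)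
      rw [Te_rep]
      exact ⟨a, hea, ht⟩
  rw [eq_top_iff]
  intro g _
  obtain ⟨y, hy, hyg⟩ := h1 (hP.omega_le hQ hex (by omega) g.2)
  have : y = g := Subtype.ext hyg
  rw [← this]
  exact hy

/-- the Iwasawa structure -/
noncomputable def iwasawa : MulAction.IwasawaStructure ↥(Cfsg.Omega F ⇑Q) (Pt Q) where
  T P := Te (rep P) (rep_sing P)
  is_comm P := by
    refine ⟨⟨?_⟩⟩
    rintro ⟨g, a, ha, hg⟩ ⟨h, b, hb, hh⟩
    apply Subtype.ext
    apply Subtype.ext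
    show g.1 * h.1 = h.1 * g.1
    have h1 := hg.mul hh (rep_sing P) ha hb
    have h2 := hh.mul hg (rep_sing P) hb ha
    rw [add_comm] at h2
    exact h1.ext h2
  is_conj g P := by
    obtain ⟨_, e, he0, he, rfl⟩ := P
    have h1 : (⟨F ∙ e, e, he0, he, rfl⟩ : Pt Q) = pt e he0 he := rfl
    rw [h1, smul_pt, Te_rep, Te_rep, Te_conj]
  is_generator := iSup_Te hP hQ hn

theorem sing_mem (e b : ι → F) (he : Q e = 0) (hb : Q b = 0) (heb : polar ⇑Q e b = 0)
    (g : ↥(Cfsg.Omega F ⇑Q)) (hg : IsEich Q g.1 e b) : g ∈ commutator ↥(Cfsg.Omega F ⇑Q) := by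
  have hex : Fintype.card F ≠ 2 ∨ Fintype.card ι ≠ 4 := Or.inr (by omega)
  obtain ⟨x, x', hx, hx', hxx', h1, h2, h3, h4⟩ := hP e b
  obtain ⟨h, hhΩ, hh⟩ := exists_eich Q hQ hex (by omega) x b hx (by rw [polar_comm]; exact h2)
  have hex' : polar ⇑Q e (-x') = 0 := by rw [polar_neg_right, h3, neg_zero]
  obtain ⟨k, hkΩ, hk⟩ := exists_eich Q hQ hex (by omega) e (-x') he hex'
  have e1 : mat h *ᵥ e = e := by
    rw [hh e]
    unfold eform
    rw [polar_comm ⇑Q b e, heb, polar_comm ⇑Q x e, h1]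
    simp
  have e2 : mat h *ᵥ (-x') = b - x' := by
    rw [hh (-x')]
    unfold eform
    rw [polar_neg_right, polar_neg_right, h4, hxx', hb]
    simp
    abel
  have c1 := (hk.conj h).congr e1 e2
  have c2 := hk.inv he hex'
  have c3 := c1.mul c2 he (by rw [polar_sub_right, heb, h3, sub_zero])
    (by rw [neg_neg]; exact h3)
  have c4 : b - x' + - -x' = b := by abel
  rw [c4] at c3
  obtain ⟨H, hH⟩ : ∃ H : ↥(Cfsg.Omega F ⇑Q), H.1 = h := ⟨⟨h, hhΩ⟩, rfl⟩
  obtain ⟨K, hK⟩ : ∃ K : ↥(Cfsg.Omega F ⇑Q), K.1 = k := ⟨⟨k, hkΩ⟩, rfl⟩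
  have hg' : g = H * K * H⁻¹ * K⁻¹ := by
    apply Subtype.ext
    show g.1 = H.1 * K.1 * H.1⁻¹ * K.1⁻¹
    rw [hH, hK]
    exact hg.ext c3
  rw [hg', commutator_def, ← commutatorElement_def]
  exact Subgroup.commutator_mem_commutator (Subgroup.mem_top _) (Subgroup.mem_top _)

theorem Te_le_comm (e : ι → F) (he : Q e = 0) : Te e he ≤ commutator ↥(Cfsg.Omega F ⇑Q) := by
  have hex : Fintype.card F ≠ 2 ∨ Fintype.card ι ≠ 4 := Or.inr (by omega)
  rintro g ⟨b, heb, hg⟩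
  obtain ⟨x, x', hx, hx', hxx', h1, h2, h3, h4⟩ := hP e b
  have q1 : Q (b + (x - Q b • x')) = 0 := by
    rw [QuadraticMap.map_add Q, map_sub_smul, hx, hx', polar_comm ⇑Q x' x, hxx', polar_sub_right,
      polar_smul_right, h2, h4]
    simp
  have p1 : polar ⇑Q e (b + (x - Q b • x')) = 0 := by
    rw [polar_add_right, polar_sub_right, polar_smul_right, heb, h1, h3]
    simp
  have q2 : Q (-x) = 0 := by rw [QuadraticMap.map_neg, hx]
  have p2 : polar ⇑Q e (-x) = 0 := by rw [polar_neg_right, h1, neg_zero]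
  have q3 : Q (Q b • x') = 0 := by rw [QuadraticMap.map_smul, hx', smul_zero]
  have p3 : polar ⇑Q e (Q b • x') = 0 := by rw [polar_smul_right, h3, smul_zero]
  obtain ⟨g₁, hg₁Ω, hg₁⟩ := exists_eich Q hQ hex (by omega) e _ he p1
  obtain ⟨g₂, hg₂Ω, hg₂⟩ := exists_eich Q hQ hex (by omega) e _ he p2
  obtain ⟨g₃, hg₃Ω, hg₃⟩ := exists_eich Q hQ hex (by omega) e _ he p3
  have c1 := (hg₁.mul hg₂ he p1 p2).mul hg₃ he (by rw [polar_add_right, p1, p2, add_zero]) p3
  have c2 : b + (x - Q b • x') + -x + Q b • x' = b := by abel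
  rw [c2] at c1
  have hg' : g = (⟨g₁, hg₁Ω⟩ : ↥(Cfsg.Omega F ⇑Q)) * ⟨g₂, hg₂Ω⟩ * ⟨g₃, hg₃Ω⟩ := by
    apply Subtype.ext
    exact hg.ext c1
  rw [hg']
  exact Subgroup.mul_mem _ (Subgroup.mul_mem _ (sing_mem hP hQ hn e _ he q1 p1 _ hg₁)
    (sing_mem hP hQ hn e _ he q2 p2 _ hg₂)) (sing_mem hP hQ hn e _ he q3 p3 _ hg₃)

theorem perfect : commutator ↥(Cfsg.Omega F ⇑Q) = ⊤ := by
  rw [eq_top_iff, ← iSup_Te hP hQ hn, iSup_le_iff]
  intro P
  exact Te_le_comm hP hQ hn _ _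

theorem eq_one_of_fix (e : ι → F) (he0 : e ≠ 0) (he : Q e = 0) (g : ↥(Cfsg.Omega F ⇑Q))
    (hg : g ∈ Te e he) (hfix : ∀ P : Pt Q, g • P = P) : g = 1 := by
  obtain ⟨a, hea, hg⟩ := hg
  obtain ⟨f, hf, hef⟩ := exists_partner Q hQ e he0 he
  have hf0 : f ≠ 0 := by
    rintro rfl
    simp at hef
  have h1 := hfix (pt f hf0 hf)
  rw [smul_pt, pt_eq_iff] at h1
  obtain ⟨s, hs⟩ := Submodule.mem_span_singleton.mp h1
  rw [hg f] at hs
  unfold eform at hs
  rw [hef] at hs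
  have ha : a = (1 - s) • f + (polar ⇑Q a f - Q a) • e := by
    have h5 : a = f + polar ⇑Q a f • e - (Q a * 1) • e - s • f := by
      rw [hs]
      module
    exact h5.trans (by module)
  have hs1 : 1 - s = 0 := by
    have h2 := hea
    rw [ha, polar_add_right, polar_smul_right, polar_smul_right, hef, polar_self', he] at h2
    simpa using h2
  rw [hs1, zero_smul, zero_add] at ha
  apply Subtype.ext
  apply ext_mulVec
  intro y
  rw [hg y]
  show _ = mat (1 : ↥(Cfsg.isometryGroup F ⇑Q)) *ᵥ y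
  rw [mat_one_mulVec, ha]
  have h3 := eform_add_e Q (polar ⇑Q a f - Q a) e 0 y he (by simp)
  rw [zero_add] at h3
  rw [h3, eform_zero]

theorem normal_le_center_or_top (N : Subgroup ↥(Cfsg.Omega F ⇑Q)) (hN : N.Normal) :
    N ≤ Subgroup.center ↥(Cfsg.Omega F ⇑Q) ∨ N = ⊤ := by
  have hprim := prim hP hQ hn
  by_cases hfix : MulAction.fixedPoints N (Pt Q) = Set.univ
  · left
    intro z hz
    have hall : ∀ c ∈ N, ∀ P : Pt Q, c • P = P := by
      intro c hc P
      have h2 : P ∈ MulAction.fixedPoints N (Pt Q) := by rw [hfix]; trivial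
      exact h2 ⟨c, hc⟩
    have hcen : (⊤ : Subgroup ↥(Cfsg.Omega F ⇑Q)) ≤ Subgroup.centralizer {z} := by
      rw [← iSup_Te hP hQ hn, iSup_le_iff]
      intro P ρ hρ
      rw [Subgroup.mem_centralizer_iff]
      intro h hh
      rw [Set.mem_singleton_iff] at hh
      subst hh
      have h1 : h * ρ * h⁻¹ ∈ Te (rep P) (rep_sing P) := by
        have h2 := (iwasawa hP hQ hn).is_conj h P
        rw [hall h hz P] at h2
        have h3 : h * ρ * h⁻¹ ∈ MulAut.conj h • (iwasawa hP hQ hn).T P :=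
          ⟨ρ, hρ, by simp [MulAut.smul_def]⟩
        rw [← h2] at h3
        exact h3
      have h4 : h * ρ * h⁻¹ * ρ⁻¹ ∈ Te (rep P) (rep_sing P) :=
        Subgroup.mul_mem _ h1 (Subgroup.inv_mem _ hρ)
      have h5 : h * ρ * h⁻¹ * ρ⁻¹ ∈ N := by
        have : h * ρ * h⁻¹ * ρ⁻¹ = h * (ρ * h⁻¹ * ρ⁻¹) := by group
        rw [this]
        exact Subgroup.mul_mem _ hz (hN.conj_mem _ (Subgroup.inv_mem _ hz) ρ)
      have h6 := eq_one_of_fix hP hQ hn _ (rep_ne P) (rep_sing P) _ h4 (hall _ h5)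
      have h7 := mul_inv_eq_one.mp h6
      exact mul_inv_eq_iff_eq_mul.mp h7
    rw [Subgroup.mem_center_iff]
    intro g
    have := Subgroup.mem_centralizer_iff.mp (hcen (Subgroup.mem_top g)) z rfl
    exact this.symm
  · right
    have := (iwasawa hP hQ hn).commutator_le N hfix
    rw [perfect hP hQ hn] at this
    exact top_le_iff.mp this

theorem nontrivial : Nontrivial ↥(Cfsg.Omega F ⇑Q) := by
  have hex : Fintype.card F ≠ 2 ∨ Fintype.card ι ≠ 4 := Or.inr (by omega)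
  obtain ⟨x, x', hx, hx', hxx', -, -, -, -⟩ := hP 0 0
  obtain ⟨y, y', hy, hy', hyy', h1, h2, -, -⟩ := hP x x'
  obtain ⟨t, htΩ, ht⟩ := exists_eich Q hQ hex (by omega) x y hx h1
  refine ⟨⟨t, htΩ⟩, 1, ?_⟩
  intro h
  have h3 : t = 1 := congrArg Subtype.val h
  have h4 := ht x'
  rw [h3, mat_one_mulVec] at h4
  unfold eform at h4
  rw [polar_comm ⇑Q y x', h2, hxx', hy] at h4
  have h5 : y = 0 := by
    have : y = x' + (0 : F) • x - (x' + (0 : F) • x - (1 : F) • y - ((0 : F) * 1) • x) := by module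
    rw [this, ← h4]
    module
  rw [h5] at hyy'
  simp at hyy'

theorem simple : IsSimpleGroup (Cfsg.POmega F ⇑Q) := by
  have := nontrivial hP hQ hn
  exact Cfsg.Agent.Lib.Helper5.SympSimple.simple_quotient_center (perfect hP hQ hn)
    (normal_le_center_or_top hP hQ hn)

end main

theorem ts_span (S : Set (ι → F)) (h0 : ∀ s ∈ S, Q s = 0)
    (h1 : ∀ s ∈ S, ∀ t ∈ S, polar ⇑Q s t = 0) : ∀ x ∈ Submodule.span F S, Q x = 0 := by
  have p1 : ∀ x ∈ Submodule.span F S, ∀ t ∈ S, polar ⇑Q x t = 0 := by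
    intro x hx t ht
    induction hx using Submodule.span_induction with
    | mem s hs => exact h1 s hs t ht
    | zero => simp
    | add a b _ _ ha hb => rw [polar_add_left, ha, hb, add_zero]
    | smul c a _ ha => rw [polar_smul_left, ha, smul_zero]
  have p2 : ∀ x ∈ Submodule.span F S, ∀ y ∈ Submodule.span F S, polar ⇑Q x y = 0 := by
    intro x hx y hy
    induction hy using Submodule.span_induction with
    | mem s hs => exact p1 x hx s hs
    | zero => simp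
    | add a b _ _ ha hb => rw [polar_add_right, ha, hb, add_zero]
    | smul c a _ ha => rw [polar_smul_right, ha, smul_zero]
  intro x hx
  induction hx using Submodule.span_induction with
  | mem s hs => exact h0 s hs
  | zero => simp
  | add a b ha' hb' ha hb => rw [QuadraticMap.map_add Q, ha, hb, p2 a ha' b hb']; simp
  | smul c a _ ha => rw [QuadraticMap.map_smul, ha, smul_zero]

theorem ts_of_hyp {κ : Type*} [Fintype κ] {ea eb : κ → ι}
    (H : Cfsg.Agent.Lib.Helper5.SpinorDiag.HypCoords Q ea eb) :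
    ∃ L : Submodule F (ι → F), (∀ x ∈ L, Q x = 0) ∧ Module.finrank F L = Fintype.card κ := by
  refine ⟨Submodule.span F (Set.range fun j => (Pi.single (ea j) 1 : ι → F)), ?_, ?_⟩
  · apply ts_span
    · rintro _ ⟨j, rfl⟩
      exact H.qa j
    · rintro _ ⟨j, rfl⟩ _ ⟨j', rfl⟩
      rw [H.pa]
      simp [(H.ea_ne_eb j' j).symm]
  · apply finrank_span_eq_card
    have h1 := (Pi.basisFun F ι).linearIndependent.comp ea (fun a b h => H.ea_inj.mp h)
    convert h1 using 1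
    funext j
    simp

theorem simple_of_hyp [Fintype F] {κ : Type*} [Fintype κ] {ea eb : κ → ι}
    (H : Cfsg.Agent.Lib.Helper5.SpinorDiag.HypCoords Q ea eb)
    (hQ : (QuadraticMap.polarBilin Q).Nondegenerate) (hκ : 3 ≤ Fintype.card κ)
    (hn : 5 ≤ Fintype.card ι) : IsSimpleGroup (Cfsg.POmega F ⇑Q) := by
  obtain ⟨L, hL, hfr⟩ := ts_of_hyp H
  exact simple (hp2_of_ts Q hQ L hL (by omega)) hQ hn

theorem perfect_of_hyp [Fintype F] {κ : Type*} [Fintype κ] {ea eb : κ → ι}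
    (H : Cfsg.Agent.Lib.Helper5.SpinorDiag.HypCoords Q ea eb)
    (hQ : (QuadraticMap.polarBilin Q).Nondegenerate) (hκ : 3 ≤ Fintype.card κ)
    (hn : 5 ≤ Fintype.card ι) : commutator ↥(Cfsg.Omega F ⇑Q) = ⊤ := by
  obtain ⟨L, hL, hfr⟩ := ts_of_hyp H
  exact perfect (hp2_of_ts Q hQ L hL (by omega)) hQ hn

end Cfsg.Agent.Lib.Helper5.OrthSimple
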