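import Mathlib
import Cfsg.Prelude.Def_ClassicalGeometry
import Cfsg.Agent.Lib.Helper5.OrthLevi

set_option autoImplicit false
set_option linter.unusedSectionVars false

namespace Cfsg.Agent.Lib.Helper5.OrthSwap

open Matrix Cfsg.Agent.Lib.Helper5.OrthCard Cfsg.Agent.Lib.Helper5.Orth
  Cfsg.Agent.Lib.Helper5.OrthGen QuadraticMap Cfsg.Agent.Lib.Helper5.OrthRefl
  Cfsg.Agent.Lib.Helper5.Dickson Cfsg.Agent.Lib.Helper5.Spinor Cfsg.Agent.Lib.Helper5.SpinorDiag
  Cfsg.Agent.Lib.Helper5.OrthSum Cfsg.Agent.Lib.Helper5.OrthLevi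

variable {F : Type*} [Field F] {ι : Type} [Fintype ι] [DecidableEq ι]

/-- the product of the reflections in an orthogonal family -/
theorem exists_family (Q : QuadraticForm F (ι → F)) {κ : Type*} [Fintype κ] (w : κ → ι → F)
    (hw : ∀ j, Q (w j) ≠ 0) (horth : ∀ i j, i ≠ j → polar ⇑Q (w i) (w j) = 0) :
    ∃ g : ↥(Cfsg.isometryGroup F ⇑Q),
      (∀ x, mat g *ᵥ x = x - ∑ j, ((Q (w j))⁻¹ * polar ⇑Q (w j) x) • w j) ∧
      ∃ vs : List (ι → F), (∀ v ∈ vs, Q v ≠ 0) ∧ vs.length = Fintype.card κ ∧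
        (vs.map (fun v => Q v)).prod = ∏ j, Q (w j) ∧
        mat g = (vs.map (fun v => Cfsg.reflectionMatrix ⇑Q v)).prod := by
  classical
  have hvs : ∀ v ∈ (Finset.univ : Finset κ).toList.map w, Q v ≠ 0 := by
    intro v hv
    obtain ⟨j, _, rfl⟩ := List.mem_map.mp hv
    exact hw j
  have hpw : ((Finset.univ : Finset κ).toList.map w).Pairwise (fun v w => polar ⇑Q v w = 0) := by
    rw [List.pairwise_map]
    exact (Finset.nodup_toList _).imp (fun {a b} hab => horth a b hab)
  have hex : ∀ vs : List (ι → F), (∀ v ∈ vs, Q v ≠ 0) → ∃ g : ↥(Cfsg.isometryGroup F ⇑Q),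
      mat g = (vs.map (fun v => Cfsg.reflectionMatrix ⇑Q v)).prod := by
    intro vs
    induction vs with
    | nil => intro _; exact ⟨1, by simp [mat_one]⟩
    | cons v vs ih =>
      intro hvs
      obtain ⟨g, hg⟩ := ih (fun w hw => hvs w (by simp [hw]))
      exact ⟨refl Q v (hvs v (by simp)) * g, by
        rw [mat_mul, mat_refl, hg, List.map_cons, List.prod_cons]⟩
  obtain ⟨g, hg⟩ := hex _ hvs
  have hpr : ∀ (vs : List (ι → F)), vs.Pairwise (fun v w => polar ⇑Q v w = 0) → ∀ x : ι → F,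
      (vs.map (fun v => Cfsg.reflectionMatrix ⇑Q v)).prod *ᵥ x =
        x - (vs.map (fun v => ((Q v)⁻¹ * polar ⇑Q v x) • v)).sum := by
    intro vs hpw x
    induction vs with
    | nil => simp
    | cons v vs ih =>
      rw [List.pairwise_cons] at hpw
      rw [List.map_cons, List.prod_cons, ← mulVec_mulVec, ih hpw.2, reflectionMatrix_mulVec,
        List.map_cons, List.sum_cons, polar_sub_right]
      have h0 : polar ⇑Q v (vs.map (fun v => ((Q v)⁻¹ * polar ⇑Q v x) • v)).sum = 0 := by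
        have : ∀ (l : List (ι → F)), (∀ w ∈ l, polar ⇑Q v w = 0) →
            polar ⇑Q v (l.map (fun v => ((Q v)⁻¹ * polar ⇑Q v x) • v)).sum = 0 := by
          intro l hl
          induction l with
          | nil => simp
          | cons w l ihl =>
            rw [List.map_cons, List.sum_cons, polar_add_right, polar_smul_right,
              hl w (by simp), ihl (fun w' hw' => hl w' (by simp [hw']))]
            simp
        exact this vs hpw.1
      rw [h0, sub_zero]
      abel
  refine ⟨g, ?_, _, hvs, ?_, ?_, hg⟩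
  · intro x
    rw [hg, hpr _ hpw, List.map_map, Finset.sum_map_toList]
    rfl
  · rw [List.length_map, Finset.length_toList]; rfl
  · rw [List.map_map, Finset.prod_map_toList]
    rfl

theorem dk_list [Fintype F] (Q : QuadraticForm F (ι → F))
    (hQ : (QuadraticMap.polarBilin Q).Nondegenerate)
    (hex : Fintype.card F ≠ 2 ∨ Fintype.card ι ≠ 4)
    (vs : List (ι → F)) (hvs : ∀ v ∈ vs, Q v ≠ 0) (g : ↥(Cfsg.isometryGroup F ⇑Q))
    (hg : mat g = (vs.map (fun v => Cfsg.reflectionMatrix ⇑Q v)).prod) :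
    dk g = (-1) ^ vs.length := by
  induction vs generalizing g with
  | nil =>
    have : g = 1 := mat_injective (by rw [hg, mat_one]; rfl)
    rw [this, dk_one]; simp
  | cons v vs ih =>
    have hv : Q v ≠ 0 := hvs v (by simp)
    have h1 := ih (fun w hw => hvs w (by simp [hw])) (refl Q v hv * g) (by
      rw [mat_mul, hg, mat_refl, List.map_cons, List.prod_cons, ← mul_assoc, reflection_sq Q v hv,
        one_mul])
    rw [dk_mul Q hQ hex, dk_refl Q hQ] at h1
    rw [List.length_cons, pow_succ, ← h1]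
    simp

variable {m : ℕ} (Qf : QuadraticForm F (Fin m ⊕ Fin m → F)) (hQf : ⇑Qf = Cfsg.quadFormPlus m F)

include hQf in
/-- the isometry swapping the two standard maximal totally singular subspaces -/
theorem exists_swap : ∃ s : ↥(Cfsg.isometryGroup F ⇑Qf), (∀ x, mat s *ᵥ x = x ∘ Sum.swap) ∧
    ∃ vs : List (Fin m ⊕ Fin m → F), (∀ v ∈ vs, Qf v ≠ 0) ∧ vs.length = m ∧
        (vs.map (fun v => Qf v)).prod = (-1) ^ m ∧
        mat s = (vs.map (fun v => Cfsg.reflectionMatrix ⇑Qf v)).prod := by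
  have H := hyp_plus m Qf hQf
  obtain ⟨g, hg, vs, h1, h2, h3, h4⟩ := exists_family Qf
    (fun j : Fin m => (Pi.single (Sum.inl j) 1 - Pi.single (Sum.inr j) 1 : Fin m ⊕ Fin m → F))
    (fun j => by rw [H.Q_minus]; simp)
    (fun i j hij => H.w_orth (Sum.inr i) (Sum.inr j) (fun h => hij (Sum.inr_injective h)))
  refine ⟨g, ?_, vs, h1, by rw [h2, Fintype.card_fin], ?_, h4⟩
  · intro x
    rw [hg]
    simp only [H.Q_minus, H.polar_minus]
    funext k
    rcases k with k | k
    · simp only [Pi.sub_apply, Finset.sum_apply, Pi.smul_apply, smul_eq_mul, Function.comp,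
        Sum.swap_inl]
      rw [Finset.sum_eq_single k]
      · simp
      · intro b _ hb
        have : (Sum.inl k : Fin m ⊕ Fin m) ≠ Sum.inl b := fun h => hb (Sum.inl_injective h).symm
        simp [Pi.single_eq_of_ne this]
      · simp
    · simp only [Pi.sub_apply, Finset.sum_apply, Pi.smul_apply, smul_eq_mul, Function.comp,
        Sum.swap_inr]
      rw [Finset.sum_eq_single k]
      · simp
      · intro b _ hb
        have : (Sum.inr k : Fin m ⊕ Fin m) ≠ Sum.inr b := fun h => hb (Sum.inr_injective h).symm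
        simp [Pi.single_eq_of_ne this]
      · simp
  · rw [h3]
    simp only [H.Q_minus]
    simp

include hQf in
/-- an isometry preserving both standard subspaces is in the Levi subgroup -/
theorem exists_levi (h : ↥(Cfsg.isometryGroup F ⇑Qf))
    (h1 : ∀ v : Fin m ⊕ Fin m → F, (∀ i, v (Sum.inr i) = 0) → ∀ i, (mat h *ᵥ v) (Sum.inr i) = 0)
    (h2 : ∀ v : Fin m ⊕ Fin m → F, (∀ i, v (Sum.inl i) = 0) → ∀ i, (mat h *ᵥ v) (Sum.inl i) = 0) :
    ∃ A : GL (Fin m) F, h = rho Qf hQf A := by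
  have e21 : (mat h).toBlocks₂₁ = 0 := by
    ext i j
    have := h1 (Pi.single (Sum.inl j) 1) (by intro i; simp) i
    rw [Matrix.mulVec_single_one] at this
    exact this
  have e12 : (mat h).toBlocks₁₂ = 0 := by
    ext i j
    have := h2 (Pi.single (Sum.inr j) 1) (by intro i; simp) i
    rw [Matrix.mulVec_single_one] at this
    exact this
  have hM : mat h = Matrix.fromBlocks (mat h).toBlocks₁₁ 0 0 (mat h).toBlocks₂₂ := by
    conv_lhs => rw [← Matrix.fromBlocks_toBlocks (mat h), e21, e12]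
  set A := (mat h).toBlocks₁₁ with hA
  set D := (mat h).toBlocks₂₂ with hD
  have hAD : Aᵀ * D = 1 := by
    ext i j
    have h3 := mat_preserves h (Sum.elim (Pi.single i 1) (Pi.single j 1))
    rw [hM] at h3
    have hQf' : ∀ z, Qf z = Cfsg.quadFormPlus m F z := fun z => congrFun hQf z
    rw [hQf', hQf', blocks_mulVec, plus_eq_dot, plus_eq_dot, Sum.elim_comp_inl, Sum.elim_comp_inr,
      Sum.elim_comp_inl, Sum.elim_comp_inr, Matrix.mulVec_single_one, Matrix.mulVec_single_one,
      single_dotProduct, one_mul] at h3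
    rw [Matrix.mul_apply, Matrix.one_apply]
    simp only [Matrix.transpose_apply]
    rw [Pi.single_apply] at h3
    rw [← h3]
    rfl
  have hdet : A.det ≠ 0 := by
    intro h0
    have := congrArg Matrix.det hAD
    rw [Matrix.det_mul, Matrix.det_transpose, h0, zero_mul, Matrix.det_one] at this
    exact zero_ne_one this
  refine ⟨Matrix.GeneralLinearGroup.mkOfDetNeZero A hdet, ?_⟩
  apply mat_injective
  rw [mat_rho, hM]
  congr 1
  show D = (A⁻¹)ᵀ
  rw [Matrix.transpose_nonsing_inv]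
  exact (Matrix.inv_eq_right_inv hAD).symm

include hQf in
theorem swap_iff [Fintype F] (hnd : (QuadraticMap.polarBilin Qf).Nondegenerate) (hm : 1 ≤ m)
    (h : Fintype.card F ≠ 2 ∨ m ≠ 2) :
    (∃ g : ↥(Cfsg.isometryGroup F ⇑Qf), g ∈ Cfsg.Omega F ⇑Qf ∧
      (∀ v : Fin m ⊕ Fin m → F, (∀ i, v (Sum.inr i) = 0) → ∀ i, (mat g *ᵥ v) (Sum.inl i) = 0) ∧
      (∀ v : Fin m ⊕ Fin m → F, (∀ i, v (Sum.inl i) = 0) → ∀ i, (mat g *ᵥ v) (Sum.inr i) = 0)) ↔
      Even m := by
  classical
  have hex : Fintype.card F ≠ 2 ∨ Fintype.card (Fin m ⊕ Fin m) ≠ 4 := by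
    rw [Fintype.card_sum, Fintype.card_fin]
    exact h.imp id (fun x => by omega)
  obtain ⟨s, hs, vs, hv1, hv2, hv3, hv4⟩ := exists_swap Qf hQf
  have hdks : dk s = (-1) ^ m := by rw [dk_list Qf hnd hex vs hv1 s hv4, hv2]
  constructor
  · rintro ⟨g, hg, h1, h2⟩
    obtain ⟨A, hA⟩ := exists_levi Qf hQf (s * g) (by
      intro v hv i
      rw [mat_mul_mulVec, hs]
      exact h1 v hv i) (by
      intro v hv i
      rw [mat_mul_mulVec, hs]
      exact h2 v hv i)
    have h3 : dk g = 1 := Abelianization.commutator_subset_ker (dkHom Qf hnd hex) hg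
    have h4 := dk_rho Qf hQf hnd hm h A
    rw [← hA, dk_mul Qf hnd hex, h3, mul_one, hdks] at h4
    exact (neg_one_pow_eq_one_iff_even (by decide)).mp h4
  · intro he
    refine ⟨s, ?_, ?_, ?_⟩
    · by_cases h2 : (2 : F) = 0
      · rw [Dickson.omega_iff Qf h2 hnd hex, hdks, he.neg_one_pow]
      · rw [mem_omega_iff_list Qf h2 hnd (by simp; omega) vs hv1 s hv4, hv2, hv3, he.neg_one_pow]
        exact ⟨he, ⟨1, by simp⟩⟩
    · intro v hv i
      rw [hs]
      exact hv i
    · intro v hv i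
      rw [hs]
      exact hv i

end Cfsg.Agent.Lib.Helper5.OrthSwap
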