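import Mathlib

set_option autoImplicit false

namespace Cfsg.Agent.Lib.Helper5.PermLemmas

variable {α : Type*}

/-- elementwise transitivity of a subgroup of a permutation group -/
theorem exists_of_pretransitive (G : Subgroup (Equiv.Perm α)) (M : Subgroup G)
    (h : MulAction.IsPretransitive M α) (a b : α) : ∃ m ∈ M, ((m : G) : Equiv.Perm α) a = b := by
  obtain ⟨m, hm⟩ := MulAction.exists_smul_eq M a b
  exact ⟨m, m.2, hm⟩

theorem centralizer_semiregular (T : Subgroup (Equiv.Perm α))
    (hT : ∀ a b : α, ∃ t ∈ T, t a = b) (c : Equiv.Perm α)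
    (hc : c ∈ Subgroup.centralizer (T : Set (Equiv.Perm α))) (a : α) (hca : c a = a) : c = 1 := by
  ext b
  obtain ⟨t, ht, rfl⟩ := hT a b
  have h := Subgroup.mem_centralizer_iff.mp hc t ht
  have h2 := congrArg (fun f : Equiv.Perm α => f a) h
  simp only [Equiv.Perm.mul_apply] at h2
  rw [← h2, hca]
  rfl

theorem centralizer_eq_of_transitive_le (T N : Subgroup (Equiv.Perm α))
    (hT : ∀ a b : α, ∃ t ∈ T, t a = b) (hN : ∀ a b : α, ∃ t ∈ N, t a = b)
    (hle : N ≤ Subgroup.centralizer (T : Set (Equiv.Perm α))) :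
    Subgroup.centralizer (T : Set (Equiv.Perm α)) = N := by
  apply le_antisymm _ hle
  intro c hc
  by_cases hα : Nonempty α
  · obtain ⟨a⟩ := hα
    obtain ⟨n, hn, hna⟩ := hN a (c a)
    have h1 : n⁻¹ * c = 1 := by
      apply centralizer_semiregular T hT _ (Subgroup.mul_mem _ (Subgroup.inv_mem _ (hle hn)) hc) a
      rw [Equiv.Perm.mul_apply, ← hna]
      simp
    have : c = n := by
      have := congrArg (fun x => n * x) h1
      simpa using this
    rw [this]; exact hn
  · have : c = 1 := by
      ext b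
      exact (hα ⟨b⟩).elim
    rw [this]; exact N.one_mem

theorem mem_map_subtype_iff (G : Subgroup (Equiv.Perm α)) (M : Subgroup G) (x : G) :
    (x : Equiv.Perm α) ∈ M.map G.subtype ↔ x ∈ M := by
  constructor
  · rintro ⟨y, hy, hyx⟩
    have : y = x := Subtype.ext hyx
    rwa [← this]
  · intro hx
    exact ⟨x, hx, rfl⟩

theorem map_transitive (G : Subgroup (Equiv.Perm α)) (M : Subgroup G)
    (h : MulAction.IsPretransitive M α) (a b : α) : ∃ t ∈ M.map G.subtype, t a = b := by
  obtain ⟨m, hm, hmab⟩ := exists_of_pretransitive G M h a b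
  exact ⟨m, ⟨m, hm, rfl⟩, hmab⟩

/-- two normal subgroups with trivial intersection: image of one lies in the centraliser of the image of the other -/
theorem map_le_centralizer_of_disjoint (G : Subgroup (Equiv.Perm α)) (M N : Subgroup G)
    [M.Normal] [N.Normal] (h : M ⊓ N = ⊥) :
    N.map G.subtype ≤ Subgroup.centralizer ((M.map G.subtype : Subgroup (Equiv.Perm α)) : Set (Equiv.Perm α)) := by
  rintro _ ⟨n, hn, rfl⟩
  rw [Subgroup.mem_centralizer_iff]
  rintro _ ⟨m, hm, rfl⟩
  have hc : Commute m n := Subgroup.commute_of_normal_of_disjoint M N inferInstance inferInstance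
    (disjoint_iff.mpr h) m n hm hn
  have := congrArg (fun x : G => (x : Equiv.Perm α)) hc.eq
  simpa using this

theorem stabilizer_eq_bot_of_semiregular (G : Subgroup (Equiv.Perm α)) (M : Subgroup G)
    (h : ∀ m ∈ M, ∀ a : α, ((m : G) : Equiv.Perm α) a = a → m = 1) (a : α) :
    MulAction.stabilizer M a = ⊥ := by
  rw [eq_bot_iff]
  intro m hm
  rw [Subgroup.mem_bot]
  apply Subtype.ext
  exact h m m.2 a hm

end Cfsg.Agent.Lib.Helper5.PermLemmas
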