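import Mathlib
import Cfsg.Agent.Lib.Helper5.CardSL

set_option autoImplicit false

namespace Cfsg.Agent.Lib.Helper5.SL2Aux

open Matrix

variable {F : Type*} [Field F]

/-- the central element `-1` -/
def negOne : Matrix.SpecialLinearGroup (Fin 2) F :=
  ⟨-1, by rw [Matrix.det_neg, Matrix.det_one]; simp⟩

theorem negOne_coe : ((negOne : Matrix.SpecialLinearGroup (Fin 2) F) : Matrix (Fin 2) (Fin 2) F) = -1 :=
  rfl

theorem negOne_mem_center : (negOne : Matrix.SpecialLinearGroup (Fin 2) F) ∈
    Subgroup.center (Matrix.SpecialLinearGroup (Fin 2) F) := by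
  rw [Subgroup.mem_center_iff]
  intro g
  apply Subtype.ext
  rw [Matrix.SpecialLinearGroup.coe_mul, Matrix.SpecialLinearGroup.coe_mul]
  simp [negOne]

/-- upper unitriangular -/
def up : Matrix.SpecialLinearGroup (Fin 2) F := ⟨!![1, 1; 0, 1], by simp [Matrix.det_fin_two]⟩

/-- lower unitriangular -/
def lo : Matrix.SpecialLinearGroup (Fin 2) F := ⟨!![1, 0; 1, 1], by simp [Matrix.det_fin_two]⟩

theorem up_mul (M : Matrix (Fin 2) (Fin 2) F) : (up : Matrix.SpecialLinearGroup (Fin 2) F).1 * M =
    !![M 0 0 + M 1 0, M 0 1 + M 1 1; M 1 0, M 1 1] := by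
  ext i j
  fin_cases i <;> fin_cases j <;> simp [up, Matrix.mul_apply, Fin.sum_univ_two]

theorem mul_up (M : Matrix (Fin 2) (Fin 2) F) : M * (up : Matrix.SpecialLinearGroup (Fin 2) F).1 =
    !![M 0 0, M 0 0 + M 0 1; M 1 0, M 1 0 + M 1 1] := by
  ext i j
  fin_cases i <;> fin_cases j <;> simp [up, Matrix.mul_apply, Fin.sum_univ_two]

theorem lo_mul (M : Matrix (Fin 2) (Fin 2) F) : (lo : Matrix.SpecialLinearGroup (Fin 2) F).1 * M =
    !![M 0 0, M 0 1; M 0 0 + M 1 0, M 0 1 + M 1 1] := by
  ext i j
  fin_cases i <;> fin_cases j <;> simp [lo, Matrix.mul_apply, Fin.sum_univ_two]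

theorem mul_lo (M : Matrix (Fin 2) (Fin 2) F) : M * (lo : Matrix.SpecialLinearGroup (Fin 2) F).1 =
    !![M 0 0 + M 0 1, M 0 1; M 1 0 + M 1 1, M 1 1] := by
  ext i j
  fin_cases i <;> fin_cases j <;> simp [lo, Matrix.mul_apply, Fin.sum_univ_two]

theorem mem_center_of_scalar (g : Matrix.SpecialLinearGroup (Fin 2) F) (h01 : g.1 0 1 = 0)
    (h10 : g.1 1 0 = 0) (hd : g.1 0 0 = g.1 1 1) :
    g ∈ Subgroup.center (Matrix.SpecialLinearGroup (Fin 2) F) := by
  rw [Subgroup.mem_center_iff]
  intro k
  apply Subtype.ext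
  rw [Matrix.SpecialLinearGroup.coe_mul, Matrix.SpecialLinearGroup.coe_mul]
  ext i j
  fin_cases i <;> fin_cases j <;> simp [Matrix.mul_apply, Fin.sum_univ_two, h01, h10, hd] <;> ring

theorem comm_or_anti (g k : Matrix.SpecialLinearGroup (Fin 2) F)
    (h : g * k * g⁻¹ * k⁻¹ = 1 ∨ g * k * g⁻¹ * k⁻¹ = negOne) :
    g.1 * k.1 = k.1 * g.1 ∨ g.1 * k.1 = - (k.1 * g.1) := by
  rcases h with h | h
  · left
    have h1 : g * k = k * g := by
      calc g * k = (g * k * g⁻¹ * k⁻¹) * (k * g) := by group
        _ = k * g := by rw [h, one_mul]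
    have := congrArg Subtype.val h1
    rwa [Matrix.SpecialLinearGroup.coe_mul, Matrix.SpecialLinearGroup.coe_mul] at this
  · right
    have h1 : g * k = negOne * (k * g) := by
      calc g * k = (g * k * g⁻¹ * k⁻¹) * (k * g) := by group
        _ = negOne * (k * g) := by rw [h]
    have := congrArg Subtype.val h1
    rw [Matrix.SpecialLinearGroup.coe_mul, Matrix.SpecialLinearGroup.coe_mul,
      Matrix.SpecialLinearGroup.coe_mul, negOne_coe] at this
    rw [this]; simp

/-- an element of `SL₂` which is central modulo `±1` is central -/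
theorem central_of_comm_pm (g : Matrix.SpecialLinearGroup (Fin 2) F)
    (h : ∀ k, g * k * g⁻¹ * k⁻¹ = 1 ∨ g * k * g⁻¹ * k⁻¹ = negOne) :
    g ∈ Subgroup.center (Matrix.SpecialLinearGroup (Fin 2) F) := by
  have hdet : g.1 0 0 * g.1 1 1 - g.1 0 1 * g.1 1 0 = 1 := by
    rw [← Matrix.det_fin_two]; exact g.2
  by_cases h2 : (2 : F) = 0
  · have hneg : ∀ M : Matrix (Fin 2) (Fin 2) F, -M = M := by
      intro M
      ext i j
      have : (-1 : F) = 1 := by linear_combination -h2
      rw [Matrix.neg_apply]
      linear_combination (M i j) * this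
    have hc : ∀ k : Matrix.SpecialLinearGroup (Fin 2) F, g.1 * k.1 = k.1 * g.1 := by
      intro k
      rcases comm_or_anti g k (h k) with h1 | h1
      · exact h1
      · rw [h1, hneg]
    rw [Subgroup.mem_center_iff]
    intro k
    apply Subtype.ext
    rw [Matrix.SpecialLinearGroup.coe_mul, Matrix.SpecialLinearGroup.coe_mul]
    exact (hc k).symm
  · have hup := comm_or_anti g up (h up)
    have hlo := comm_or_anti g lo (h lo)
    rw [mul_up, up_mul] at hup
    rw [mul_lo, lo_mul] at hlo
    have e1 : g.1 1 0 = 0 ∧ g.1 0 0 = g.1 1 1 := by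
      rcases hup with h1 | h1
      · have a := congrFun (congrFun h1 0) 0
        have b := congrFun (congrFun h1 0) 1
        simp at a b
        exact ⟨a, by linear_combination b⟩
      · exfalso
        have a := congrFun (congrFun h1 1) 0
        have b := congrFun (congrFun h1 0) 0
        simp at a b
        have a' : g.1 1 0 = 0 := by
          have : (2 : F) * g.1 1 0 = 0 := by linear_combination a
          exact (mul_eq_zero.mp this).resolve_left h2
        have b' : g.1 0 0 = 0 := by
          have : (2 : F) * g.1 0 0 = 0 := by linear_combination b - a'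
          exact (mul_eq_zero.mp this).resolve_left h2
        rw [a', b'] at hdet
        simp at hdet
    have e2 : g.1 0 1 = 0 := by
      rcases hlo with h1 | h1
      · have a := congrFun (congrFun h1 0) 0
        simp at a
        exact a
      · exfalso
        have a := congrFun (congrFun h1 0) 1
        have b := congrFun (congrFun h1 1) 1
        simp at a b
        have a' : g.1 0 1 = 0 := by
          have : (2 : F) * g.1 0 1 = 0 := by linear_combination a
          exact (mul_eq_zero.mp this).resolve_left h2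
        have b' : g.1 1 1 = 0 := by
          have : (2 : F) * g.1 1 1 = 0 := by linear_combination b - a'
          exact (mul_eq_zero.mp this).resolve_left h2
        rw [a', b'] at hdet
        simp at hdet
    exact mem_center_of_scalar g e2 e1.1 e1.2

theorem eq_one_or_negOne_of_scalar (g : Matrix.SpecialLinearGroup (Fin 2) F) (h01 : g.1 0 1 = 0)
    (h10 : g.1 1 0 = 0) (hd : g.1 0 0 = g.1 1 1) : g = 1 ∨ g = negOne := by
  have hdet : g.1 0 0 * g.1 1 1 - g.1 0 1 * g.1 1 0 = 1 := by
    rw [← Matrix.det_fin_two]; exact g.2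
  rw [h01, ← hd] at hdet
  have h1 : g.1 0 0 * g.1 0 0 = 1 := by linear_combination hdet
  rcases mul_self_eq_one_iff.mp h1 with h2 | h2
  · left
    apply Subtype.ext
    ext i j
    fin_cases i <;> fin_cases j <;> simp [h01, h10, ← hd, h2]
  · right
    apply Subtype.ext
    rw [negOne_coe]
    ext i j
    fin_cases i <;> fin_cases j <;> simp [h01, h10, ← hd, h2]

theorem card_sl2 [Fintype F] : Nat.card (Matrix.SpecialLinearGroup (Fin 2) F) =
    Fintype.card F * (Fintype.card F ^ 2 - 1) := by
  have h1 := CardSL.card_GL_eq (F := F) 2 (by norm_num)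
  rw [Matrix.card_GL_field, Fin.prod_univ_two] at h1
  have hq : 2 ≤ Fintype.card F := Fintype.one_lt_card
  generalize Fintype.card F = q at *
  generalize Nat.card (Matrix.SpecialLinearGroup (Fin 2) F) = s at *
  simp only [Fin.val_zero, Fin.val_one, pow_zero, pow_one] at h1
  have a1 : q ^ 2 - q = q * (q - 1) := by rw [Nat.mul_sub]; ring_nf
  rw [a1] at h1
  have hpos : 0 < q - 1 := by omega
  apply Nat.eq_of_mul_eq_mul_right hpos
  rw [← h1]
  ring

theorem range_toGL (n : ℕ) : (Matrix.SpecialLinearGroup.toGL :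
      Matrix.SpecialLinearGroup (Fin n) F →* Matrix.GeneralLinearGroup (Fin n) F).range =
      (Matrix.GeneralLinearGroup.det : Matrix.GeneralLinearGroup (Fin n) F →* Fˣ).ker := by
  ext x
  rw [MonoidHom.mem_ker, MonoidHom.mem_range]
  constructor
  · rintro ⟨y, rfl⟩
    apply Units.ext
    simp
  · intro hx
    refine ⟨⟨x, ?_⟩, ?_⟩
    · have := congrArg Units.val hx
      simpa using this
    · apply Units.ext
      rfl

end Cfsg.Agent.Lib.Helper5.SL2Aux
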