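import Mathlib
import Cfsg.Prelude.Def_GeometricClasses
import Cfsg.Agent.Lib.Helper3.SLn

set_option autoImplicit false
set_option linter.unusedSectionVars false

namespace Cfsg.Agent.Lib.Helper5.SLMax

open Matrix

variable {F : Type*} [Field F] {ι : Type} [Fintype ι] [DecidableEq ι]

/-- the matrix of `x ↦ x + φ(x) v` -/
def tvM (φ v : ι → F) : Matrix ι ι F := 1 + vecMulVec v φ

theorem tvM_mulVec (φ v x : ι → F) : tvM φ v *ᵥ x = x + (φ ⬝ᵥ x) • v := by
  unfold tvM
  rw [add_mulVec, one_mulVec, vecMulVec_mulVec]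
  ext i
  simp [mul_comm]

theorem tvM_mul_neg (φ v : ι → F) (h : φ ⬝ᵥ v = 0) : tvM φ v * tvM φ (-v) = 1 := by
  rw [Matrix.ext_iff_mulVec]
  intro x
  rw [← mulVec_mulVec, tvM_mulVec, tvM_mulVec, one_mulVec, dotProduct_add, dotProduct_smul,
    dotProduct_neg, h]
  simp

/-- the transvection `x ↦ x + φ(x) v` -/
def tv (φ v : ι → F) (h : φ ⬝ᵥ v = 0) : Matrix.GeneralLinearGroup ι F where
  val := tvM φ v
  inv := tvM φ (-v)
  val_inv := tvM_mul_neg φ v h
  inv_val := by
    have := tvM_mul_neg φ (-v) (by rw [dotProduct_neg, h, neg_zero])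
    rwa [neg_neg] at this

theorem tv_mulVec (φ v : ι → F) (h : φ ⬝ᵥ v = 0) (x : ι → F) :
    (tv φ v h : Matrix ι ι F) *ᵥ x = x + (φ ⬝ᵥ x) • v := tvM_mulVec φ v x

theorem tv_mem (φ v : ι → F) (h : φ ⬝ᵥ v = 0) : tv φ v h ∈ Cfsg.Geo.specialLinear ι F := by
  unfold Cfsg.Geo.specialLinear
  rw [MonoidHom.mem_ker]
  apply Units.ext
  show (tvM φ v).det = 1
  unfold tvM
  rw [Matrix.vecMulVec_eq Unit, det_one_add_replicateCol_mul_replicateRow, h, add_zero]

theorem gl_ext {g h : Matrix.GeneralLinearGroup ι F}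
    (H : ∀ x, (g : Matrix ι ι F) *ᵥ x = (h : Matrix ι ι F) *ᵥ x) : g = h :=
  Units.ext (Matrix.ext_iff_mulVec.mpr H)

theorem inv_mulVec (g : Matrix.GeneralLinearGroup ι F) (x : ι → F) :
    ((g⁻¹ : Matrix.GeneralLinearGroup ι F) : Matrix ι ι F) *ᵥ ((g : Matrix ι ι F) *ᵥ x) = x := by
  rw [mulVec_mulVec, ← Units.val_mul, inv_mul_cancel, Units.val_one, one_mulVec]

theorem mul_inv_mulVec (g : Matrix.GeneralLinearGroup ι F) (x : ι → F) :
    (g : Matrix ι ι F) *ᵥ (((g⁻¹ : Matrix.GeneralLinearGroup ι F) : Matrix ι ι F) *ᵥ x) = x := by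
  rw [mulVec_mulVec, ← Units.val_mul, mul_inv_cancel, Units.val_one, one_mulVec]

theorem conj_tv (g : Matrix.GeneralLinearGroup ι F) (φ v : ι → F)
    (h : φ ⬝ᵥ ((g : Matrix ι ι F) *ᵥ v) = 0) :
    tv φ ((g : Matrix ι ι F) *ᵥ v) h =
      g * tv (φ ᵥ* (g : Matrix ι ι F)) v (by rw [← dotProduct_mulVec]; exact h) * g⁻¹ := by
  apply gl_ext
  intro x
  rw [Units.val_mul, Units.val_mul, ← mulVec_mulVec, ← mulVec_mulVec, tv_mulVec, tv_mulVec,
    mulVec_add, mul_inv_mulVec, mulVec_smul, ← dotProduct_mulVec, mul_inv_mulVec]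

/-- vectors all of whose transvections lie in `H` -/
def VV (H : Subgroup (Matrix.GeneralLinearGroup ι F)) : Set (ι → F) :=
  {v | ∀ (φ : ι → F) (h : φ ⬝ᵥ v = 0), tv φ v h ∈ H}

variable {H : Subgroup (Matrix.GeneralLinearGroup ι F)}

theorem VV_img {g : Matrix.GeneralLinearGroup ι F} (hg : g ∈ H) {v : ι → F} (hv : v ∈ VV H) :
    (g : Matrix ι ι F) *ᵥ v ∈ VV H := by
  intro φ h
  rw [conj_tv]
  exact H.mul_mem (H.mul_mem hg (hv _ _)) (H.inv_mem hg)

theorem VV_smul {v : ι → F} (hv : v ∈ VV H) (c : F) : c • v ∈ VV H := by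
  intro φ h
  by_cases hc : c = 0
  · subst hc
    have : tv φ ((0 : F) • v) h = 1 := by
      apply gl_ext
      intro x
      rw [tv_mulVec, Units.val_one, one_mulVec]
      simp
    rw [this]
    exact H.one_mem
  · have h' : (c • φ) ⬝ᵥ v = 0 := by
      rw [dotProduct_smul] at h
      rw [smul_dotProduct]
      exact h
    have : tv φ (c • v) h = tv (c • φ) v h' := by
      apply gl_ext
      intro x
      rw [tv_mulVec, tv_mulVec, smul_dotProduct, smul_smul, smul_eq_mul, mul_comm]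
    rw [this]
    exact hv _ _

theorem exists_func (S : Submodule F (ι → F)) (v : ι → F) (hv : v ∉ S) :
    ∃ ψ : ι → F, (∀ s ∈ S, ψ ⬝ᵥ s = 0) ∧ ψ ⬝ᵥ v = 1 := by
  obtain ⟨f, hf, hS⟩ := Submodule.exists_dual_map_eq_bot_of_notMem hv inferInstance
  have key : ∀ x, f x = (fun i => f (Pi.single i 1)) ⬝ᵥ x := by
    intro x
    rw [LinearMap.pi_apply_eq_sum_univ f x]
    unfold dotProduct
    apply Finset.sum_congr rfl
    intro i _
    rw [smul_eq_mul, mul_comm]
    congr 2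
    funext j
    simp [Pi.single_apply, eq_comm]
  refine ⟨(f v)⁻¹ • (fun i => f (Pi.single i 1)), ?_, ?_⟩
  · intro s hs
    rw [smul_dotProduct, ← key]
    have : f s ∈ S.map f := ⟨s, hs, rfl⟩
    rw [hS, Submodule.mem_bot] at this
    rw [this, smul_zero]
  · rw [smul_dotProduct, ← key, smul_eq_mul, inv_mul_cancel₀ hf]

theorem VV_add {v v' : ι → F} (hv : v ∈ VV H) (hv' : v' ∈ VV H) : v + v' ∈ VV H := by
  by_cases hc : v ∈ Submodule.span F {v'}
  · obtain ⟨c, rfl⟩ := Submodule.mem_span_singleton.mp hc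
    have : c • v' + v' = (c + 1) • v' := by module
    rw [this]
    exact VV_smul hv' _
  · obtain ⟨ψ, h1, h2⟩ := exists_func _ v hc
    have h3 : ψ ⬝ᵥ v' = 0 := h1 v' (Submodule.mem_span_singleton_self v')
    have := VV_img (hv' ψ h3) hv
    rwa [tv_mulVec, h2, one_smul] at this

theorem le_of_VV [Nontrivial ι] (h : ∀ v, v ∈ VV H) : Cfsg.Geo.specialLinear ι F ≤ H := by
  intro g hg
  have hdet : (g : Matrix ι ι F).det = 1 := by
    have := MonoidHom.mem_ker.mp hg
    exact congrArg Units.val this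
  have key : ∀ A : Matrix.SpecialLinearGroup ι F, Matrix.SpecialLinearGroup.toGL A ∈ H := by
    intro A
    refine Cfsg.Agent.Lib.Helper3.SLn.transvection_induction
      (fun A => Matrix.SpecialLinearGroup.toGL A ∈ H) ?_ ?_ A
    · intro i j hij c
      have h0 : (Pi.single j c : ι → F) ⬝ᵥ (Pi.single i 1 : ι → F) = 0 := by
        rw [dotProduct_single, Pi.single_eq_of_ne hij, zero_mul]
      have : Matrix.SpecialLinearGroup.toGL (Matrix.SpecialLinearGroup.transvection hij c) =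
          tv (Pi.single j c) (Pi.single i 1) h0 := by
        apply Units.ext
        show (1 : Matrix ι ι F) + single i j c = 1 + vecMulVec (Pi.single i 1) (Pi.single j c)
        congr 1
        ext a b
        simp only [single_apply, vecMulVec_apply, Pi.single_apply]
        by_cases h1 : i = a <;> by_cases h2 : j = b <;> simp [h1, h2, eq_comm]
      rw [this]
      exact h _ _ _
    · intro A B hA hB
      rw [map_mul]
      exact H.mul_mem hA hB
  have := key ⟨g, hdet⟩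
  have e : Matrix.SpecialLinearGroup.toGL (⟨g, hdet⟩ : Matrix.SpecialLinearGroup ι F) = g :=
    Units.ext rfl
  rwa [e] at this

theorem mem_stab_of (g : Matrix.GeneralLinearGroup ι F) (W : Submodule F (ι → F))
    (h : ∀ x ∈ W, (g : Matrix ι ι F) *ᵥ x ∈ W) : g ∈ Cfsg.Geo.subspaceStabilizer W := by
  have hinj : Function.Injective (Matrix.mulVecLin (g : Matrix ι ι F)) := by
    intro x y hxy
    have := congrArg (fun z => ((g⁻¹ : Matrix.GeneralLinearGroup ι F) : Matrix ι ι F) *ᵥ z) hxy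
    simpa only [Matrix.mulVecLin_apply, inv_mulVec] using this
  have hmap : W.map (Matrix.mulVecLin (g : Matrix ι ι F)) = W := by
    apply Submodule.eq_of_le_of_finrank_eq
    · rintro _ ⟨x, hx, rfl⟩
      exact h x hx
    · exact (Submodule.equivMapOfInjective _ hinj W).finrank_eq.symm
  intro v
  constructor
  · intro hv
    exact h v hv
  · intro hv
    have hv' : (g : Matrix ι ι F) *ᵥ v ∈ W.map (Matrix.mulVecLin (g : Matrix ι ι F)) := by
      rw [hmap]; exact hv
    obtain ⟨x, hx, e⟩ := hv'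
    have := hinj e
    rw [← this]
    exact hx

theorem maps_of_mem_stab (g : Matrix.GeneralLinearGroup ι F) (W : Submodule F (ι → F))
    (h : g ∈ Cfsg.Geo.subspaceStabilizer W) (x : ι → F) (hx : x ∈ W) :
    (g : Matrix ι ι F) *ᵥ x ∈ W := (h x).mp hx

/-- a transvection fixing `S` pointwise and moving `u` to `u + v` -/
theorem exists_tv (S : Submodule F (ι → F)) (u v : ι → F) (hu : u ∉ S ⊔ Submodule.span F {v}) :
    ∃ g : Matrix.GeneralLinearGroup ι F, g ∈ Cfsg.Geo.specialLinear ι F ∧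
      (∀ s ∈ S, (g : Matrix ι ι F) *ᵥ s = s) ∧ (g : Matrix ι ι F) *ᵥ u = u + v := by
  obtain ⟨φ, h1, h2⟩ := exists_func _ u hu
  have h3 : φ ⬝ᵥ v = 0 := h1 v (Submodule.mem_sup_right (Submodule.mem_span_singleton_self v))
  refine ⟨tv φ v h3, tv_mem φ v h3, ?_, ?_⟩
  · intro s hs
    rw [tv_mulVec, h1 s (Submodule.mem_sup_left hs), zero_smul, add_zero]
  · rw [tv_mulVec, h2, one_smul]

theorem exists_not_stab (W : Submodule F (ι → F)) (hW0 : W ≠ ⊥) (hW1 : W ≠ ⊤) :
    ∃ g : Matrix.GeneralLinearGroup ι F, g ∈ Cfsg.Geo.specialLinear ι F ∧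
      g ∉ Cfsg.Geo.subspaceStabilizer W := by
  obtain ⟨w, hw, hw0⟩ := Submodule.exists_mem_ne_zero_of_ne_bot hW0
  obtain ⟨v, hv⟩ : ∃ v, v ∉ W := by
    by_contra hcon
    push Not at hcon
    exact hW1 (eq_top_iff.mpr (fun x _ => hcon x))
  obtain ⟨g, hg, _, h2⟩ := exists_tv ⊥ w v (by
    rw [bot_sup_eq]
    intro h
    obtain ⟨c, hc⟩ := Submodule.mem_span_singleton.mp h
    have hc0 : c ≠ 0 := by
      rintro rfl
      rw [zero_smul] at hc
      exact hw0 hc.symm
    apply hv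
    have := W.smul_mem c⁻¹ hw
    rwa [← hc, smul_smul, inv_mul_cancel₀ hc0, one_smul] at this)
  refine ⟨g, hg, ?_⟩
  intro h
  have h3 := maps_of_mem_stab g W h w hw
  rw [h2] at h3
  apply hv
  have := W.sub_mem h3 hw
  rwa [add_sub_cancel_left] at this

/-- subspace stabilisers are maximal in the special linear group -/
theorem subspace_max [Nontrivial ι] (W : Submodule F (ι → F)) (hW0 : W ≠ ⊥) (hW1 : W ≠ ⊤) :
    Cfsg.Geo.IsMaximalIn (Cfsg.Geo.specialLinear ι F)
      (Cfsg.Geo.subspaceStabilizer W ⊓ Cfsg.Geo.specialLinear ι F) := by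
  constructor
  · rw [SetLike.lt_iff_le_and_exists]
    refine ⟨inf_le_right, ?_⟩
    obtain ⟨g, hg, h⟩ := exists_not_stab W hW0 hW1
    exact ⟨g, hg, fun h' => h h'.1⟩
  · intro M hM1 hM2
    by_cases hc : M ≤ Cfsg.Geo.subspaceStabilizer W
    · left
      exact le_antisymm (le_inf hc hM2) hM1
    · right
      apply le_antisymm hM2
      obtain ⟨g, hgM, hgW⟩ := SetLike.not_le_iff_exists.mp hc
      have hWV : ∀ v ∈ W, v ∈ VV M := by
        intro v hv φ h
        apply hM1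
        refine ⟨mem_stab_of _ W ?_, tv_mem φ v h⟩
        intro x hx
        rw [tv_mulVec]
        exact W.add_mem hx (W.smul_mem _ hv)
      obtain ⟨w, hw, hgw⟩ : ∃ w ∈ W, (g : Matrix ι ι F) *ᵥ w ∉ W := by
        by_contra hcon
        push Not at hcon
        exact hgW (mem_stab_of g W hcon)
      have hv₀ := VV_img hgM (hWV w hw)
      set v₀ := (g : Matrix ι ι F) *ᵥ w with hv₀def
      obtain ⟨ψ, h1, h2⟩ := exists_func W v₀ hgw
      have hker : ∀ u, ψ ⬝ᵥ u = 0 → u ∈ VV M := by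
        intro u hu
        have hP : tv ψ u hu ∈ M := by
          apply hM1
          refine ⟨mem_stab_of _ W ?_, tv_mem ψ u hu⟩
          intro x hx
          rw [tv_mulVec, h1 x hx, zero_smul, add_zero]
          exact hx
        have e1 := VV_img hP hv₀
        rw [tv_mulVec, h2, one_smul] at e1
        have e2 := VV_add e1 (VV_smul hv₀ (-1))
        have e3 : v₀ + u + (-1 : F) • v₀ = u := by module
        rwa [e3] at e2
      apply le_of_VV
      intro v
      have e1 : v = (v - (ψ ⬝ᵥ v) • v₀) + (ψ ⬝ᵥ v) • v₀ := by abel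
      rw [e1]
      apply VV_add (hker _ _) (VV_smul hv₀ _)
      rw [dotProduct_sub, dotProduct_smul, h2, smul_eq_mul, mul_one, sub_self]

/-- shape of the non-maximality statements -/
theorem not_max (W U : Submodule F (ι → F)) (hW0 : W ≠ ⊥) (hW1 : W ≠ ⊤)
    (h : ∃ g : Matrix.GeneralLinearGroup ι F, g ∈ Cfsg.Geo.specialLinear ι F ∧
      g ∈ Cfsg.Geo.subspaceStabilizer W ∧ g ∉ Cfsg.Geo.subspaceStabilizer U) :
    ∃ K : Subgroup (Matrix.GeneralLinearGroup ι F),
      Cfsg.Geo.subspaceStabilizer W ⊓ Cfsg.Geo.subspaceStabilizer U ⊓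
        Cfsg.Geo.specialLinear ι F < K ∧ K < Cfsg.Geo.specialLinear ι F := by
  refine ⟨Cfsg.Geo.subspaceStabilizer W ⊓ Cfsg.Geo.specialLinear ι F, ?_, ?_⟩
  · rw [SetLike.lt_iff_le_and_exists]
    constructor
    · rintro x ⟨⟨h1, _⟩, h3⟩
      exact ⟨h1, h3⟩
    · obtain ⟨g, h1, h2, h3⟩ := h
      exact ⟨g, ⟨h2, h1⟩, fun h' => h3 h'.1.2⟩
  · rw [SetLike.lt_iff_le_and_exists]
    refine ⟨inf_le_right, ?_⟩
    obtain ⟨g, hg, h⟩ := exists_not_stab W hW0 hW1
    exact ⟨g, hg, fun h' => h h'.1⟩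

end Cfsg.Agent.Lib.Helper5.SLMax
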