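import Mathlib
import Cfsg.Prelude.Def_GeometricClasses
import Cfsg.Agent.Lib.Helper5.SLMax

set_option autoImplicit false
set_option linter.unusedSectionVars false

namespace Cfsg.Agent.Lib.Helper5.SLSymp

open Matrix Cfsg.Agent.Lib.Helper5.SLMax

variable {F : Type*} [Field F] {ι : Type} [Fintype ι] [DecidableEq ι]

theorem tv_mul_same (φ φ' v : ι → F) (h : φ ⬝ᵥ v = 0) (h' : φ' ⬝ᵥ v = 0) :
    tv φ v h * tv φ' v h' = tv (φ + φ') v (by rw [add_dotProduct, h, h', add_zero]) := by
  apply gl_ext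
  intro x
  rw [Units.val_mul, ← mulVec_mulVec, tv_mulVec, tv_mulVec, tv_mulVec, dotProduct_add,
    dotProduct_smul, h, add_dotProduct]
  module

theorem tv_inv (φ v : ι → F) (h : φ ⬝ᵥ v = 0) :
    (tv φ v h)⁻¹ = tv (-φ) v (by rw [neg_dotProduct, h, neg_zero]) := by
  apply inv_eq_of_mul_eq_one_right
  rw [tv_mul_same]
  apply gl_ext
  intro x
  rw [tv_mulVec, Units.val_one, one_mulVec]
  simp

theorem tv_congr {φ φ' v v' : ι → F} (h : φ ⬝ᵥ v = 0) (e1 : φ = φ') (e2 : v = v') :
    tv φ v h = tv φ' v' (by rw [← e1, ← e2]; exact h) := by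
  subst e1; subst e2; rfl

section form

variable (f : (ι → F) → (ι → F) → F) (hf : Cfsg.Geo.IsSymplecticForm f)

/-- the functional `f(·,u)` as a vector -/
def ph (u : ι → F) : ι → F := fun i => f (Pi.single i 1) u

include hf

theorem f_zero_left (v : ι → F) : f 0 v = 0 := by
  have := hf.bilinear.smul_left 0 0 v
  simpa using this

theorem f_zero_right (v : ι → F) : f v 0 = 0 := by
  rw [hf.skew, f_zero_left f hf, neg_zero]

theorem f_sum_left {κ : Type*} (s : Finset κ) (x : κ → ι → F) (v : ι → F) :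
    f (∑ k ∈ s, x k) v = ∑ k ∈ s, f (x k) v := by
  classical
  induction s using Finset.induction_on with
  | empty => simp [f_zero_left f hf]
  | insert a s ha ih => rw [Finset.sum_insert ha, Finset.sum_insert ha, hf.bilinear.add_left, ih]

theorem ph_dot (u z : ι → F) : ph f u ⬝ᵥ z = f z u := by
  have hz : z = ∑ i, z i • (Pi.single i 1 : ι → F) := by
    funext j
    simp [Finset.sum_apply, Pi.single_apply]
  conv_rhs => rw [hz]
  rw [f_sum_left f hf]
  unfold dotProduct ph
  apply Finset.sum_congr rfl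
  intro i _
  rw [hf.bilinear.smul_left, mul_comm]

theorem ph_add (u u' : ι → F) : ph f (u + u') = ph f u + ph f u' := by
  funext i
  exact hf.bilinear.add_right _ _ _

theorem ph_smul (c : F) (u : ι → F) : ph f (c • u) = c • ph f u := by
  funext i
  exact hf.bilinear.smul_right _ _ _

theorem ph_neg (u : ι → F) : ph f (-u) = - ph f u := by
  have := ph_smul f hf (-1) u
  simpa using this

theorem riesz (φ : ι → F) : ∃ u, φ = ph f u := by
  let L : (ι → F) →ₗ[F] (ι → F) :=
    { toFun := ph f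
      map_add' := ph_add f hf
      map_smul' := fun c u => by rw [ph_smul f hf]; rfl }
  have hinj : Function.Injective L := by
    rw [← LinearMap.ker_eq_bot, LinearMap.ker_eq_bot']
    intro u hu
    by_contra h0
    obtain ⟨⟨x, hx⟩, _⟩ := hf.nondegenerate u h0
    apply hx
    rw [← ph_dot f hf]
    have : ph f u = 0 := hu
    rw [this, zero_dotProduct]
  obtain ⟨u, hu⟩ := (LinearMap.injective_iff_surjective.mp hinj) φ
  exact ⟨u, hu.symm⟩

theorem exists_orth_ne (S : Submodule F (ι → F)) (v : ι → F) (hv : v ∉ S) :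
    ∃ y, (∀ s ∈ S, f s y = 0) ∧ f v y = 1 := by
  obtain ⟨ψ, h1, h2⟩ := exists_func S v hv
  obtain ⟨y, rfl⟩ := riesz f hf ψ
  refine ⟨y, ?_, ?_⟩
  · intro s hs
    rw [← ph_dot f hf]
    exact h1 s hs
  · rw [← ph_dot f hf]
    exact h2

/-- the transvection `z ↦ z + f(z,u) v` -/
def TT (u v : ι → F) (h : f v u = 0) : Matrix.GeneralLinearGroup ι F :=
  tv (ph f u) v (by rw [ph_dot f hf]; exact h)

theorem TT_mulVec (u v : ι → F) (h : f v u = 0) (z : ι → F) :
    (TT f hf u v h : Matrix ι ι F) *ᵥ z = z + f z u • v := by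
  unfold TT
  rw [tv_mulVec, ph_dot f hf]

theorem TT_mem_SL (u v : ι → F) (h : f v u = 0) : TT f hf u v h ∈ Cfsg.Geo.specialLinear ι F :=
  tv_mem _ _ _

theorem smul_self_zero (c : F) (x : ι → F) : f x (c • x) = 0 := by
  rw [hf.bilinear.smul_right, hf.alternating, mul_zero]

/-- symplectic transvections are isometries -/
theorem TT_isom (c : F) (x : ι → F) (z z' : ι → F) :
    f ((TT f hf (c • x) x (smul_self_zero f hf c x) : Matrix ι ι F) *ᵥ z)
      ((TT f hf (c • x) x (smul_self_zero f hf c x) : Matrix ι ι F) *ᵥ z') = f z z' := by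
  rw [TT_mulVec, TT_mulVec]
  simp only [hf.bilinear.add_left, hf.bilinear.add_right, hf.bilinear.smul_left,
    hf.bilinear.smul_right, hf.alternating]
  rw [hf.skew x z']
  ring

theorem TT_mem_sim (c : F) (x : ι → F) :
    TT f hf (c • x) x (smul_self_zero f hf c x) ∈ Cfsg.Geo.similarityGroup f :=
  ⟨1, fun u v => by rw [Units.val_one, one_mul]; exact TT_isom f hf c x u v⟩

theorem conj_TT (g : Matrix.GeneralLinearGroup ι F)
    (hg : ∀ z z', f ((g : Matrix ι ι F) *ᵥ z) ((g : Matrix ι ι F) *ᵥ z') = f z z')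
    (u v : ι → F) (h : f v u = 0) :
    g * TT f hf u v h * g⁻¹ =
      TT f hf ((g : Matrix ι ι F) *ᵥ u) ((g : Matrix ι ι F) *ᵥ v) (by rw [hg]; exact h) := by
  apply gl_ext
  intro z
  rw [Units.val_mul, Units.val_mul, ← mulVec_mulVec, ← mulVec_mulVec, TT_mulVec, TT_mulVec,
    mulVec_add, mul_inv_mulVec, mulVec_smul]
  congr 2
  rw [← hg, mul_inv_mulVec]

theorem TT_mul (u u' v : ι → F) (h : f v u = 0) (h' : f v u' = 0) :
    TT f hf u v h * TT f hf u' v h' =
      TT f hf (u + u') v (by rw [hf.bilinear.add_right, h, h', add_zero]) := by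
  apply gl_ext
  intro z
  rw [Units.val_mul, ← mulVec_mulVec, TT_mulVec, TT_mulVec, TT_mulVec, hf.bilinear.add_left,
    hf.bilinear.smul_left, h, hf.bilinear.add_right]
  module

theorem TT_inv (u v : ι → F) (h : f v u = 0) :
    (TT f hf u v h)⁻¹ = TT f hf (-u) v (by
      have := hf.bilinear.smul_right (-1) v u
      rw [neg_one_smul] at this
      rw [this, h, mul_zero]) := by
  apply inv_eq_of_mul_eq_one_right
  rw [TT_mul]
  apply gl_ext
  intro z
  rw [TT_mulVec, Units.val_one, one_mulVec, add_neg_cancel, f_zero_right f hf, zero_smul, add_zero]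

theorem TT_congr {u u' v : ι → F} (h : f v u = 0) (e : u = u') :
    TT f hf u v h = TT f hf u' v (by rw [← e]; exact h) := by
  subst e; rfl

theorem lemmaS (u v : ι → F) (h : f v u = 0) (hv : v ≠ 0)
    (hT : TT f hf u v h ∈ Cfsg.Geo.similarityGroup f) : u ∈ Submodule.span F {v} := by
  by_contra hu
  obtain ⟨c, hc⟩ := hT
  obtain ⟨⟨z, hz⟩, _⟩ := hf.nondegenerate v hv
  have e1 := hc z v
  rw [TT_mulVec, TT_mulVec, h, zero_smul, add_zero, hf.bilinear.add_left, hf.bilinear.smul_left,
    hf.alternating, mul_zero, add_zero] at e1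
  have hc1 : (c : F) = 1 := by
    have : (1 : F) * f z v = (c : F) * f z v := by rw [one_mul]; exact e1
    exact (mul_right_cancel₀ hz this).symm
  obtain ⟨y, hy1, hy2⟩ := exists_orth_ne f hf _ u hu
  have hvy : f v y = 0 := hy1 v (Submodule.mem_span_singleton_self v)
  have e2 := hc z y
  rw [TT_mulVec, TT_mulVec, hc1, one_mul, hf.skew y u, hy2] at e2
  simp only [hf.bilinear.add_left, hf.bilinear.add_right, hf.bilinear.smul_left,
    hf.bilinear.smul_right, hf.alternating, hvy] at e2
  apply hz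
  linear_combination -e2

omit hf in
theorem exists_not_mem (S : Submodule F (ι → F)) (h : Module.finrank F S < Fintype.card ι) :
    ∃ x, x ∉ S := by
  by_contra hcon
  push Not at hcon
  have : S = ⊤ := eq_top_iff.mpr (fun x _ => hcon x)
  rw [this, finrank_top, Module.finrank_fintype_fun_eq_card] at h
  exact lt_irrefl _ h

theorem exists_both (v v' : ι → F) (hv : v ≠ 0) (hv' : v' ≠ 0) :
    ∃ y, f y v ≠ 0 ∧ f y v' ≠ 0 := by
  obtain ⟨⟨y₁, h1⟩, _⟩ := hf.nondegenerate v hv
  obtain ⟨⟨y₂, h2⟩, _⟩ := hf.nondegenerate v' hv'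
  by_cases c1 : f y₁ v' = 0
  · by_cases c2 : f y₂ v = 0
    · refine ⟨y₁ + y₂, ?_, ?_⟩
      · rw [hf.bilinear.add_left, c2, add_zero]; exact h1
      · rw [hf.bilinear.add_left, c1, zero_add]; exact h2
    · exact ⟨y₂, c2, h2⟩
  · exact ⟨y₁, h1, c1⟩

/-- the symplectic similarity group is maximal in the special linear group -/
theorem symp_max (hn : 3 ≤ Fintype.card ι) :
    Cfsg.Geo.IsMaximalIn (Cfsg.Geo.specialLinear ι F)
      (Cfsg.Geo.similarityGroup f ⊓ Cfsg.Geo.specialLinear ι F) := by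
  have hnt : Nontrivial ι := Fintype.one_lt_card_iff_nontrivial.mp (by omega)
  obtain ⟨i₀⟩ : Nonempty ι := inferInstance
  have hv₁ : (Pi.single i₀ 1 : ι → F) ≠ 0 := by
    intro h
    have := congrFun h i₀
    simp at this
  set v₁ : ι → F := Pi.single i₀ 1 with hv₁def
  constructor
  · rw [SetLike.lt_iff_le_and_exists]
    refine ⟨inf_le_right, ?_⟩
    obtain ⟨u, hu1, hu2⟩ : ∃ u, f v₁ u = 0 ∧ u ∉ Submodule.span F {v₁} := by
      have h1 : Module.finrank F (Submodule.span F {v₁}) ≤ 1 := by
        rw [finrank_span_singleton hv₁]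
      obtain ⟨w, hw⟩ := exists_not_mem (Submodule.span F {v₁}) (by omega)
      by_cases c : f v₁ w = 0
      · exact ⟨w, c, hw⟩
      · have h2 : Module.finrank F (Submodule.span F {v₁, w}) ≤ 2 := by
          classical
          have h2 := finrank_span_finset_le_card (R := F) ({v₁, w} : Finset (ι → F))
          rw [Finset.coe_pair] at h2
          exact h2.trans Finset.card_le_two
        obtain ⟨w', hw'⟩ := exists_not_mem (Submodule.span F {v₁, w}) (by omega)
        refine ⟨w' + (-(f v₁ w' / f v₁ w)) • w, ?_, ?_⟩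
        · rw [hf.bilinear.add_right, hf.bilinear.smul_right]
          field_simp
          ring
        · intro h
          obtain ⟨a, ha⟩ := Submodule.mem_span_singleton.mp h
          apply hw'
          have : w' = a • v₁ + (f v₁ w' / f v₁ w) • w := by
            rw [ha]; module
          rw [this]
          exact Submodule.mem_span_pair.mpr ⟨_, _, rfl⟩
    exact ⟨TT f hf u v₁ hu1, TT_mem_SL f hf u v₁ hu1, fun h => hu2 (lemmaS f hf u v₁ hu1 hv₁ h.1)⟩
  · intro M hM1 hM2
    by_cases hc : M ≤ Cfsg.Geo.similarityGroup f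
    · left
      exact le_antisymm (le_inf hc hM2) hM1
    right
    apply le_antisymm hM2
    obtain ⟨g, hgM, hgS⟩ := SetLike.not_le_iff_exists.mp hc
    have hs : ∀ (c : F) (x : ι → F), TT f hf (c • x) x (smul_self_zero f hf c x) ∈ M :=
      fun c x => hM1 ⟨TT_mem_sim f hf c x, TT_mem_SL f hf _ _ _⟩
    -- step 1
    have step1 : ∃ (u₀ v₀ : ι → F) (h : f v₀ u₀ = 0), v₀ ≠ 0 ∧ u₀ ∉ Submodule.span F {v₀} ∧
        TT f hf u₀ v₀ h ∈ M := by
      by_contra hcon
      push Not at hcon
      apply hgS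
      have key : ∀ v : ι → F, ∃ l : F, v ≠ 0 →
          ∀ y, f y v = l * f ((g : Matrix ι ι F) *ᵥ y) ((g : Matrix ι ι F) *ᵥ v) := by
        intro v
        by_cases hv : v = 0
        · exact ⟨0, fun h => absurd hv h⟩
        obtain ⟨u, hu⟩ := riesz f hf
          (ph f v ᵥ* ((g⁻¹ : Matrix.GeneralLinearGroup ι F) : Matrix ι ι F))
        have hu' : ∀ z, f z u =
            f (((g⁻¹ : Matrix.GeneralLinearGroup ι F) : Matrix ι ι F) *ᵥ z) v := by
          intro z
          rw [← ph_dot f hf, ← hu, ← dotProduct_mulVec, ph_dot f hf]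
        have h0 : f ((g : Matrix ι ι F) *ᵥ v) u = 0 := by
          rw [hu', inv_mulVec, hf.alternating]
        have hmem : TT f hf u ((g : Matrix ι ι F) *ᵥ v) h0 ∈ M := by
          have e : TT f hf u ((g : Matrix ι ι F) *ᵥ v) h0 =
              g * TT f hf ((1 : F) • v) v (smul_self_zero f hf 1 v) * g⁻¹ := by
            apply gl_ext
            intro z
            rw [Units.val_mul, Units.val_mul, ← mulVec_mulVec, ← mulVec_mulVec, TT_mulVec,
              TT_mulVec, mulVec_add, mul_inv_mulVec, mulVec_smul, hu', one_smul]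
          rw [e]
          exact M.mul_mem (M.mul_mem hgM (hs 1 v)) (M.inv_mem hgM)
        have hgv : (g : Matrix ι ι F) *ᵥ v ≠ 0 := by
          intro h
          apply hv
          rw [← inv_mulVec g v, h, mulVec_zero]
        have hspan : u ∈ Submodule.span F {(g : Matrix ι ι F) *ᵥ v} := by
          by_contra hns
          exact hcon u _ h0 hgv hns hmem
        obtain ⟨l, hl⟩ := Submodule.mem_span_singleton.mp hspan
        refine ⟨l, fun _ y => ?_⟩
        rw [← hf.bilinear.smul_right, hl, hu', inv_mulVec]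
      choose lam hlam using key
      have hconst : ∀ v y, f y v ≠ 0 → lam v = lam y := by
        intro v y hyv
        have hv : v ≠ 0 := by
          rintro rfl
          exact hyv (f_zero_right f hf y)
        have hy : y ≠ 0 := by
          rintro rfl
          exact hyv (f_zero_left f hf v)
        have e1 := hlam v hv y
        have e2 := hlam y hy v
        rw [hf.skew v y, hf.skew ((g : Matrix ι ι F) *ᵥ v)] at e2
        have hne : f ((g : Matrix ι ι F) *ᵥ y) ((g : Matrix ι ι F) *ᵥ v) ≠ 0 := by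
          intro h
          rw [h, mul_zero] at e1
          exact hyv e1
        have : lam v * f ((g : Matrix ι ι F) *ᵥ y) ((g : Matrix ι ι F) *ᵥ v) =
            lam y * f ((g : Matrix ι ι F) *ᵥ y) ((g : Matrix ι ι F) *ᵥ v) := by
          linear_combination -e1 - e2
        exact mul_right_cancel₀ hne this
      have hall : ∀ v, v ≠ 0 → lam v = lam v₁ := by
        intro v hv
        obtain ⟨y, h1, h2⟩ := exists_both f hf v v₁ hv hv₁
        rw [hconst v y h1, hconst v₁ y h2]
      have hl0 : lam v₁ ≠ 0 := by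
        intro h
        obtain ⟨⟨y, hy⟩, _⟩ := hf.nondegenerate v₁ hv₁
        apply hy
        rw [hlam v₁ hv₁ y, h, zero_mul]
      refine ⟨Units.mk0 (lam v₁)⁻¹ (inv_ne_zero hl0), fun u v => ?_⟩
      rw [Units.val_mk0]
      by_cases hv : v = 0
      · rw [hv, mulVec_zero, f_zero_right f hf, f_zero_right f hf, mul_zero]
      · rw [hlam v hv u, hall v hv, ← mul_assoc, inv_mul_cancel₀ hl0, one_mul]
    obtain ⟨u₀, v₀, h₀, hv₀, hu₀, hT₀⟩ := step1
    -- step 2
    obtain ⟨x₁, hx₁, hux₁⟩ := exists_orth_ne f hf _ u₀ hu₀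
    have hvx₁ : f v₀ x₁ = 0 := hx₁ v₀ (Submodule.mem_span_singleton_self v₀)
    have stepa : ∀ x (hx : f v₀ x = 0), f u₀ x ≠ 0 → TT f hf x v₀ hx ∈ M := by
      intro x hx hne
      have e1 := M.mul_mem (M.mul_mem (hs (f u₀ x)⁻¹ x) hT₀) (M.inv_mem (hs (f u₀ x)⁻¹ x))
      rw [conj_TT f hf _ (TT_isom f hf _ x)] at e1
      have e2 : (TT f hf ((f u₀ x)⁻¹ • x) x (smul_self_zero f hf _ x) : Matrix ι ι F) *ᵥ v₀ = v₀ := by
        rw [TT_mulVec, hf.bilinear.smul_right, hx, mul_zero, zero_smul, add_zero]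
      have e3 : (TT f hf ((f u₀ x)⁻¹ • x) x (smul_self_zero f hf _ x) : Matrix ι ι F) *ᵥ u₀ =
          u₀ + x := by
        rw [TT_mulVec, hf.bilinear.smul_right, inv_mul_cancel₀ hne, one_smul]
      have e4 : TT f hf (u₀ + x) v₀ (by rw [hf.bilinear.add_right, h₀, hx, add_zero]) ∈ M := by
        have e5 : TT f hf (u₀ + x) v₀ (by rw [hf.bilinear.add_right, h₀, hx, add_zero]) =
            TT f hf ((TT f hf ((f u₀ x)⁻¹ • x) x (smul_self_zero f hf _ x) : Matrix ι ι F) *ᵥ u₀)
              ((TT f hf ((f u₀ x)⁻¹ • x) x (smul_self_zero f hf _ x) : Matrix ι ι F) *ᵥ v₀)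
              (by rw [TT_isom f hf]; exact h₀) := by
          apply gl_ext
          intro z
          rw [TT_mulVec, TT_mulVec, e2, e3]
        rw [e5]
        exact e1
      have e6 := M.mul_mem (M.inv_mem hT₀) e4
      rw [TT_inv, TT_mul] at e6
      have e7 : TT f hf x v₀ hx = TT f hf (-u₀ + (u₀ + x)) v₀ (by
          rw [neg_add_cancel_left]; exact hx) := TT_congr f hf hx (by abel)
      rw [e7]
      exact e6
    have stepb : ∀ x (hx : f v₀ x = 0), TT f hf x v₀ hx ∈ M := by
      intro x hx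
      by_cases c : f u₀ x = 0
      · have a1 := stepa (x + x₁) (by rw [hf.bilinear.add_right, hx, hvx₁, add_zero])
          (by rw [hf.bilinear.add_right, c, hux₁, zero_add]; exact one_ne_zero)
        have a2 := stepa x₁ hvx₁ (by rw [hux₁]; exact one_ne_zero)
        have a3 := M.mul_mem a1 (M.inv_mem a2)
        rw [TT_inv, TT_mul] at a3
        have a4 : TT f hf x v₀ hx = TT f hf (x + x₁ + -x₁) v₀ (by
          rw [add_neg_cancel_right]; exact hx) := TT_congr f hf hx (by abel)
        rw [a4]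
        exact a3
      · exact stepa x hx c
    have hvV : v₀ ∈ VV M := by
      intro φ hφ
      obtain ⟨u, rfl⟩ := riesz f hf φ
      have hu : f v₀ u = 0 := by rw [← ph_dot f hf]; exact hφ
      exact stepb u hu
    -- step 3
    have stepc : ∀ x, f v₀ x ≠ 0 → x ∈ VV M := by
      intro x hx
      have e1 := VV_img (hs (f v₀ x)⁻¹ x) hvV
      rw [TT_mulVec, hf.bilinear.smul_right, inv_mul_cancel₀ hx, one_smul] at e1
      have e2 := VV_add e1 (VV_smul hvV (-1))
      have e3 : v₀ + x + (-1 : F) • v₀ = x := by module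
      rwa [e3] at e2
    apply le_of_VV
    intro x
    by_cases c : f v₀ x = 0
    · obtain ⟨_, y, hy⟩ := hf.nondegenerate v₀ hv₀
      have e1 := stepc (x + y) (by rw [hf.bilinear.add_right, c, zero_add]; exact hy)
      have e2 := VV_add e1 (VV_smul (stepc y hy) (-1))
      have e3 : x + y + (-1 : F) • y = x := by module
      rwa [e3] at e2
    · exact stepc x c

end form

end Cfsg.Agent.Lib.Helper5.SLSymp
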