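import Mathlib
import Cfsg.Prelude.Def_GeometricClasses
import Cfsg.Agent.Lib.Helper5.SLSymp

set_option autoImplicit false
set_option linter.unusedSectionVars false

namespace Cfsg.Agent.Lib.Helper5.SympTwo

open Matrix Cfsg.Agent.Lib.Helper5.SLMax Cfsg.Agent.Lib.Helper5.SLSymp

variable {F : Type*} [Field F] {ι : Type} [Fintype ι] [DecidableEq ι]
variable (f : (ι → F) → (ι → F) → F) (hf : Cfsg.Geo.IsSymplecticForm f)
variable (hF2 : ∀ a : F, a = 0 ∨ a = 1)

include hF2 in
theorem two_zero : (2 : F) = 0 := by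
  rcases hF2 2 with h | h
  · exact h
  · exfalso
    have : (1 : F) = 0 := by linear_combination h
    exact one_ne_zero this

include hF2 in
theorem neg_eq (a : F) : -a = a := by
  have := two_zero hF2
  linear_combination -a * this

/-- the functional `f(·,u)` -/
def fl (u : ι → F) : (ι → F) →ₗ[F] F where
  toFun z := f z u
  map_add' x y := hf.bilinear.add_left x y u
  map_smul' c x := hf.bilinear.smul_left c x u

include hf hF2

theorem exists_frame (W : Submodule F (ι → F)) (hfin : Module.finrank F W = 2)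
    (hnd : Cfsg.Geo.IsNondegenerateOn f W) :
    ∃ e ∈ W, ∃ e' ∈ W, f e e' = 1 ∧ ∀ v ∈ W, v = f v e' • e + f v e • e' := by
  have hW0 : W ≠ ⊥ := by
    rintro rfl
    rw [finrank_bot] at hfin
    omega
  obtain ⟨e', he', he'0⟩ := Submodule.exists_mem_ne_zero_of_ne_bot hW0
  obtain ⟨e, he, hee'⟩ := (hnd e' he' he'0).1
  have hee : f e e' = 1 := (hF2 _).resolve_left hee'
  have he'e : f e' e = 1 := by rw [hf.skew, hee, neg_eq hF2]
  set Z := W ⊓ LinearMap.ker (fl f hf e') with hZ
  have hmemZ : ∀ z, z ∈ Z ↔ z ∈ W ∧ f z e' = 0 := by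
    intro z
    rw [hZ, Submodule.mem_inf, LinearMap.mem_ker]
    rfl
  have hlt : Z < W := by
    rw [SetLike.lt_iff_le_and_exists]
    refine ⟨inf_le_left, e, he, fun h => ?_⟩
    have := ((hmemZ e).mp h).2
    rw [hee] at this
    exact one_ne_zero this
  have hZ1 : Module.finrank F Z ≤ 1 := by
    have := Submodule.finrank_lt_finrank_of_lt hlt
    omega
  obtain ⟨v₀, hv₀⟩ := finrank_le_one_iff.mp hZ1
  have hline : ∀ z ∈ W, f z e' = 0 → ∃ c : F, z = c • e' := by
    intro z hz hze
    obtain ⟨c₁, hc₁⟩ := hv₀ ⟨e', (hmemZ e').mpr ⟨he', hf.alternating e'⟩⟩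
    obtain ⟨c₂, hc₂⟩ := hv₀ ⟨z, (hmemZ z).mpr ⟨hz, hze⟩⟩
    have e1 : c₁ • (v₀ : ι → F) = e' := congrArg Subtype.val hc₁
    have e2 : c₂ • (v₀ : ι → F) = z := congrArg Subtype.val hc₂
    have hc₁0 : c₁ ≠ 0 := by
      rintro rfl
      rw [zero_smul] at e1
      exact he'0 e1.symm
    refine ⟨c₂ / c₁, ?_⟩
    rw [← e1, ← e2, smul_smul, div_mul_cancel₀ _ hc₁0]
  refine ⟨e, he, e', he', hee, fun v hv => ?_⟩
  obtain ⟨c, hc⟩ := hline (v - f v e' • e) (W.sub_mem hv (W.smul_mem _ he)) (by
    rw [sub_eq_add_neg, hf.bilinear.add_left, ← neg_smul, hf.bilinear.smul_left, hee]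
    ring)
  have hv' : v = f v e' • e + c • e' := by rw [← hc]; abel
  have : f v e = c := by
    conv_lhs => rw [hv']
    rw [hf.bilinear.add_left, hf.bilinear.smul_left, hf.bilinear.smul_left, hf.alternating, he'e]
    ring
  rw [this]
  exact hv'

omit hf hF2 in
/-- the quadratic form attached to a family of frames -/
def QQ {t : ℕ} (f : (ι → F) → (ι → F) → F) (e e' : Fin t → ι → F) (v : ι → F) : F :=
  ∑ i, ((f v (e' i)) ^ 2 + f v (e' i) * f v (e i) + (f v (e i)) ^ 2)

omit hf hF2 in
/-- the isometries of the quadratic form -/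
def K₀ {t : ℕ} (f : (ι → F) → (ι → F) → F) (e e' : Fin t → ι → F) :
    Subgroup (Matrix.GeneralLinearGroup ι F) where
  carrier := {g | ∀ v, QQ f e e' ((g : Matrix ι ι F) *ᵥ v) = QQ f e e' v}
  mul_mem' {a b} ha hb := by
    intro v
    rw [Units.val_mul, ← mulVec_mulVec, ha, hb]
  one_mem' := by
    intro v
    rw [Units.val_one, one_mulVec]
  inv_mem' {a} ha := by
    intro v
    rw [← ha, mul_inv_mulVec]

theorem not_max {t : ℕ} (D : Fin t → Submodule F (ι → F)) (ht : 3 ≤ t)
    (hfin : ∀ i, Module.finrank F (D i) = 2) (htop : iSup D = ⊤)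
    (hnd : ∀ i, Cfsg.Geo.IsNondegenerateOn f (D i))
    (horth : ∀ i j, i ≠ j → ∀ u ∈ D i, ∀ v ∈ D j, f u v = 0)
    (G : Subgroup (Matrix.GeneralLinearGroup ι F))
    (hG : ∀ g : Matrix.GeneralLinearGroup ι F, g ∈ G ↔
      ∀ u v, f ((g : Matrix ι ι F) *ᵥ u) ((g : Matrix ι ι F) *ᵥ v) = f u v) :
    ∃ K : Subgroup (Matrix.GeneralLinearGroup ι F),
      Cfsg.Geo.decompositionStabilizer D ⊓ G < K ∧ K < G := by
  have h2 := two_zero hF2
  have hneg := neg_eq hF2
  choose e he e' he' hee' hdec using fun i => exists_frame f hf hF2 (D i) (hfin i) (hnd i)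
  have he'e : ∀ i, f (e' i) (e i) = 1 := fun i => by rw [hf.skew, hee', hneg]
  have hee : ∀ i, f (e i) (e i) = 0 := fun i => hf.alternating _
  have he'e' : ∀ i, f (e' i) (e' i) = 0 := fun i => hf.alternating _
  obtain ⟨i0, i1, i2, h01, h02, h12⟩ : ∃ i0 i1 i2 : Fin t, i0 ≠ i1 ∧ i0 ≠ i2 ∧ i1 ≠ i2 :=
    ⟨⟨0, by omega⟩, ⟨1, by omega⟩, ⟨2, by omega⟩, by simp [Fin.ext_iff], by simp [Fin.ext_iff],
      by simp [Fin.ext_iff]⟩
  -- expansion
  have hexp : ∀ v, v = ∑ i, (f v (e' i) • e i + f v (e i) • e' i) := by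
    intro v
    have hv : v ∈ iSup D := by rw [htop]; trivial
    induction hv using Submodule.iSup_induction' with
    | mem j x hx =>
      rw [Finset.sum_eq_single j]
      · exact hdec j x hx
      · intro l _ hl
        rw [horth j l hl.symm x hx _ (he' l), horth j l hl.symm x hx _ (he l), zero_smul,
          zero_smul, add_zero]
      · intro h
        exact absurd (Finset.mem_univ j) h
    | zero =>
      simp [f_zero_left f hf]
    | add x y _ _ hx hy =>
      conv_lhs => rw [hx, hy]
      rw [← Finset.sum_add_distrib]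
      apply Finset.sum_congr rfl
      intro i _
      rw [hf.bilinear.add_left, hf.bilinear.add_left]
      module
  have hform : ∀ u v, f u v = ∑ i, (f u (e' i) * f v (e i) + f v (e' i) * f u (e i)) := by
    intro u v
    have h1 : f u v = f (∑ i, (f u (e' i) • e i + f u (e i) • e' i)) v := by rw [← hexp u]
    rw [h1, f_sum_left f hf]
    apply Finset.sum_congr rfl
    intro i _
    rw [hf.bilinear.add_left, hf.bilinear.smul_left, hf.bilinear.smul_left, hf.skew (e i) v,
      hf.skew (e' i) v, hneg, hneg]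
    ring
  have polar : ∀ u v, QQ f e e' (u + v) = QQ f e e' u + QQ f e e' v + f u v := by
    intro u v
    rw [hform u v]
    unfold QQ
    rw [← Finset.sum_add_distrib, ← Finset.sum_add_distrib]
    apply Finset.sum_congr rfl
    intro i _
    rw [hf.bilinear.add_left, hf.bilinear.add_left]
    linear_combination (f u (e' i) * f v (e' i) + f u (e i) * f v (e i)) * h2
  have hQ0 : QQ f e e' 0 = 0 := by
    unfold QQ
    simp [f_zero_left f hf]
  have hblock : ∀ j, ∀ w ∈ D j, w ≠ 0 → QQ f e e' w = 1 := by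
    intro j w hw hw0
    unfold QQ
    rw [Finset.sum_eq_single j]
    · rcases hF2 (f w (e' j)) with ha | ha <;> rcases hF2 (f w (e j)) with hb | hb
      · exfalso
        apply hw0
        rw [hdec j w hw, ha, hb, zero_smul, zero_smul, add_zero]
      · rw [ha, hb]; ring
      · rw [ha, hb]; ring
      · rw [ha, hb]; linear_combination h2
    · intro l _ hl
      rw [horth j l hl.symm w hw _ (he' l), horth j l hl.symm w hw _ (he l)]
      ring
    · intro h
      exact absurd (Finset.mem_univ j) h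
  have he0 : ∀ i, e i ≠ 0 := by
    intro i h
    have := hee' i
    rw [h, f_zero_left f hf] at this
    exact zero_ne_one this
  have he'0 : ∀ i, e' i ≠ 0 := by
    intro i h
    have := he'e i
    rw [h, f_zero_left f hf] at this
    exact zero_ne_one this
  have hQe : ∀ i, QQ f e e' (e i) = 1 := fun i => hblock i _ (he i) (he0 i)
  have hQe' : ∀ i, QQ f e e' (e' i) = 1 := fun i => hblock i _ (he' i) (he'0 i)
  -- transvections
  have tvx : ∀ x : ι → F, ∃ T : Matrix.GeneralLinearGroup ι F, T ∈ G ∧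
      ∀ z, (T : Matrix ι ι F) *ᵥ z = z + f z x • x := by
    intro x
    refine ⟨TT f hf ((1 : F) • x) x (smul_self_zero f hf 1 x), ?_, ?_⟩
    · rw [hG]
      exact TT_isom f hf 1 x
    · intro z
      rw [TT_mulVec, one_smul]
  refine ⟨K₀ f e e' ⊓ G, ?_, ?_⟩
  · rw [SetLike.lt_iff_le_and_exists]
    constructor
    · rintro g ⟨⟨τ, hτ⟩, hgG⟩
      refine ⟨?_, hgG⟩
      have hgI := (hG g).mp hgG
      intro v
      have hv : v ∈ iSup D := by rw [htop]; trivial
      induction hv using Submodule.iSup_induction' with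
      | mem j x hx =>
        by_cases hx0 : x = 0
        · rw [hx0, mulVec_zero]
        · have h1 : (g : Matrix ι ι F) *ᵥ x ∈ D (τ j) := by
            rw [← hτ j]
            exact ⟨x, hx, rfl⟩
          have h3 : (g : Matrix ι ι F) *ᵥ x ≠ 0 := by
            intro h
            apply hx0
            rw [← inv_mulVec g x, h, mulVec_zero]
          rw [hblock _ _ h1 h3, hblock _ _ hx hx0]
      | zero => rw [mulVec_zero]
      | add x y _ _ hx hy => rw [mulVec_add, polar, polar, hx, hy, hgI]
    · obtain ⟨T, hTG, act⟩ := tvx (e i0 + e i1 + e i2)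
      have hQx : QQ f e e' (e i0 + e i1 + e i2) = 1 := by
        rw [polar, polar, hQe, hQe, hQe, hf.bilinear.add_left,
          horth i0 i1 h01 _ (he i0) _ (he i1), horth i0 i2 h02 _ (he i0) _ (he i2),
          horth i1 i2 h12 _ (he i1) _ (he i2)]
        linear_combination h2
      refine ⟨T, ⟨?_, hTG⟩, ?_⟩
      · intro v
        rw [act]
        rcases hF2 (f v (e i0 + e i1 + e i2)) with h | h
        · rw [h, zero_smul, add_zero]
        · rw [h, one_smul, polar, hQx, h]
          linear_combination h2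
      · rintro ⟨⟨τ, hτ⟩, _⟩
        have m1 : (T : Matrix ι ι F) *ᵥ e' i0 ∈ D (τ i0) := by
          rw [← hτ i0]
          exact ⟨_, he' i0, rfl⟩
        rw [act, hf.bilinear.add_right, hf.bilinear.add_right, he'e,
          horth i0 i1 h01 _ (he' i0) _ (he i1), horth i0 i2 h02 _ (he' i0) _ (he i2), add_zero,
          add_zero, one_smul] at m1
        have j1 : τ i0 = i1 := by
          by_contra hne
          have h3 := horth _ i1 hne _ m1 _ (he' i1)
          simp only [hf.bilinear.add_left, hee', horth i0 i1 h01 _ (he' i0) _ (he' i1),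
            horth i0 i1 h01 _ (he i0) _ (he' i1), horth i2 i1 h12.symm _ (he i2) _ (he' i1)] at h3
          simp at h3
        have j2 : τ i0 = i2 := by
          by_contra hne
          have h3 := horth _ i2 hne _ m1 _ (he' i2)
          simp only [hf.bilinear.add_left, hee', horth i0 i2 h02 _ (he' i0) _ (he' i2),
            horth i0 i2 h02 _ (he i0) _ (he' i2), horth i1 i2 h12 _ (he i1) _ (he' i2)] at h3
          simp at h3
        exact h12 (j1.symm.trans j2)
  · rw [SetLike.lt_iff_le_and_exists]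
    refine ⟨inf_le_right, ?_⟩
    obtain ⟨T, hTG, act⟩ := tvx (e i0 + e i1)
    refine ⟨T, hTG, fun hK => ?_⟩
    have h1 := hK.1 (e' i0)
    rw [act, hf.bilinear.add_right, he'e, horth i0 i1 h01 _ (he' i0) _ (he i1), add_zero, one_smul,
      polar, polar, hQe, hQe, hQe', hf.bilinear.add_right, he'e,
      horth i0 i1 h01 _ (he' i0) _ (he i1), horth i0 i1 h01 _ (he i0) _ (he i1)] at h1
    have : (1 : F) = 0 := by linear_combination -h1 + 2 * h2
    exact one_ne_zero this

end Cfsg.Agent.Lib.Helper5.SympTwo
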