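import Mathlib
import Cfsg.Prelude.Def_GeometricClasses
import Cfsg.Agent.Lib.Helper5.SLMax
import Cfsg.Agent.Lib.Helper5.SympTwo

set_option autoImplicit false
set_option linter.unusedSectionVars false

namespace Cfsg.Agent.Lib.Helper5.SLImprim

open Matrix Cfsg.Agent.Lib.Helper5.SLMax

variable {F : Type*} [Field F] {ι : Type} [Fintype ι] [DecidableEq ι]

/-- a functional as a vector -/
def vecOf (L : (ι → F) →ₗ[F] F) : ι → F := fun i => L (Pi.single i 1)

theorem vecOf_dot (L : (ι → F) →ₗ[F] F) (z : ι → F) : vecOf L ⬝ᵥ z = L z := by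
  have h := LinearMap.pi_apply_eq_sum_univ L z
  rw [h]
  unfold dotProduct vecOf
  apply Finset.sum_congr rfl
  intro i _
  rw [smul_eq_mul, mul_comm]
  congr 2
  funext j
  simp [Pi.single_apply, eq_comm]

theorem exists_coords {t m : ℕ} {D : Fin t → Submodule F (ι → F)}
    (hD : Cfsg.Geo.IsMDecomposition m D) :
    ∃ (e : Fin t → Fin m → ι → F) (x : Fin t → Fin m → (ι → F) →ₗ[F] F),
      (∀ i j, e i j ∈ D i) ∧
      (∀ i j k l, x i j (e k l) = if (i = k ∧ j = l) then 1 else 0) ∧
      (∀ v, v = ∑ i, ∑ j, x i j v • e i j) ∧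
      (∀ i, ∀ w ∈ D i, ∀ k l, k ≠ i → x k l w = 0) ∧ t * m = Fintype.card ι := by
  classical
  have hint := DirectSum.isInternal_submodule_of_iSupIndep_of_iSup_eq_top hD.indep hD.iSup_eq_top
  set vb : (i : Fin t) → Module.Basis (Fin m) F (D i) :=
    fun i => Module.finBasisOfFinrankEq F (D i) (hD.finrank_eq i) with hvb
  set b := hint.collectedBasis vb with hb
  have hbe : ∀ i j, b ⟨i, j⟩ = ((vb i j : D i) : ι → F) := by
    intro i j
    rw [hb, DirectSum.IsInternal.collectedBasis_coe]
  have hx : ∀ i j k l, b.coord ⟨i, j⟩ (b ⟨k, l⟩) = if (i = k ∧ j = l) then 1 else 0 := by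
    intro i j k l
    rw [Module.Basis.coord_apply, Module.Basis.repr_self, Finsupp.single_apply]
    by_cases h : i = k ∧ j = l
    · obtain ⟨rfl, rfl⟩ := h
      simp
    · rw [if_neg h, if_neg]
      intro h'
      apply h
      have h1 := congrArg Sigma.fst h'
      simp only at h1
      subst h1
      exact ⟨rfl, (eq_of_heq (Sigma.mk.inj h').2).symm⟩
  refine ⟨fun i j => b ⟨i, j⟩, fun i j => b.coord ⟨i, j⟩, ?_, hx, ?_, ?_, ?_⟩
  · intro i j
    exact hint.collectedBasis_mem vb ⟨i, j⟩
  · intro v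
    have := b.sum_repr v
    rw [Fintype.sum_sigma] at this
    exact this.symm
  · intro i w hw k l hk
    have h1 := (vb i).sum_repr ⟨w, hw⟩
    have h2 : w = ∑ j, ((vb i).repr ⟨w, hw⟩ j) • b ⟨i, j⟩ := by
      have h3 := congrArg (Subtype.val) h1
      rw [AddSubmonoidClass.coe_finset_sum] at h3
      refine Eq.trans h3.symm ?_
      apply Finset.sum_congr rfl
      intro j _
      rw [hbe]
      rfl
    rw [h2, map_sum]
    apply Finset.sum_eq_zero
    intro j _
    rw [map_smul, hx, if_neg (fun h => hk h.1), smul_zero]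
  · have := Module.finrank_eq_card_basis b
    rw [Module.finrank_fintype_fun_eq_card, Fintype.card_sigma] at this
    simp at this
    exact this.symm

section one

variable {t : ℕ} (x : Fin t → (ι → F) →ₗ[F] F) (σ : F →+* F)

/-- the diagonal form -/
def ff (u v : ι → F) : F := ∑ i, x i u * σ (x i v)

theorem ff_add_left (u u' v : ι → F) : ff x σ (u + u') v = ff x σ u v + ff x σ u' v := by
  unfold ff
  rw [← Finset.sum_add_distrib]
  apply Finset.sum_congr rfl
  intro i _
  rw [map_add]
  ring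

theorem ff_add_right (u v v' : ι → F) : ff x σ u (v + v') = ff x σ u v + ff x σ u v' := by
  unfold ff
  rw [← Finset.sum_add_distrib]
  apply Finset.sum_congr rfl
  intro i _
  rw [map_add, map_add]
  ring

theorem ff_neg_left (u v : ι → F) : ff x σ (-u) v = - ff x σ u v := by
  unfold ff
  rw [← Finset.sum_neg_distrib]
  apply Finset.sum_congr rfl
  intro i _
  rw [map_neg]
  ring

theorem ff_neg_right (u v : ι → F) : ff x σ u (-v) = - ff x σ u v := by
  unfold ff
  rw [← Finset.sum_neg_distrib]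
  apply Finset.sum_congr rfl
  intro i _
  rw [map_neg, map_neg]
  ring

theorem ff_smul_left (c : F) (u v : ι → F) : ff x σ (c • u) v = c * ff x σ u v := by
  unfold ff
  rw [Finset.mul_sum]
  apply Finset.sum_congr rfl
  intro i _
  rw [map_smul, smul_eq_mul]
  ring

theorem ff_smul_right (c : F) (u v : ι → F) : ff x σ u (c • v) = σ c * ff x σ u v := by
  unfold ff
  rw [Finset.mul_sum]
  apply Finset.sum_congr rfl
  intro i _
  rw [map_smul, smul_eq_mul, map_mul]
  ring

theorem ff_herm (hσσ : ∀ a, σ (σ a) = a) (u v : ι → F) : ff x σ v u = σ (ff x σ u v) := by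
  unfold ff
  rw [map_sum]
  apply Finset.sum_congr rfl
  intro i _
  rw [map_mul, hσσ]
  ring

theorem ff_sum_right {κ : Type*} (s : Finset κ) (u : ι → F) (v : κ → ι → F) :
    ff x σ u (∑ j ∈ s, v j) = ∑ j ∈ s, ff x σ u (v j) := by
  classical
  induction s using Finset.induction_on with
  | empty =>
    unfold ff
    simp
  | insert a s ha ih => rw [Finset.sum_insert ha, Finset.sum_insert ha, ff_add_right, ih]

/-- the functional `ff(·,w)` -/
def LL (w : ι → F) : (ι → F) →ₗ[F] F := ∑ i, σ (x i w) • x i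

theorem LL_apply (w z : ι → F) : LL x σ w z = ff x σ z w := by
  unfold LL ff
  rw [LinearMap.sum_apply]
  apply Finset.sum_congr rfl
  intro i _
  rw [LinearMap.smul_apply, smul_eq_mul]
  ring

theorem exists_S (hσσ : ∀ a, σ (σ a) = a) (a b : ι → F) (ha : ff x σ a a = 0)
    (hb : ff x σ b b = 0) (hab : ff x σ a b = 0) :
    ∃ k : Matrix.GeneralLinearGroup ι F, k ∈ Cfsg.Geo.specialLinear ι F ∧
      (∀ z, (k : Matrix ι ι F) *ᵥ z = z + ff x σ z b • a - ff x σ z a • b) ∧
      ∀ z z', ff x σ ((k : Matrix ι ι F) *ᵥ z) ((k : Matrix ι ι F) *ᵥ z') = ff x σ z z' := by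
  have hba : ff x σ b a = 0 := by rw [ff_herm x σ hσσ a b, hab, map_zero]
  have h1 : vecOf (LL x σ b) ⬝ᵥ a = 0 := by rw [vecOf_dot, LL_apply]; exact hab
  have h2 : vecOf (LL x σ (-a)) ⬝ᵥ b = 0 := by
    rw [vecOf_dot, LL_apply, ff_neg_right, hba, neg_zero]
  have act : ∀ z, ((tv (vecOf (LL x σ b)) a h1 * tv (vecOf (LL x σ (-a))) b h2 :
      Matrix.GeneralLinearGroup ι F) : Matrix ι ι F) *ᵥ z = z + ff x σ z b • a - ff x σ z a • b := by
    intro z
    rw [Units.val_mul, ← mulVec_mulVec, tv_mulVec, tv_mulVec, vecOf_dot, vecOf_dot, LL_apply,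
      LL_apply, ff_add_left, ff_smul_left, hb, ff_neg_right]
    module
  refine ⟨_, (Cfsg.Geo.specialLinear ι F).mul_mem (tv_mem _ _ _) (tv_mem _ _ _), act, ?_⟩
  intro z z'
  rw [act, act]
  simp only [sub_eq_add_neg, ff_add_left, ff_add_right, ff_neg_left, ff_neg_right,
    ff_smul_left, ff_smul_right, ha, hb, hab, hba]
  rw [← ff_herm x σ hσσ z' b, ← ff_herm x σ hσσ z' a]
  ring

/-- the isometries of the diagonal form -/
def KK : Subgroup (Matrix.GeneralLinearGroup ι F) where
  carrier := {g | ∀ u v, ff x σ ((g : Matrix ι ι F) *ᵥ u) ((g : Matrix ι ι F) *ᵥ v) = ff x σ u v}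
  mul_mem' {a b} ha hb := by
    intro u v
    rw [Units.val_mul, ← mulVec_mulVec, ← mulVec_mulVec, ha, hb]
  one_mem' := by
    intro u v
    rw [Units.val_one, one_mulVec, one_mulVec]
  inv_mem' {a} ha := by
    intro u v
    rw [← ha, mul_inv_mulVec, mul_inv_mulVec]

theorem one_not_max (D : Fin t → Submodule F (ι → F)) (e : Fin t → ι → F)
    (hmem : ∀ i, e i ∈ D i) (hx : ∀ i k, x i (e k) = if i = k then 1 else 0)
    (hexp : ∀ v, v = ∑ i, x i v • e i) (hline : ∀ i, ∀ w ∈ D i, ∀ k, k ≠ i → x k w = 0)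
    (hσσ : ∀ a, σ (σ a) = a) (hN : ∀ a : F, a ≠ 0 → a * σ a = 1) (w : ℕ) (hw : (w : F) = 0)
    (hw1 : 1 ≤ w) (ht : 2 * w ≤ t) :
    ∃ K : Subgroup (Matrix.GeneralLinearGroup ι F),
      Cfsg.Geo.decompositionStabilizer D ⊓ Cfsg.Geo.specialLinear ι F < K ∧
      K < Cfsg.Geo.specialLinear ι F := by
  classical
  have ffe : ∀ z k, ff x σ z (e k) = x k z := by
    intro z k
    unfold ff
    rw [Finset.sum_eq_single k]
    · rw [hx, if_pos rfl, map_one, mul_one]
    · intro j _ hj
      rw [hx, if_neg hj, map_zero, mul_zero]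
    · intro h
      exact absurd (Finset.mem_univ k) h
  refine ⟨KK x σ ⊓ Cfsg.Geo.specialLinear ι F, ?_, ?_⟩
  · rw [SetLike.lt_iff_le_and_exists]
    constructor
    · rintro g ⟨⟨τ, hτ⟩, hgS⟩
      refine ⟨?_, hgS⟩
      have hge : ∀ i, (g : Matrix ι ι F) *ᵥ e i ∈ D (τ i) := by
        intro i
        rw [← hτ i]
        exact ⟨_, hmem i, rfl⟩
      have hcoord : ∀ v j, x (τ j) ((g : Matrix ι ι F) *ᵥ v) =
          x j v * x (τ j) ((g : Matrix ι ι F) *ᵥ e j) := by
        intro v j
        have h1 : (g : Matrix ι ι F) *ᵥ v = ∑ i, x i v • ((g : Matrix ι ι F) *ᵥ e i) := by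
          conv_lhs => rw [hexp v]
          rw [← mulVecLin_apply, map_sum]
          apply Finset.sum_congr rfl
          intro i _
          rw [map_smul, mulVecLin_apply]
        rw [h1, map_sum, Finset.sum_eq_single j]
        · rw [map_smul, smul_eq_mul]
        · intro i _ hij
          rw [map_smul, hline (τ i) _ (hge i) (τ j) (fun h => hij (τ.injective h).symm), smul_zero]
        · intro h
          exact absurd (Finset.mem_univ j) h
      have hα : ∀ j, x (τ j) ((g : Matrix ι ι F) *ᵥ e j) ≠ 0 := by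
        intro j h0
        have h1 : (g : Matrix ι ι F) *ᵥ e j = 0 := by
          rw [hexp ((g : Matrix ι ι F) *ᵥ e j)]
          apply Finset.sum_eq_zero
          intro k _
          by_cases hk : k = τ j
          · rw [hk, h0, zero_smul]
          · rw [hline (τ j) _ (hge j) k hk, zero_smul]
        have h3 : e j = 0 := by rw [← inv_mulVec g (e j), h1, mulVec_zero]
        have h4 := hx j j
        rw [h3, map_zero, if_pos rfl] at h4
        exact zero_ne_one h4
      intro u v
      unfold ff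
      rw [← Equiv.sum_comp τ]
      apply Finset.sum_congr rfl
      intro j _
      rw [hcoord u j, hcoord v j, map_mul]
      have := hN _ (hα j)
      linear_combination (x j u * σ (x j v)) * this
    · obtain ⟨i1, hi1⟩ : ∃ i1 : Fin w → Fin t, ∀ j, (i1 j).val = j.val :=
        ⟨fun j => ⟨j.val, by omega⟩, fun j => rfl⟩
      obtain ⟨i2, hi2⟩ : ∃ i2 : Fin w → Fin t, ∀ j, (i2 j).val = j.val + w :=
        ⟨fun j => ⟨j.val + w, by omega⟩, fun j => rfl⟩
      have h11 : ∀ j j', (i1 j = i1 j') ↔ j = j' := by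
        intro j j'
        rw [Fin.ext_iff, Fin.ext_iff, hi1, hi1]
      have h22 : ∀ j j', (i2 j = i2 j') ↔ j = j' := by
        intro j j'
        rw [Fin.ext_iff, Fin.ext_iff, hi2, hi2]
        omega
      have h12 : ∀ j j', i1 j ≠ i2 j' := by
        intro j j' h
        rw [Fin.ext_iff, hi1, hi2] at h
        omega
      obtain ⟨a, ha⟩ : ∃ a, a = ∑ j, e (i1 j) := ⟨_, rfl⟩
      obtain ⟨b, hb⟩ : ∃ b, b = ∑ j, e (i2 j) := ⟨_, rfl⟩
      have fa : ∀ z, ff x σ z a = ∑ j, x (i1 j) z := by
        intro z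
        rw [ha, ff_sum_right]
        exact Finset.sum_congr rfl (fun j _ => ffe z _)
      have fb : ∀ z, ff x σ z b = ∑ j, x (i2 j) z := by
        intro z
        rw [hb, ff_sum_right]
        exact Finset.sum_congr rfl (fun j _ => ffe z _)
      have xa1 : ∀ j, x (i1 j) a = 1 := by
        intro j
        rw [ha, map_sum]
        simp only [hx, h11, Finset.sum_ite_eq, Finset.mem_univ, if_true]
      have xa2 : ∀ j, x (i2 j) a = 0 := by
        intro j
        rw [ha, map_sum]
        apply Finset.sum_eq_zero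
        intro j' _
        rw [hx, if_neg (fun h => h12 j' j h.symm)]
      have xb2 : ∀ j, x (i2 j) b = 1 := by
        intro j
        rw [hb, map_sum]
        simp only [hx, h22, Finset.sum_ite_eq, Finset.mem_univ, if_true]
      have xb1 : ∀ j, x (i1 j) b = 0 := by
        intro j
        rw [hb, map_sum]
        apply Finset.sum_eq_zero
        intro j' _
        rw [hx, if_neg (h12 j j')]
      have haa : ff x σ a a = 0 := by
        rw [fa]
        simp only [xa1, Finset.sum_const, Finset.card_univ, Fintype.card_fin, nsmul_eq_mul, mul_one]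
        exact hw
      have hbb : ff x σ b b = 0 := by
        rw [fb]
        simp only [xb2, Finset.sum_const, Finset.card_univ, Fintype.card_fin, nsmul_eq_mul, mul_one]
        exact hw
      have hab : ff x σ a b = 0 := by
        rw [fb]
        exact Finset.sum_eq_zero (fun j _ => xa2 j)
      obtain ⟨S, hS, act, iso⟩ := exists_S x σ hσσ a b haa hbb hab
      refine ⟨S, ⟨iso, hS⟩, ?_⟩
      rintro ⟨⟨τ, hτ⟩, _⟩
      obtain ⟨j0⟩ : Nonempty (Fin w) := ⟨⟨0, by omega⟩⟩
      have m1 : (S : Matrix ι ι F) *ᵥ e (i1 j0) ∈ D (τ (i1 j0)) := by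
        rw [← hτ (i1 j0)]
        exact ⟨_, hmem _, rfl⟩
      have e1 : ff x σ (e (i1 j0)) b = 0 := by
        rw [fb]
        apply Finset.sum_eq_zero
        intro j _
        rw [hx, if_neg (fun h => h12 j0 j h.symm)]
      have e2 : ff x σ (e (i1 j0)) a = 1 := by
        rw [fa]
        simp only [hx, h11, Finset.sum_ite_eq', Finset.mem_univ, if_true]
      rw [act, e1, e2, zero_smul, add_zero, one_smul] at m1
      have t1 : τ (i1 j0) = i1 j0 := by
        by_contra hne
        have h3 := hline _ _ m1 (i1 j0) (fun h => hne h.symm)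
        rw [map_sub, hx, if_pos rfl, xb1, sub_zero] at h3
        exact one_ne_zero h3
      have t2 : τ (i1 j0) = i2 j0 := by
        by_contra hne
        have h3 := hline _ _ m1 (i2 j0) (fun h => hne h.symm)
        rw [map_sub, hx, if_neg (fun h => h12 j0 j0 h.symm), xb2, zero_sub] at h3
        exact one_ne_zero (neg_eq_zero.mp h3)
      exact h12 j0 j0 (t1.symm.trans t2)
  · rw [SetLike.lt_iff_le_and_exists]
    refine ⟨inf_le_right, ?_⟩
    obtain ⟨k0, k1, hk⟩ : ∃ k0 k1 : Fin t, k0 ≠ k1 :=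
      ⟨⟨0, by omega⟩, ⟨1, by omega⟩, by simp [Fin.ext_iff]⟩
    have h0 : vecOf (x k1) ⬝ᵥ e k0 = 0 := by rw [vecOf_dot, hx, if_neg hk.symm]
    refine ⟨tv (vecOf (x k1)) (e k0) h0, tv_mem _ _ _, fun hK => ?_⟩
    have h1 := hK.1 (e k1) (e k1)
    rw [tv_mulVec, vecOf_dot, hx, if_pos rfl, one_smul, ff_add_right, ffe, ffe, map_add, map_add,
      hx, hx, hx, hx, if_pos rfl, if_pos rfl, if_neg hk, if_neg hk.symm, ffe, hx, if_pos rfl] at h1
    have : (1 : F) = 0 := by linear_combination h1
    exact one_ne_zero this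

end one

section two

variable {t : ℕ} (x : Fin t → Fin 2 → (ι → F) →ₗ[F] F)

/-- the alternating form attached to a family of planes -/
def gg (u v : ι → F) : F := ∑ i, (x i 0 u * x i 1 v + x i 1 u * x i 0 v)

/-- the isometries of a form -/
def Pres (f : (ι → F) → (ι → F) → F) : Subgroup (Matrix.GeneralLinearGroup ι F) where
  carrier := {g | ∀ u v, f ((g : Matrix ι ι F) *ᵥ u) ((g : Matrix ι ι F) *ᵥ v) = f u v}
  mul_mem' {a b} ha hb := by
    intro u v
    rw [Units.val_mul, ← mulVec_mulVec, ← mulVec_mulVec, ha, hb]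
  one_mem' := by
    intro u v
    rw [Units.val_one, one_mulVec, one_mulVec]
  inv_mem' {a} ha := by
    intro u v
    rw [← ha, mul_inv_mulVec, mul_inv_mulVec]

theorem two_not_max (hF2 : ∀ a : F, a = 0 ∨ a = 1) (D : Fin t → Submodule F (ι → F))
    (e : Fin t → Fin 2 → ι → F) (hmem : ∀ i j, e i j ∈ D i)
    (hx : ∀ i j k l, x i j (e k l) = if (i = k ∧ j = l) then 1 else 0)
    (hexp : ∀ v, v = ∑ i, ∑ j, x i j v • e i j)
    (hline : ∀ i, ∀ w ∈ D i, ∀ k l, k ≠ i → x k l w = 0) (ht : 3 ≤ t)
    (hfin : ∀ i, Module.finrank F (D i) = 2) (htop : iSup D = ⊤) :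
    ∃ K : Subgroup (Matrix.GeneralLinearGroup ι F),
      Cfsg.Geo.decompositionStabilizer D < K ∧ K < ⊤ := by
  classical
  have h2 := SympTwo.two_zero hF2
  have hneg := SympTwo.neg_eq hF2
  have symm : ∀ u v, gg x u v = gg x v u := by
    intro u v
    unfold gg
    apply Finset.sum_congr rfl
    intro i _
    ring
  have addl : ∀ u u' v, gg x (u + u') v = gg x u v + gg x u' v := by
    intro u u' v
    unfold gg
    rw [← Finset.sum_add_distrib]
    apply Finset.sum_congr rfl
    intro i _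
    rw [map_add, map_add]
    ring
  have smull : ∀ (c : F) u v, gg x (c • u) v = c * gg x u v := by
    intro c u v
    unfold gg
    rw [Finset.mul_sum]
    apply Finset.sum_congr rfl
    intro i _
    rw [map_smul, map_smul, smul_eq_mul, smul_eq_mul]
    ring
  have alt : ∀ v, gg x v v = 0 := by
    intro v
    unfold gg
    apply Finset.sum_eq_zero
    intro i _
    linear_combination (x i 0 v * x i 1 v) * h2
  have ge0 : ∀ i v, gg x (e i 0) v = x i 1 v := by
    intro i v
    unfold gg
    rw [Finset.sum_eq_single i]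
    · rw [hx, hx, if_pos ⟨rfl, rfl⟩, if_neg (by simp)]
      ring
    · intro k _ hk
      rw [hx, hx, if_neg (fun h => hk h.1), if_neg (fun h => hk h.1)]
      ring
    · intro h
      exact absurd (Finset.mem_univ i) h
  have ge1 : ∀ i v, gg x (e i 1) v = x i 0 v := by
    intro i v
    unfold gg
    rw [Finset.sum_eq_single i]
    · rw [hx, hx, if_neg (by simp), if_pos ⟨rfl, rfl⟩]
      ring
    · intro k _ hk
      rw [hx, hx, if_neg (fun h => hk h.1), if_neg (fun h => hk h.1)]
      ring
    · intro h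
      exact absurd (Finset.mem_univ i) h
  have hcoord : ∀ v : ι → F, v ≠ 0 → ∃ i, x i 0 v ≠ 0 ∨ x i 1 v ≠ 0 := by
    intro v hv
    by_contra hcon
    push Not at hcon
    apply hv
    rw [hexp v]
    apply Finset.sum_eq_zero
    intro i _
    rw [Fin.sum_univ_two, (hcon i).1, (hcon i).2, zero_smul, zero_smul, add_zero]
  have hf : Cfsg.Geo.IsSymplecticForm (gg x) := by
    refine ⟨⟨addl, smull, fun v a b => by rw [symm, addl, symm a, symm b],
      fun c v a => by rw [symm, smull, symm a]⟩, fun v w => by rw [hneg, symm], alt, ?_⟩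
    intro v hv
    obtain ⟨i, h | h⟩ := hcoord v hv
    · exact ⟨⟨e i 1, by rw [ge1]; exact h⟩, ⟨e i 1, by rw [symm, ge1]; exact h⟩⟩
    · exact ⟨⟨e i 0, by rw [ge0]; exact h⟩, ⟨e i 0, by rw [symm, ge0]; exact h⟩⟩
  have hnd : ∀ i, Cfsg.Geo.IsNondegenerateOn (gg x) (D i) := by
    intro i w hw hw0
    obtain ⟨k, h⟩ := hcoord w hw0
    have hk : k = i := by
      by_contra hne
      rcases h with h | h
      · exact h (hline i w hw k 0 hne)
      · exact h (hline i w hw k 1 hne)
    subst hk
    rcases h with h | h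
    · exact ⟨⟨e k 1, hmem k 1, by rw [ge1]; exact h⟩, ⟨e k 1, hmem k 1, by rw [symm, ge1]; exact h⟩⟩
    · exact ⟨⟨e k 0, hmem k 0, by rw [ge0]; exact h⟩, ⟨e k 0, hmem k 0, by rw [symm, ge0]; exact h⟩⟩
  have horth : ∀ i j, i ≠ j → ∀ u ∈ D i, ∀ v ∈ D j, gg x u v = 0 := by
    intro i j hij u hu v hv
    unfold gg
    apply Finset.sum_eq_zero
    intro k _
    by_cases hk : k = i
    · rw [hline j v hv k 0 (fun h => hij (hk.symm.trans h)),
        hline j v hv k 1 (fun h => hij (hk.symm.trans h))]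
      ring
    · rw [hline i u hu k 0 hk, hline i u hu k 1 hk]
      ring
  have hblk : ∀ k, ∀ u ∈ D k, u = x k 0 u • e k 0 + x k 1 u • e k 1 := by
    intro k u hu
    conv_lhs => rw [hexp u]
    rw [Finset.sum_eq_single k]
    · rw [Fin.sum_univ_two]
    · intro i _ hi
      rw [Fin.sum_univ_two, hline k u hu i 0 hi, hline k u hu i 1 hi, zero_smul, zero_smul,
        add_zero]
    · intro h
      exact absurd (Finset.mem_univ k) h
  have hval : ∀ k, ∀ u ∈ D k, ∀ v, gg x u v = x k 0 u * x k 1 v + x k 1 u * x k 0 v := by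
    intro k u hu v
    conv_lhs => rw [hblk k u hu]
    rw [addl, smull, smull, ge0, ge1]
  have hZ : ∀ k, ∀ u ∈ D k, ∀ v ∈ D k, (gg x u v = 0 ↔ (u = 0 ∨ v = 0 ∨ u = v)) := by
    intro k u hu v hv
    constructor
    · intro h
      rw [hval k u hu v] at h
      have eu := hblk k u hu
      have ev := hblk k v hv
      rcases hF2 (x k 0 u) with a | a <;> rcases hF2 (x k 1 u) with b | b <;>
      rcases hF2 (x k 0 v) with c | c <;> rcases hF2 (x k 1 v) with d | d <;>
      rw [a, b] at eu <;> rw [c, d] at ev <;> rw [a, b, c, d] at h <;>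
      first
      | (left; rw [eu]; simp; done)
      | (right; left; rw [ev]; simp; done)
      | (right; right; rw [eu, ev]; done)
      | (exfalso; simp at h; done)
    · rintro (h | h | h)
      · rw [h, SLSymp.f_zero_left (gg x) hf]
      · rw [h, SLSymp.f_zero_right (gg x) hf]
      · rw [h, alt]
  have hle : Cfsg.Geo.decompositionStabilizer D ≤ Pres (gg x) := by
    rintro g ⟨τ, hτ⟩
    have hgm : ∀ i, ∀ u ∈ D i, (g : Matrix ι ι F) *ᵥ u ∈ D (τ i) := by
      intro i u hu
      rw [← hτ i]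
      exact ⟨u, hu, rfl⟩
    have hinj : ∀ u v, (g : Matrix ι ι F) *ᵥ u = (g : Matrix ι ι F) *ᵥ v → u = v := by
      intro u v h
      rw [← inv_mulVec g u, h, inv_mulVec]
    have key : ∀ i j, ∀ u ∈ D i, ∀ v ∈ D j,
        gg x ((g : Matrix ι ι F) *ᵥ u) ((g : Matrix ι ι F) *ᵥ v) = gg x u v := by
      intro i j u hu v hv
      by_cases hij : i = j
      · subst hij
        have z1 := hZ i u hu v hv
        have z2 := hZ (τ i) _ (hgm i u hu) _ (hgm i v hv)
        have z3 : (gg x ((g : Matrix ι ι F) *ᵥ u) ((g : Matrix ι ι F) *ᵥ v) = 0 ↔ gg x u v = 0) := by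
          rw [z1, z2]
          constructor
          · rintro (h | h | h)
            · left; exact hinj _ _ (by rw [h, mulVec_zero])
            · right; left; exact hinj _ _ (by rw [h, mulVec_zero])
            · right; right; exact hinj _ _ h
          · rintro (h | h | h)
            · left; rw [h, mulVec_zero]
            · right; left; rw [h, mulVec_zero]
            · right; right; rw [h]
        rcases hF2 (gg x u v) with p | p
        · rw [p, z3.mpr p]
        · rcases hF2 (gg x ((g : Matrix ι ι F) *ᵥ u) ((g : Matrix ι ι F) *ᵥ v)) with r | r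
          · rw [z3.mp r] at p
            exact absurd p zero_ne_one
          · rw [p, r]
      · rw [horth i j hij u hu v hv,
          horth (τ i) (τ j) (fun h => hij (τ.injective h)) _ (hgm i u hu) _ (hgm j v hv)]
    intro u v
    have hu : u ∈ iSup D := by rw [htop]; trivial
    induction hu using Submodule.iSup_induction' with
    | mem i u hu =>
      have hv : v ∈ iSup D := by rw [htop]; trivial
      induction hv using Submodule.iSup_induction' with
      | mem j v hv => exact key i j u hu v hv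
      | zero => rw [mulVec_zero, SLSymp.f_zero_right (gg x) hf, SLSymp.f_zero_right (gg x) hf]
      | add a b _ _ ha hb => rw [mulVec_add, hf.bilinear.add_right, hf.bilinear.add_right, ha, hb]
    | zero => rw [mulVec_zero, SLSymp.f_zero_left (gg x) hf, SLSymp.f_zero_left (gg x) hf]
    | add a b _ _ ha hb => rw [mulVec_add, addl, addl, ha, hb]
  obtain ⟨K₁, hK1, hK2⟩ := SympTwo.not_max (gg x) hf hF2 D ht hfin htop hnd horth (Pres (gg x))
    (fun g => Iff.rfl)
  refine ⟨Pres (gg x), ?_, ?_⟩
  · have := hK1.trans hK2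
    rwa [inf_eq_left.mpr hle] at this
  · rw [SetLike.lt_iff_le_and_exists]
    obtain ⟨k0, k1, hk⟩ : ∃ k0 k1 : Fin t, k0 ≠ k1 :=
      ⟨⟨0, by omega⟩, ⟨1, by omega⟩, by simp [Fin.ext_iff]⟩
    have h0 : vecOf (x k1 0) ⬝ᵥ e k0 0 = 0 := by
      rw [vecOf_dot, hx, if_neg (fun h => hk h.1.symm)]
    refine ⟨le_top, tv (vecOf (x k1 0)) (e k0 0) h0, Subgroup.mem_top _, fun hK => ?_⟩
    have h1 := hK (e k1 0) (e k0 1)
    rw [tv_mulVec, tv_mulVec, vecOf_dot, vecOf_dot, hx, hx, if_pos ⟨rfl, rfl⟩,
      if_neg (fun h => hk h.1.symm), one_smul, zero_smul, add_zero, addl, ge0, ge0, hx, hx,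
      if_neg (fun h => hk h.1.symm), if_pos ⟨rfl, rfl⟩] at h1
    simp at h1

end two

end Cfsg.Agent.Lib.Helper5.SLImprim
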