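import Mathlib
import Cfsg.Prelude.Def_GeometricClasses
import Cfsg.Agent.Lib.Helper5.SLSymp
import Cfsg.Agent.Lib.Helper4.QuadFin

set_option autoImplicit false
set_option linter.unusedSectionVars false

namespace Cfsg.Agent.Lib.Helper5.SLOrth

open Matrix QuadraticMap Cfsg.Agent.Lib.Helper5.SLMax

variable {F : Type*} [Field F] {ι : Type} [Fintype ι] [DecidableEq ι]
variable (Q : QuadraticForm F (ι → F))

/-- the functional `B(u,·)` as a vector -/
def ph (u : ι → F) : ι → F := fun i => polar ⇑Q u (Pi.single i 1)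

theorem ph_dot (u z : ι → F) : ph Q u ⬝ᵥ z = polar ⇑Q u z := by
  have h := LinearMap.pi_apply_eq_sum_univ (polarBilin Q u) z
  rw [polarBilin_apply_apply] at h
  rw [h]
  unfold dotProduct ph
  apply Finset.sum_congr rfl
  intro i _
  rw [smul_eq_mul, mul_comm, polarBilin_apply_apply]
  congr 2
  funext j
  simp [Pi.single_apply, eq_comm]

theorem self_zero {x : ι → F} (h : Q x = 0) : polar ⇑Q x x = 0 := by
  rw [polar_self, h, smul_zero]

theorem swap_zero {x y : ι → F} (h : polar ⇑Q x y = 0) : polar ⇑Q y x = 0 := by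
  rw [polar_comm]; exact h

theorem swap_ne {x y : ι → F} (h : polar ⇑Q x y ≠ 0) : polar ⇑Q y x ≠ 0 := by
  rw [polar_comm]; exact h

variable (hnd : ∀ v, (∀ w, polar ⇑Q v w = 0) → v = 0)

include hnd

theorem ext_left {u u' : ι → F} (h : ∀ z, polar ⇑Q u z = polar ⇑Q u' z) : u = u' := by
  rw [← sub_eq_zero]
  apply hnd
  intro w
  rw [polar_sub_left, h w, sub_self]

theorem riesz [Finite F] (φ : ι → F) : ∃ u, φ = ph Q u := by
  have hinj : Function.Injective (ph Q) := by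
    intro u u' h
    apply ext_left Q hnd
    intro z
    rw [← ph_dot, ← ph_dot, h]
  obtain ⟨u, hu⟩ := (Finite.injective_iff_surjective.mp hinj) φ
  exact ⟨u, hu.symm⟩

theorem exists_orth_ne [Finite F] (S : Submodule F (ι → F)) (v : ι → F) (hv : v ∉ S) :
    ∃ y, (∀ s ∈ S, polar ⇑Q y s = 0) ∧ polar ⇑Q y v = 1 := by
  obtain ⟨ψ, h1, h2⟩ := exists_func S v hv
  obtain ⟨y, rfl⟩ := riesz Q hnd ψ
  refine ⟨y, ?_, ?_⟩
  · intro s hs
    rw [← ph_dot]
    exact h1 s hs
  · rw [← ph_dot]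
    exact h2

omit hnd in
theorem exists_sing_off [Finite F] {k : ℕ} (d : Fin k → ι → F) (hk : 2 * k + 3 ≤ Fintype.card ι) :
    ∃ z, Q z = 0 ∧ (∀ i, polar ⇑Q (d i) z = 0) ∧ z ∉ Submodule.span F (Set.range d) := by
  set L : (ι → F) →ₗ[F] (Fin k → F) := LinearMap.pi (fun i => polarBilin Q (d i)) with hL
  set Z := LinearMap.ker L with hZ
  have hmemZ : ∀ z, z ∈ Z ↔ ∀ i, polar ⇑Q (d i) z = 0 := by
    intro z
    rw [hZ, LinearMap.mem_ker]
    constructor
    · intro h i
      exact congrFun h i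
    · intro h
      funext i
      exact h i
  have hfrZ : Fintype.card ι - k ≤ Module.finrank F Z := by
    have h1 := LinearMap.finrank_range_add_finrank_ker L
    have h2 := Submodule.finrank_le (LinearMap.range L)
    rw [Module.finrank_fin_fun] at h2
    rw [Module.finrank_fintype_fun_eq_card] at h1
    rw [hZ]
    omega
  have hfrS : Module.finrank F (Submodule.span F (Set.range d)) ≤ k := by
    have := finrank_range_le_card (R := F) d
    rwa [Fintype.card_fin] at this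
  obtain ⟨C, hC⟩ := Submodule.exists_isCompl (Submodule.span F (Set.range d))
  have h1 := Submodule.finrank_add_eq_of_isCompl hC
  rw [Module.finrank_fintype_fun_eq_card] at h1
  have h2 := Submodule.finrank_sup_add_finrank_inf_eq Z C
  have h3 := Submodule.finrank_le (Z ⊔ C)
  rw [Module.finrank_fintype_fun_eq_card] at h3
  obtain ⟨v, hv0, hv⟩ := Cfsg.Agent.Lib.Helper4.QuadFin.exists_singular
    (Q.comp (Z ⊓ C).subtype) (by omega)
  refine ⟨v.1, hv, (hmemZ _).mp v.2.1, fun h => hv0 ?_⟩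
  have h4 : (v : ι → F) ∈ Submodule.span F (Set.range d) ⊓ C := ⟨h, v.2.2⟩
  rw [hC.inf_eq_bot, Submodule.mem_bot] at h4
  exact Subtype.ext h4

theorem exists_val [Finite F] {k : ℕ} (d : Fin k → ι → F) (hk : 2 * k + 3 ≤ Fintype.card ι)
    (l : F) : ∃ z, (∀ i, polar ⇑Q (d i) z = 0) ∧ Q z = l := by
  obtain ⟨z₁, hQ1, h1, hs1⟩ := exists_sing_off Q d hk
  obtain ⟨y, hy, hy1⟩ := exists_orth_ne Q hnd _ z₁ hs1
  refine ⟨y + (l - Q y) • z₁, ?_, ?_⟩
  · intro i
    rw [polar_add_right, polar_smul_right, h1 i, smul_zero, add_zero, polar_comm]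
    exact hy _ (Submodule.subset_span ⟨i, rfl⟩)
  · rw [QuadraticMap.map_add Q, QuadraticMap.map_smul, hQ1, polar_smul_right, hy1]
    simp

theorem exists_iso [Finite F] {k : ℕ} (d : Fin k → ι → F) (hk : 2 * (k + 3) + 3 ≤ Fintype.card ι)
    (a b : ι → F) (ha : a ∉ Submodule.span F (Set.range d))
    (hb : b ∉ Submodule.span F (Set.range d)) :
    ∃ x, Q x = 0 ∧ (∀ i, polar ⇑Q (d i) x = 0) ∧ polar ⇑Q a x ≠ 0 ∧ polar ⇑Q b x ≠ 0 := by
  obtain ⟨w, hw0, hwa, hwb⟩ : ∃ w, (∀ i, polar ⇑Q (d i) w = 0) ∧ polar ⇑Q a w ≠ 0 ∧ polar ⇑Q b w ≠ 0 := by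
    obtain ⟨w₁, h1, h1'⟩ := exists_orth_ne Q hnd _ a ha
    obtain ⟨w₂, h2, h2'⟩ := exists_orth_ne Q hnd _ b hb
    have h10 : ∀ i, polar ⇑Q (d i) w₁ = 0 := fun i => by
      rw [polar_comm]; exact h1 _ (Submodule.subset_span ⟨i, rfl⟩)
    have h20 : ∀ i, polar ⇑Q (d i) w₂ = 0 := fun i => by
      rw [polar_comm]; exact h2 _ (Submodule.subset_span ⟨i, rfl⟩)
    rw [polar_comm] at h1' h2'
    by_cases c1 : polar ⇑Q b w₁ = 0
    · by_cases c2 : polar ⇑Q a w₂ = 0
      · refine ⟨w₁ + w₂, ?_, ?_, ?_⟩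
        · intro i
          rw [polar_add_right, h10, h20, add_zero]
        · rw [polar_add_right, h1', c2, add_zero]; exact one_ne_zero
        · rw [polar_add_right, h2', c1, zero_add]; exact one_ne_zero
      · exact ⟨w₂, h20, c2, by rw [h2']; exact one_ne_zero⟩
    · exact ⟨w₁, h10, by rw [h1']; exact one_ne_zero, c1⟩
  obtain ⟨z, hz, hzz⟩ := exists_val Q hnd
    (Fin.cons w (Fin.cons b (Fin.cons a d)) : Fin (k + 3) → ι → F) hk (- Q w)
  have e3 : polar ⇑Q w z = 0 := hz 0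
  have e2 : polar ⇑Q b z = 0 := hz (Fin.succ 0)
  have e1 : polar ⇑Q a z = 0 := hz (Fin.succ (Fin.succ 0))
  have e0 : ∀ i, polar ⇑Q (d i) z = 0 := fun i => hz (Fin.succ (Fin.succ (Fin.succ i)))
  refine ⟨w + z, ?_, ?_, ?_, ?_⟩
  · rw [QuadraticMap.map_add Q, e3, hzz]
    ring
  · intro i
    rw [polar_add_right, hw0, e0, add_zero]
  · rw [polar_add_right, e1, add_zero]; exact hwa
  · rw [polar_add_right, e2, add_zero]; exact hwb

omit hnd in
theorem span_one (y₀ : ι → F) : Submodule.span F (Set.range ![y₀]) = Submodule.span F {y₀} := by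
  simp

theorem fill [Finite F] (hn : 13 ≤ Fintype.card ι) (y₀ : ι → F) (A : Set (ι → F))
    (hadd : ∀ a b, a ∈ A → b ∈ A → a + b ∈ A) (hsmul : ∀ (c : F) a, a ∈ A → c • a ∈ A)
    (hcl : ∀ u ∈ A, ∀ a b, Q a = 0 → Q b = 0 → polar ⇑Q a b = 0 → polar ⇑Q y₀ a = 0 → polar ⇑Q y₀ b = 0 →
      polar ⇑Q u b • a - polar ⇑Q u a • b ∈ A)
    (u₁ : ι → F) (hu₁ : u₁ ∈ A) (hu₁' : u₁ ∉ Submodule.span F {y₀}) (hu₁0 : polar ⇑Q u₁ y₀ = 0) :
    ∀ w, polar ⇑Q y₀ w = 0 → w ∈ A := by
  have star : ∀ u ∈ A, ∀ x, Q x = 0 → polar ⇑Q y₀ x = 0 → polar ⇑Q u x ≠ 0 → x ∈ A := by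
    intro u hu x hQx h0x hux
    obtain ⟨b, hQb, hbp, hbs⟩ := exists_sing_off Q ![x, y₀, u] (by omega)
    have e0 : polar ⇑Q x b = 0 := hbp 0
    have e1 : polar ⇑Q y₀ b = 0 := hbp 1
    have e2 : polar ⇑Q u b = 0 := hbp 2
    have h1 := hcl u hu x b hQx hQb e0 h0x e1
    rw [e2, zero_smul, zero_sub] at h1
    have hbA : b ∈ A := by
      have h2 := hsmul (-(polar ⇑Q u x)⁻¹) _ h1
      rwa [smul_neg, neg_smul, neg_neg, smul_smul, inv_mul_cancel₀ hux, one_smul] at h2
    have hbs' : b ∉ Submodule.span F (Set.range ![x, y₀]) := by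
      intro h
      apply hbs
      refine Submodule.span_mono ?_ h
      rintro _ ⟨i, rfl⟩
      fin_cases i
      · exact ⟨0, rfl⟩
      · exact ⟨1, rfl⟩
    obtain ⟨b', hQb', hb'p, hbb', _⟩ := exists_iso Q hnd ![x, y₀] (by omega) b b hbs' hbs'
    have f0 : polar ⇑Q x b' = 0 := hb'p 0
    have f1 : polar ⇑Q y₀ b' = 0 := hb'p 1
    have h2 := hcl b hbA x b' hQx hQb' f0 h0x f1
    rw [swap_zero Q e0, zero_smul, sub_zero] at h2
    have h3 := hsmul (polar ⇑Q b b')⁻¹ _ h2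
    rwa [smul_smul, inv_mul_cancel₀ hbb', one_smul] at h3
  have step : ∀ w, polar ⇑Q y₀ w = 0 → w ∉ Submodule.span F {y₀} → w ∈ A := by
    intro w hw hw'
    obtain ⟨x, hxx, h0x', h1x, hwx⟩ := exists_iso Q hnd ![y₀] (by omega) u₁ w
      (by rw [span_one]; exact hu₁') (by rw [span_one]; exact hw')
    have h0x : polar ⇑Q y₀ x = 0 := h0x' 0
    have hxA := star u₁ hu₁ x hxx h0x h1x
    have h1 : Q (w + (-(Q w) / polar ⇑Q w x) • x) = 0 := by
      rw [QuadraticMap.map_add Q, QuadraticMap.map_smul, hxx, polar_smul_right, smul_eq_mul,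
        smul_eq_mul]
      field_simp
      ring
    have h2 : polar ⇑Q y₀ (w + (-(Q w) / polar ⇑Q w x) • x) = 0 := by
      rw [polar_add_right, polar_smul_right, hw, h0x, smul_zero, add_zero]
    have h3 : polar ⇑Q x (w + (-(Q w) / polar ⇑Q w x) • x) ≠ 0 := by
      rw [polar_add_right, polar_smul_right, self_zero Q hxx, smul_zero, add_zero]
      exact swap_ne Q hwx
    have h4 := star x hxA _ h1 h2 h3
    have h5 := hadd _ _ h4 (hsmul (-(-(Q w) / polar ⇑Q w x)) x hxA)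
    have e : w + (-(Q w) / polar ⇑Q w x) • x + -(-(Q w) / polar ⇑Q w x) • x = w := by module
    rwa [e] at h5
  intro w hw
  by_cases hc : w ∈ Submodule.span F {y₀}
  · obtain ⟨x, hxx, h0x', h1x, _⟩ := exists_iso Q hnd ![y₀] (by omega) u₁ u₁
      (by rw [span_one]; exact hu₁') (by rw [span_one]; exact hu₁')
    have h0x : polar ⇑Q y₀ x = 0 := h0x' 0
    have hxA := star u₁ hu₁ x hxx h0x h1x
    have hx' : x ∉ Submodule.span F {y₀} := by
      intro h
      obtain ⟨β, rfl⟩ := Submodule.mem_span_singleton.mp h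
      apply h1x
      rw [polar_smul_right, hu₁0, smul_zero]
    have h1 : w + x ∉ Submodule.span F {y₀} := by
      intro h
      apply hx'
      have := Submodule.sub_mem _ h hc
      rwa [add_sub_cancel_left] at this
    have h2 := step (w + x) (by rw [polar_add_right, hw, h0x, add_zero]) h1
    have h3 := hadd _ _ h2 (hsmul (-1) x hxA)
    have e : w + x + (-1 : F) • x = w := by module
    rwa [e] at h3
  · exact step w hw hc

omit hnd in
theorem exists_E (a b : ι → F) (ha : Q a = 0) (hb : Q b = 0) (hab : polar ⇑Q a b = 0) :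
    ∃ k : Matrix.GeneralLinearGroup ι F,
      k ∈ Cfsg.Geo.quadSimilarityGroup ⇑Q ⊓ Cfsg.Geo.specialLinear ι F ∧
      (∀ z, (k : Matrix ι ι F) *ᵥ z = z + polar ⇑Q b z • a - polar ⇑Q a z • b) ∧
      (∀ z z', polar ⇑Q ((k : Matrix ι ι F) *ᵥ z) ((k : Matrix ι ι F) *ᵥ z') = polar ⇑Q z z') := by
  have h1 : ph Q b ⬝ᵥ a = 0 := by rw [ph_dot, polar_comm]; exact hab
  have h2 : ph Q (-a) ⬝ᵥ b = 0 := by rw [ph_dot, polar_neg_left, hab, neg_zero]
  have act : ∀ z, ((tv (ph Q b) a h1 * tv (ph Q (-a)) b h2 : Matrix.GeneralLinearGroup ι F) :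
      Matrix ι ι F) *ᵥ z = z + polar ⇑Q b z • a - polar ⇑Q a z • b := by
    intro z
    rw [Units.val_mul, ← mulVec_mulVec, tv_mulVec, tv_mulVec, ph_dot, ph_dot, polar_add_right,
      polar_smul_right, self_zero Q hb, polar_neg_left]
    module
  have isoQ : ∀ z, Q (((tv (ph Q b) a h1 * tv (ph Q (-a)) b h2 : Matrix.GeneralLinearGroup ι F) :
      Matrix ι ι F) *ᵥ z) = Q z := by
    intro z
    rw [act, add_sub_assoc, QuadraticMap.map_add Q, sub_eq_add_neg, ← neg_smul,
      QuadraticMap.map_add Q, QuadraticMap.map_smul, QuadraticMap.map_smul, ha, hb,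
      polar_smul_left, polar_smul_right, hab, polar_add_right, polar_smul_right, polar_smul_right,
      polar_comm ⇑Q z a, polar_comm ⇑Q z b]
    simp only [smul_eq_mul]
    ring
  refine ⟨_, ⟨⟨1, fun v => by rw [Units.val_one, one_mul]; exact isoQ v⟩,
    (Cfsg.Geo.specialLinear ι F).mul_mem (tv_mem _ _ _) (tv_mem _ _ _)⟩, act, ?_⟩
  intro z z'
  unfold polar
  rw [← mulVec_add, isoQ, isoQ, isoQ]

omit hnd in
/-- `H` contains the transvection `z ↦ z + B(u,z) v` -/
def R (H : Subgroup (Matrix.GeneralLinearGroup ι F)) (u v : ι → F) : Prop :=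
  polar ⇑Q u v = 0 ∧ ∃ k ∈ H, ∀ z, (k : Matrix ι ι F) *ᵥ z = z + polar ⇑Q u z • v

variable {H : Subgroup (Matrix.GeneralLinearGroup ι F)}

omit hnd in
theorem R_add_left {u u' v : ι → F} (h : R Q H u v) (h' : R Q H u' v) : R Q H (u + u') v := by
  obtain ⟨h0, k, hk, ak⟩ := h
  obtain ⟨h0', k', hk', ak'⟩ := h'
  refine ⟨by rw [polar_add_left, h0, h0', add_zero], k * k', H.mul_mem hk hk', fun z => ?_⟩
  rw [Units.val_mul, ← mulVec_mulVec, ak', ak, polar_add_right, polar_smul_right, h0,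
    polar_add_left]
  module

omit hnd in
theorem R_neg_left {u v : ι → F} (h : R Q H u v) : R Q H (-u) v := by
  obtain ⟨h0, k, hk, ak⟩ := h
  refine ⟨by rw [polar_neg_left, h0, neg_zero], k⁻¹, H.inv_mem hk, fun z => ?_⟩
  have e : (k : Matrix ι ι F) *ᵥ (z + polar ⇑Q (-u) z • v) = z := by
    rw [ak, polar_add_right, polar_smul_right, h0, polar_neg_left]
    module
  conv_lhs => rw [← e]
  rw [inv_mulVec]

omit hnd in
theorem R_conj {u v : ι → F} (h : R Q H u v) (t : Matrix.GeneralLinearGroup ι F) (ht : t ∈ H)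
    (iso : ∀ z z', polar ⇑Q ((t : Matrix ι ι F) *ᵥ z) ((t : Matrix ι ι F) *ᵥ z') = polar ⇑Q z z') :
    R Q H ((t : Matrix ι ι F) *ᵥ u) ((t : Matrix ι ι F) *ᵥ v) := by
  obtain ⟨h0, k, hk, ak⟩ := h
  refine ⟨by rw [iso, h0], t * k * t⁻¹, H.mul_mem (H.mul_mem ht hk) (H.inv_mem ht), fun z => ?_⟩
  rw [Units.val_mul, Units.val_mul, ← mulVec_mulVec, ← mulVec_mulVec, ak, mulVec_add,
    mul_inv_mulVec, mulVec_smul]
  congr 2
  rw [← iso, mul_inv_mulVec]

omit hnd in
theorem CL (hM : Cfsg.Geo.quadSimilarityGroup ⇑Q ⊓ Cfsg.Geo.specialLinear ι F ≤ H)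
    {u v a b : ι → F} (h : R Q H u v) (ha : Q a = 0) (hb : Q b = 0) (hab : polar ⇑Q a b = 0)
    (hva : polar ⇑Q v a = 0) (hvb : polar ⇑Q v b = 0) : R Q H (polar ⇑Q u b • a - polar ⇑Q u a • b) v := by
  obtain ⟨t, htM, act, iso⟩ := exists_E Q a b ha hb hab
  have h1 := R_conj Q h t (hM htM) iso
  rw [act, act, swap_zero Q hva, swap_zero Q hvb, zero_smul, zero_smul, add_zero, sub_zero] at h1
  have h2 := R_add_left Q h1 (R_neg_left Q h)
  have e : u + polar ⇑Q b u • a - polar ⇑Q a u • b + -u = polar ⇑Q u b • a - polar ⇑Q u a • b := by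
    rw [polar_comm ⇑Q b u, polar_comm ⇑Q a u]
    abel
  rwa [e] at h2

theorem sharp [Finite F] (g : Matrix.GeneralLinearGroup ι F) (e : ι → F) :
    ∃ e', ∀ z, polar ⇑Q e' z = polar ⇑Q e (((g⁻¹ : Matrix.GeneralLinearGroup ι F) : Matrix ι ι F) *ᵥ z) := by
  obtain ⟨u, hu⟩ := riesz Q hnd
    (ph Q e ᵥ* ((g⁻¹ : Matrix.GeneralLinearGroup ι F) : Matrix ι ι F))
  refine ⟨u, fun z => ?_⟩
  rw [← ph_dot, ← hu, ← dotProduct_mulVec, ph_dot]

omit H in
/-- the orthogonal similarity group is maximal in the special linear group (odd characteristic) -/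
theorem orth_max [Finite F] (h2 : (2 : F) ≠ 0) (hn : 13 ≤ Fintype.card ι) :
    Cfsg.Geo.IsMaximalIn (Cfsg.Geo.specialLinear ι F)
      (Cfsg.Geo.quadSimilarityGroup ⇑Q ⊓ Cfsg.Geo.specialLinear ι F) := by
  have hnt : Nontrivial ι := Fintype.one_lt_card_iff_nontrivial.mp (by omega)
  have hemp : ∀ v : ι → F, v ≠ 0 → v ∉ Submodule.span F (Set.range (![] : Fin 0 → ι → F)) := by
    intro v hv h
    apply hv
    simpa using h
  obtain ⟨a₀, hQa₀, _, ha₀s⟩ := exists_sing_off Q (![] : Fin 0 → ι → F) (by omega)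
  have ha₀ : a₀ ≠ 0 := by
    rintro rfl
    exact ha₀s (Submodule.zero_mem _)
  constructor
  · rw [SetLike.lt_iff_le_and_exists]
    refine ⟨inf_le_right, ?_⟩
    obtain ⟨y₁, hQy₁, hy₁p, hy₁s⟩ := exists_sing_off Q ![a₀] (by omega)
    have e0 : polar ⇑Q a₀ y₁ = 0 := hy₁p 0
    have hy₁ : y₁ ≠ 0 := by
      rintro rfl
      exact hy₁s (Submodule.zero_mem _)
    refine ⟨tv (ph Q y₁) a₀ (by rw [ph_dot, polar_comm]; exact e0), tv_mem _ _ _, fun h => ?_⟩
    obtain ⟨κ, hκ⟩ := h.1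
    obtain ⟨z, hQz, _, hz1, hz2⟩ := exists_iso Q hnd (![] : Fin 0 → ι → F) (by omega) y₁ a₀
      (hemp _ hy₁) (hemp _ ha₀)
    have h3 := hκ z
    rw [tv_mulVec, ph_dot, QuadraticMap.map_add Q, QuadraticMap.map_smul, hQa₀, hQz,
      polar_smul_right] at h3
    simp only [smul_eq_mul, mul_zero, zero_add, add_zero] at h3
    rcases mul_eq_zero.mp h3 with h | h
    · exact hz1 h
    · exact hz2 (swap_zero Q h)
  · intro H hM1 hM2
    by_cases hcs : H ≤ Cfsg.Geo.quadSimilarityGroup ⇑Q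
    · left
      exact le_antisymm (le_inf hcs hM2) hM1
    right
    apply le_antisymm hM2
    obtain ⟨g, hgH, hgS⟩ := SetLike.not_le_iff_exists.mp hcs
    have hbad : ∃ a : ι → F, a ≠ 0 ∧ Q a = 0 ∧ ∀ l : F, ∃ y,
        polar ⇑Q y a ≠ l * polar ⇑Q ((g : Matrix ι ι F) *ᵥ y) ((g : Matrix ι ι F) *ᵥ a) := by
      by_contra hcon
      push Not at hcon
      apply hgS
      have key : ∀ a : ι → F, ∃ l : F, a ≠ 0 → Q a = 0 →
          ∀ y, polar ⇑Q y a = l * polar ⇑Q ((g : Matrix ι ι F) *ᵥ y) ((g : Matrix ι ι F) *ᵥ a) := by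
        intro a
        by_cases ha : a ≠ 0 ∧ Q a = 0
        · obtain ⟨l, hl⟩ := hcon a ha.1 ha.2
          exact ⟨l, fun _ _ => hl⟩
        · exact ⟨0, fun h1 h2 => absurd ⟨h1, h2⟩ ha⟩
      choose lam hlam using key
      have hconst : ∀ a b : ι → F, a ≠ 0 → b ≠ 0 → Q a = 0 → Q b = 0 → polar ⇑Q a b ≠ 0 →
          lam a = lam b := by
        intro a b ha hb haa hbb hab
        have e1 := hlam a ha haa b
        have e2 := hlam b hb hbb a
        rw [polar_comm ⇑Q a b,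
          polar_comm ⇑Q ((g : Matrix ι ι F) *ᵥ a) ((g : Matrix ι ι F) *ᵥ b)] at e2
        have hne' : polar ⇑Q ((g : Matrix ι ι F) *ᵥ b) ((g : Matrix ι ι F) *ᵥ a) ≠ 0 := by
          intro h
          rw [h, mul_zero] at e1
          exact swap_ne Q hab e1
        exact mul_right_cancel₀ hne' (e1.symm.trans e2)
      have hall : ∀ a : ι → F, a ≠ 0 → Q a = 0 → lam a = lam a₀ := by
        intro a ha haa
        obtain ⟨d, hdd, _, had, ha₀d⟩ := exists_iso Q hnd (![] : Fin 0 → ι → F) (by omega) a a₀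
          (hemp _ ha) (hemp _ ha₀)
        have hd0 : d ≠ 0 := by
          rintro rfl
          exact had (by simp)
        rw [hconst a d ha hd0 haa hdd had, hconst a₀ d ha₀ hd0 hQa₀ hdd ha₀d]
      set A : Set (ι → F) := {v | ∀ y, polar ⇑Q y v =
        lam a₀ * polar ⇑Q ((g : Matrix ι ι F) *ᵥ y) ((g : Matrix ι ι F) *ᵥ v)} with hA
      have hAadd : ∀ a b, a ∈ A → b ∈ A → a + b ∈ A := by
        intro a b ha hb y
        rw [mulVec_add, polar_add_right, polar_add_right, ha y, hb y]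
        ring
      have hAsmul : ∀ (c : F) a, a ∈ A → c • a ∈ A := by
        intro c' a ha y
        rw [mulVec_smul, polar_smul_right, polar_smul_right, ha y, smul_eq_mul, smul_eq_mul]
        ring
      have hsing : ∀ a, Q a = 0 → a ∈ A := by
        intro a haa y
        by_cases ha : a = 0
        · subst ha
          simp
        · rw [hlam a ha haa y, hall a ha haa]
      have hfull : ∀ w, polar ⇑Q 0 w = 0 → w ∈ A := by
        apply fill Q hnd hn 0 A hAadd hAsmul ?_ a₀ (hsing a₀ hQa₀) (by simpa using ha₀) (by simp)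
        intro u _ a b ha hb _ _ _
        rw [sub_eq_add_neg, ← neg_smul]
        exact hAadd _ _ (hAsmul _ _ (hsing a ha)) (hAsmul _ _ (hsing b hb))
      have hl0 : lam a₀ ≠ 0 := by
        intro h
        apply ha₀
        apply hnd
        intro w
        rw [polar_comm, hlam a₀ ha₀ hQa₀ w, h, zero_mul]
      refine ⟨Units.mk0 (lam a₀)⁻¹ (inv_ne_zero hl0), fun v => ?_⟩
      rw [Units.val_mk0]
      have h3 := hfull v (by simp) v
      rw [polar_self, polar_self] at h3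
      simp only [nsmul_eq_mul, Nat.cast_ofNat] at h3
      have h4 : Q v = lam a₀ * Q ((g : Matrix ι ι F) *ᵥ v) :=
        mul_left_cancel₀ h2 (by linear_combination h3)
      rw [h4, ← mul_assoc, inv_mul_cancel₀ hl0, one_mul]
    obtain ⟨a, ha0, hQa, hbad⟩ := hbad
    obtain ⟨r, hr⟩ := sharp Q hnd g a
    obtain ⟨y, hy⟩ : ∃ y, y = (g : Matrix ι ι F) *ᵥ a := ⟨_, rfl⟩
    have hy0 : y ≠ 0 := by
      intro h
      apply ha0
      rw [← inv_mulVec g a, ← hy, h, mulVec_zero]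
    have hyr : y ∉ Submodule.span F (Set.range ![r]) := by
      rw [span_one]
      intro h
      obtain ⟨β, hβ⟩ := Submodule.mem_span_singleton.mp h
      have hβ0 : β ≠ 0 := by
        rintro rfl
        rw [zero_smul] at hβ
        exact hy0 hβ.symm
      obtain ⟨y', hy'⟩ := hbad β⁻¹
      apply hy'
      have h1 := hr ((g : Matrix ι ι F) *ᵥ y')
      rw [inv_mulVec] at h1
      rw [polar_comm ⇑Q y' a, ← h1, ← hy, ← hβ, polar_smul_right,
        polar_comm ⇑Q ((g : Matrix ι ι F) *ᵥ y') r, smul_eq_mul, ← mul_assoc,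
        inv_mul_cancel₀ hβ0, one_mul]
    obtain ⟨u, hQu, hup, hyu, _⟩ := exists_iso Q hnd ![r] (by omega) y y hyr hyr
    have hru : polar ⇑Q r u = 0 := hup 0
    obtain ⟨gu, hgu⟩ : ∃ gu, gu = ((g⁻¹ : Matrix.GeneralLinearGroup ι F) : Matrix ι ι F) *ᵥ u :=
      ⟨_, rfl⟩
    obtain ⟨u', hQu', hu'p, hu's⟩ := exists_sing_off Q ![a, gu] (by omega)
    have hau' : polar ⇑Q a u' = 0 := hu'p 0
    have hguu' : polar ⇑Q gu u' = 0 := hu'p 1
    obtain ⟨p, hp⟩ := sharp Q hnd g u'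
    obtain ⟨w, hw⟩ : ∃ w, w = (g : Matrix ι ι F) *ᵥ u' := ⟨_, rfl⟩
    have hpy : polar ⇑Q p y = 0 := by rw [hp, hy, inv_mulVec, polar_comm]; exact hau'
    have hpw : polar ⇑Q p w = 0 := by rw [hp, hw, inv_mulVec]; exact self_zero Q hQu'
    have hry : polar ⇑Q r y = 0 := by rw [hr, hy, inv_mulVec]; exact self_zero Q hQa
    have hrw : polar ⇑Q r w = 0 := by rw [hr, hw, inv_mulVec]; exact hau'
    have hpu : polar ⇑Q p u = 0 := by rw [hp, ← hgu, polar_comm]; exact hguu'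
    obtain ⟨x, hQx, hxp, hxs⟩ := exists_sing_off Q ![u, p, r, y, w] (by omega)
    have hux : polar ⇑Q u x = 0 := hxp 0
    have hpx : polar ⇑Q p x = 0 := hxp 1
    have hrx : polar ⇑Q r x = 0 := hxp 2
    have hyx : polar ⇑Q y x = 0 := hxp 3
    have hwx : polar ⇑Q w x = 0 := hxp 4
    obtain ⟨E, hEM, aE, _⟩ := exists_E Q x u hQx hQu (swap_zero Q hux)
    obtain ⟨Ei, hEiM, aEi, _⟩ := exists_E Q x (-u) hQx (by rw [QuadraticMap.map_neg]; exact hQu)
      (by rw [polar_neg_right, swap_zero Q hux, neg_zero])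
    obtain ⟨E', hE'H, aE'⟩ : ∃ E' ∈ H, ∀ z, (E' : Matrix ι ι F) *ᵥ z = z + polar ⇑Q p z • y - polar ⇑Q r z • w := by
      obtain ⟨T, hTM, aT, _⟩ := exists_E Q a u' hQa hQu' hau'
      refine ⟨g * T * g⁻¹, H.mul_mem (H.mul_mem hgH (hM1 hTM)) (H.inv_mem hgH), fun z => ?_⟩
      rw [Units.val_mul, Units.val_mul, ← mulVec_mulVec, ← mulVec_mulVec, aT, mulVec_sub,
        mulVec_add, mul_inv_mulVec, mulVec_smul, mulVec_smul, ← hp, ← hr, ← hy, ← hw]
    obtain ⟨E'i, hE'iH, aE'i⟩ : ∃ E' ∈ H, ∀ z, (E' : Matrix ι ι F) *ᵥ z =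
        z - polar ⇑Q p z • y + polar ⇑Q r z • w := by
      obtain ⟨T, hTM, aT, _⟩ := exists_E Q a (-u') hQa (by rw [QuadraticMap.map_neg]; exact hQu')
        (by rw [polar_neg_right, hau', neg_zero])
      refine ⟨g * T * g⁻¹, H.mul_mem (H.mul_mem hgH (hM1 hTM)) (H.inv_mem hgH), fun z => ?_⟩
      rw [Units.val_mul, Units.val_mul, ← mulVec_mulVec, ← mulVec_mulVec, aT, mulVec_sub,
        mulVec_add, mul_inv_mulVec, mulVec_smul, mulVec_smul, polar_neg_left, mulVec_neg, ← hp,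
        ← hr, ← hy, ← hw]
      module
    obtain ⟨u₀, hu₀⟩ : ∃ u₀, u₀ = polar ⇑Q w u • r - polar ⇑Q y u • p := ⟨_, rfl⟩
    have hR₀ : R Q H u₀ x := by
      refine ⟨?_, E' * E * E'i * Ei,
        H.mul_mem (H.mul_mem (H.mul_mem hE'H (hM1 hEM)) hE'iH) (hM1 hEiM), fun z => ?_⟩
      · rw [hu₀, polar_sub_left, polar_smul_left, polar_smul_left, hrx, hpx]
        simp
      · rw [Units.val_mul, Units.val_mul, Units.val_mul, ← mulVec_mulVec, ← mulVec_mulVec,
          ← mulVec_mulVec, aEi, aE'i, aE, aE', hu₀]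
        simp only [polar_add_right, polar_sub_right, polar_smul_right, polar_neg_right,
          polar_neg_left, polar_sub_left, polar_smul_left, smul_eq_mul, hpx, hpu, hrx, hru, hpy,
          hpw, hry, hrw, hux, swap_zero Q hux, self_zero Q hQx, self_zero Q hQu,
          swap_zero Q hyx, swap_zero Q hwx, polar_comm ⇑Q u y, polar_comm ⇑Q u w, mul_zero,
          add_zero, sub_zero, neg_zero]
        module
    have hu₀ne : u₀ ≠ 0 := by
      intro h
      apply hu's
      have h1 : polar ⇑Q y u • u' = polar ⇑Q w u • a := by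
        apply ext_left Q hnd
        intro z'
        have h3 : polar ⇑Q u₀ ((g : Matrix ι ι F) *ᵥ z') = 0 := by rw [h]; simp
        rw [hu₀, polar_sub_left, polar_smul_left, polar_smul_left, hr, hp, inv_mulVec] at h3
        rw [polar_smul_left, polar_smul_left]
        exact (sub_eq_zero.mp h3).symm
      have h4 : u' = (polar ⇑Q w u / polar ⇑Q y u) • a := by
        rw [div_eq_inv_mul, ← smul_smul, ← h1, smul_smul, inv_mul_cancel₀ hyu, one_smul]
      rw [h4]
      exact Submodule.smul_mem _ _ (Submodule.subset_span ⟨0, rfl⟩)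
    have hu₀x : u₀ ∉ Submodule.span F {x} := by
      intro h
      obtain ⟨β, hβ⟩ := Submodule.mem_span_singleton.mp h
      have hβ0 : β ≠ 0 := by
        rintro rfl
        rw [zero_smul] at hβ
        exact hu₀ne hβ.symm
      apply hxs
      have : x = β⁻¹ • u₀ := by rw [← hβ, smul_smul, inv_mul_cancel₀ hβ0, one_smul]
      rw [this, hu₀]
      apply Submodule.smul_mem
      exact Submodule.sub_mem _ (Submodule.smul_mem _ _ (Submodule.subset_span ⟨2, rfl⟩))
        (Submodule.smul_mem _ _ (Submodule.subset_span ⟨1, rfl⟩))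
    have hx0 : x ≠ 0 := by
      rintro rfl
      exact hxs (Submodule.zero_mem _)
    -- step 2
    obtain ⟨b, hQb, hbp, hu₀b, _⟩ := exists_iso Q hnd ![x] (by omega) u₀ u₀
      (by rw [span_one]; exact hu₀x) (by rw [span_one]; exact hu₀x)
    have hxb : polar ⇑Q x b = 0 := hbp 0
    obtain ⟨a', hQa', ha'p, ha's⟩ := exists_sing_off Q ![x, u₀, b] (by omega)
    have hxa' : polar ⇑Q x a' = 0 := ha'p 0
    have hu₀a' : polar ⇑Q u₀ a' = 0 := ha'p 1
    have hba' : polar ⇑Q b a' = 0 := ha'p 2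
    have Rc : ∀ β : F, R Q H (β • a') x := by
      intro β
      have r1 := CL Q hM1 hR₀ hQa' (b := (β / polar ⇑Q u₀ b) • b)
        (by rw [QuadraticMap.map_smul, hQb, smul_zero])
        (by rw [polar_smul_right, swap_zero Q hba', smul_zero]) hxa'
        (by rw [polar_smul_right, hxb, smul_zero])
      rw [hu₀a', zero_smul, sub_zero, polar_smul_right, smul_eq_mul, div_mul_cancel₀ _ hu₀b] at r1
      exact r1
    have ha'x : a' ∉ Submodule.span F {x} := by
      intro h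
      apply ha's
      exact Submodule.span_mono (s := {x}) (t := Set.range ![x, u₀, b])
        (Set.singleton_subset_iff.mpr ⟨0, rfl⟩) h
    have hxV : x ∈ VV H := by
      have hfill : ∀ w, polar ⇑Q x w = 0 → w ∈ {u : ι → F | ∀ β : F, R Q H (β • u) x} := by
        apply fill Q hnd hn x {u : ι → F | ∀ β : F, R Q H (β • u) x} ?_ ?_ ?_ a' Rc ha'x
          (swap_zero Q hxa')
        · intro a b ha hb β
          rw [smul_add]
          exact R_add_left Q (ha β) (hb β)
        · intro c' a ha β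
          rw [smul_smul]
          exact ha _
        · intro u hu a b ha hb hab hxa hxb β
          have r := CL Q hM1 (hu β) ha hb hab hxa hxb
          have e : polar ⇑Q (β • u) b • a - polar ⇑Q (β • u) a • b = β • (polar ⇑Q u b • a - polar ⇑Q u a • b) := by
            rw [polar_smul_left, polar_smul_left]
            simp only [smul_eq_mul]
            module
          rwa [e] at r
      intro φ hφ
      obtain ⟨u, rfl⟩ := riesz Q hnd φ
      have hu : polar ⇑Q x u = 0 := by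
        rw [polar_comm, ← ph_dot]
        exact hφ
      obtain ⟨_, k, hk, ak⟩ := hfill u hu 1
      have : tv (ph Q u) x hφ = k := by
        apply gl_ext
        intro z
        rw [tv_mulVec, ph_dot, ak, one_smul]
      rw [this]
      exact hk
    -- step 3
    apply le_of_VV
    have hfin : ∀ w, polar ⇑Q 0 w = 0 → w ∈ VV H := by
      apply fill Q hnd hn 0 (VV H) ?_ ?_ ?_ x hxV (by simpa using hx0) (by simp)
      · intro a b ha hb
        exact VV_add ha hb
      · intro c' a ha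
        exact VV_smul ha c'
      · intro u hu a b ha hb hab _ _
        obtain ⟨t, htM, act, _⟩ := exists_E Q a b ha hb hab
        have e1 := VV_img (hM1 htM) hu
        rw [act] at e1
        have e2 := VV_add e1 (VV_smul hu (-1))
        have e3 : u + polar ⇑Q b u • a - polar ⇑Q a u • b + (-1 : F) • u = polar ⇑Q u b • a - polar ⇑Q u a • b := by
          rw [polar_comm ⇑Q b u, polar_comm ⇑Q a u]
          module
        rwa [e3] at e2
    intro v
    exact hfin v (by simp)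

end Cfsg.Agent.Lib.Helper5.SLOrth
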