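import Mathlib
import Cfsg.Prelude.Def_GeometricClasses
import Cfsg.Agent.Lib.Helper5.SLSymp
import Cfsg.Agent.Lib.Helper4.PSLnH90

set_option autoImplicit false
set_option linter.unusedSectionVars false

namespace Cfsg.Agent.Lib.Helper5.SLUni

open Matrix Cfsg.Agent.Lib.Helper5.SLMax

variable {F : Type*} [Field F] {ι : Type} [Fintype ι] [DecidableEq ι]

section field

variable (σ : F ≃+* F) (hs : ∀ a : F, σ (σ a) = a) (hne : σ ≠ RingEquiv.refl F)

include hne in
theorem exists_moved : ∃ a, σ a ≠ a := by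
  by_contra h
  push Not at h
  exact hne (RingEquiv.ext h)

include hs hne in
theorem exists_skew : ∃ c, c ≠ 0 ∧ σ c = -c := by
  obtain ⟨a, ha⟩ := exists_moved σ hne
  exact ⟨a - σ a, sub_ne_zero.mpr (Ne.symm ha), by rw [map_sub, hs]; ring⟩

include hs hne in
theorem exists_trace (l : F) (hl : σ l = l) : ∃ α, α + σ α = l := by
  obtain ⟨a, ha⟩ := exists_moved σ hne
  by_cases h : a + σ a = 0
  · have h2 : (2 : F) ≠ 0 := by
      intro h2
      apply ha
      linear_combination h - a * h2
    refine ⟨l / 2, ?_⟩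
    rw [map_div₀, hl, map_ofNat]
    field_simp
    ring
  · have ht : σ (a + σ a) = a + σ a := by rw [map_add, hs]; ring
    refine ⟨l * a / (a + σ a), ?_⟩
    rw [map_div₀, map_mul, hl, ht]
    field_simp

include hs hne in
theorem exists_norm [Finite F] (l : F) (hl : σ l = l) : ∃ μ, μ * σ μ = l := by
  by_cases h0 : l = 0
  · exact ⟨0, by simp [h0]⟩
  have ho : orderOf (σ : RingAut F) = 2 :=
    orderOf_eq_prime (by ext a; exact hs a) (by intro h; exact hne h)
  obtain ⟨μ, _, hμ⟩ := Cfsg.Agent.Lib.Helper4.H90.nrm_surj σ ho (by norm_num) l h0 hl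
  refine ⟨μ, ?_⟩
  rw [← hμ]
  simp [Cfsg.Agent.Lib.Helper4.H90.nrm, Finset.prod_range_succ]

end field

section form

variable {σ : F ≃+* F} (f : (ι → F) → (ι → F) → F) (hf : Cfsg.Geo.IsUnitaryForm σ f)

/-- the functional `f(·,u)` as a vector -/
def ph (u : ι → F) : ι → F := fun i => f (Pi.single i 1) u

include hf

theorem add_right (v x y : ι → F) : f v (x + y) = f v x + f v y := by
  rw [hf.herm, hf.add_left, map_add, ← hf.herm, ← hf.herm]

theorem smul_right (c : F) (v x : ι → F) : f v (c • x) = σ c * f v x := by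
  rw [hf.herm, hf.smul_left, map_mul, ← hf.herm]

theorem zero_left (v : ι → F) : f 0 v = 0 := by
  have := hf.smul_left 0 0 v
  simpa using this

theorem zero_right (v : ι → F) : f v 0 = 0 := by
  rw [hf.herm, zero_left f hf, map_zero]

theorem neg_right (v x : ι → F) : f v (-x) = - f v x := by
  have := smul_right f hf (-1) v x
  simpa using this

theorem neg_left (v x : ι → F) : f (-v) x = - f v x := by
  have := hf.smul_left (-1) v x
  simpa using this

theorem swap_zero {v x : ι → F} (h : f v x = 0) : f x v = 0 := by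
  rw [hf.herm, h, map_zero]

theorem swap_ne {v x : ι → F} (h : f v x ≠ 0) : f x v ≠ 0 := fun h' => h (swap_zero f hf h')

theorem self_fixed (v : ι → F) : σ (f v v) = f v v := (hf.herm v v).symm

theorem sum_left {κ : Type*} (s : Finset κ) (x : κ → ι → F) (v : ι → F) :
    f (∑ k ∈ s, x k) v = ∑ k ∈ s, f (x k) v := by
  classical
  induction s using Finset.induction_on with
  | empty => simp [zero_left f hf]
  | insert a s ha ih => rw [Finset.sum_insert ha, Finset.sum_insert ha, hf.add_left, ih]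

theorem sum_right {κ : Type*} (s : Finset κ) (x : κ → ι → F) (v : ι → F) :
    f v (∑ k ∈ s, x k) = ∑ k ∈ s, f v (x k) := by
  classical
  induction s using Finset.induction_on with
  | empty => simp [zero_right f hf]
  | insert a s ha ih => rw [Finset.sum_insert ha, Finset.sum_insert ha, add_right f hf, ih]

theorem ph_dot (u z : ι → F) : ph f u ⬝ᵥ z = f z u := by
  have hz : z = ∑ i, z i • (Pi.single i 1 : ι → F) := by
    funext j
    simp [Finset.sum_apply, Pi.single_apply]
  conv_rhs => rw [hz]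
  rw [sum_left f hf]
  unfold dotProduct ph
  apply Finset.sum_congr rfl
  intro i _
  rw [hf.smul_left, mul_comm]

theorem ext_right {u u' : ι → F} (h : ∀ z, f z u = f z u') : u = u' := by
  by_contra hne
  obtain ⟨⟨x, hx⟩, _⟩ := hf.nondegenerate (u - u') (sub_ne_zero.mpr hne)
  apply hx
  rw [sub_eq_add_neg, add_right f hf, neg_right f hf, h x, add_neg_cancel]

theorem riesz [Finite F] (φ : ι → F) : ∃ u, φ = ph f u := by
  have hinj : Function.Injective (ph f) := by
    intro u u' h
    apply ext_right f hf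
    intro z
    rw [← ph_dot f hf, ← ph_dot f hf, h]
  obtain ⟨u, hu⟩ := (Finite.injective_iff_surjective.mp hinj) φ
  exact ⟨u, hu.symm⟩

theorem exists_orth_ne [Finite F] (S : Submodule F (ι → F)) (v : ι → F) (hv : v ∉ S) :
    ∃ y, (∀ s ∈ S, f s y = 0) ∧ f v y = 1 := by
  obtain ⟨ψ, h1, h2⟩ := exists_func S v hv
  obtain ⟨y, rfl⟩ := riesz f hf ψ
  refine ⟨y, ?_, ?_⟩
  · intro s hs
    rw [← ph_dot f hf]
    exact h1 s hs
  · rw [← ph_dot f hf]
    exact h2

/-- the linear functional `f(·,u)` -/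
def fl (u : ι → F) : (ι → F) →ₗ[F] F where
  toFun z := f z u
  map_add' x y := hf.add_left x y u
  map_smul' c x := hf.smul_left c x u

theorem exists_val [Finite F] {k : ℕ} (d : Fin k → ι → F) (hk : 2 * k < Fintype.card ι) (l : F)
    (hl : σ l = l) : ∃ z, (∀ i, f (d i) z = 0) ∧ f z z = l := by
  have hs := hf.involutive
  have hne := hf.ne_refl
  set L : (ι → F) →ₗ[F] (Fin k → F) := LinearMap.pi (fun i => fl f hf (d i)) with hL
  set Z := LinearMap.ker L with hZ
  have hmemZ : ∀ z, z ∈ Z ↔ ∀ i, f z (d i) = 0 := by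
    intro z
    rw [hZ, LinearMap.mem_ker]
    constructor
    · intro h i
      exact congrFun h i
    · intro h
      funext i
      exact h i
  have hfrZ : Fintype.card ι - k ≤ Module.finrank F Z := by
    have h1 := LinearMap.finrank_range_add_finrank_ker L
    have h2 := Submodule.finrank_le (LinearMap.range L)
    rw [Module.finrank_fin_fun] at h2
    rw [Module.finrank_fintype_fun_eq_card] at h1
    rw [hZ]
    omega
  have hfrS : Module.finrank F (Submodule.span F (Set.range d)) ≤ k := by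
    have := finrank_range_le_card (R := F) d
    rwa [Fintype.card_fin] at this
  obtain ⟨z₁, hz₁Z, hz₁S⟩ : ∃ z₁ ∈ Z, z₁ ∉ Submodule.span F (Set.range d) := by
    by_contra hcon
    push Not at hcon
    have := Submodule.finrank_mono (show Z ≤ Submodule.span F (Set.range d) from hcon)
    omega
  by_cases h11 : f z₁ z₁ = 0
  · obtain ⟨z₂, hz₂Z, h21⟩ : ∃ z₂ ∈ Z, f z₂ z₁ ≠ 0 := by
      by_contra hcon
      push Not at hcon
      apply hz₁S
      have h1 : (⨅ i, LinearMap.ker (fl f hf (d i))) ≤ LinearMap.ker (fl f hf z₁) := by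
        intro z hz
        rw [Submodule.mem_iInf] at hz
        rw [LinearMap.mem_ker]
        exact hcon z ((hmemZ z).mpr (fun i => LinearMap.mem_ker.mp (hz i)))
      have h2 := mem_span_of_iInf_ker_le_ker h1
      obtain ⟨c, hc⟩ := (Submodule.mem_span_range_iff_exists_fun F).mp h2
      have h3 : z₁ = ∑ i, σ (c i) • d i := by
        apply ext_right f hf
        intro z
        have h4 := congrArg (fun T : (ι → F) →ₗ[F] F => T z) hc
        simp only [LinearMap.sum_apply, LinearMap.smul_apply] at h4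
        rw [sum_right f hf]
        refine h4.symm.trans ?_
        apply Finset.sum_congr rfl
        intro i _
        rw [smul_right f hf, hs]
        rfl
      rw [h3]
      exact Submodule.sum_mem _ (fun i _ => Submodule.smul_mem _ _ (Submodule.subset_span ⟨i, rfl⟩))
    have h12 : f z₁ z₂ ≠ 0 := swap_ne f hf h21
    obtain ⟨α, hα⟩ := exists_trace σ hs hne (l - f z₂ z₂) (by
      rw [map_sub, hl, self_fixed f hf])
    refine ⟨z₂ + (α / f z₁ z₂) • z₁, ?_, ?_⟩
    · intro i
      rw [add_right f hf, smul_right f hf, swap_zero f hf ((hmemZ z₂).mp hz₂Z i),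
        swap_zero f hf ((hmemZ z₁).mp hz₁Z i), mul_zero, add_zero]
    · rw [hf.add_left, add_right f hf, add_right f hf, hf.smul_left, hf.smul_left,
        smul_right f hf, smul_right f hf, h11, map_div₀, ← hf.herm z₂ z₁]
      field_simp
      linear_combination (f z₂ z₁ * f z₁ z₂) * hα
  · obtain ⟨μ, hμ⟩ := exists_norm σ hs hne (l / f z₁ z₁) (by
      rw [map_div₀, hl, self_fixed f hf])
    refine ⟨μ • z₁, ?_, ?_⟩
    · intro i
      rw [smul_right f hf, swap_zero f hf ((hmemZ z₁).mp hz₁Z i), mul_zero]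
    · rw [hf.smul_left, smul_right f hf, ← mul_assoc, hμ]
      field_simp

theorem exists_iso_perp [Finite F] {k : ℕ} (d : Fin k → ι → F) (hk : 2 * (k + 1) < Fintype.card ι) :
    ∃ z, z ≠ 0 ∧ (∀ i, f (d i) z = 0) ∧ f z z = 0 := by
  obtain ⟨z₁, h1, h11⟩ := exists_val f hf d (by omega) 1 (map_one σ)
  obtain ⟨z₂, h2, h22⟩ := exists_val f hf (Fin.cons z₁ d : Fin (k + 1) → ι → F) hk (-1) (by simp)
  have h12 : f z₁ z₂ = 0 := by
    have := h2 0
    simpa using this
  have h2' : ∀ i, f (d i) z₂ = 0 := by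
    intro i
    have := h2 i.succ
    simpa using this
  refine ⟨z₁ + z₂, ?_, ?_, ?_⟩
  · intro h
    have h3 : f z₁ (z₁ + z₂) = 1 := by rw [add_right f hf, h11, h12, add_zero]
    rw [h, zero_right f hf] at h3
    exact zero_ne_one h3
  · intro i
    rw [add_right f hf, h1, h2', add_zero]
  · rw [hf.add_left, add_right f hf, add_right f hf, h11, h12, swap_zero f hf h12, h22]
    ring

theorem exists_iso [Finite F] (hn : 13 ≤ Fintype.card ι) (y₀ a b : ι → F)
    (ha : a ∉ Submodule.span F {y₀}) (hb : b ∉ Submodule.span F {y₀}) :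
    ∃ x, f x x = 0 ∧ f y₀ x = 0 ∧ f a x ≠ 0 ∧ f b x ≠ 0 := by
  obtain ⟨w, hw0, hwa, hwb⟩ : ∃ w, f y₀ w = 0 ∧ f a w ≠ 0 ∧ f b w ≠ 0 := by
    obtain ⟨w₁, h1, h1'⟩ := exists_orth_ne f hf _ a ha
    obtain ⟨w₂, h2, h2'⟩ := exists_orth_ne f hf _ b hb
    have h10 := h1 y₀ (Submodule.mem_span_singleton_self y₀)
    have h20 := h2 y₀ (Submodule.mem_span_singleton_self y₀)
    by_cases c1 : f b w₁ = 0
    · by_cases c2 : f a w₂ = 0
      · refine ⟨w₁ + w₂, ?_, ?_, ?_⟩
        · rw [add_right f hf, h10, h20, add_zero]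
        · rw [add_right f hf, h1', c2, add_zero]; exact one_ne_zero
        · rw [add_right f hf, h2', c1, zero_add]; exact one_ne_zero
      · exact ⟨w₂, h20, c2, by rw [h2']; exact one_ne_zero⟩
    · exact ⟨w₁, h10, by rw [h1']; exact one_ne_zero, c1⟩
  obtain ⟨z, hz, hzz⟩ := exists_val f hf ![y₀, a, b, w] (by omega) (- f w w) (by
    rw [map_neg, self_fixed f hf])
  have e0 : f y₀ z = 0 := by simpa using hz 0
  have e1 : f a z = 0 := by simpa using hz 1
  have e2 : f b z = 0 := by simpa using hz 2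
  have e3 : f w z = 0 := by simpa using hz 3
  refine ⟨w + z, ?_, ?_, ?_, ?_⟩
  · rw [hf.add_left, add_right f hf, add_right f hf, e3, swap_zero f hf e3, hzz]
    ring
  · rw [add_right f hf, hw0, e0, add_zero]
  · rw [add_right f hf, e1, add_zero]; exact hwa
  · rw [add_right f hf, e2, add_zero]; exact hwb


theorem fill [Finite F] (hn : 13 ≤ Fintype.card ι) (y₀ : ι → F) (A : Set (ι → F))
    (hadd : ∀ a b, a ∈ A → b ∈ A → a + b ∈ A) (hsmul : ∀ (c : F) a, a ∈ A → c • a ∈ A)
    (hcl : ∀ u ∈ A, ∀ x, f x x = 0 → f y₀ x = 0 → f u x ≠ 0 → x ∈ A)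
    (u₁ : ι → F) (hu₁ : u₁ ∈ A) (hu₁' : u₁ ∉ Submodule.span F {y₀}) (hu₁0 : f u₁ y₀ = 0) :
    ∀ w, f y₀ w = 0 → w ∈ A := by
  have hs := hf.involutive
  have hne := hf.ne_refl
  have step : ∀ w, f y₀ w = 0 → w ∉ Submodule.span F {y₀} → w ∈ A := by
    intro w hw hw'
    obtain ⟨x, hxx, h0x, h1x, hwx⟩ := exists_iso f hf hn y₀ u₁ w hu₁' hw'
    have hxA := hcl u₁ hu₁ x hxx h0x h1x
    have hxw : f x w ≠ 0 := swap_ne f hf hwx
    obtain ⟨α, hα⟩ := exists_trace σ hs hne (- f w w) (by rw [map_neg, self_fixed f hf])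
    have h1 : f (w + (α / f x w) • x) (w + (α / f x w) • x) = 0 := by
      rw [hf.add_left, add_right f hf, add_right f hf, hf.smul_left, hf.smul_left,
        smul_right f hf, smul_right f hf, hxx, map_div₀, ← hf.herm w x]
      field_simp
      linear_combination (f w x * f x w) * hα
    have h2 : f y₀ (w + (α / f x w) • x) = 0 := by
      rw [add_right f hf, smul_right f hf, hw, h0x]; ring
    have h3 : f x (w + (α / f x w) • x) ≠ 0 := by
      rw [add_right f hf, smul_right f hf, hxx, mul_zero, add_zero]; exact hxw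
    have h4 := hcl x hxA _ h1 h2 h3
    have h5 := hadd _ _ h4 (hsmul (-(α / f x w)) x hxA)
    have e : w + (α / f x w) • x + -(α / f x w) • x = w := by module
    rwa [e] at h5
  intro w hw
  by_cases hc : w ∈ Submodule.span F {y₀}
  · obtain ⟨x, hxx, h0x, h1x, _⟩ := exists_iso f hf hn y₀ u₁ u₁ hu₁' hu₁'
    have hxA := hcl u₁ hu₁ x hxx h0x h1x
    have hx' : x ∉ Submodule.span F {y₀} := by
      intro h
      obtain ⟨β, rfl⟩ := Submodule.mem_span_singleton.mp h
      apply h1x
      rw [smul_right f hf, hu₁0, mul_zero]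
    have h1 : w + x ∉ Submodule.span F {y₀} := by
      intro h
      apply hx'
      have := Submodule.sub_mem _ h hc
      rwa [add_sub_cancel_left] at this
    have h2 := step (w + x) (by rw [add_right f hf, hw, h0x, add_zero]) h1
    have h3 := hadd _ _ h2 (hsmul (-1) x hxA)
    have e : w + x + (-1 : F) • x = w := by module
    rwa [e] at h3
  · exact step w hw hc

theorem lemmaS [Finite F] (u v : ι → F) (h : f v u = 0) (hv : v ≠ 0)
    (hu : u ∉ Submodule.span F {v}) (k : Matrix.GeneralLinearGroup ι F)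
    (ak : ∀ z, (k : Matrix ι ι F) *ᵥ z = z + f z u • v)
    (hk : k ∈ Cfsg.Geo.similarityGroup f) : False := by
  obtain ⟨κ, hκ⟩ := hk
  have hu0 : u ≠ 0 := by
    rintro rfl
    exact hu (Submodule.zero_mem _)
  have hvu : v ∉ Submodule.span F {u} := by
    intro hc
    obtain ⟨β, hβ⟩ := Submodule.mem_span_singleton.mp hc
    apply hu
    have hβ0 : β ≠ 0 := by
      rintro rfl
      rw [zero_smul] at hβ
      exact hv hβ.symm
    rw [Submodule.mem_span_singleton]
    exact ⟨β⁻¹, by rw [← hβ, smul_smul, inv_mul_cancel₀ hβ0, one_smul]⟩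
  obtain ⟨y, hy1, hy2⟩ := exists_orth_ne f hf _ v hvu
  have huy : f u y = 0 := hy1 u (Submodule.mem_span_singleton_self u)
  have hyu : f y u = 0 := swap_zero f hf huy
  have e : ∀ z, f z u = ((κ : F) - 1) * f z y := by
    intro z
    have := hκ z y
    rw [ak, ak, hyu, zero_smul, add_zero, hf.add_left, hf.smul_left, hy2, mul_one] at this
    linear_combination this
  have e1 := e v
  rw [h, hy2, mul_one] at e1
  obtain ⟨⟨z, hz⟩, _⟩ := hf.nondegenerate u hu0
  apply hz
  rw [e z, ← e1, zero_mul]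

theorem exists_ut (x : ι → F) (hx : f x x = 0) (c : F) (hc : σ c = -c) :
    ∃ k : Matrix.GeneralLinearGroup ι F,
      k ∈ Cfsg.Geo.similarityGroup f ⊓ Cfsg.Geo.specialLinear ι F ∧
      (∀ z, (k : Matrix ι ι F) *ᵥ z = z + (c * f z x) • x) ∧
      (∀ z z', f ((k : Matrix ι ι F) *ᵥ z) ((k : Matrix ι ι F) *ᵥ z') = f z z') := by
  have h0 : ph f (σ c • x) ⬝ᵥ x = 0 := by rw [ph_dot f hf, smul_right f hf, hx, mul_zero]
  have act : ∀ z, (tv (ph f (σ c • x)) x h0 : Matrix ι ι F) *ᵥ z = z + (c * f z x) • x := by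
    intro z
    rw [tv_mulVec, ph_dot f hf, smul_right f hf, hf.involutive]
  have iso : ∀ z z', f ((tv (ph f (σ c • x)) x h0 : Matrix ι ι F) *ᵥ z)
      ((tv (ph f (σ c • x)) x h0 : Matrix ι ι F) *ᵥ z') = f z z' := by
    intro z z'
    rw [act, act, hf.add_left, add_right f hf, add_right f hf, hf.smul_left, hf.smul_left,
      smul_right f hf, smul_right f hf, hx, map_mul, hc, ← hf.herm x z']
    ring
  exact ⟨_, ⟨⟨1, fun u v => by rw [Units.val_one, one_mul]; exact iso u v⟩, tv_mem _ _ _⟩, act, iso⟩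

omit hf in
/-- `H` contains the transvection `z ↦ z + f(z,u) v` -/
def R (H : Subgroup (Matrix.GeneralLinearGroup ι F)) (u v : ι → F) : Prop :=
  f v u = 0 ∧ ∃ k ∈ H, ∀ z, (k : Matrix ι ι F) *ᵥ z = z + f z u • v

variable {H : Subgroup (Matrix.GeneralLinearGroup ι F)}

theorem R_add_left {u u' v : ι → F} (h : R f H u v) (h' : R f H u' v) : R f H (u + u') v := by
  obtain ⟨h0, k, hk, ak⟩ := h
  obtain ⟨h0', k', hk', ak'⟩ := h'
  refine ⟨by rw [add_right f hf, h0, h0', add_zero], k * k', H.mul_mem hk hk', fun z => ?_⟩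
  rw [Units.val_mul, ← mulVec_mulVec, ak', ak, hf.add_left, hf.smul_left, h0, add_right f hf]
  module

theorem R_add_right {u v v' : ι → F} (h : R f H u v) (h' : R f H u v') : R f H u (v + v') := by
  obtain ⟨h0, k, hk, ak⟩ := h
  obtain ⟨h0', k', hk', ak'⟩ := h'
  refine ⟨by rw [hf.add_left, h0, h0', add_zero], k * k', H.mul_mem hk hk', fun z => ?_⟩
  rw [Units.val_mul, ← mulVec_mulVec, ak', ak, hf.add_left, hf.smul_left, h0']
  module

theorem R_neg_left {u v : ι → F} (h : R f H u v) : R f H (-u) v := by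
  obtain ⟨h0, k, hk, ak⟩ := h
  refine ⟨by rw [neg_right f hf, h0, neg_zero], k⁻¹, H.inv_mem hk, fun z => ?_⟩
  have e : (k : Matrix ι ι F) *ᵥ (z + f z (-u) • v) = z := by
    rw [ak, hf.add_left, hf.smul_left, h0, neg_right f hf]
    module
  conv_lhs => rw [← e]
  rw [inv_mulVec]

omit hf in
theorem R_congr {u v u' v' : ι → F} (h : R f H u v) (h0' : f v' u' = 0)
    (e : ∀ z, f z u • v = f z u' • v') : R f H u' v' := by
  obtain ⟨h0, k, hk, ak⟩ := h
  exact ⟨h0', k, hk, fun z => by rw [ak, e]⟩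

theorem R_neg_right {u v : ι → F} (h : R f H u v) : R f H u (-v) := by
  apply R_congr f (R_neg_left f hf h) (by rw [neg_left f hf, h.1, neg_zero])
  intro z
  rw [neg_right f hf]
  module

theorem R_scale {u v : ι → F} {l : F} (h : R f H u (l • v)) (hl : l ≠ 0) : R f H (σ l • u) v := by
  have h0 := h.1
  rw [hf.smul_left] at h0
  have h0' : f v u = 0 := (mul_eq_zero.mp h0).resolve_left hl
  apply R_congr f h (by rw [smul_right f hf, h0', mul_zero])
  intro z
  rw [smul_right f hf, hf.involutive, smul_smul]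
  ring_nf

theorem R_conj {u v : ι → F} (h : R f H u v) (t : Matrix.GeneralLinearGroup ι F) (ht : t ∈ H)
    (iso : ∀ z z', f ((t : Matrix ι ι F) *ᵥ z) ((t : Matrix ι ι F) *ᵥ z') = f z z') :
    R f H ((t : Matrix ι ι F) *ᵥ u) ((t : Matrix ι ι F) *ᵥ v) := by
  obtain ⟨h0, k, hk, ak⟩ := h
  refine ⟨by rw [iso, h0], t * k * t⁻¹, H.mul_mem (H.mul_mem ht hk) (H.inv_mem ht), fun z => ?_⟩
  rw [Units.val_mul, Units.val_mul, ← mulVec_mulVec, ← mulVec_mulVec, ak, mulVec_add,
    mul_inv_mulVec, mulVec_smul]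
  congr 2
  rw [← iso, mul_inv_mulVec]

theorem C1 (hM : Cfsg.Geo.similarityGroup f ⊓ Cfsg.Geo.specialLinear ι F ≤ H) {c : F}
    (hc : σ c = -c) {u v x : ι → F} (h : R f H u v) (hx : f x x = 0) (hvx : f v x = 0) :
    R f H ((c * f u x) • x) v := by
  obtain ⟨t, htM, act, iso⟩ := exists_ut f hf x hx c hc
  have h1 := R_conj f hf h t (hM htM) iso
  rw [act, act, hvx, mul_zero, zero_smul, add_zero] at h1
  have h2 := R_add_left f hf h1 (R_neg_left f hf h)
  have e : u + (c * f u x) • x + -u = (c * f u x) • x := by abel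
  rwa [e] at h2

theorem C2 (hM : Cfsg.Geo.similarityGroup f ⊓ Cfsg.Geo.specialLinear ι F ≤ H) {c : F}
    (hc : σ c = -c) {u v x : ι → F} (h : R f H u v) (hx : f x x = 0) (hux : f u x = 0) :
    R f H u ((c * f v x) • x) := by
  obtain ⟨t, htM, act, iso⟩ := exists_ut f hf x hx c hc
  have h1 := R_conj f hf h t (hM htM) iso
  rw [act, act, hux, mul_zero, zero_smul, add_zero] at h1
  have h2 := R_add_right f hf h1 (R_neg_right f hf h)
  have e : v + (c * f v x) • x + -v = (c * f v x) • x := by abel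
  rwa [e] at h2


omit H in
/-- the unitary similarity group is maximal in the special linear group -/
theorem uni_max [Finite F] (hn : 13 ≤ Fintype.card ι) :
    Cfsg.Geo.IsMaximalIn (Cfsg.Geo.specialLinear ι F)
      (Cfsg.Geo.similarityGroup f ⊓ Cfsg.Geo.specialLinear ι F) := by
  have hs := hf.involutive
  have hne := hf.ne_refl
  have hnt : Nontrivial ι := Fintype.one_lt_card_iff_nontrivial.mp (by omega)
  obtain ⟨c, hc0, hc⟩ := exists_skew σ hs hne
  obtain ⟨a₀, ha₀, _, ha₀₀⟩ := exists_iso_perp f hf (k := 0) (fun i => i.elim0) (by omega)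
  constructor
  · rw [SetLike.lt_iff_le_and_exists]
    refine ⟨inf_le_right, ?_⟩
    obtain ⟨_, d, hd⟩ := hf.nondegenerate a₀ ha₀
    obtain ⟨y₁, hy₁, hy₁p, hy₁₁⟩ := exists_iso_perp f hf ![a₀, d] (by omega)
    have e0 : f a₀ y₁ = 0 := by simpa using hy₁p 0
    have e1 : f d y₁ = 0 := by simpa using hy₁p 1
    have hy₁s : y₁ ∉ Submodule.span F {a₀} := by
      intro h
      obtain ⟨β, rfl⟩ := Submodule.mem_span_singleton.mp h
      rw [smul_right f hf] at e1
      rcases mul_eq_zero.mp e1 with h | h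
      · apply hy₁
        rw [(map_eq_zero σ).mp h, zero_smul]
      · exact swap_ne f hf hd h
    refine ⟨tv (ph f y₁) a₀ (by rw [ph_dot f hf]; exact e0), tv_mem _ _ _, fun h => ?_⟩
    exact lemmaS f hf y₁ a₀ e0 ha₀ hy₁s _ (fun z => by rw [tv_mulVec, ph_dot f hf]) h.1
  · intro H hM1 hM2
    by_cases hcs : H ≤ Cfsg.Geo.similarityGroup f
    · left
      exact le_antisymm (le_inf hcs hM2) hM1
    right
    apply le_antisymm hM2
    obtain ⟨g, hgH, hgS⟩ := SetLike.not_le_iff_exists.mp hcs
    -- step 1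
    have step1 : ∃ u₀ v₀ : ι → F, v₀ ≠ 0 ∧ u₀ ∉ Submodule.span F {v₀} ∧ R f H u₀ v₀ := by
      by_contra hcon
      push Not at hcon
      apply hgS
      have key : ∀ a : ι → F, ∃ l : F, a ≠ 0 → f a a = 0 →
          ∀ y, f y a = l * f ((g : Matrix ι ι F) *ᵥ y) ((g : Matrix ι ι F) *ᵥ a) := by
        intro a
        by_cases ha : a ≠ 0 ∧ f a a = 0
        swap
        · exact ⟨0, fun h1 h2 => absurd ⟨h1, h2⟩ ha⟩
        obtain ⟨ha0, haa⟩ := ha
        obtain ⟨t, htM, act, _⟩ := exists_ut f hf a haa c hc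
        obtain ⟨u, hu⟩ := riesz f hf
          ((c • ph f a) ᵥ* ((g⁻¹ : Matrix.GeneralLinearGroup ι F) : Matrix ι ι F))
        have hu' : ∀ z, f z u =
            c * f (((g⁻¹ : Matrix.GeneralLinearGroup ι F) : Matrix ι ι F) *ᵥ z) a := by
          intro z
          rw [← ph_dot f hf, ← hu, ← dotProduct_mulVec, smul_dotProduct, ph_dot f hf, smul_eq_mul]
        have hR : R f H u ((g : Matrix ι ι F) *ᵥ a) := by
          refine ⟨by rw [hu', inv_mulVec, haa, mul_zero], g * t * g⁻¹,
            H.mul_mem (H.mul_mem hgH (hM1 htM)) (H.inv_mem hgH), fun z => ?_⟩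
          rw [Units.val_mul, Units.val_mul, ← mulVec_mulVec, ← mulVec_mulVec, act, mulVec_add,
            mul_inv_mulVec, mulVec_smul, hu']
        have hga : (g : Matrix ι ι F) *ᵥ a ≠ 0 := by
          intro h
          apply ha0
          rw [← inv_mulVec g a, h, mulVec_zero]
        have hspan : u ∈ Submodule.span F {(g : Matrix ι ι F) *ᵥ a} := by
          by_contra hns
          exact hcon u _ hga hns hR
        obtain ⟨l, hl⟩ := Submodule.mem_span_singleton.mp hspan
        refine ⟨σ l / c, fun _ _ y => ?_⟩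
        have h1 := hu' ((g : Matrix ι ι F) *ᵥ y)
        rw [inv_mulVec, ← hl, smul_right f hf] at h1
        field_simp
        linear_combination -h1
      choose lam hlam using key
      have hconst : ∀ a b : ι → F, a ≠ 0 → b ≠ 0 → f a a = 0 → f b b = 0 → f a b ≠ 0 →
          lam a = σ (lam b) := by
        intro a b ha hb haa hbb hab
        have e1 := hlam a ha haa b
        have e2 := hlam b hb hbb a
        have e3 : f b a = σ (lam b) * f ((g : Matrix ι ι F) *ᵥ b) ((g : Matrix ι ι F) *ᵥ a) := by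
          rw [hf.herm b a, e2, map_mul, ← hf.herm]
        have hne' : f ((g : Matrix ι ι F) *ᵥ b) ((g : Matrix ι ι F) *ᵥ a) ≠ 0 := by
          intro h
          rw [h, mul_zero] at e1
          exact swap_ne f hf hab e1
        exact mul_right_cancel₀ hne' (e1.symm.trans e3)
      have hall : ∀ a : ι → F, a ≠ 0 → f a a = 0 → lam a = lam a₀ := by
        intro a ha haa
        obtain ⟨d, hdd, _, had, ha₀d⟩ := exists_iso f hf hn 0 a a₀ (by simpa using ha)
          (by simpa using ha₀)
        have hd0 : d ≠ 0 := by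
          rintro rfl
          exact had (zero_right f hf a)
        rw [hconst a d ha hd0 haa hdd had, hconst a₀ d ha₀ hd0 ha₀₀ hdd ha₀d]
      have hfull : ∀ w, f 0 w = 0 → w ∈ {v : ι → F | ∀ y, f y v =
          lam a₀ * f ((g : Matrix ι ι F) *ᵥ y) ((g : Matrix ι ι F) *ᵥ v)} := by
        apply fill f hf hn 0 _ ?_ ?_ ?_ a₀ ?_ (by simpa using ha₀) (zero_right f hf a₀)
        · intro a b ha hb y
          rw [mulVec_add, add_right f hf, add_right f hf, ha y, hb y]
          ring
        · intro c' a ha y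
          rw [mulVec_smul, smul_right f hf, smul_right f hf, ha y]
          ring
        · intro u _ x hxx _ hux y
          have hx0 : x ≠ 0 := by
            rintro rfl
            exact hux (zero_right f hf u)
          rw [hlam x hx0 hxx y, hall x hx0 hxx]
        · intro y
          exact hlam a₀ ha₀ ha₀₀ y
      have hl0 : lam a₀ ≠ 0 := by
        intro h
        obtain ⟨⟨y, hy⟩, _⟩ := hf.nondegenerate a₀ ha₀
        apply hy
        rw [hlam a₀ ha₀ ha₀₀ y, h, zero_mul]
      refine ⟨Units.mk0 (lam a₀)⁻¹ (inv_ne_zero hl0), fun u v => ?_⟩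
      rw [Units.val_mk0, hfull v (zero_left f hf v) u, ← mul_assoc, inv_mul_cancel₀ hl0, one_mul]
    obtain ⟨u₀, v₀, hv₀, hu₀, hR₀⟩ := step1
    -- a
    obtain ⟨x, hxx, hv₀x, hu₀x, _⟩ := exists_iso f hf hn v₀ u₀ u₀ hu₀ hu₀
    have Ra := C1 f hf hM1 hc hR₀ hxx hv₀x
    have hx0 : x ≠ 0 := by
      rintro rfl
      exact hu₀x (zero_right f hf u₀)
    have hv₀x' : v₀ ∉ Submodule.span F {x} := by
      intro h
      obtain ⟨β, hβ⟩ := Submodule.mem_span_singleton.mp h
      have h1 : f u₀ v₀ = 0 := swap_zero f hf hR₀.1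
      rw [← hβ, smul_right f hf] at h1
      rcases mul_eq_zero.mp h1 with h | h
      · apply hv₀
        rw [← hβ, (map_eq_zero σ).mp h, zero_smul]
      · exact hu₀x h
    -- b
    obtain ⟨y, hyy, hxy, hv₀y, _⟩ := exists_iso f hf hn x v₀ v₀ hv₀x' hv₀x'
    have Rb := C2 f hf hM1 hc Ra hyy (by rw [hf.smul_left, hxy, mul_zero])
    have hl1 : c * f u₀ x ≠ 0 := mul_ne_zero hc0 hu₀x
    have hl2 : c * f v₀ y ≠ 0 := mul_ne_zero hc0 hv₀y
    have Rb' := R_scale f hf Rb hl2
    rw [smul_smul] at Rb'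
    set lm := σ (c * f v₀ y) * (c * f u₀ x) with hlm
    have hlm0 : lm ≠ 0 := mul_ne_zero ((map_ne_zero σ).mpr hl2) hl1
    have hy0 : y ≠ 0 := by
      rintro rfl
      exact hv₀y (zero_right f hf v₀)
    have hxy' : x ∉ Submodule.span F {y} := by
      intro h
      obtain ⟨β, hβ⟩ := Submodule.mem_span_singleton.mp h
      have h1 := hv₀x
      rw [← hβ, smul_right f hf] at h1
      rcases mul_eq_zero.mp h1 with h | h
      · apply hx0
        rw [← hβ, (map_eq_zero σ).mp h, zero_smul]
      · exact hv₀y h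
    -- c
    obtain ⟨x₁, hx₁x₁, hyx₁, hxx₁, _⟩ := exists_iso f hf hn y x x hxy' hxy'
    obtain ⟨_, d, hd⟩ := hf.nondegenerate y hy0
    obtain ⟨y₁, hy₁0, hy₁p, hy₁y₁⟩ := exists_iso_perp f hf ![y, x, x₁, d] (by omega)
    have e0 : f y y₁ = 0 := by simpa using hy₁p 0
    have e1 : f x y₁ = 0 := by simpa using hy₁p 1
    have e2 : f x₁ y₁ = 0 := by simpa using hy₁p 2
    have e3 : f d y₁ = 0 := by simpa using hy₁p 3
    have hy₁s : y₁ ∉ Submodule.span F {y} := by
      intro h
      obtain ⟨β, hβ⟩ := Submodule.mem_span_singleton.mp h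
      have h1 := e3
      rw [← hβ, smul_right f hf] at h1
      rcases mul_eq_zero.mp h1 with h | h
      · apply hy₁0
        rw [← hβ, (map_eq_zero σ).mp h, zero_smul]
      · exact swap_ne f hf hd h
    have Rc : ∀ β : F, R f H (β • y₁) y := by
      intro β
      have hp : c * (lm * f x x₁) ≠ 0 := mul_ne_zero hc0 (mul_ne_zero hlm0 hxx₁)
      set β' := β / (c * (lm * f x x₁)) with hβ'
      have hz : f (x₁ + β' • y₁) (x₁ + β' • y₁) = 0 := by
        rw [hf.add_left, add_right f hf, add_right f hf, hf.smul_left, hf.smul_left,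
          smul_right f hf, smul_right f hf, hx₁x₁, e2, swap_zero f hf e2, hy₁y₁]
        ring
      have hyz : f y (x₁ + β' • y₁) = 0 := by
        rw [add_right f hf, smul_right f hf, hyx₁, e0]
        ring
      have r1 := C1 f hf hM1 hc Rb' hz hyz
      have r2 := C1 f hf hM1 hc Rb' hx₁x₁ hyx₁
      have r3 := R_add_left f hf r1 (R_neg_left f hf r2)
      have hA : f (lm • x) x₁ = lm * f x x₁ := hf.smul_left _ _ _
      have hB : f (lm • x) (x₁ + β' • y₁) = lm * f x x₁ := by
        rw [hf.smul_left, add_right f hf, smul_right f hf, e1, mul_zero, add_zero]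
      rw [hA, hB] at r3
      have e : (c * (lm * f x x₁)) • (x₁ + β' • y₁) + -((c * (lm * f x x₁)) • x₁) = β • y₁ := by
        have : β = (c * (lm * f x x₁)) * β' := by
          rw [hβ']
          field_simp
        rw [this]
        module
      rwa [e] at r3
    -- d
    have hyV : y ∈ VV H := by
      have hfill : ∀ w, f y w = 0 → w ∈ {u : ι → F | ∀ β : F, R f H (β • u) y} := by
        apply fill f hf hn y {u : ι → F | ∀ β : F, R f H (β • u) y} ?_ ?_ ?_ y₁ Rc hy₁s
          (swap_zero f hf e0)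
        · intro a b ha hb β
          rw [smul_add]
          exact R_add_left f hf (ha β) (hb β)
        · intro c' a ha β
          rw [smul_smul]
          exact ha _
        · intro u hu x' hx'x' hyx' hux' β
          have r := C1 f hf hM1 hc (hu (β / (c * f u x'))) hx'x' hyx'
          have e : c * f ((β / (c * f u x')) • u) x' = β := by
            rw [hf.smul_left]
            field_simp
          rwa [e] at r
      intro φ hφ
      obtain ⟨u, rfl⟩ := riesz f hf φ
      have hu : f y u = 0 := by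
        rw [← ph_dot f hf]
        exact hφ
      obtain ⟨_, k, hk, ak⟩ := hfill u hu 1
      have : tv (ph f u) y hφ = k := by
        apply gl_ext
        intro z
        rw [tv_mulVec, ph_dot f hf, ak, one_smul]
      rw [this]
      exact hk
    -- e
    apply le_of_VV
    have hfin : ∀ w, f 0 w = 0 → w ∈ VV H := by
      apply fill f hf hn 0 _ ?_ ?_ ?_ y hyV (by simpa using hy0) (zero_right f hf y)
      · intro a b ha hb
        exact VV_add ha hb
      · intro c' a ha
        exact VV_smul ha c'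
      · intro u hu x' hx'x' _ hux'
        obtain ⟨t, htM, act, _⟩ := exists_ut f hf x' hx'x' c hc
        have e1 := VV_img (hM1 htM) hu
        rw [act] at e1
        have e2 := VV_add e1 (VV_smul hu (-1))
        have e3 := VV_smul e2 (c * f u x')⁻¹
        have e4 : (c * f u x')⁻¹ • (u + (c * f u x') • x' + (-1 : F) • u) = x' := by
          have h0 : c * f u x' ≠ 0 := mul_ne_zero hc0 hux'
          rw [show u + (c * f u x') • x' + (-1 : F) • u = (c * f u x') • x' by module, smul_smul,
            inv_mul_cancel₀ h0, one_smul]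
        rwa [e4] at e3
    intro v
    exact hfin v (zero_left f hf v)

end form

end Cfsg.Agent.Lib.Helper5.SLUni
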