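import Mathlib
import Cfsg.Prelude.Def_GeometricClasses
import Cfsg.Agent.Lib.Helper5.SLUni

set_option autoImplicit false
set_option linter.unusedSectionVars false

namespace Cfsg.Agent.Lib.Helper5.SUGen

open Matrix Cfsg.Agent.Lib.Helper5.SLMax Cfsg.Agent.Lib.Helper5.SLUni

variable {F : Type*} [Field F] {ι : Type} [Fintype ι] [DecidableEq ι]
variable {σ : F ≃+* F} (f : (ι → F) → (ι → F) → F) (hf : Cfsg.Geo.IsUnitaryForm σ f)

/-- isometries -/
def Iso (g : Matrix.GeneralLinearGroup ι F) : Prop :=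
  ∀ z z', f ((g : Matrix ι ι F) *ᵥ z) ((g : Matrix ι ι F) *ᵥ z') = f z z'

/-- `k` acts as the unitary transvection with centre `x` and parameter `c` -/
def ActT (k : Matrix.GeneralLinearGroup ι F) (x : ι → F) (c : F) : Prop :=
  ∀ z, (k : Matrix ι ι F) *ᵥ z = z + (c * f z x) • x

/-- `k` acts as the quasi-reflection with centre `b` and multiplier `l` -/
def ActR (k : Matrix.GeneralLinearGroup ι F) (b : ι → F) (l : F) : Prop :=
  ∀ z, (k : Matrix ι ι F) *ᵥ z = z + ((l - 1) * f z b / f b b) • b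

/-- the set of unitary transvections -/
def TS (σ : F ≃+* F) (f : (ι → F) → (ι → F) → F) : Set (Matrix.GeneralLinearGroup ι F) :=
  {k | ∃ x c, f x x = 0 ∧ σ c = -c ∧ ActT f k x c}

theorem Iso.mul {g h : Matrix.GeneralLinearGroup ι F} (hg : Iso f g) (hh : Iso f h) :
    Iso f (g * h) := by
  intro z z'
  rw [Units.val_mul, ← mulVec_mulVec, ← mulVec_mulVec, hg, hh]

theorem Iso.inv {g : Matrix.GeneralLinearGroup ι F} (hg : Iso f g) : Iso f g⁻¹ := by
  intro z z'
  rw [← hg, mul_inv_mulVec, mul_inv_mulVec]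

theorem Iso.one : Iso f (1 : Matrix.GeneralLinearGroup ι F) := by
  intro z z'
  rw [Units.val_one, one_mulVec, one_mulVec]

include hf

theorem TS_spec {k : Matrix.GeneralLinearGroup ι F} (hk : k ∈ TS σ f) :
    Iso f k ∧ k ∈ Cfsg.Geo.specialLinear ι F := by
  obtain ⟨x, c, hx, hc, act⟩ := hk
  obtain ⟨k', hk', act', iso'⟩ := exists_ut f hf x hx c hc
  have : k = k' := gl_ext (fun z => by rw [act, act'])
  rw [this]
  exact ⟨iso', hk'.2⟩

theorem T_spec {k : Matrix.GeneralLinearGroup ι F} (hk : k ∈ Subgroup.closure (TS σ f)) :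
    Iso f k ∧ k ∈ Cfsg.Geo.specialLinear ι F := by
  induction hk using Subgroup.closure_induction with
  | mem x hx => exact TS_spec f hf hx
  | one => exact ⟨Iso.one f, Subgroup.one_mem _⟩
  | mul x y _ _ hx hy => exact ⟨hx.1.mul f hy.1, Subgroup.mul_mem _ hx.2 hy.2⟩
  | inv x _ hx => exact ⟨hx.1.inv f, Subgroup.inv_mem _ hx.2⟩

omit hf in
theorem TS_conj {k h : Matrix.GeneralLinearGroup ι F} (hk : k ∈ TS σ f) (hh : Iso f h) :
    h * k * h⁻¹ ∈ TS σ f := by
  obtain ⟨x, c, hx, hc, act⟩ := hk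
  refine ⟨(h : Matrix ι ι F) *ᵥ x, c, by rw [hh, hx], hc, fun z => ?_⟩
  rw [Units.val_mul, Units.val_mul, ← mulVec_mulVec, ← mulVec_mulVec, act, mulVec_add,
    mul_inv_mulVec, mulVec_smul]
  congr 3
  rw [← hh, mul_inv_mulVec]

omit hf in
theorem T_conj {k h : Matrix.GeneralLinearGroup ι F} (hk : k ∈ Subgroup.closure (TS σ f))
    (hh : Iso f h) : h * k * h⁻¹ ∈ Subgroup.closure (TS σ f) := by
  induction hk using Subgroup.closure_induction with
  | mem x hx => exact Subgroup.subset_closure (TS_conj f hx hh)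
  | one => simp
  | mul x y _ _ hx hy =>
    have : h * (x * y) * h⁻¹ = (h * x * h⁻¹) * (h * y * h⁻¹) := by group
    rw [this]
    exact Subgroup.mul_mem _ hx hy
  | inv x _ hx =>
    have : h * x⁻¹ * h⁻¹ = (h * x * h⁻¹)⁻¹ := by group
    rw [this]
    exact Subgroup.inv_mem _ hx

theorem exists_qr (b : ι → F) (hb : f b b ≠ 0) (l : F) (hl : l * σ l = 1) :
    ∃ k : Matrix.GeneralLinearGroup ι F, ActR f k b l ∧ Iso f k ∧ (k : Matrix ι ι F).det = l := by
  have hl0 : l ≠ 0 := by
    rintro rfl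
    rw [zero_mul] at hl
    exact zero_ne_one hl
  set μ := σ ((l - 1) / f b b) with hμ
  have hdot : ∀ z, ph f (μ • b) ⬝ᵥ z = (l - 1) * f z b / f b b := by
    intro z
    rw [ph_dot f hf, smul_right f hf, hμ, hf.involutive]
    ring
  have hdet : (tvM (ph f (μ • b)) b).det = l := by
    unfold tvM
    rw [Matrix.vecMulVec_eq Unit, det_one_add_replicateCol_mul_replicateRow, hdot]
    field_simp
    ring
  have hu : IsUnit (tvM (ph f (μ • b)) b).det := by
    rw [hdet]
    exact isUnit_iff_ne_zero.mpr hl0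
  have act : ActR f (Matrix.nonsingInvUnit _ hu) b l := by
    intro z
    show tvM (ph f (μ • b)) b *ᵥ z = _
    rw [tvM_mulVec, hdot]
  refine ⟨Matrix.nonsingInvUnit _ hu, act, ?_, hdet⟩
  intro z z'
  rw [act, act, hf.add_left, add_right f hf, add_right f hf, hf.smul_left, hf.smul_left,
    smul_right f hf, smul_right f hf, map_div₀, map_mul, map_sub, map_one, self_fixed f hf,
    ← hf.herm b z']
  field_simp
  linear_combination (f z b * f b z') * hl

omit hf in
/-- the fixed space -/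
def Fx (g : Matrix.GeneralLinearGroup ι F) : Submodule F (ι → F) where
  carrier := {z | (g : Matrix ι ι F) *ᵥ z = z}
  add_mem' := by
    intro a b ha hb
    show (g : Matrix ι ι F) *ᵥ (a + b) = a + b
    rw [mulVec_add, ha, hb]
  zero_mem' := mulVec_zero _
  smul_mem' := by
    intro c a ha
    show (g : Matrix ι ι F) *ᵥ (c • a) = c • a
    rw [mulVec_smul, ha]

theorem exists_moved_vec (g : Matrix.GeneralLinearGroup ι F) (hg1 : g ≠ 1) :
    ∃ v, f v ((g : Matrix ι ι F) *ᵥ v - v) ≠ 0 := by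
  by_contra hcon
  push Not at hcon
  apply hg1
  obtain ⟨α, hα⟩ := exists_moved σ hf.ne_refl
  have sub_r : ∀ v x y, f v (x - y) = f v x - f v y := by
    intro v x y
    rw [sub_eq_add_neg, add_right f hf, neg_right f hf, sub_eq_add_neg]
  have h1 : ∀ v w, f v ((g : Matrix ι ι F) *ᵥ w - w) + f w ((g : Matrix ι ι F) *ᵥ v - v) = 0 := by
    intro v w
    have h := hcon (v + w)
    have hv := hcon v
    have hw := hcon w
    rw [sub_r] at h hv hw ⊢
    rw [sub_r]
    rw [mulVec_add, hf.add_left, add_right f hf, add_right f hf, hf.add_left, add_right f hf,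
      add_right f hf] at h
    linear_combination h - hv - hw
  have h2 : ∀ v w, f v ((g : Matrix ι ι F) *ᵥ w - w) = 0 := by
    intro v w
    have e1 := h1 v w
    have e2 := h1 v (α • w)
    rw [mulVec_smul, ← smul_sub, smul_right f hf, hf.smul_left] at e2
    have e3 : (σ α - α) * f v ((g : Matrix ι ι F) *ᵥ w - w) = 0 := by
      linear_combination e2 - α * e1
    exact (mul_eq_zero.mp e3).resolve_left (sub_ne_zero.mpr hα)
  apply gl_ext
  intro w
  rw [Units.val_one, one_mulVec, ← sub_eq_zero]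
  apply ext_right f hf
  intro z
  rw [h2, zero_right f hf]

/-- one transvection moves `u` to `u + δ` -/
theorem one_step (u δ : ι → F) (hδ : f δ δ = 0) (hne : f u δ ≠ 0)
    (hnorm : f (u + δ) (u + δ) = f u u) :
    ∃ k ∈ TS σ f, (k : Matrix ι ι F) *ᵥ u = u + δ ∧ ∀ z, f z δ = 0 → (k : Matrix ι ι F) *ᵥ z = z := by
  have htr : f δ u = - f u δ := by
    rw [hf.add_left, add_right f hf, add_right f hf, hδ] at hnorm
    linear_combination hnorm
  have hc : σ (f u δ)⁻¹ = -(f u δ)⁻¹ := by
    rw [map_inv₀, ← hf.herm δ u, htr, inv_neg]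
  obtain ⟨k, _, act, _⟩ := exists_ut f hf δ hδ _ hc
  refine ⟨k, ⟨δ, _, hδ, hc, act⟩, ?_, ?_⟩
  · rw [act, inv_mul_cancel₀ hne, one_smul]
  · intro z hz
    rw [act, hz, mul_zero, zero_smul, add_zero]

theorem exists_two [Finite F] (a b : ι → F) (hab : a ∉ Submodule.span F {b})
    (hba : b ∉ Submodule.span F {a}) (s₁ s₂ : F) : ∃ w, f w a = s₁ ∧ f w b = s₂ := by
  obtain ⟨ya, h1, h2⟩ := exists_orth_ne f hf _ a hab
  obtain ⟨yb, h3, h4⟩ := exists_orth_ne f hf _ b hba
  have h1' := h1 b (Submodule.mem_span_singleton_self b)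
  have h3' := h3 a (Submodule.mem_span_singleton_self a)
  refine ⟨s₁ • ya + s₂ • yb, ?_, ?_⟩
  · rw [hf.add_left, hf.smul_left, hf.smul_left, hf.herm ya a, h2, swap_zero f hf h3']
    simp
  · rw [hf.add_left, hf.smul_left, hf.smul_left, hf.herm yb b, h4, swap_zero f hf h1']
    simp

/-- transitivity of the transvection group on independent vectors of the same norm -/
theorem trans_norm [Finite F] (hn : 7 ≤ Fintype.card ι) (a b : ι → F) (hnorm : f a a = f b b)
    (hab : a ∉ Submodule.span F {b}) (hba : b ∉ Submodule.span F {a}) :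
    ∃ s ∈ Subgroup.closure (TS σ f), (s : Matrix ι ι F) *ᵥ a = b := by
  obtain ⟨c₀, hc₀, hc⟩ := exists_skew σ hf.involutive hf.ne_refl
  obtain ⟨w₀, hw₀a, hw₀b⟩ := exists_two f hf a b hab hba c₀ (f a a - f a b + c₀)
  obtain ⟨z, hz, hzz⟩ := exists_val f hf ![a, b, w₀] (by omega) (- f w₀ w₀) (by
    rw [map_neg, self_fixed f hf])
  have e0 : f a z = 0 := by simpa using hz 0
  have e1 : f b z = 0 := by simpa using hz 1
  have e2 : f w₀ z = 0 := by simpa using hz 2
  obtain ⟨w, hw⟩ : ∃ w, w = w₀ + z := ⟨_, rfl⟩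
  have hww : f w w = 0 := by
    rw [hw, hf.add_left, add_right f hf, add_right f hf, e2, swap_zero f hf e2, hzz]
    ring
  have hwa : f w a = c₀ := by rw [hw, hf.add_left, hw₀a, swap_zero f hf e0, add_zero]
  have hwb : f w b = f a a - f a b + c₀ := by
    rw [hw, hf.add_left, hw₀b, swap_zero f hf e1, add_zero]
  have haw : f a w = -c₀ := by rw [hf.herm, hwa, hc]
  have hbw : f b w = f a a - f b a - c₀ := by
    rw [hf.herm, hwb, map_add, map_sub, self_fixed f hf, ← hf.herm b a, hc]
    ring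
  obtain ⟨k₁, hk₁, act₁, _⟩ := one_step f hf a w hww (by rw [haw]; exact neg_ne_zero.mpr hc₀) (by
    rw [hf.add_left, add_right f hf, add_right f hf, hww, haw, hwa]
    ring)
  have sub_r : ∀ v x y, f v (x - y) = f v x - f v y := by
    intro v x y
    rw [sub_eq_add_neg, add_right f hf, neg_right f hf, sub_eq_add_neg]
  have sub_l : ∀ v x y, f (x - y) v = f x v - f y v := by
    intro v x y
    rw [sub_eq_add_neg, hf.add_left, neg_left f hf, sub_eq_add_neg]
  obtain ⟨k₂, hk₂, act₂, _⟩ := one_step f hf (a + w) (b - (a + w)) (by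
      rw [sub_l, sub_r, sub_r, hf.add_left, hf.add_left, add_right f hf, add_right f hf,
        add_right f hf, hww, haw, hwa, hwb, hbw, ← hnorm]
      ring) (by
      rw [sub_r, hf.add_left, hf.add_left, add_right f hf, add_right f hf, hww, haw, hwa, hwb]
      intro h
      apply hc₀
      linear_combination h) (by
      rw [add_sub_cancel, ← hnorm, hf.add_left, add_right f hf, add_right f hf, hww, haw, hwa]
      ring)
  refine ⟨k₂ * k₁, Subgroup.mul_mem _ (Subgroup.subset_closure hk₂) (Subgroup.subset_closure hk₁), ?_⟩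
  rw [Units.val_mul, ← mulVec_mulVec, act₁, act₂, add_sub_cancel]

/-- every quasi-reflection is conjugate, under the transvection group, to one with centre `a` -/
theorem qr_conj [Finite F] (hn : 7 ≤ Fintype.card ι) (a : ι → F) (ha : f a a ≠ 0) (b : ι → F)
    (hb : f b b ≠ 0) (l : F) (k ka : Matrix.GeneralLinearGroup ι F)
    (hk : ActR f k b l) (hka : ActR f ka a l) :
    ∃ s ∈ Subgroup.closure (TS σ f), k = s * ka * s⁻¹ := by
  have ha0 : a ≠ 0 := by
    rintro rfl
    exact ha (zero_left f hf 0)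
  by_cases hdep : b ∈ Submodule.span F {a}
  · obtain ⟨κ, rfl⟩ := Submodule.mem_span_singleton.mp hdep
    have hκ : κ ≠ 0 := by
      rintro rfl
      apply hb
      rw [zero_smul, zero_left f hf]
    refine ⟨1, Subgroup.one_mem _, ?_⟩
    rw [one_mul, inv_one, mul_one]
    apply gl_ext
    intro z
    rw [hk, hka, smul_right f hf, hf.smul_left, smul_right f hf, smul_smul]
    congr 2
    have : σ κ ≠ 0 := (map_ne_zero σ).mpr hκ
    field_simp
  · obtain ⟨κ, hκ⟩ := exists_norm σ hf.involutive hf.ne_refl (f a a / f b b) (by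
      rw [map_div₀, self_fixed f hf, self_fixed f hf])
    have hκ0 : κ ≠ 0 := by
      rintro rfl
      rw [zero_mul] at hκ
      exact (div_ne_zero ha hb) hκ.symm
    have hσκ : σ κ ≠ 0 := (map_ne_zero σ).mpr hκ0
    have hnorm : f a a = f (κ • b) (κ • b) := by
      rw [hf.smul_left, smul_right f hf, ← mul_assoc, hκ]
      field_simp
    have hab : a ∉ Submodule.span F {κ • b} := by
      intro h
      obtain ⟨β, hβ⟩ := Submodule.mem_span_singleton.mp h
      apply hdep
      have hβ0 : β ≠ 0 := by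
        rintro rfl
        rw [zero_smul] at hβ
        exact ha0 hβ.symm
      rw [Submodule.mem_span_singleton]
      refine ⟨(β * κ)⁻¹, ?_⟩
      rw [← hβ, smul_smul, smul_smul, mul_assoc, inv_mul_cancel₀ (mul_ne_zero hβ0 hκ0), one_smul]
    have hba : κ • b ∉ Submodule.span F {a} := by
      intro h
      apply hdep
      have := Submodule.smul_mem _ κ⁻¹ h
      rwa [smul_smul, inv_mul_cancel₀ hκ0, one_smul] at this
    obtain ⟨s, hs, hsa⟩ := trans_norm f hf hn a (κ • b) hnorm hab hba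
    refine ⟨s, hs, ?_⟩
    have hsI := (T_spec f hf hs).1
    apply gl_ext
    intro z
    have e : f (((s⁻¹ : Matrix.GeneralLinearGroup ι F) : Matrix ι ι F) *ᵥ z) a = σ κ * f z b := by
      rw [← hsI, mul_inv_mulVec, hsa, smul_right f hf]
    rw [Units.val_mul, Units.val_mul, ← mulVec_mulVec, ← mulVec_mulVec, hka, mulVec_add,
      mul_inv_mulVec, mulVec_smul, hsa, hk, e, smul_smul]
    congr 2
    have h3 : f a a = κ * σ κ * f b b := by
      rw [hκ]
      field_simp
    rw [h3]
    field_simp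

theorem decomp [Finite F] (hn : 7 ≤ Fintype.card ι) (a : ι → F) (ha : f a a ≠ 0) :
    ∀ (m : ℕ) (g : Matrix.GeneralLinearGroup ι F), Iso f g →
      Fintype.card ι - Module.finrank F (Fx g) = m →
      ∃ t ∈ Subgroup.closure (TS σ f), ∃ (k : Matrix.GeneralLinearGroup ι F) (l : F),
        l * σ l = 1 ∧ ActR f k a l ∧ g = t * k := by
  intro m
  induction m using Nat.strong_induction_on with
  | _ m ih =>
    intro g hg hm
    by_cases hg1 : g = 1
    · obtain ⟨k, hk, _, _⟩ := exists_qr f hf a ha 1 (by simp)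
      have hk1 : k = 1 := gl_ext (fun z => by rw [hk, Units.val_one, one_mulVec]; simp)
      exact ⟨1, Subgroup.one_mem _, k, 1, by simp, hk, by rw [hg1, hk1, one_mul]⟩
    obtain ⟨v, hv⟩ := exists_moved_vec f hf g hg1
    obtain ⟨b, hb⟩ : ∃ b, b = (g : Matrix ι ι F) *ᵥ v - v := ⟨_, rfl⟩
    rw [← hb] at hv
    have hgv : (g : Matrix ι ι F) *ᵥ v = v + b := by rw [hb]; abel
    have htr : f v b + f b v + f b b = 0 := by
      have := hg v v
      rw [hgv, hf.add_left, add_right f hf, add_right f hf] at this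
      linear_combination this
    have hfix : ∀ u ∈ Fx g, f u b = 0 := by
      intro u hu
      have hu' : (g : Matrix ι ι F) *ᵥ u = u := hu
      have h1 := hg u v
      rw [hu', hgv, add_right f hf] at h1
      linear_combination h1
    obtain ⟨ρ, hρI, hρv, hρfix, hρ⟩ : ∃ ρ : Matrix.GeneralLinearGroup ι F, Iso f ρ ∧
        (ρ : Matrix ι ι F) *ᵥ v = v + b ∧ (∀ z, f z b = 0 → (ρ : Matrix ι ι F) *ᵥ z = z) ∧
        (ρ ∈ TS σ f ∨ ∃ l, l * σ l = 1 ∧ f b b ≠ 0 ∧ ActR f ρ b l) := by
      by_cases hbb : f b b = 0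
      · obtain ⟨k, hk, h1, h2⟩ := one_step f hf v b hbb hv (by rw [← hgv, hg])
        exact ⟨k, (TS_spec f hf hk).1, h1, h2, Or.inl hk⟩
      · have hθ' : f b v ≠ 0 := swap_ne f hf hv
        have hl : (- f b v / f v b) * σ (- f b v / f v b) = 1 := by
          rw [map_div₀, map_neg, ← hf.herm v b, ← hf.herm b v]
          field_simp
        obtain ⟨k, hk, hkI, _⟩ := exists_qr f hf b hbb _ hl
        refine ⟨k, hkI, ?_, ?_, Or.inr ⟨_, hl, hbb, hk⟩⟩
        · rw [hk]
          have : (- f b v / f v b - 1) * f v b / f b b = 1 := by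
            field_simp
            linear_combination -htr
          rw [this, one_smul]
        · intro z hz
          rw [hk, hz]
          simp
    have hg'I : Iso f (ρ⁻¹ * g) := (hρI.inv f).mul f hg
    have hlt : Fx g < Fx (ρ⁻¹ * g) := by
      rw [SetLike.lt_iff_le_and_exists]
      refine ⟨?_, v, ?_, ?_⟩
      · intro u hu
        show ((ρ⁻¹ * g : Matrix.GeneralLinearGroup ι F) : Matrix ι ι F) *ᵥ u = u
        have hu' : (g : Matrix ι ι F) *ᵥ u = u := hu
        rw [Units.val_mul, ← mulVec_mulVec, hu']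
        conv_lhs => rw [← hρfix u (hfix u hu)]
        rw [inv_mulVec]
      · show ((ρ⁻¹ * g : Matrix.GeneralLinearGroup ι F) : Matrix ι ι F) *ᵥ v = v
        rw [Units.val_mul, ← mulVec_mulVec, hgv, ← hρv, inv_mulVec]
      · intro hvF
        have h1 : (g : Matrix ι ι F) *ᵥ v = v := hvF
        apply hv
        rw [hb, h1, sub_self, zero_right f hf]
    have hfr := Submodule.finrank_lt_finrank_of_lt hlt
    have hle := Submodule.finrank_le (Fx (ρ⁻¹ * g))
    rw [Module.finrank_fintype_fun_eq_card] at hle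
    obtain ⟨t', ht', k', l', hl', hk', e'⟩ :=
      ih (Fintype.card ι - Module.finrank F (Fx (ρ⁻¹ * g))) (by omega) (ρ⁻¹ * g) hg'I rfl
    have hg_eq : g = ρ * (t' * k') := by
      rw [← e']
      group
    rcases hρ with hρT | ⟨l, hl, hbb, hρR⟩
    · exact ⟨ρ * t', Subgroup.mul_mem _ (Subgroup.subset_closure hρT) ht', k', l', hl', hk', by
        rw [hg_eq]; group⟩
    · obtain ⟨ka, hka, hkaI, _⟩ := exists_qr f hf a ha l hl
      obtain ⟨s, hs, hρs⟩ := qr_conj f hf hn a ha b hbb l ρ ka hρR hka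
      refine ⟨s * (ka * (s⁻¹ * t') * ka⁻¹), Subgroup.mul_mem _ hs
        (T_conj f (Subgroup.mul_mem _ (Subgroup.inv_mem _ hs) ht') hkaI), ka * k', l * l',
        ?_, ?_, ?_⟩
      · rw [map_mul]
        linear_combination (l' * σ l') * hl + hl'
      · intro z
        rw [Units.val_mul, ← mulVec_mulVec, hk', hka, hf.add_left, hf.smul_left, add_assoc,
          ← add_smul]
        congr 2
        field_simp
        ring
      · rw [hg_eq, hρs]
        group

/-- the special unitary group is generated by transvections -/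
theorem su_le [Finite F] (hn : 7 ≤ Fintype.card ι) (g : Matrix.GeneralLinearGroup ι F)
    (hg : Iso f g) (hdet : g ∈ Cfsg.Geo.specialLinear ι F) : g ∈ Subgroup.closure (TS σ f) := by
  obtain ⟨a, _, haa⟩ := exists_val f hf (![] : Fin 0 → ι → F) (by omega) 1 (map_one σ)
  have ha : f a a ≠ 0 := by
    rw [haa]
    exact one_ne_zero
  obtain ⟨t, ht, k, l, hl, hk, e⟩ := decomp f hf hn a ha _ g hg rfl
  obtain ⟨k', hk', _, hdet'⟩ := exists_qr f hf a ha l hl
  have hkk : k = k' := gl_ext (fun z => by rw [hk, hk'])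
  have h1 : (g : Matrix ι ι F).det = 1 := congrArg Units.val (MonoidHom.mem_ker.mp hdet)
  have h2 : (t : Matrix ι ι F).det = 1 :=
    congrArg Units.val (MonoidHom.mem_ker.mp (T_spec f hf ht).2)
  have hl1 : l = 1 := by
    rw [e, Units.val_mul, det_mul, h2, one_mul, hkk, hdet'] at h1
    exact h1
  have hk1 : k = 1 := gl_ext (fun z => by rw [hk, hl1, Units.val_one, one_mulVec]; simp)
  rw [e, hk1, mul_one]
  exact ht

end Cfsg.Agent.Lib.Helper5.SUGen
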