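import Mathlib
import Cfsg.Prelude.Def_GeometricClasses
import Cfsg.Prelude.Def_LieClassical
import Cfsg.Agent.Lib.Helper5.SUGen
import Cfsg.Agent.Lib.Helper4.UniCount

set_option autoImplicit false
set_option linter.unusedSectionVars false

namespace Cfsg.Agent.Lib.Helper5.SUBridge

open Matrix Cfsg.Agent.Lib.Helper5.SUGen

variable {F : Type*} [Field F] [Fintype F]

theorem exists_sigma (n q : ℕ) (hF : Fintype.card F = q ^ 2) :
    ∃ σ : F ≃+* F, (∀ x, σ x = x ^ q) ∧ Cfsg.Geo.IsUnitaryForm σ (Cfsg.hermForm n F q) := by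
  obtain ⟨σ₀, hσ₀⟩ := Cfsg.Agent.Lib.Helper4.UniCount.exists_sig hF
  have hinv : ∀ x, σ₀ (σ₀ x) = x := by
    intro x
    rw [hσ₀, hσ₀, Cfsg.Agent.Lib.Helper4.UniCount.pow_q_q hF]
  let σ : F ≃+* F :=
    { toFun := σ₀
      invFun := σ₀
      left_inv := hinv
      right_inv := hinv
      map_mul' := map_mul σ₀
      map_add' := map_add σ₀ }
  have hσ : ∀ x, σ x = x ^ q := hσ₀
  have hq := Cfsg.Agent.Lib.Helper4.UniCount.two_le_q hF
  refine ⟨σ, hσ, ?_, hinv, ?_, ?_, ?_, ?_⟩
  · intro h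
    obtain ⟨x, hx⟩ := Cfsg.Agent.Lib.Helper4.UniCount.sig_ne_id hF
    apply hx
    rw [← hσ, h]
    rfl
  · intro x y v
    unfold Cfsg.hermForm
    simp only [Pi.add_apply, add_mul, Finset.sum_add_distrib]
  · intro c x v
    unfold Cfsg.hermForm
    simp only [Pi.smul_apply, smul_eq_mul, Finset.mul_sum, mul_assoc]
  · intro v w
    unfold Cfsg.hermForm
    rw [map_sum]
    apply Finset.sum_congr rfl
    intro i _
    rw [map_mul, hσ, hσ, Cfsg.Agent.Lib.Helper4.UniCount.pow_q_q hF, mul_comm]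
  · intro v hv
    obtain ⟨i, hi⟩ : ∃ i, v i ≠ 0 := by
      by_contra hcon
      push Not at hcon
      exact hv (funext hcon)
    constructor
    · refine ⟨Pi.single i 1, ?_⟩
      unfold Cfsg.hermForm
      rw [Finset.sum_eq_single i]
      · rw [Pi.single_eq_same, one_mul]
        exact pow_ne_zero _ hi
      · intro j _ hj
        simp [Pi.single_eq_of_ne hj]
      · intro h
        exact absurd (Finset.mem_univ i) h
    · refine ⟨Pi.single i 1, ?_⟩
      unfold Cfsg.hermForm
      rw [Finset.sum_eq_single i]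
      · simpa using hi
      · intro j _ hj
        rw [Pi.single_eq_of_ne hj, zero_pow (by omega), mul_zero]
      · intro h
        exact absurd (Finset.mem_univ i) h

theorem mem_GU (n q : ℕ) (g : Matrix.GeneralLinearGroup (Fin n) F) :
    g ∈ Cfsg.GU n F q ↔ Iso (Cfsg.hermForm n F q) g := Iff.rfl

end Cfsg.Agent.Lib.Helper5.SUBridge
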