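import Mathlib
import Cfsg.Prelude.Def_GeometricClasses
import Cfsg.Agent.Lib.Helper5.SUGen

set_option autoImplicit false
set_option linter.unusedSectionVars false

namespace Cfsg.Agent.Lib.Helper5.SUFour

open Matrix Cfsg.Agent.Lib.Helper5.SLMax Cfsg.Agent.Lib.Helper5.SLUni
  Cfsg.Agent.Lib.Helper5.SUGen

variable {F : Type*} [Field F] {ι : Type} [Fintype ι] [DecidableEq ι]
variable {σ : F ≃+* F} (f : (ι → F) → (ι → F) → F) (hf : Cfsg.Geo.IsUnitaryForm σ f)
variable (h2 : (2 : F) = 0) (hN : ∀ α : F, α ≠ 0 → α * σ α = 1)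
variable (hfix : ∀ x : F, σ x = x → x = 0 ∨ x = 1)

include hf hfix

theorem norm_one {v : ι → F} (h : f v v ≠ 0) : f v v = 1 :=
  (hfix _ (self_fixed f hf v)).resolve_left h

theorem exists_unit (W : Submodule F (ι → F)) (hW0 : W ≠ ⊥)
    (hnd : Cfsg.Geo.IsNondegenerateOn f W) : ∃ e ∈ W, f e e = 1 := by
  by_contra hcon
  push Not at hcon
  have hz : ∀ e ∈ W, f e e = 0 := by
    intro e he
    by_contra h
    exact hcon e he (norm_one f hf hfix h)
  obtain ⟨w, hw, hw0⟩ := Submodule.exists_mem_ne_zero_of_ne_bot hW0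
  obtain ⟨x, hx, hxw⟩ := (hnd w hw hw0).1
  obtain ⟨α, hα⟩ := exists_trace σ hf.involutive hf.ne_refl 1 (map_one σ)
  have h1 := hz ((α / f x w) • x + w) (W.add_mem (W.smul_mem _ hx) hw)
  rw [hf.add_left, add_right f hf, add_right f hf, hf.smul_left, hf.smul_left, smul_right f hf,
    smul_right f hf, hz x hx, hz w hw, hf.herm w x, div_mul_cancel₀ _ hxw, ← map_mul,
    div_mul_cancel₀ _ hxw] at h1
  apply one_ne_zero (α := F)
  rw [← hα]
  linear_combination h1

theorem exists_frame (W : Submodule F (ι → F)) (hfin : Module.finrank F W = 2)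
    (hnd : Cfsg.Geo.IsNondegenerateOn f W) :
    ∃ e ∈ W, ∃ e' ∈ W, f e e = 1 ∧ f e' e' = 1 ∧ f e e' = 0 ∧
      ∀ v ∈ W, v = f v e • e + f v e' • e' := by
  have hW0 : W ≠ ⊥ := by
    rintro rfl
    rw [finrank_bot] at hfin
    omega
  obtain ⟨e, he, hee⟩ := exists_unit f hf hfix W hW0 hnd
  set Z := W ⊓ LinearMap.ker (fl f hf e) with hZ
  have hmemZ : ∀ z, z ∈ Z ↔ z ∈ W ∧ f z e = 0 := by
    intro z
    rw [hZ, Submodule.mem_inf, LinearMap.mem_ker]
    rfl
  have hlt : Z < W := by
    rw [SetLike.lt_iff_le_and_exists]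
    refine ⟨inf_le_left, e, he, fun h => ?_⟩
    have := ((hmemZ e).mp h).2
    rw [hee] at this
    exact one_ne_zero this
  have hZ1 : Module.finrank F Z ≤ 1 := by
    have := Submodule.finrank_lt_finrank_of_lt hlt
    omega
  obtain ⟨v₀, hv₀⟩ := finrank_le_one_iff.mp hZ1
  obtain ⟨u, hu, hue⟩ : ∃ u ∈ W, u ∉ Submodule.span F {e} := by
    by_contra hcon
    push Not at hcon
    have hle : W ≤ Submodule.span F {e} := hcon
    have h1 := Submodule.finrank_mono hle
    have h3 : Module.finrank F (Submodule.span F {e}) ≤ 1 := by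
      have := finrank_span_le_card (R := F) ({e} : Set (ι → F))
      simpa using this
    omega
  obtain ⟨r, hr⟩ : ∃ r, r = u - f u e • e := ⟨_, rfl⟩
  have hrW : r ∈ W := by rw [hr]; exact W.sub_mem hu (W.smul_mem _ he)
  have hre : f r e = 0 := by
    rw [hr, sub_eq_add_neg, hf.add_left, neg_left f hf, hf.smul_left, hee]
    ring
  have hr0 : r ≠ 0 := by
    intro h
    apply hue
    rw [hr, sub_eq_zero] at h
    rw [h]
    exact Submodule.smul_mem _ _ (Submodule.mem_span_singleton_self _)
  have hline : ∀ z ∈ W, f z e = 0 → ∃ c : F, z = c • r := by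
    intro z hz hze
    obtain ⟨c₁, hc₁⟩ := hv₀ ⟨r, (hmemZ r).mpr ⟨hrW, hre⟩⟩
    obtain ⟨c₂, hc₂⟩ := hv₀ ⟨z, (hmemZ z).mpr ⟨hz, hze⟩⟩
    have e1 : c₁ • (v₀ : ι → F) = r := congrArg Subtype.val hc₁
    have e2 : c₂ • (v₀ : ι → F) = z := congrArg Subtype.val hc₂
    have hc₁0 : c₁ ≠ 0 := by
      rintro rfl
      rw [zero_smul] at e1
      exact hr0 e1.symm
    refine ⟨c₂ / c₁, ?_⟩
    rw [← e1, ← e2, smul_smul, div_mul_cancel₀ _ hc₁0]
  have hdec : ∀ v ∈ W, ∃ c : F, v = f v e • e + c • r := by
    intro v hv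
    obtain ⟨c, hc⟩ := hline (v - f v e • e) (W.sub_mem hv (W.smul_mem _ he)) (by
      rw [sub_eq_add_neg, hf.add_left, neg_left f hf, hf.smul_left, hee]
      ring)
    exact ⟨c, by rw [← hc]; abel⟩
  have hrr : f r r ≠ 0 := by
    intro h
    obtain ⟨x, hx, hxr⟩ := (hnd r hrW hr0).1
    obtain ⟨c, hc⟩ := hdec x hx
    apply hxr
    rw [hc, hf.add_left, hf.smul_left, hf.smul_left, h, swap_zero f hf hre]
    ring
  have hrr1 := norm_one f hf hfix hrr
  refine ⟨e, he, r, hrW, hee, hrr1, swap_zero f hf hre, fun v hv => ?_⟩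
  obtain ⟨c, hc⟩ := hdec v hv
  have : f v r = c := by
    conv_lhs => rw [hc]
    rw [hf.add_left, hf.smul_left, hf.smul_left, hrr1, swap_zero f hf hre]
    ring
  rw [this]
  exact hc

/-- the distinguished set of vectors -/
def SS {t : ℕ} (f : (ι → F) → (ι → F) → F) (D : Fin t → Submodule F (ι → F)) (v : ι → F) : Prop :=
  (∃ i, v ∈ D i) ∧ f v v ≠ 0

omit hf hfix in
/-- the stabiliser of the distinguished set -/
def K₀ {t : ℕ} (f : (ι → F) → (ι → F) → F) (D : Fin t → Submodule F (ι → F)) :
    Subgroup (Matrix.GeneralLinearGroup ι F) where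
  carrier := {g | ∀ v, SS f D ((g : Matrix ι ι F) *ᵥ v) ↔ SS f D v}
  mul_mem' {a b} ha hb := by
    intro v
    rw [Units.val_mul, ← mulVec_mulVec, ha, hb]
  one_mem' := by
    intro v
    rw [Units.val_one, one_mulVec]
  inv_mem' {a} ha := by
    intro v
    rw [← ha, mul_inv_mulVec]

include h2 hN

theorem not_max {t : ℕ} (D : Fin t → Submodule F (ι → F)) (ht : 2 ≤ t)
    (hfin : ∀ i, Module.finrank F (D i) = 2)
    (hnd : ∀ i, Cfsg.Geo.IsNondegenerateOn f (D i))
    (horth : ∀ i j, i ≠ j → ∀ u ∈ D i, ∀ v ∈ D j, f u v = 0)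
    (G : Subgroup (Matrix.GeneralLinearGroup ι F)) (hG : ∀ g, g ∈ G ↔ Iso f g) :
    ∃ K : Subgroup (Matrix.GeneralLinearGroup ι F),
      Cfsg.Geo.decompositionStabilizer D ⊓ (G ⊓ Cfsg.Geo.specialLinear ι F) < K ∧
      K < G ⊓ Cfsg.Geo.specialLinear ι F := by
  have hneg : (-1 : F) = 1 := by linear_combination -h2
  have hc1 : σ (1 : F) = -1 := by rw [map_one, hneg]
  choose e he e' he' hee he'e' hee' hdec using fun i => exists_frame f hf hfix (D i) (hfin i) (hnd i)
  have he'e : ∀ i, f (e' i) (e i) = 0 := fun i => swap_zero f hf (hee' i)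
  obtain ⟨i0, i1, hi⟩ : ∃ i0 i1 : Fin t, i0 ≠ i1 :=
    ⟨⟨0, by omega⟩, ⟨1, by omega⟩, by simp [Fin.ext_iff]⟩
  -- vectors of the distinguished set
  have hC : ∀ i, ∀ v ∈ D i, f v v ≠ 0 → (f v (e' i) = 0 ∨ f v (e i) = 0) := by
    intro i v hv hvv
    by_contra hcon
    push Not at hcon
    apply hvv
    have h1 : f v v = f v (e i) * σ (f v (e i)) + f v (e' i) * σ (f v (e' i)) := by
      have h0 : f v v = f v (f v (e i) • e i + f v (e' i) • e' i) := by rw [← hdec i v hv]
      rw [h0, add_right f hf, smul_right f hf, smul_right f hf]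
      ring
    rw [h1, hN _ hcon.2, hN _ hcon.1]
    linear_combination h2
  have same : ∀ i j, ∀ u, u ∈ D i → u ∈ D j → f u u ≠ 0 → i = j := by
    intro i j u hui huj huu
    by_contra hij
    exact huu (horth i j hij u hui u huj)
  refine ⟨K₀ f D ⊓ (G ⊓ Cfsg.Geo.specialLinear ι F), ?_, ?_⟩
  · rw [SetLike.lt_iff_le_and_exists]
    constructor
    · rintro g ⟨⟨τ, hτ⟩, hgG, hgS⟩
      refine ⟨?_, hgG, hgS⟩
      have hgI := (hG g).mp hgG
      intro v
      unfold SS
      rw [hgI]
      apply and_congr_left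
      intro _
      constructor
      · rintro ⟨j, hj⟩
        refine ⟨τ.symm j, ?_⟩
        have h1 := hτ (τ.symm j)
        rw [Equiv.apply_symm_apply] at h1
        rw [← h1] at hj
        obtain ⟨v', hv', ev⟩ := hj
        have ev' : (g : Matrix ι ι F) *ᵥ v' = (g : Matrix ι ι F) *ᵥ v := ev
        have : v' = v := by rw [← inv_mulVec g v', ev', inv_mulVec]
        rwa [this] at hv'
      · rintro ⟨i, hvi⟩
        refine ⟨τ i, ?_⟩
        rw [← hτ i]
        exact ⟨v, hvi, rfl⟩
    · have hxx : f (e i0 + e i1) (e i0 + e i1) = 0 := by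
        rw [hf.add_left, add_right f hf, add_right f hf, hee, hee,
          horth i0 i1 hi _ (he i0) _ (he i1), horth i1 i0 hi.symm _ (he i1) _ (he i0)]
        linear_combination h2
      obtain ⟨T, hT, act, iso⟩ := exists_ut f hf _ hxx 1 hc1
      have invol : ∀ v, (T : Matrix ι ι F) *ᵥ ((T : Matrix ι ι F) *ᵥ v) = v := by
        intro v
        rw [act, act, hf.add_left, hf.smul_left, hxx]
        have : v + (1 * f v (e i0 + e i1)) • (e i0 + e i1) +
            (1 * (f v (e i0 + e i1) + 1 * f v (e i0 + e i1) * 0)) • (e i0 + e i1) =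
            v + (2 * f v (e i0 + e i1)) • (e i0 + e i1) := by module
        rw [this, h2, zero_mul, zero_smul, add_zero]
      have fwd : ∀ v, SS f D v → SS f D ((T : Matrix ι ι F) *ᵥ v) := by
        rintro v ⟨⟨i, hvi⟩, hvv⟩
        refine ⟨?_, by rw [iso]; exact hvv⟩
        by_cases c0 : i = i0
        · subst c0
          have hv1 : f v (e i1) = 0 := horth i i1 hi v hvi _ (he i1)
          rcases hC i v hvi hvv with h | h
          · refine ⟨i1, ?_⟩
            have hv := hdec i v hvi
            rw [h, zero_smul, add_zero] at hv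
            rw [act, add_right f hf, hv1, add_zero, one_mul]
            have : v + f v (e i) • (e i + e i1) = f v (e i) • e i1 := by
              conv_lhs => rw [hv]
              rw [hf.smul_left, hee, mul_one]
              have : f v (e i) • e i + f v (e i) • (e i + e i1) =
                  (2 * f v (e i)) • e i + f v (e i) • e i1 := by module
              rw [this, h2, zero_mul, zero_smul, zero_add]
            rw [this]
            exact (D i1).smul_mem _ (he i1)
          · refine ⟨i, ?_⟩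
            rw [act, add_right f hf, hv1, h, add_zero, mul_zero, zero_smul, add_zero]
            exact hvi
        by_cases c1 : i = i1
        · subst c1
          have hv1 : f v (e i0) = 0 := horth i i0 hi.symm v hvi _ (he i0)
          rcases hC i v hvi hvv with h | h
          · refine ⟨i0, ?_⟩
            have hv := hdec i v hvi
            rw [h, zero_smul, add_zero] at hv
            rw [act, add_right f hf, hv1, zero_add, one_mul]
            have : v + f v (e i) • (e i0 + e i) = f v (e i) • e i0 := by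
              conv_lhs => rw [hv]
              rw [hf.smul_left, hee, mul_one]
              have : f v (e i) • e i + f v (e i) • (e i0 + e i) =
                  (2 * f v (e i)) • e i + f v (e i) • e i0 := by module
              rw [this, h2, zero_mul, zero_smul, zero_add]
            rw [this]
            exact (D i0).smul_mem _ (he i0)
          · refine ⟨i, ?_⟩
            rw [act, add_right f hf, hv1, h, add_zero, mul_zero, zero_smul, add_zero]
            exact hvi
        · refine ⟨i, ?_⟩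
          rw [act, add_right f hf, horth i i0 c0 v hvi _ (he i0), horth i i1 c1 v hvi _ (he i1),
            add_zero, mul_zero, zero_smul, add_zero]
          exact hvi
      refine ⟨T, ⟨?_, (hG T).mpr iso, hT.2⟩, ?_⟩
      · intro v
        constructor
        · intro h
          have := fwd _ h
          rwa [invol] at this
        · exact fwd v
      · rintro ⟨⟨τ, hτ⟩, _⟩
        have m1 : (T : Matrix ι ι F) *ᵥ e i0 ∈ D (τ i0) := by
          rw [← hτ i0]
          exact ⟨_, he i0, rfl⟩
        have m2 : (T : Matrix ι ι F) *ᵥ e' i0 ∈ D (τ i0) := by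
          rw [← hτ i0]
          exact ⟨_, he' i0, rfl⟩
        have a1 : (T : Matrix ι ι F) *ᵥ e i0 = e i1 := by
          rw [act, add_right f hf, hee, horth i0 i1 hi _ (he i0) _ (he i1), add_zero, mul_one,
            one_smul]
          have : e i0 + (e i0 + e i1) = (2 : F) • e i0 + e i1 := by module
          rw [this, h2, zero_smul, zero_add]
        have a2 : (T : Matrix ι ι F) *ᵥ e' i0 = e' i0 := by
          rw [act, add_right f hf, he'e, horth i0 i1 hi _ (he' i0) _ (he i1), add_zero, mul_zero,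
            zero_smul, add_zero]
        rw [a1] at m1
        rw [a2] at m2
        have s1 := same i1 (τ i0) _ (he i1) m1 (by rw [hee]; exact one_ne_zero)
        have s2 := same i0 (τ i0) _ (he' i0) m2 (by rw [he'e']; exact one_ne_zero)
        exact hi (s2.trans s1.symm)
  · rw [SetLike.lt_iff_le_and_exists]
    refine ⟨inf_le_right, ?_⟩
    have o1 := horth i0 i1 hi
    have o2 := horth i1 i0 hi.symm
    have hxx : f (e i0 + e' i0 + e i1 + e' i1) (e i0 + e' i0 + e i1 + e' i1) = 0 := by
      simp only [hf.add_left, add_right f hf, hee, he'e', hee', he'e,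
        o1 _ (he i0) _ (he i1), o1 _ (he i0) _ (he' i1), o1 _ (he' i0) _ (he i1),
        o1 _ (he' i0) _ (he' i1), o2 _ (he i1) _ (he i0), o2 _ (he i1) _ (he' i0),
        o2 _ (he' i1) _ (he i0), o2 _ (he' i1) _ (he' i0)]
      linear_combination 2 * h2
    obtain ⟨T, hT, act, iso⟩ := exists_ut f hf _ hxx 1 hc1
    refine ⟨T, ⟨(hG T).mpr iso, hT.2⟩, fun hK => ?_⟩
    have h1 : SS f D ((T : Matrix ι ι F) *ᵥ e i0) :=
      (hK.1 (e i0)).mpr ⟨⟨i0, he i0⟩, by rw [hee]; exact one_ne_zero⟩
    have a1 : (T : Matrix ι ι F) *ᵥ e i0 = e' i0 + e i1 + e' i1 := by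
      rw [act]
      simp only [add_right f hf, hee, hee', o1 _ (he i0) _ (he i1), o1 _ (he i0) _ (he' i1)]
      have : e i0 + (1 * (1 + 0 + 0 + 0) : F) • (e i0 + e' i0 + e i1 + e' i1) =
          (2 : F) • e i0 + (e' i0 + e i1 + e' i1) := by module
      rw [this, h2, zero_smul, zero_add]
    rw [a1] at h1
    obtain ⟨⟨j, hj⟩, _⟩ := h1
    have j0 : j = i0 := by
      by_contra hne
      have h3 := horth j i0 hne _ hj _ (he' i0)
      simp only [hf.add_left, he'e', o2 _ (he i1) _ (he' i0), o2 _ (he' i1) _ (he' i0)] at h3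
      simp at h3
    have j1 : j = i1 := by
      by_contra hne
      have h3 := horth j i1 hne _ hj _ (he i1)
      simp only [hf.add_left, hee, he'e, o1 _ (he' i0) _ (he i1)] at h3
      simp at h3
    exact hi (j0.symm.trans j1)

end Cfsg.Agent.Lib.Helper5.SUFour
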