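import Mathlib
import Cfsg.Prelude.Def_GeometricClasses
import Cfsg.Agent.Lib.Helper5.SUGen
import Cfsg.Agent.Lib.Helper5.OrthRefl

set_option autoImplicit false
set_option linter.unusedSectionVars false

namespace Cfsg.Agent.Lib.Helper5.SUPair

open Matrix Cfsg.Agent.Lib.Helper5.SLMax Cfsg.Agent.Lib.Helper5.SLUni
  Cfsg.Agent.Lib.Helper5.SUGen

variable {F : Type*} [Field F] {ι : Type} [Fintype ι] [DecidableEq ι]
variable {σ : F ≃+* F} (f : (ι → F) → (ι → F) → F) (hf : Cfsg.Geo.IsUnitaryForm σ f)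

/-- a polarisation -/
structure Pol (E E' : Submodule F (ι → F)) : Prop where
  ts : ∀ u ∈ E, ∀ v ∈ E, f u v = 0
  ts' : ∀ u ∈ E', ∀ v ∈ E', f u v = 0
  dec : ∀ v, ∃ v₀ ∈ E, ∃ v₁ ∈ E', v = v₀ + v₁

variable {E E' : Submodule F (ι → F)}

theorem Pol.symm (h : Pol f E E') : Pol f E' E :=
  ⟨h.ts', h.ts, fun v => by
    obtain ⟨a, ha, b, hb, rfl⟩ := h.dec v
    exact ⟨b, hb, a, ha, add_comm _ _⟩⟩

/-- `k` acts as the Siegel element attached to the totally isotropic pair `a`, `b` -/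
def ActS (k : Matrix.GeneralLinearGroup ι F) (a b : ι → F) : Prop :=
  ∀ z, (k : Matrix ι ι F) *ᵥ z = z + f z b • a - f z a • b

/-- all transvections with centre `x` lie in `H` -/
def InX (σ : F ≃+* F) (f : (ι → F) → (ι → F) → F) (H : Subgroup (Matrix.GeneralLinearGroup ι F))
    (x : ι → F) : Prop :=
  ∀ (c : F) (k : Matrix.GeneralLinearGroup ι F), σ c = -c → ActT f k x c → k ∈ H

include hf

theorem Pol.dual [Finite F] (h : Pol f E E') (S : Submodule F (ι → F)) (hS : S ≤ E)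
    (u : ι → F) (hu : u ∈ E) (huS : u ∉ S) :
    ∃ b ∈ E', (∀ s ∈ S, f s b = 0) ∧ f u b = 1 := by
  obtain ⟨y, hy, hyu⟩ := exists_orth_ne f hf S u huS
  obtain ⟨y₀, hy₀, y₁, hy₁, rfl⟩ := h.dec y
  refine ⟨y₁, hy₁, ?_, ?_⟩
  · intro s hs
    have := hy s hs
    rwa [add_right f hf, h.ts s (hS hs) y₀ hy₀, zero_add] at this
  · rwa [add_right f hf, h.ts u hu y₀ hy₀, zero_add] at hyu

theorem Pol.disj (h : Pol f E E') (x : ι → F) (hx : x ∈ E) (hx' : x ∈ E') : x = 0 := by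
  apply ext_right f hf
  intro y
  obtain ⟨y₀, hy₀, y₁, hy₁, rfl⟩ := h.dec y
  rw [hf.add_left, h.ts y₀ hy₀ x hx, h.ts' y₁ hy₁ x hx', add_zero, zero_right f hf]

theorem exists_S (a b : ι → F) (ha : f a a = 0) (hb : f b b = 0) (hab : f a b = 0) :
    ∃ k : Matrix.GeneralLinearGroup ι F, ActS f k a b ∧ Iso f k ∧
      k ∈ Cfsg.Geo.specialLinear ι F := by
  have hba : f b a = 0 := swap_zero f hf hab
  have h1 : ph f b ⬝ᵥ a = 0 := by rw [ph_dot f hf]; exact hab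
  have h2 : ph f (-a) ⬝ᵥ b = 0 := by rw [ph_dot f hf, neg_right f hf, hba, neg_zero]
  have act : ActS f (tv (ph f b) a h1 * tv (ph f (-a)) b h2) a b := by
    intro z
    rw [Units.val_mul, ← mulVec_mulVec, tv_mulVec, tv_mulVec, ph_dot f hf, ph_dot f hf,
      hf.add_left, hf.smul_left, hb, neg_right f hf]
    module
  refine ⟨_, act, ?_, (Cfsg.Geo.specialLinear ι F).mul_mem (tv_mem _ _ _) (tv_mem _ _ _)⟩
  intro z z'
  rw [act, act]
  simp only [sub_eq_add_neg, hf.add_left, add_right f hf, neg_left f hf, neg_right f hf,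
    hf.smul_left, smul_right f hf, ha, hb, hab, hba]
  rw [← hf.herm b z', ← hf.herm a z']
  ring

omit hf in
theorem ActS.conj {k s : Matrix.GeneralLinearGroup ι F} {a b : ι → F} (hk : ActS f k a b)
    (hs : Iso f s) :
    ActS f (s * k * s⁻¹) ((s : Matrix ι ι F) *ᵥ a) ((s : Matrix ι ι F) *ᵥ b) := by
  intro z
  rw [Units.val_mul, Units.val_mul, ← mulVec_mulVec, ← mulVec_mulVec, hk, mulVec_sub, mulVec_add,
    mul_inv_mulVec, mulVec_smul, mulVec_smul]
  have e : ∀ w, f (((s⁻¹ : Matrix.GeneralLinearGroup ι F) : Matrix ι ι F) *ᵥ z) w =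
      f z ((s : Matrix ι ι F) *ᵥ w) := by
    intro w
    rw [← hs, mul_inv_mulVec]
  rw [e, e]

variable {H : Subgroup (Matrix.GeneralLinearGroup ι F)}

omit hf in
theorem InX_img {x : ι → F} (hx : InX σ f H x) {h : Matrix.GeneralLinearGroup ι F} (hh : h ∈ H)
    (hI : Iso f h) : InX σ f H ((h : Matrix ι ι F) *ᵥ x) := by
  intro c k hc hk
  have h1 : h⁻¹ * k * h ∈ H := by
    apply hx c _ hc
    intro z
    rw [Units.val_mul, Units.val_mul, ← mulVec_mulVec, ← mulVec_mulVec, hk, mulVec_add,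
      inv_mulVec, mulVec_smul, inv_mulVec, hI]
  have h2 : k = h * (h⁻¹ * k * h) * h⁻¹ := by group
  rw [h2]
  exact H.mul_mem (H.mul_mem hh h1) (H.inv_mem hh)

theorem InX_smul {x : ι → F} (hx : InX σ f H x) (l : F) : InX σ f H (l • x) := by
  intro c k hc hk
  apply hx (c * (l * σ l)) k
  · rw [map_mul, map_mul, hf.involutive, hc]
    ring
  · intro z
    rw [hk, smul_right f hf, smul_smul]
    congr 2
    ring

/-- moving a centre by a transvection of `H` -/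
theorem InX_move {x y : ι → F} (hx : InX σ f H x) (hy : InX σ f H y) (hyy : f y y = 0) (c : F)
    (hc : σ c = -c) : InX σ f H (x + (c * f x y) • y) := by
  obtain ⟨t, _, act, iso⟩ := exists_ut f hf y hyy c hc
  have := InX_img f hx (hy c t hc act) iso
  rwa [act] at this

theorem exists_skew_eq (c : F) (hc : σ c = -c) : ∃ w, σ w - w = c := by
  obtain ⟨θ, hθ⟩ := exists_trace σ hf.involutive hf.ne_refl 1 (map_one σ)
  refine ⟨-(c * θ), ?_⟩
  rw [map_neg, map_mul, hc]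
  linear_combination c * hθ

/-- the Heisenberg relation -/
theorem heis {a X Y : ι → F} (haa : f a a = 0) (haX : f a X = 0) (haY : f a Y = 0)
    {kX kY : Matrix.GeneralLinearGroup ι F} (hX : ActS f kX a X) (hY : ActS f kY a Y)
    (hkX : kX ∈ H) (hkY : kY ∈ H) (k : Matrix.GeneralLinearGroup ι F)
    (hk : ActT f k a (f Y X - f X Y)) : k ∈ H := by
  have hXa := swap_zero f hf haX
  have hYa := swap_zero f hf haY
  have e : kY * kX = kX * kY * k := by
    apply gl_ext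
    intro z
    rw [Units.val_mul, Units.val_mul, Units.val_mul, ← mulVec_mulVec, ← mulVec_mulVec,
      ← mulVec_mulVec, hX, hY, hk, hY, hX]
    simp only [sub_eq_add_neg, hf.add_left, neg_left f hf, hf.smul_left, haa, haX, haY, hXa, hYa]
    module
  have : k = (kX * kY)⁻¹ * (kY * kX) := by
    rw [e]
    group
  rw [this]
  exact H.mul_mem (H.inv_mem (H.mul_mem hkX hkY)) (H.mul_mem hkY hkX)

theorem exists_in (E : Submodule F (ι → F)) (z₁ z₂ z₃ w : ι → F)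
    (hE : 5 ≤ Module.finrank F E) :
    ∃ a ∈ E, f a z₁ = 0 ∧ f a z₂ = 0 ∧ f a z₃ = 0 ∧ a ∉ Submodule.span F {w} := by
  have h1 := OrthRefl.finrank_inf_ker E (fl f hf z₁)
  have h2 := OrthRefl.finrank_inf_ker (E ⊓ LinearMap.ker (fl f hf z₁)) (fl f hf z₂)
  have h3 := OrthRefl.finrank_inf_ker
    (E ⊓ LinearMap.ker (fl f hf z₁) ⊓ LinearMap.ker (fl f hf z₂)) (fl f hf z₃)
  by_contra hcon
  push Not at hcon
  have hle : E ⊓ LinearMap.ker (fl f hf z₁) ⊓ LinearMap.ker (fl f hf z₂) ⊓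
      LinearMap.ker (fl f hf z₃) ≤ Submodule.span F {w} := by
    rintro a ⟨⟨⟨ha, h1⟩, h2⟩, h3⟩
    exact hcon a ha h1 h2 h3
  have h4 := Submodule.finrank_mono hle
  have h5 : Module.finrank F (Submodule.span F {w}) ≤ 1 := by
    have := finrank_span_le_card (R := F) ({w} : Set (ι → F))
    simpa using this
  omega

omit hf in
theorem map_eq (g : Matrix.GeneralLinearGroup ι F) (X Y : Submodule F (ι → F))
    (h : ∀ x ∈ X, (g : Matrix ι ι F) *ᵥ x ∈ Y)
    (hfin : Module.finrank F X = Module.finrank F Y) :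
    X.map (Matrix.toLin' (g : Matrix ι ι F)) = Y := by
  apply Submodule.eq_of_le_of_finrank_eq
  · rintro _ ⟨x, hx, rfl⟩
    exact h x hx
  · rw [← hfin]
    have hinj : Function.Injective (Matrix.toLin' (g : Matrix ι ι F)) := by
      intro x y hxy
      have h1 : (g : Matrix ι ι F) *ᵥ x = (g : Matrix ι ι F) *ᵥ y := hxy
      rw [← inv_mulVec g x, h1, inv_mulVec]
    exact (Submodule.equivMapOfInjective _ hinj X).finrank_eq.symm

omit hf in
theorem mem_decomp_of (D : Fin 2 → Submodule F (ι → F))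
    (hfin : Module.finrank F (D 0) = Module.finrank F (D 1))
    (g : Matrix.GeneralLinearGroup ι F)
    (h : ((∀ x ∈ D 0, (g : Matrix ι ι F) *ᵥ x ∈ D 0) ∧ (∀ x ∈ D 1, (g : Matrix ι ι F) *ᵥ x ∈ D 1)) ∨
      ((∀ x ∈ D 0, (g : Matrix ι ι F) *ᵥ x ∈ D 1) ∧ (∀ x ∈ D 1, (g : Matrix ι ι F) *ᵥ x ∈ D 0))) :
    g ∈ Cfsg.Geo.decompositionStabilizer D := by
  rcases h with ⟨h0, h1⟩ | ⟨h0, h1⟩
  · refine ⟨1, fun i => ?_⟩
    fin_cases i
    · exact map_eq g _ _ h0 rfl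
    · exact map_eq g _ _ h1 rfl
  · refine ⟨Equiv.swap 0 1, fun i => ?_⟩
    fin_cases i
    · exact map_eq g _ _ h0 hfin
    · exact map_eq g _ _ h1 hfin.symm

omit hf in
theorem cases_of_mem (D : Fin 2 → Submodule F (ι → F))
    (g : Matrix.GeneralLinearGroup ι F) (h : g ∈ Cfsg.Geo.decompositionStabilizer D) :
    ((∀ x ∈ D 0, (g : Matrix ι ι F) *ᵥ x ∈ D 0) ∧ (∀ x ∈ D 1, (g : Matrix ι ι F) *ᵥ x ∈ D 1)) ∨
      ((∀ x ∈ D 0, (g : Matrix ι ι F) *ᵥ x ∈ D 1) ∧ (∀ x ∈ D 1, (g : Matrix ι ι F) *ᵥ x ∈ D 0)) := by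
  obtain ⟨τ, hτ⟩ := h
  have hm : ∀ i, ∀ x ∈ D i, (g : Matrix ι ι F) *ᵥ x ∈ D (τ i) := by
    intro i x hx
    rw [← hτ i]
    exact ⟨x, hx, rfl⟩
  have hcases : τ 0 = 0 ∨ τ 0 = 1 := by
    generalize τ 0 = j
    fin_cases j <;> simp
  have hcases1 : τ 1 = 0 ∨ τ 1 = 1 := by
    generalize τ 1 = j
    fin_cases j <;> simp
  have hne : τ 0 ≠ τ 1 := fun h => absurd (τ.injective h) (by decide)
  rcases hcases with h0 | h0 <;> rcases hcases1 with h1 | h1
  · exact absurd (h0.trans h1.symm) hne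
  · left
    exact ⟨fun x hx => h0 ▸ hm 0 x hx, fun x hx => h1 ▸ hm 1 x hx⟩
  · right
    exact ⟨fun x hx => h0 ▸ hm 0 x hx, fun x hx => h1 ▸ hm 1 x hx⟩
  · exact absurd (h0.trans h1.symm) hne

omit hf in
theorem all_in (W U X : Submodule F (ι → F)) (g : Matrix.GeneralLinearGroup ι F)
    (h : ∀ x ∈ X, (g : Matrix ι ι F) *ᵥ x ∈ W ∨ (g : Matrix ι ι F) *ᵥ x ∈ U)
    (x₀ : ι → F) (hx₀ : x₀ ∈ X) (hx₀W : (g : Matrix ι ι F) *ᵥ x₀ ∉ W) :
    ∀ x ∈ X, (g : Matrix ι ι F) *ᵥ x ∈ U := by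
  have hx₀U := (h x₀ hx₀).resolve_left hx₀W
  intro x hx
  rcases h x hx with h1 | h1
  · rcases h (x₀ + x) (X.add_mem hx₀ hx) with h2 | h2
    · exfalso
      apply hx₀W
      rw [mulVec_add] at h2
      have := W.sub_mem h2 h1
      rwa [add_sub_cancel_right] at this
    · rw [mulVec_add] at h2
      have := U.sub_mem h2 hx₀U
      rwa [add_sub_cancel_left] at this
  · exact h1

theorem Pol.push [Finite F] (h : Pol f E E') (y₀ y₁ a₁ : ι → F) (hy₀ : y₀ ∈ E) (hy₁ : y₁ ∈ E')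
    (ha₁ : a₁ ∈ E) (h1 : f a₁ y₁ = 0) (hn : y₀ ∉ Submodule.span F {a₁}) :
    ∃ b₁ ∈ E', f a₁ b₁ = 0 ∧ ∀ k : Matrix.GeneralLinearGroup ι F, ActS f k a₁ b₁ →
      (k : Matrix ι ι F) *ᵥ (y₀ + y₁) = y₀ + y₁ + a₁ := by
  obtain ⟨b, hb, hbS, hbu⟩ := h.dual f hf (Submodule.span F {a₁})
    (by rw [Submodule.span_singleton_le_iff_mem]; exact ha₁) y₀ hy₀ hn
  have hab := hbS a₁ (Submodule.mem_span_singleton_self a₁)
  refine ⟨b, hb, hab, fun k hk => ?_⟩
  rw [hk, hf.add_left, hf.add_left, hbu, h.ts' y₁ hy₁ b hb, h.ts y₀ hy₀ a₁ ha₁,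
    swap_zero f hf h1]
  module

theorem step_tv [Finite F] (h : Pol f E E') (hA : 5 ≤ Module.finrank F E)
    (hP : ∀ a ∈ E, ∀ b ∈ E', f a b = 0 → ∀ k, ActS f k a b → k ∈ H)
    (p r : ι → F) (s : Matrix.GeneralLinearGroup ι F) (hs : s ∈ H) (hsI : Iso f s)
    (hsA : ActS f s p r) (x : ι → F) (hx : x ∈ E') (hsx : (s : Matrix ι ι F) *ᵥ x ∉ E') :
    ∃ a ∈ E, a ≠ 0 ∧ InX σ f H a := by
  obtain ⟨X, hX⟩ : ∃ X, X = (s : Matrix ι ι F) *ᵥ x := ⟨_, rfl⟩
  obtain ⟨wA, hwA, wB, hwB, hw⟩ := h.dec X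
  have hwA0 : wA ≠ 0 := by
    rintro rfl
    apply hsx
    rw [← hX, hw, zero_add]
    exact hwB
  obtain ⟨a, ha, hap, har, hax, haw⟩ := exists_in f hf E p r x wA hA
  have ha0 : a ≠ 0 := by
    rintro rfl
    exact haw (Submodule.zero_mem _)
  have hwa : wA ∉ Submodule.span F {a} := by
    intro hc
    obtain ⟨c, hc⟩ := Submodule.mem_span_singleton.mp hc
    have hc0 : c ≠ 0 := by
      rintro rfl
      rw [zero_smul] at hc
      exact hwA0 hc.symm
    apply haw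
    rw [Submodule.mem_span_singleton]
    refine ⟨c⁻¹, ?_⟩
    rw [← hc, smul_smul, inv_mul_cancel₀ hc0, one_smul]
  obtain ⟨b, hb, hbS, hbu⟩ := h.dual f hf (Submodule.span F {a})
    (by rw [Submodule.span_singleton_le_iff_mem]; exact ha) wA hwA hwa
  have hab := hbS a (Submodule.mem_span_singleton_self a)
  have hfix : (s : Matrix ι ι F) *ᵥ a = a := by
    rw [hsA, har, hap]
    simp
  have haa := h.ts a ha a ha
  have hxx := h.ts' x hx x hx
  obtain ⟨k₀, hk₀, _, _⟩ := exists_S f hf a x haa hxx hax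
  have hk₀H := hP a ha x hx hax k₀ hk₀
  have hk₁ : ActS f (s * k₀ * s⁻¹) a X := by
    have := hk₀.conj f hsI
    rwa [hfix, ← hX] at this
  have hk₁H : s * k₀ * s⁻¹ ∈ H := H.mul_mem (H.mul_mem hs hk₀H) (H.inv_mem hs)
  have haX : f a X = 0 := by
    have := hsI a x
    rwa [hfix, ← hX, hax] at this
  have hXb : f X b = 1 := by
    rw [hw, hf.add_left, h.ts' wB hwB b hb, add_zero]
    exact hbu
  refine ⟨a, ha, ha0, ?_⟩
  intro c k hc hk
  obtain ⟨w', hw'⟩ := exists_skew_eq f hf c hc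
  have hbb := h.ts' b hb b hb
  have hY : f a (σ w' • b) = 0 := by rw [smul_right f hf, hab, mul_zero]
  obtain ⟨k₂, hk₂, _, _⟩ := exists_S f hf a (σ w' • b) haa (by
    rw [hf.smul_left, smul_right f hf, hbb]; ring) hY
  have hk₂H := hP a ha _ (E'.smul_mem _ hb) hY k₂ hk₂
  apply heis f hf haa haX hY hk₁ hk₂ hk₁H hk₂H k
  have e : f (σ w' • b) X - f X (σ w' • b) = c := by
    rw [hf.smul_left, smul_right f hf, hf.herm b X, hXb, map_one, hf.involutive, mul_one, mul_one]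
    exact hw'
  rw [e]
  exact hk

theorem step_all [Finite F] (h : Pol f E E')
    (hP : ∀ a ∈ E, ∀ b ∈ E', f a b = 0 → ∀ k, ActS f k a b → k ∈ H)
    (a : ι → F) (ha : a ∈ E) (ha0 : a ≠ 0) (haX : InX σ f H a) : ∀ z ∈ E, InX σ f H z := by
  intro z hz
  by_cases hza : z ∈ Submodule.span F {a}
  · obtain ⟨c, rfl⟩ := Submodule.mem_span_singleton.mp hza
    exact InX_smul f hf haX c
  have hn : a ∉ Submodule.span F {z - a} := by
    intro hc
    obtain ⟨c, hc⟩ := Submodule.mem_span_singleton.mp hc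
    have hc0 : c ≠ 0 := by
      rintro rfl
      rw [zero_smul] at hc
      exact ha0 hc.symm
    apply hza
    rw [Submodule.mem_span_singleton]
    refine ⟨1 + c⁻¹, ?_⟩
    have : c⁻¹ • a = z - a := by
      have h0 : c⁻¹ • (c • (z - a)) = c⁻¹ • a := by rw [hc]
      rw [← h0, smul_smul, inv_mul_cancel₀ hc0, one_smul]
    rw [add_smul, one_smul, this]
    abel
  obtain ⟨b, hb, hbS, hbu⟩ := h.dual f hf (Submodule.span F {z - a})
    (by rw [Submodule.span_singleton_le_iff_mem]; exact E.sub_mem hz ha) a ha hn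
  have hzb := hbS _ (Submodule.mem_span_singleton_self _)
  obtain ⟨k, hk, hkI, _⟩ := exists_S f hf (z - a) b
    (h.ts _ (E.sub_mem hz ha) _ (E.sub_mem hz ha)) (h.ts' b hb b hb) hzb
  have hkH := hP (z - a) (E.sub_mem hz ha) b hb hzb k hk
  have h1 := InX_img f haX hkH hkI
  rw [hk, hbu, h.ts a ha _ (E.sub_mem hz ha)] at h1
  have h2 : a + (1 : F) • (z - a) - (0 : F) • b = z := by module
  rwa [h2] at h1

theorem all_of [Finite F] (h : Pol f E E') (hA : ∀ z ∈ E, InX σ f H z)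
    (hB : ∀ z ∈ E', InX σ f H z) : ∀ v, f v v = 0 → InX σ f H v := by
  intro v hv
  obtain ⟨vA, hvA, vB, hvB, rfl⟩ := h.dec v
  have htr : f vB vA = - f vA vB := by
    rw [hf.add_left, add_right f hf, add_right f hf, h.ts vA hvA vA hvA, h.ts' vB hvB vB hvB] at hv
    linear_combination hv
  by_cases c0 : vA = 0
  · rw [c0, zero_add]; exact hB vB hvB
  by_cases c1 : f vA vB = 0
  · obtain ⟨c₀, hc₀, hc⟩ := exists_skew σ hf.involutive hf.ne_refl
    obtain ⟨b, hb, _, hbu⟩ := h.dual f hf ⊥ bot_le vA hvA (by simpa using c0)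
    have h1 := InX_move f hf (hA vA hvA) (hB b hb) (h.ts' b hb b hb) c₀ hc
    rw [hbu, mul_one] at h1
    have hmem : vB - c₀ • b ∈ E' := E'.sub_mem hvB (E'.smul_mem _ hb)
    have h2 := InX_move f hf h1 (hB _ hmem) (h.ts' _ hmem _ hmem) c₀⁻¹ (by
      rw [map_inv₀, hc, inv_neg])
    have e : f (vA + c₀ • b) (vB - c₀ • b) = c₀ := by
      rw [hf.add_left, h.ts' _ (E'.smul_mem _ hb) _ hmem, add_zero, sub_eq_add_neg,
        add_right f hf, neg_right f hf, smul_right f hf, c1, hbu, hc]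
      ring
    rw [e, inv_mul_cancel₀ hc₀, one_smul] at h2
    have h3 : vA + c₀ • b + (vB - c₀ • b) = vA + vB := by abel
    rwa [h3] at h2
  · have hc : σ (f vA vB)⁻¹ = -(f vA vB)⁻¹ := by
      rw [map_inv₀, ← hf.herm vB vA, htr, inv_neg]
    have := InX_move f hf (hA vA hvA) (hB vB hvB) (h.ts' vB hvB vB hvB) _ hc
    rwa [inv_mul_cancel₀ c1, one_smul] at this

theorem exists_weyl (e e' : ι → F) (he : f e e = 0) (he' : f e' e' = 0) (hee : f e e' = 1)
    (c : F) (hc0 : c ≠ 0) (hc : σ c = -c) :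
    ∃ w ∈ Subgroup.closure (TS σ f), (w : Matrix ι ι F) *ᵥ e = (-c⁻¹) • e' ∧
      (w : Matrix ι ι F) *ᵥ e' = c • e ∧
      ∀ z, f z e = 0 → f z e' = 0 → (w : Matrix ι ι F) *ᵥ z = z := by
  have hc' : σ (-c⁻¹) = -(-c⁻¹) := by rw [map_neg, map_inv₀, hc, inv_neg]
  have he'e : f e' e = 1 := by rw [hf.herm, hee, map_one]
  obtain ⟨t₁, _, a₁, _⟩ := exists_ut f hf e he c hc
  obtain ⟨t₂, _, a₂, _⟩ := exists_ut f hf e' he' (-c⁻¹) hc'
  have m₁ : t₁ ∈ Subgroup.closure (TS σ f) := Subgroup.subset_closure ⟨e, c, he, hc, a₁⟩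
  have m₂ : t₂ ∈ Subgroup.closure (TS σ f) := Subgroup.subset_closure ⟨e', _, he', hc', a₂⟩
  have s1 : (t₁ : Matrix ι ι F) *ᵥ e = e := by rw [a₁, he, mul_zero, zero_smul, add_zero]
  have s2 : (t₂ : Matrix ι ι F) *ᵥ e = e + (-c⁻¹) • e' := by rw [a₂, hee, mul_one]
  have s3 : (t₁ : Matrix ι ι F) *ᵥ e' = e' + c • e := by rw [a₁, he'e, mul_one]
  have s4 : (t₂ : Matrix ι ι F) *ᵥ e' = e' := by rw [a₂, he', mul_zero, zero_smul, add_zero]
  have hcc : c⁻¹ * c = 1 := inv_mul_cancel₀ hc0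
  refine ⟨t₁ * t₂ * t₁, Subgroup.mul_mem _ (Subgroup.mul_mem _ m₁ m₂) m₁, ?_, ?_, ?_⟩
  · rw [Units.val_mul, Units.val_mul, ← mulVec_mulVec, ← mulVec_mulVec, s1, s2, mulVec_add,
      mulVec_smul, s1, s3, smul_add, smul_smul, neg_mul, hcc]
    module
  · rw [Units.val_mul, Units.val_mul, ← mulVec_mulVec, ← mulVec_mulVec, s3, mulVec_add,
      mulVec_smul, s4, s2, smul_add, smul_smul, mul_neg, mul_comm c, hcc]
    have h2 : e' + (c • e + (-1 : F) • e') = c • e := by module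
    rw [h2, mulVec_smul, s1]
  · intro z h1 h2
    have u1 : (t₁ : Matrix ι ι F) *ᵥ z = z := by rw [a₁, h1, mul_zero, zero_smul, add_zero]
    have u2 : (t₂ : Matrix ι ι F) *ᵥ z = z := by rw [a₂, h2, mul_zero, zero_smul, add_zero]
    rw [Units.val_mul, Units.val_mul, ← mulVec_mulVec, ← mulVec_mulVec, u1, u2, u1]

theorem exists_swap [Finite F] (h : Pol f E E') {k : ℕ} (hA : Module.finrank F E = k) :
    ∃ w ∈ Subgroup.closure (TS σ f), (∀ x ∈ E, (w : Matrix ι ι F) *ᵥ x ∈ E') ∧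
      (∀ x ∈ E', (w : Matrix ι ι F) *ᵥ x ∈ E) := by
  classical
  obtain ⟨c, hc0, hc⟩ := exists_skew σ hf.involutive hf.ne_refl
  let bs := Module.finBasisOfFinrankEq F E hA
  let e : Fin k → (ι → F) := fun i => (bs i : ι → F)
  have heE : ∀ i, e i ∈ E := fun i => (bs i).2
  have hli : LinearIndependent F e :=
    bs.linearIndependent.map' E.subtype (Submodule.ker_subtype E)
  have hspan : Submodule.span F (Set.range e) = E := by
    have : Set.range e = E.subtype '' (Set.range bs) := by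
      rw [← Set.range_comp]; rfl
    rw [this, ← Submodule.map_span, bs.span_eq, Submodule.map_top, Submodule.range_subtype]
  have hd : ∀ j, ∃ b ∈ E', ∀ i, f (e i) b = if i = j then 1 else 0 := by
    intro j
    have hj := (linearIndependent_iff_notMem_span.mp hli) j
    obtain ⟨b, hb, hbS, hbu⟩ := h.dual f hf (Submodule.span F (e '' (Set.univ \ {j})))
      (by
        rw [Submodule.span_le]
        rintro _ ⟨i, _, rfl⟩
        exact heE i) (e j) (heE j) hj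
    refine ⟨b, hb, fun i => ?_⟩
    by_cases hij : i = j
    · rw [if_pos hij, hij, hbu]
    · rw [if_neg hij, hbS (e i) (Submodule.subset_span ⟨i, ⟨trivial, hij⟩, rfl⟩)]
  choose d hdB hd using hd
  have hde : ∀ i j, f (d j) (e i) = if i = j then 1 else 0 := by
    intro i j
    rw [hf.herm, hd]
    split_ifs <;> simp
  have key : ∀ j : ℕ, j ≤ k → ∃ W ∈ Subgroup.closure (TS σ f),
      (∀ i : Fin k, i.val < j → (W : Matrix ι ι F) *ᵥ e i = (-c⁻¹) • d i ∧
        (W : Matrix ι ι F) *ᵥ d i = c • e i) ∧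
      (∀ i : Fin k, j ≤ i.val → (W : Matrix ι ι F) *ᵥ e i = e i ∧
        (W : Matrix ι ι F) *ᵥ d i = d i) := by
    intro j
    induction j with
    | zero =>
      intro _
      refine ⟨1, Subgroup.one_mem _, fun i hi => absurd hi (Nat.not_lt_zero _), fun i _ => ?_⟩
      rw [Units.val_one, one_mulVec, one_mulVec]
      exact ⟨rfl, rfl⟩
    | succ j ih =>
      intro hj
      obtain ⟨W, hW, h1, h2⟩ := ih (by omega)
      obtain ⟨w, hw, w1, w2, w3⟩ := exists_weyl f hf (e ⟨j, hj⟩) (d ⟨j, hj⟩)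
        (h.ts _ (heE _) _ (heE _)) (h.ts' _ (hdB _) _ (hdB _)) (by rw [hd, if_pos rfl]) c hc0 hc
      have fixe : ∀ i : Fin k, i ≠ ⟨j, hj⟩ → (w : Matrix ι ι F) *ᵥ e i = e i := by
        intro i hi
        exact w3 _ (h.ts _ (heE _) _ (heE _)) (by rw [hd, if_neg hi])
      have fixd : ∀ i : Fin k, i ≠ ⟨j, hj⟩ → (w : Matrix ι ι F) *ᵥ d i = d i := by
        intro i hi
        exact w3 _ (by rw [hde, if_neg (Ne.symm hi)]) (h.ts' _ (hdB _) _ (hdB _))
      refine ⟨w * W, Subgroup.mul_mem _ hw hW, ?_, ?_⟩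
      · intro i hi
        rw [Units.val_mul, ← mulVec_mulVec, ← mulVec_mulVec]
        by_cases hij : i.val < j
        · have hne : i ≠ ⟨j, hj⟩ := by
            intro hc
            rw [hc] at hij
            exact lt_irrefl _ hij
          rw [(h1 i hij).1, (h1 i hij).2, mulVec_smul, mulVec_smul, fixe i hne, fixd i hne]
          exact ⟨rfl, rfl⟩
        · have he : i = ⟨j, hj⟩ := Fin.ext (by simp; omega)
          rw [(h2 i (by omega)).1, (h2 i (by omega)).2, he, w1, w2]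
          exact ⟨rfl, rfl⟩
      · intro i hi
        have hne : i ≠ ⟨j, hj⟩ := by
          intro hc
          rw [hc] at hi
          simp at hi
        rw [Units.val_mul, ← mulVec_mulVec, ← mulVec_mulVec, (h2 i (by omega)).1,
          (h2 i (by omega)).2, fixe i hne, fixd i hne]
        exact ⟨rfl, rfl⟩
  obtain ⟨W, hW, h1, _⟩ := key k le_rfl
  have hWI := (T_spec f hf hW).1
  refine ⟨W, hW, ?_, ?_⟩
  · intro x hx
    rw [← hspan] at hx
    induction hx using Submodule.span_induction with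
    | mem x hx =>
      obtain ⟨i, rfl⟩ := hx
      rw [(h1 i i.2).1]
      exact E'.smul_mem _ (hdB i)
    | zero => rw [mulVec_zero]; exact E'.zero_mem
    | add x y _ _ hx hy => rw [mulVec_add]; exact E'.add_mem hx hy
    | smul c x _ hx => rw [mulVec_smul]; exact E'.smul_mem c hx
  · intro x hx
    obtain ⟨z₀, hz₀, z₁, hz₁, hz⟩ := h.dec ((W : Matrix ι ι F) *ᵥ x)
    have hz1 : z₁ = 0 := by
      apply ext_right f hf
      intro y
      rw [zero_right f hf]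
      obtain ⟨y₀, hy₀, y₁, hy₁, rfl⟩ := h.dec y
      rw [hf.add_left, h.ts' y₁ hy₁ z₁ hz₁, add_zero]
      rw [← hspan] at hy₀
      induction hy₀ using Submodule.span_induction with
      | mem y hy =>
        obtain ⟨i, rfl⟩ := hy
        have e1 : f (c • e i) ((W : Matrix ι ι F) *ᵥ x) = 0 := by
          rw [← (h1 i i.2).2, hWI]
          exact h.ts' _ (hdB i) x hx
        rw [hf.smul_left, hz, add_right f hf, h.ts _ (heE i) z₀ hz₀, zero_add] at e1
        exact (mul_eq_zero.mp e1).resolve_left hc0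
      | zero => exact zero_left f hf _
      | add x y _ _ hx hy => rw [hf.add_left, hx, hy, add_zero]
      | smul c x _ hx => rw [hf.smul_left, hx, mul_zero]
    rw [hz, hz1, add_zero]
    exact hz₀

theorem no_collapse (h : Pol f E E') (Y : Submodule F (ι → F))
    (hfin : Module.finrank F E = Module.finrank F Y) (hE' : E' ≠ ⊥)
    (g : Matrix.GeneralLinearGroup ι F)
    (h0 : ∀ x ∈ E, (g : Matrix ι ι F) *ᵥ x ∈ Y)
    (h1 : ∀ x ∈ E', (g : Matrix ι ι F) *ᵥ x ∈ Y) : False := by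
  obtain ⟨x, hx, hx0⟩ := Submodule.exists_mem_ne_zero_of_ne_bot hE'
  have h2 := h1 x hx
  rw [← map_eq g E Y h0 hfin] at h2
  obtain ⟨y, hy, e⟩ := h2
  have e' : (g : Matrix ι ι F) *ᵥ y = (g : Matrix ι ι F) *ᵥ x := e
  have hxy : y = x := by rw [← inv_mulVec g y, e', inv_mulVec]
  rw [hxy] at hy
  exact hx0 (h.disj f hf x hy hx)

theorem close [Finite F] (h : Pol f E E') {k : ℕ} (hA : Module.finrank F E = k) (hk : 5 ≤ k)
    (hP : ∀ a ∈ E, ∀ b ∈ E', f a b = 0 → ∀ k, ActS f k a b → k ∈ H)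
    (hw : ∀ w : Matrix.GeneralLinearGroup ι F, Iso f w → w ∈ Cfsg.Geo.specialLinear ι F →
      (∀ x ∈ E, (w : Matrix ι ι F) *ᵥ x ∈ E') → (∀ x ∈ E', (w : Matrix ι ι F) *ᵥ x ∈ E) → w ∈ H)
    (p r : ι → F) (s : Matrix.GeneralLinearGroup ι F) (hs : s ∈ H) (hsI : Iso f s)
    (hsA : ActS f s p r) (x : ι → F) (hx : x ∈ E') (hsx : (s : Matrix ι ι F) *ᵥ x ∉ E') :
    ∀ v, f v v = 0 → InX σ f H v := by
  obtain ⟨a, ha, ha0, haX⟩ := step_tv f hf h (by omega) hP p r s hs hsI hsA x hx hsx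
  have hE := step_all f hf h hP a ha ha0 haX
  obtain ⟨w, hwT, hw1, hw2⟩ := exists_swap f hf h hA
  obtain ⟨hwI, hwS⟩ := T_spec f hf hwT
  have hwH := hw w hwI hwS hw1 hw2
  have hE' : ∀ z ∈ E', InX σ f H z := by
    intro z hz
    have h1 := InX_img f (hE _ (hw2 z hz)) (H.inv_mem hwH) (hwI.inv f)
    rwa [inv_mulVec] at h1
  exact all_of f hf h hE hE'

omit H in
theorem max_of [Finite F] (hn : 7 ≤ Fintype.card ι) (G A : Subgroup (Matrix.GeneralLinearGroup ι F))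
    (hG : ∀ g, g ∈ G ↔ Iso f g)
    (h1 : ∃ g, g ∈ G ⊓ Cfsg.Geo.specialLinear ι F ∧ g ∉ A)
    (h2 : ∀ H : Subgroup (Matrix.GeneralLinearGroup ι F),
      A ⊓ (G ⊓ Cfsg.Geo.specialLinear ι F) ≤ H → H ≤ G ⊓ Cfsg.Geo.specialLinear ι F →
      (∃ g ∈ H, g ∉ A) → ∀ x, f x x = 0 → InX σ f H x) :
    Cfsg.Geo.IsMaximalIn (G ⊓ Cfsg.Geo.specialLinear ι F)
      (A ⊓ (G ⊓ Cfsg.Geo.specialLinear ι F)) := by
  constructor
  · rw [SetLike.lt_iff_le_and_exists]
    refine ⟨inf_le_right, ?_⟩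
    obtain ⟨g, hg, hgA⟩ := h1
    exact ⟨g, hg, fun h => hgA h.1⟩
  · intro H hH1 hH2
    by_cases hc : H ≤ A
    · left
      exact le_antisymm (le_inf hc hH2) hH1
    right
    apply le_antisymm hH2
    obtain ⟨g, hgH, hgA⟩ := SetLike.not_le_iff_exists.mp hc
    have hX := h2 H hH1 hH2 ⟨g, hgH, hgA⟩
    intro k hk
    have := su_le f hf hn k ((hG k).mp hk.1) hk.2
    refine (Subgroup.closure_le H).mpr ?_ this
    rintro t ⟨x, c, hx, hc, act⟩
    exact hX x hx c t hc act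

omit H in
theorem pair_max [Finite F] (hn : 7 ≤ Fintype.card ι) (G : Subgroup (Matrix.GeneralLinearGroup ι F))
    (hG : ∀ g, g ∈ G ↔ Iso f g) {k : ℕ} (hk : 5 ≤ k) (D : Fin 2 → Submodule F (ι → F))
    (hfin : ∀ i, Module.finrank F (D i) = k) (h : Pol f (D 0) (D 1)) :
    Cfsg.Geo.IsMaximalIn (G ⊓ Cfsg.Geo.specialLinear ι F)
      (Cfsg.Geo.decompositionStabilizer D ⊓ (G ⊓ Cfsg.Geo.specialLinear ι F)) := by
  have hfin01 : Module.finrank F (D 0) = Module.finrank F (D 1) := by rw [hfin, hfin]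
  have hne : ∀ i, D i ≠ ⊥ := by
    intro i hi
    have := hfin i
    rw [hi, finrank_bot] at this
    omega
  apply max_of f hf hn G _ hG
  · obtain ⟨a, ha, ha0⟩ := Submodule.exists_mem_ne_zero_of_ne_bot (hne 0)
    obtain ⟨b, hb, _, hbu⟩ := h.dual f hf ⊥ bot_le a ha (by simpa using ha0)
    obtain ⟨c, hc0, hc⟩ := exists_skew σ hf.involutive hf.ne_refl
    obtain ⟨t, htM, act, iso⟩ := exists_ut f hf a (h.ts a ha a ha) c hc
    refine ⟨t, ⟨(hG t).mpr iso, htM.2⟩, fun hcon => ?_⟩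
    rcases cases_of_mem D _ hcon with ⟨_, h1⟩ | ⟨h0, _⟩
    · have h3 := h1 b hb
      rw [act, hf.herm b a, hbu, map_one, mul_one] at h3
      have h4 := (D 1).sub_mem h3 hb
      rw [add_sub_cancel_left] at h4
      have h5 := (D 1).smul_mem c⁻¹ h4
      rw [smul_smul, inv_mul_cancel₀ hc0, one_smul] at h5
      exact ha0 (h.disj f hf a ha h5)
    · have h3 := h0 a ha
      rw [act, h.ts a ha a ha, mul_zero, zero_smul, add_zero] at h3
      exact ha0 (h.disj f hf a ha h3)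
  · rintro H hPH hHG ⟨g, hgH, hgD⟩
    have hgI : Iso f g := (hG g).mp (hHG hgH).1
    have stab : ∀ (E E' : Submodule F (ι → F)), Pol f E E' → ∀ a ∈ E, ∀ b ∈ E', f a b = 0 →
        ∀ k, ActS f k a b → (∀ x ∈ E, (k : Matrix ι ι F) *ᵥ x ∈ E) ∧
          (∀ x ∈ E', (k : Matrix ι ι F) *ᵥ x ∈ E') := by
      intro E E' hp a ha b hb hab k hk
      constructor
      · intro x hx
        rw [hk, hp.ts x hx a ha, zero_smul, sub_zero]
        exact E.add_mem hx (E.smul_mem _ ha)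
      · intro x hx
        rw [hk, hp.ts' x hx b hb, zero_smul, add_zero]
        exact E'.sub_mem hx (E'.smul_mem _ hb)
    have inSU : ∀ (a b : ι → F), f a a = 0 → f b b = 0 → f a b = 0 → ∀ k, ActS f k a b →
        k ∈ G ⊓ Cfsg.Geo.specialLinear ι F := by
      intro a b haa hbb hab k hk
      obtain ⟨k', hk', hI, hS⟩ := exists_S f hf a b haa hbb hab
      have : k = k' := gl_ext (fun z => by rw [hk, hk'])
      rw [this]
      exact ⟨(hG k').mpr hI, hS⟩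
    have hP01 : ∀ a ∈ D 0, ∀ b ∈ D 1, f a b = 0 → ∀ k, ActS f k a b → k ∈ H :=
      fun a ha b hb hab k hk => hPH ⟨mem_decomp_of D hfin01 _
        (Or.inl (stab _ _ h a ha b hb hab k hk)),
        inSU a b (h.ts a ha a ha) (h.ts' b hb b hb) hab k hk⟩
    have hP10 : ∀ a ∈ D 1, ∀ b ∈ D 0, f a b = 0 → ∀ k, ActS f k a b → k ∈ H :=
      fun a ha b hb hab k hk => hPH ⟨mem_decomp_of D hfin01 _
        (Or.inl (stab _ _ (h.symm f) a ha b hb hab k hk).symm),
        inSU a b (h.ts' a ha a ha) (h.ts b hb b hb) hab k hk⟩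
    have hmix : ∃ y₀ ∈ D 0, ∃ y₁ ∈ D 1, y₀ ≠ 0 ∧ y₁ ≠ 0 ∧
        ((g : Matrix ι ι F) *ᵥ (y₀ + y₁) ∈ D 0 ∨ (g : Matrix ι ι F) *ᵥ (y₀ + y₁) ∈ D 1) := by
      by_contra hcon
      push Not at hcon
      apply hgD
      have hpure : ∀ x, (x ∈ D 0 ∨ x ∈ D 1) →
          ((g⁻¹ : Matrix.GeneralLinearGroup ι F) : Matrix ι ι F) *ᵥ x ∈ D 0 ∨
          ((g⁻¹ : Matrix.GeneralLinearGroup ι F) : Matrix ι ι F) *ᵥ x ∈ D 1 := by
        intro x hx
        obtain ⟨y₀, hy₀, y₁, hy₁, e⟩ :=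
          h.dec (((g⁻¹ : Matrix.GeneralLinearGroup ι F) : Matrix ι ι F) *ᵥ x)
        by_cases c0 : y₀ = 0
        · right; rw [e, c0, zero_add]; exact hy₁
        by_cases c1 : y₁ = 0
        · left; rw [e, c1, add_zero]; exact hy₀
        exfalso
        have := hcon y₀ hy₀ y₁ hy₁ c0 c1
        rw [← e, mul_inv_mulVec] at this
        tauto
      have hi : ∀ X, (X = D 0 ∨ X = D 1) →
          (∀ x ∈ X, ((g⁻¹ : Matrix.GeneralLinearGroup ι F) : Matrix ι ι F) *ᵥ x ∈ D 0) ∨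
          (∀ x ∈ X, ((g⁻¹ : Matrix.GeneralLinearGroup ι F) : Matrix ι ι F) *ᵥ x ∈ D 1) := by
        intro X hX
        by_cases c : ∀ x ∈ X, ((g⁻¹ : Matrix.GeneralLinearGroup ι F) : Matrix ι ι F) *ᵥ x ∈ D 0
        · left; exact c
        · right
          push Not at c
          obtain ⟨x₀, hx₀, hx₀'⟩ := c
          refine all_in (D 0) (D 1) X g⁻¹ (fun x hx => hpure x ?_) x₀ hx₀ hx₀'
          rcases hX with rfl | rfl
          · left; exact hx
          · right; exact hx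
      have hinv : g⁻¹ ∈ Cfsg.Geo.decompositionStabilizer D := by
        apply mem_decomp_of D hfin01
        rcases hi (D 0) (Or.inl rfl) with h0 | h0 <;> rcases hi (D 1) (Or.inr rfl) with h1 | h1
        · exact (no_collapse f hf h (D 0) rfl (hne 1) g⁻¹ h0 h1).elim
        · left; exact ⟨h0, h1⟩
        · right; exact ⟨h0, h1⟩
        · exact (no_collapse f hf h (D 1) hfin01 (hne 1) g⁻¹ h0 h1).elim
      exact (Subgroup.inv_mem_iff _).mp hinv
    obtain ⟨y₀, hy₀, y₁, hy₁, hy₀0, hy₁0, hx⟩ := hmix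
    obtain ⟨a₁, ha₁, h1, _, _, ha₁y⟩ := exists_in f hf (D 0) y₁ y₁ y₁ y₀ (by rw [hfin]; omega)
    obtain ⟨b₂, hb₂, hb₂S, hb₂a⟩ := h.dual f hf (Submodule.span F {y₀})
      (by rw [Submodule.span_singleton_le_iff_mem]; exact hy₀) a₁ ha₁ ha₁y
    have hy₀b := hb₂S y₀ (Submodule.mem_span_singleton_self y₀)
    have hn1 : y₀ ∉ Submodule.span F {a₁} := by
      intro hc
      obtain ⟨c, hc⟩ := Submodule.mem_span_singleton.mp hc
      have hc0 : c ≠ 0 := by
        rintro rfl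
        rw [zero_smul] at hc
        exact hy₀0 hc.symm
      apply ha₁y
      rw [Submodule.mem_span_singleton]
      refine ⟨c⁻¹, ?_⟩
      rw [← hc, smul_smul, inv_mul_cancel₀ hc0, one_smul]
    have hn2 : y₁ ∉ Submodule.span F {b₂} := by
      intro hc
      obtain ⟨c, hc⟩ := Submodule.mem_span_singleton.mp hc
      rw [← hc, smul_right f hf, hb₂a, mul_one] at h1
      rw [(map_eq_zero σ).mp h1, zero_smul] at hc
      exact hy₁0 hc.symm
    have key : ∀ B : Submodule F (ι → F), (∀ u ∈ B, ∀ v ∈ B, f u v = 0) →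
        (g : Matrix ι ι F) *ᵥ (y₀ + y₁) ∈ B →
        ∃ (p r : ι → F) (s : Matrix.GeneralLinearGroup ι F), s ∈ H ∧ Iso f s ∧ ActS f s p r ∧
          (s : Matrix ι ι F) *ᵥ ((g : Matrix ι ι F) *ᵥ (y₀ + y₁)) ∉ B := by
      intro B hB hgy
      by_cases c : (g : Matrix ι ι F) *ᵥ a₁ ∈ B
      · have c' : (g : Matrix ι ι F) *ᵥ b₂ ∉ B := by
          intro c'
          have := hB _ c _ c'
          rw [hgI, hb₂a] at this
          exact one_ne_zero this
        obtain ⟨a₂, ha₂, hab, e⟩ := (h.symm f).push f hf y₁ y₀ b₂ hy₁ hy₀ hb₂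
          (swap_zero f hf hy₀b) hn2
        obtain ⟨k, hk, hkI, _⟩ := exists_S f hf b₂ a₂ (h.ts' b₂ hb₂ b₂ hb₂) (h.ts a₂ ha₂ a₂ ha₂) hab
        refine ⟨_, _, g * k * g⁻¹, H.mul_mem (H.mul_mem hgH (hP10 b₂ hb₂ a₂ ha₂ hab k hk))
          (H.inv_mem hgH), (hgI.mul f hkI).mul f (hgI.inv f), hk.conj f hgI, ?_⟩
        intro hcon
        rw [Units.val_mul, Units.val_mul, ← mulVec_mulVec, ← mulVec_mulVec, inv_mulVec,
          add_comm y₀ y₁, e k hk, mulVec_add, add_comm y₁ y₀] at hcon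
        have h4 := B.sub_mem hcon hgy
        rw [add_sub_cancel_left] at h4
        exact c' h4
      · obtain ⟨b₁, hb₁, hab, e⟩ := h.push f hf y₀ y₁ a₁ hy₀ hy₁ ha₁ h1 hn1
        obtain ⟨k, hk, hkI, _⟩ := exists_S f hf a₁ b₁ (h.ts a₁ ha₁ a₁ ha₁) (h.ts' b₁ hb₁ b₁ hb₁) hab
        refine ⟨_, _, g * k * g⁻¹, H.mul_mem (H.mul_mem hgH (hP01 a₁ ha₁ b₁ hb₁ hab k hk))
          (H.inv_mem hgH), (hgI.mul f hkI).mul f (hgI.inv f), hk.conj f hgI, ?_⟩
        intro hcon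
        rw [Units.val_mul, Units.val_mul, ← mulVec_mulVec, ← mulVec_mulVec, inv_mulVec,
          e k hk, mulVec_add] at hcon
        have h4 := B.sub_mem hcon hgy
        rw [add_sub_cancel_left] at h4
        exact c h4
    rcases hx with hx | hx
    · obtain ⟨p, r, s, hs, hsI, hsA, hns⟩ := key (D 0) h.ts hx
      exact close f hf (h.symm f) (hfin 1) hk hP10
        (fun w hwI hwS h1 h0 => hPH ⟨mem_decomp_of D hfin01 _ (Or.inr ⟨h0, h1⟩),
          (hG w).mpr hwI, hwS⟩) p r s hs hsI hsA _ hx hns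
    · obtain ⟨p, r, s, hs, hsI, hsA, hns⟩ := key (D 1) h.ts' hx
      exact close f hf h (hfin 0) hk hP01
        (fun w hwI hwS h0 h1 => hPH ⟨mem_decomp_of D hfin01 _ (Or.inr ⟨h0, h1⟩),
          (hG w).mpr hwI, hwS⟩) p r s hs hsI hsA _ hx hns

end Cfsg.Agent.Lib.Helper5.SUPair
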