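import Mathlib
import Cfsg.Prelude.Def_GeometricClasses
import Cfsg.Agent.Lib.Helper5.SLMax
import Cfsg.Agent.Lib.Helper4.UniLines

set_option autoImplicit false
set_option linter.unusedSectionVars false

namespace Cfsg.Agent.Lib.Helper5.SubfieldGrp

open Matrix Cfsg.Agent.Lib.Helper5.SLMax
open scoped Pointwise

variable {F : Type*} [Field F] {ι : Type} [Fintype ι] [DecidableEq ι]
variable (F₀ : Subfield F) (P : Matrix.GeneralLinearGroup ι F)

/-- vectors with entries in the subfield -/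
def rat (u : ι → F) : Prop := ∀ i, u i ∈ F₀

/-- vectors in the rational structure defined by `P` -/
def Rat (v : ι → F) : Prop := rat F₀ (((P⁻¹ : Matrix.GeneralLinearGroup ι F) : Matrix ι ι F) *ᵥ v)

variable {F₀ P}

theorem Rat.add {a b : ι → F} (ha : Rat F₀ P a) (hb : Rat F₀ P b) : Rat F₀ P (a + b) := by
  intro i
  rw [mulVec_add]
  exact F₀.add_mem (ha i) (hb i)

theorem Rat.smul {a : ι → F} (ha : Rat F₀ P a) {t : F} (ht : t ∈ F₀) : Rat F₀ P (t • a) := by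
  intro i
  rw [mulVec_smul]
  exact F₀.mul_mem ht (ha i)

theorem Rat.neg {a : ι → F} (ha : Rat F₀ P a) : Rat F₀ P (-a) := by
  have := ha.smul (F₀.neg_mem F₀.one_mem)
  simpa using this

theorem Rat.sub {a b : ι → F} (ha : Rat F₀ P a) (hb : Rat F₀ P b) : Rat F₀ P (a - b) := by
  rw [sub_eq_add_neg]
  exact ha.add hb.neg

theorem Rat.zero : Rat F₀ P (0 : ι → F) := by
  intro i
  rw [mulVec_zero]
  exact F₀.zero_mem

theorem Rat.mk {u : ι → F} (hu : rat F₀ u) : Rat F₀ P ((P : Matrix ι ι F) *ᵥ u) := by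
  intro i
  rw [inv_mulVec]
  exact hu i

theorem Rat.exists {v : ι → F} (h : Rat F₀ P v) : ∃ u, rat F₀ u ∧ v = (P : Matrix ι ι F) *ᵥ u :=
  ⟨_, h, (mul_inv_mulVec P v).symm⟩

instance scalars_normal : (Cfsg.Geo.scalars ι F).Normal := by
  constructor
  intro n hn g
  obtain ⟨c, hc⟩ := (Cfsg.Geo.mem_scalars_iff n).mp hn
  rw [Cfsg.Geo.mem_scalars_iff]
  refine ⟨c, ?_⟩
  rw [Units.val_mul, Units.val_mul, hc, mul_smul_comm, mul_one, smul_mul_assoc, ← Units.val_mul,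
    mul_inv_cancel, Units.val_one]

theorem maps_of_mem (k : Matrix.GeneralLinearGroup ι F) (hk : k ∈ Cfsg.Geo.subfieldSubgroup F₀ P) :
    ∃ l : F, l ≠ 0 ∧ ∀ v, Rat F₀ P v → Rat F₀ P (l • ((k : Matrix ι ι F) *ᵥ v)) := by
  obtain ⟨x, hx, rfl⟩ := hk
  have hx' : x ∈ (((Matrix.GeneralLinearGroup.map (F₀.subtype : F₀ →+* F)).range :
      Subgroup (Matrix.GeneralLinearGroup ι F)) : Set (Matrix.GeneralLinearGroup ι F)) *
      ((Cfsg.Geo.scalars ι F : Subgroup (Matrix.GeneralLinearGroup ι F)) :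
        Set (Matrix.GeneralLinearGroup ι F)) := by
    rw [← Subgroup.mul_normal]
    exact hx
  obtain ⟨y, ⟨m, rfl⟩, z, hz, rfl⟩ := hx'
  obtain ⟨c, hc⟩ := (Cfsg.Geo.mem_scalars_iff z).mp hz
  refine ⟨(c : F)⁻¹, inv_ne_zero c.ne_zero, fun v hv i => ?_⟩
  have e : ((P⁻¹ : Matrix.GeneralLinearGroup ι F) : Matrix ι ι F) *ᵥ ((c : F)⁻¹ •
      (((MulAut.conj P).toMonoidHom (Matrix.GeneralLinearGroup.map (F₀.subtype : F₀ →+* F) m * z) :
        Matrix.GeneralLinearGroup ι F) : Matrix ι ι F) *ᵥ v) =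
      ((Matrix.GeneralLinearGroup.map (F₀.subtype : F₀ →+* F) m :
        Matrix.GeneralLinearGroup ι F) : Matrix ι ι F) *ᵥ
        (((P⁻¹ : Matrix.GeneralLinearGroup ι F) : Matrix ι ι F) *ᵥ v) := by
    show ((P⁻¹ : Matrix.GeneralLinearGroup ι F) : Matrix ι ι F) *ᵥ ((c : F)⁻¹ •
      ((P * (Matrix.GeneralLinearGroup.map (F₀.subtype : F₀ →+* F) m * z) * P⁻¹ :
        Matrix.GeneralLinearGroup ι F) : Matrix ι ι F) *ᵥ v) = _
    rw [Units.val_mul, Units.val_mul, Units.val_mul, ← mulVec_mulVec, ← mulVec_mulVec,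
      ← mulVec_mulVec, mulVec_smul, inv_mulVec, hc, smul_mulVec, one_mulVec, mulVec_smul,
      smul_smul, inv_mul_cancel₀ c.ne_zero, one_smul]
  rw [e]
  unfold mulVec dotProduct
  apply F₀.sum_mem
  intro j _
  exact F₀.mul_mem (m.1 i j).2 (hv j)

theorem mem_of_maps (k : Matrix.GeneralLinearGroup ι F) (l : F) (hl : l ≠ 0)
    (h : ∀ v, Rat F₀ P v → Rat F₀ P (l • ((k : Matrix ι ι F) *ᵥ v))) :
    k ∈ Cfsg.Geo.subfieldSubgroup F₀ P := by
  obtain ⟨M, hM⟩ : ∃ M : Matrix ι ι F,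
      M = l • ((P⁻¹ * k * P : Matrix.GeneralLinearGroup ι F) : Matrix ι ι F) := ⟨_, rfl⟩
  have hMv : ∀ u, M *ᵥ u = ((P⁻¹ : Matrix.GeneralLinearGroup ι F) : Matrix ι ι F) *ᵥ
      (l • ((k : Matrix ι ι F) *ᵥ ((P : Matrix ι ι F) *ᵥ u))) := by
    intro u
    rw [hM, smul_mulVec, Units.val_mul, Units.val_mul, ← mulVec_mulVec, ← mulVec_mulVec,
      mulVec_smul]
  have hent : ∀ i j, M i j ∈ F₀ := by
    intro i j
    have h1 : rat F₀ (Pi.single j 1 : ι → F) := by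
      intro i'
      by_cases hij : i' = j
      · rw [hij, Pi.single_eq_same]; exact F₀.one_mem
      · rw [Pi.single_eq_of_ne hij]; exact F₀.zero_mem
    have h2 := h _ (Rat.mk (P := P) h1) i
    rw [← hMv, mulVec_single_one] at h2
    exact h2
  let M₀ : Matrix ι ι F₀ := fun i j => ⟨M i j, hent i j⟩
  have hmap : M₀.map (F₀.subtype : F₀ →+* F) = M := by
    ext i j
    rfl
  have hdetM : M.det ≠ 0 := by
    rw [hM, det_smul]
    apply mul_ne_zero (pow_ne_zero _ hl)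
    exact ((Matrix.isUnit_iff_isUnit_det _).mp (Units.isUnit _)).ne_zero
  have hdet₀ : M₀.det ≠ 0 := by
    intro h0
    apply hdetM
    rw [← hmap, ← RingHom.mapMatrix_apply, ← RingHom.map_det, h0, map_zero]
  let m₀ : Matrix.GeneralLinearGroup ι F₀ := Matrix.GeneralLinearGroup.mkOfDetNeZero M₀ hdet₀
  have hm₀ : ((Matrix.GeneralLinearGroup.map (F₀.subtype : F₀ →+* F) m₀ :
      Matrix.GeneralLinearGroup ι F) : Matrix ι ι F) = M := hmap
  let sc : Matrix.GeneralLinearGroup ι F :=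
    Units.map (Matrix.scalar ι : F →+* Matrix ι ι F).toMonoidHom (Units.mk0 l⁻¹ (inv_ne_zero hl))
  have hsc : (sc : Matrix ι ι F) = l⁻¹ • (1 : Matrix ι ι F) := by
    show Matrix.scalar ι l⁻¹ = _
    rw [Matrix.smul_one_eq_diagonal]
    rfl
  refine ⟨Matrix.GeneralLinearGroup.map (F₀.subtype : F₀ →+* F) m₀ * sc,
    Subgroup.mul_mem _ (Subgroup.mem_sup_left ⟨m₀, rfl⟩) (Subgroup.mem_sup_right ⟨_, rfl⟩), ?_⟩
  show P * (Matrix.GeneralLinearGroup.map (F₀.subtype : F₀ →+* F) m₀ * sc) * P⁻¹ = k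
  apply gl_ext
  intro z
  rw [Units.val_mul, Units.val_mul, Units.val_mul, ← mulVec_mulVec, ← mulVec_mulVec,
    ← mulVec_mulVec, hm₀, hsc, smul_mulVec, one_mulVec, hMv, mul_inv_mulVec, mulVec_smul,
    mulVec_smul, mul_inv_mulVec, smul_smul, mul_inv_cancel₀ hl, one_smul]

section quad

variable [Fintype F]

theorem card_sub {q : ℕ} (hF : Fintype.card F = q ^ 2) (hcard : Fintype.card F = Nat.card F₀ ^ 2) :
    Nat.card F₀ = q := by
  rw [hF] at hcard
  exact (Nat.pow_left_injective (n := 2) (by norm_num) hcard).symm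

theorem mem_iff_fixed {q : ℕ} (hF : Fintype.card F = q ^ 2)
    (hcard : Fintype.card F = Nat.card F₀ ^ 2) (x : F) : x ∈ F₀ ↔ x ^ q = x := by
  classical
  have hq := card_sub hF hcard
  have hsub : (F₀ : Set F) ⊆ {c : F | c ^ q = c} := by
    intro y hy
    have := Fintype.ofFinite F₀
    have h1 := FiniteField.pow_card (⟨y, hy⟩ : F₀)
    rw [← Nat.card_eq_fintype_card, hq] at h1
    exact congrArg Subtype.val h1
  have h2 : ({c : F | c ^ q = c} : Set F).ncard ≤ (F₀ : Set F).ncard := by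
    rw [← Nat.card_coe_set_eq, ← Nat.card_coe_set_eq]
    have h3 := Cfsg.Agent.Lib.Helper4.UniLines.card_fixed hF
    have h4 : Nat.card ↥(F₀ : Set F) = q := hq
    rw [h4]
    exact le_of_eq h3
  have h5 := Set.eq_of_subset_of_ncard_le hsub h2 (Set.toFinite _)
  constructor
  · intro hx
    exact hsub hx
  · intro hx
    have : x ∈ (F₀ : Set F) := by rw [h5]; exact hx
    exact this

theorem exists_theta (hcard : Fintype.card F = Nat.card F₀ ^ 2) : ∃ θ : F, θ ∉ F₀ := by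
  by_contra hcon
  push Not at hcon
  have h1 : Nat.card F₀ = Fintype.card F := by
    rw [← Nat.card_eq_fintype_card]
    exact Nat.card_congr ⟨fun x => x.1, fun x => ⟨x, hcon x⟩, fun _ => rfl, fun _ => rfl⟩
  rw [← h1] at hcard
  have h2 : 1 < Nat.card F₀ := Finite.one_lt_card
  nlinarith

theorem field_decomp (hcard : Fintype.card F = Nat.card F₀ ^ 2) (θ : F) (hθ : θ ∉ F₀) (x : F) :
    ∃ α ∈ F₀, ∃ β ∈ F₀, x = α + θ * β := by
  have hinj : Function.Injective (fun p : F₀ × F₀ => (p.1 : F) + θ * (p.2 : F)) := by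
    rintro ⟨a, b⟩ ⟨a', b'⟩ h
    simp only at h
    have hb : b = b' := by
      by_contra hne
      apply hθ
      have hne' : (b : F) - b' ≠ 0 := sub_ne_zero.mpr (fun h => hne (Subtype.ext h))
      have : θ = ((a' : F) - a) / ((b : F) - b') := by
        field_simp
        linear_combination h
      rw [this]
      exact F₀.div_mem (F₀.sub_mem a'.2 a.2) (F₀.sub_mem b.2 b'.2)
    subst hb
    have ha : (a : F) = a' := by linear_combination h
    rw [Subtype.ext ha]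
  have hbij := hinj.bijective_of_nat_card_le (by
    rw [Nat.card_prod, Nat.card_eq_fintype_card, hcard]
    exact le_of_eq (sq _))
  obtain ⟨⟨a, b⟩, hab⟩ := hbij.2 x
  exact ⟨a, a.2, b, b.2, hab.symm⟩

theorem vec_decomp (hcard : Fintype.card F = Nat.card F₀ ^ 2) (θ : F) (hθ : θ ∉ F₀) (v : ι → F) :
    ∃ a b, Rat F₀ P a ∧ Rat F₀ P b ∧ v = a + θ • b := by
  choose α hα β hβ e using fun i =>
    field_decomp hcard θ hθ ((((P⁻¹ : Matrix.GeneralLinearGroup ι F) : Matrix ι ι F) *ᵥ v) i)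
  refine ⟨(P : Matrix ι ι F) *ᵥ α, (P : Matrix ι ι F) *ᵥ β, Rat.mk hα, Rat.mk hβ, ?_⟩
  rw [← mulVec_smul, ← mulVec_add]
  have : α + θ • β = ((P⁻¹ : Matrix.GeneralLinearGroup ι F) : Matrix ι ι F) *ᵥ v := by
    funext i
    rw [e i]
    rfl
  rw [this, mul_inv_mulVec]

omit [Fintype F] in
theorem decomp_unique (θ : F) (hθ : θ ∉ F₀) {a b : ι → F} (ha : Rat F₀ P a) (hb : Rat F₀ P b)
    (h : a + θ • b = 0) : a = 0 ∧ b = 0 := by
  have h1 : ((P⁻¹ : Matrix.GeneralLinearGroup ι F) : Matrix ι ι F) *ᵥ a +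
      θ • ((P⁻¹ : Matrix.GeneralLinearGroup ι F) : Matrix ι ι F) *ᵥ b = 0 := by
    rw [← mulVec_smul, ← mulVec_add, h, mulVec_zero]
  have hb0 : ((P⁻¹ : Matrix.GeneralLinearGroup ι F) : Matrix ι ι F) *ᵥ b = 0 := by
    funext i
    by_contra hne
    apply hθ
    have h2 := congrFun h1 i
    simp only [Pi.add_apply, Pi.smul_apply, smul_eq_mul, Pi.zero_apply] at h2 hne
    have : θ = -((((P⁻¹ : Matrix.GeneralLinearGroup ι F) : Matrix ι ι F) *ᵥ a) i) /
        ((((P⁻¹ : Matrix.GeneralLinearGroup ι F) : Matrix ι ι F) *ᵥ b) i) := by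
      field_simp
      linear_combination h2
    rw [this]
    exact F₀.div_mem (F₀.neg_mem (ha i)) (hb i)
  have hb' : b = 0 := by rw [← mul_inv_mulVec P b, hb0, mulVec_zero]
  refine ⟨?_, hb'⟩
  rw [hb', smul_zero, add_zero] at h
  exact h

end quad

end Cfsg.Agent.Lib.Helper5.SubfieldGrp
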