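import Mathlib
import Cfsg.Prelude.Def_GeometricClasses
import Cfsg.Agent.Lib.Helper5.SUPair
import Cfsg.Agent.Lib.Helper5.SubfieldGrp

set_option autoImplicit false
set_option linter.unusedSectionVars false

namespace Cfsg.Agent.Lib.Helper5.SUSymp

open Matrix Cfsg.Agent.Lib.Helper5.SLMax Cfsg.Agent.Lib.Helper5.SLUni
  Cfsg.Agent.Lib.Helper5.SUGen Cfsg.Agent.Lib.Helper5.SUPair Cfsg.Agent.Lib.Helper5.SubfieldGrp

variable {F : Type*} [Field F] {ι : Type} [Fintype ι] [DecidableEq ι]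
variable {σ : F ≃+* F} (f : (ι → F) → (ι → F) → F) (hf : Cfsg.Geo.IsUnitaryForm σ f)
variable {F₀ : Subfield F} {P : Matrix.GeneralLinearGroup ι F} {θ : F}

/-- a rational structure on which the form is alternating -/
structure RS (σ : F ≃+* F) (f : (ι → F) → (ι → F) → F) (F₀ : Subfield F)
    (P : Matrix.GeneralLinearGroup ι F) (θ : F) : Prop where
  fix : ∀ x, x ∈ F₀ ↔ σ x = x
  hθ : θ ∉ F₀
  dec : ∀ v : ι → F, ∃ a b, Rat F₀ P a ∧ Rat F₀ P b ∧ v = a + θ • b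
  fdec : ∀ x : F, ∃ α ∈ F₀, ∃ β ∈ F₀, x = α + θ * β
  alt : ∀ a, Rat F₀ P a → f a a = 0

variable (hr : RS σ f F₀ P θ)

include hf hr

theorem skew {a b : ι → F} (ha : Rat F₀ P a) (hb : Rat F₀ P b) : f b a = - f a b := by
  have h := hr.alt _ (ha.add hb)
  rw [hf.add_left, add_right f hf, add_right f hf, hr.alt a ha, hr.alt b hb] at h
  linear_combination h

theorem sig_skew {a b : ι → F} (ha : Rat F₀ P a) (hb : Rat F₀ P b) : σ (f a b) = - f a b := by
  rw [← hf.herm b a, skew f hf hr ha hb]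

theorem mul_mem {a b : ι → F} (ha : Rat F₀ P a) (hb : Rat F₀ P b) {c : F} (hc : σ c = -c) :
    c * f a b ∈ F₀ := by
  rw [hr.fix, map_mul, hc, sig_skew f hf hr ha hb]
  ring

theorem sθ : σ θ ∉ F₀ := by
  intro h
  apply hr.hθ
  have := (hr.fix _).mp h
  rw [hf.involutive] at this
  rw [this]
  exact h

omit hf hr in
theorem two_zero {τ α β : F} (hτ : τ ∉ F₀) (hα : α ∈ F₀) (hβ : β ∈ F₀) (h : α + τ * β = 0) :
    α = 0 ∧ β = 0 := by
  have hb : β = 0 := by
    by_contra hne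
    apply hτ
    have : τ = -α / β := by
      field_simp
      linear_combination h
    rw [this]
    exact F₀.div_mem (F₀.neg_mem hα) hβ
  rw [hb, mul_zero, add_zero] at h
  exact ⟨h, hb⟩

/-- orthogonality to a rational vector passes to the rational components -/
theorem comp_zero {b y₀ y₁ : ι → F} (hb : Rat F₀ P b) (h0 : Rat F₀ P y₀) (h1 : Rat F₀ P y₁)
    (h : f b (y₀ + θ • y₁) = 0) : f b y₀ = 0 ∧ f b y₁ = 0 := by
  obtain ⟨c, hc0, hc⟩ := exists_skew σ hf.involutive hf.ne_refl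
  rw [add_right f hf, smul_right f hf] at h
  have h2 := two_zero (sθ f hf hr) (mul_mem f hf hr hb h0 hc) (mul_mem f hf hr hb h1 hc) (by
    linear_combination c * h)
  exact ⟨(mul_eq_zero.mp h2.1).resolve_left hc0, (mul_eq_zero.mp h2.2).resolve_left hc0⟩

theorem RE2 [Finite F] {b b' : ι → F} (hb : Rat F₀ P b) (hb' : Rat F₀ P b') (a : ι → F)
    (ha : a ∉ Submodule.span F {b, b'}) :
    ∃ p, Rat F₀ P p ∧ f b p = 0 ∧ f b' p = 0 ∧ f a p ≠ 0 := by
  obtain ⟨y, hy, hay⟩ := exists_orth_ne f hf _ a ha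
  obtain ⟨y₀, y₁, h0, h1, rfl⟩ := hr.dec y
  have e1 := comp_zero f hf hr hb h0 h1 (hy b (Submodule.subset_span (by simp)))
  have e2 := comp_zero f hf hr hb' h0 h1 (hy b' (Submodule.subset_span (by simp)))
  by_cases c : f a y₀ = 0
  · refine ⟨y₁, h1, e1.2, e2.2, fun h => ?_⟩
    rw [add_right f hf, smul_right f hf, c, h] at hay
    simp at hay
  · exact ⟨y₀, h0, e1.1, e2.1, c⟩

theorem RE1 [Finite F] {b : ι → F} (hb : Rat F₀ P b) (a : ι → F)
    (ha : a ∉ Submodule.span F {b}) : ∃ p, Rat F₀ P p ∧ f b p = 0 ∧ f a p ≠ 0 := by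
  obtain ⟨p, hp, h1, _, h2⟩ := RE2 f hf hr hb hb a (by simpa using ha)
  exact ⟨p, hp, h1, h2⟩

theorem RE [Finite F] {b : ι → F} (hb : Rat F₀ P b) (a a' : ι → F)
    (ha : a ∉ Submodule.span F {b}) (ha' : a' ∉ Submodule.span F {b}) :
    ∃ p, Rat F₀ P p ∧ f b p = 0 ∧ f a p ≠ 0 ∧ f a' p ≠ 0 := by
  obtain ⟨p, hp, h1, h2⟩ := RE1 f hf hr hb a ha
  obtain ⟨r, hr', h3, h4⟩ := RE1 f hf hr hb a' ha'
  by_cases c1 : f a' p = 0
  · by_cases c2 : f a r = 0
    · refine ⟨p + r, hp.add hr', ?_, ?_, ?_⟩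
      · rw [add_right f hf, h1, h3, add_zero]
      · rw [add_right f hf, c2, add_zero]; exact h2
      · rw [add_right f hf, c1, zero_add]; exact h4
    · exact ⟨r, hr', h3, c2, h4⟩
  · exact ⟨p, hp, h1, h2, c1⟩

omit hf hr in
theorem scalar_mem {b : ι → F} (hb : Rat F₀ P b) (hb0 : b ≠ 0) {l : F} (h : Rat F₀ P (l • b)) :
    l ∈ F₀ := by
  obtain ⟨i, hi⟩ : ∃ i, (((P⁻¹ : Matrix.GeneralLinearGroup ι F) : Matrix ι ι F) *ᵥ b) i ≠ 0 := by
    by_contra hcon
    push Not at hcon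
    apply hb0
    have h0 : ((P⁻¹ : Matrix.GeneralLinearGroup ι F) : Matrix ι ι F) *ᵥ b = 0 := funext hcon
    rw [← mul_inv_mulVec P b, h0, mulVec_zero]
  have h1 := h i
  rw [mulVec_smul, Pi.smul_apply, smul_eq_mul] at h1
  have h2 := F₀.div_mem h1 (hb i)
  rwa [mul_div_cancel_right₀ _ hi] at h2

variable {H : Subgroup (Matrix.GeneralLinearGroup ι F)}

/-- changing the first component -/
theorem c1 (hX : ∀ x, Rat F₀ P x → InX σ f H x) {a b e : ι → F} (ha : Rat F₀ P a)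
    (hb : Rat F₀ P b) (he : Rat F₀ P e) (hab : InX σ f H (a + θ • b)) (hbe : f b e = 0)
    (hae : f a e ≠ 0) : InX σ f H (a + e + θ • b) := by
  have hc : σ (f a e)⁻¹ = -(f a e)⁻¹ := by
    rw [map_inv₀, sig_skew f hf hr ha he, inv_neg]
  have h1 := InX_move f hf hab (hX e he) (hr.alt e he) _ hc
  rw [hf.add_left, hf.smul_left, hbe, mul_zero, add_zero, inv_mul_cancel₀ hae, one_smul] at h1
  have e1 : a + θ • b + e = a + e + θ • b := by abel
  rwa [e1] at h1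

/-- step A -/
theorem stepA [Finite F] (hX : ∀ x, Rat F₀ P x → InX σ f H x) {a₁ b₁ : ι → F}
    (ha₁ : Rat F₀ P a₁) (hb₁ : Rat F₀ P b₁) (h1 : InX σ f H (a₁ + θ • b₁))
    (hind : a₁ ∉ Submodule.span F {b₁}) (h0 : f b₁ a₁ = 0) (a : ι → F) (ha : Rat F₀ P a)
    (hab : f a b₁ = 0) : InX σ f H (a + θ • b₁) := by
  have hba : f b₁ a = 0 := swap_zero f hf hab
  by_cases hs : a ∈ Submodule.span F {b₁}
  · obtain ⟨l, rfl⟩ := Submodule.mem_span_singleton.mp hs
    have := InX_smul f hf (hX b₁ hb₁) (l + θ)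
    rwa [add_smul] at this
  have move : ∀ {x y : ι → F}, Rat F₀ P x → Rat F₀ P y → InX σ f H (x + θ • b₁) → f b₁ x = 0 →
      f b₁ y = 0 → f x y ≠ 0 → InX σ f H (y + θ • b₁) := by
    intro x y hx hy hxX hbx hby hxy
    have := c1 f hf hr hX hx hb₁ (hy.sub hx) hxX (by
      rw [sub_eq_add_neg, add_right f hf, neg_right f hf, hby, hbx]; ring) (by
      rw [sub_eq_add_neg, add_right f hf, neg_right f hf, hr.alt x hx]
      simpa using hxy)
    rwa [add_sub_cancel] at this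
  by_cases c : f a₁ a = 0
  · obtain ⟨e, he, hbe, h1e, h2e⟩ := RE f hf hr hb₁ a₁ a hind hs
    have s1 := move ha₁ he h1 h0 hbe h1e
    exact move he ha s1 hbe hba (swap_ne f hf h2e)
  · exact move ha₁ ha h1 h0 hba c

omit hf hr in
/-- good second components -/
def Y (σ : F ≃+* F) (f : (ι → F) → (ι → F) → F) (F₀ : Subfield F)
    (P : Matrix.GeneralLinearGroup ι F) (θ : F) (H : Subgroup (Matrix.GeneralLinearGroup ι F))
    (b : ι → F) : Prop :=
  ∀ a, Rat F₀ P a → f a b = 0 → InX σ f H (a + θ • b)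

theorem Y_move (hX : ∀ x, Rat F₀ P x → InX σ f H x) {b d : ι → F} (hb : Rat F₀ P b)
    (hd : Rat F₀ P d) (hbY : Y σ f F₀ P θ H b) (hbd : f b d ≠ 0) : Y σ f F₀ P θ H (b + d) := by
  have hc : σ (f b d)⁻¹ = -(f b d)⁻¹ := by
    rw [map_inv₀, sig_skew f hf hr hb hd, inv_neg]
  obtain ⟨t, _, act, iso⟩ := exists_ut f hf d (hr.alt d hd) _ hc
  have htH : t ∈ H := hX d hd _ t hc act
  intro a ha hab
  have hdd := hr.alt d hd
  have hRa' : Rat F₀ P (a - ((f b d)⁻¹ * f a d) • d) :=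
    ha.sub (hd.smul (mul_mem f hf hr ha hd hc))
  have e1 : f (a - ((f b d)⁻¹ * f a d) • d) b = 0 := by
    rw [sub_eq_add_neg, hf.add_left, neg_left f hf, hf.smul_left, skew f hf hr hb hd]
    rw [add_right f hf] at hab
    field_simp
    linear_combination hab
  have h1 := InX_img f (hbY _ hRa' e1) htH iso
  have e2 : (t : Matrix ι ι F) *ᵥ (a - ((f b d)⁻¹ * f a d) • d + θ • b) = a + θ • (b + d) := by
    rw [act, hf.add_left, hf.smul_left, sub_eq_add_neg, hf.add_left, neg_left f hf, hf.smul_left,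
      hdd]
    have h3 : (f b d)⁻¹ * (f a d + -((f b d)⁻¹ * f a d * 0) + θ * f b d) =
        (f b d)⁻¹ * f a d + θ := by
      field_simp
      ring
    rw [h3]
    module
  rwa [e2] at h1

theorem Y_all [Finite F] (hX : ∀ x, Rat F₀ P x → InX σ f H x) {b₁ : ι → F} (hb₁ : Rat F₀ P b₁)
    (hb₁0 : b₁ ≠ 0) (hY : Y σ f F₀ P θ H b₁) : ∀ b, Rat F₀ P b → Y σ f F₀ P θ H b := by
  have move : ∀ {x y : ι → F}, Rat F₀ P x → Rat F₀ P y → Y σ f F₀ P θ H x → f x y ≠ 0 →
      Y σ f F₀ P θ H y := by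
    intro x y hx hy hxY hxy
    have := Y_move f hf hr hX hx (hy.sub hx) hxY (by
      rw [sub_eq_add_neg, add_right f hf, neg_right f hf, hr.alt x hx]
      simpa using hxy)
    rwa [add_sub_cancel] at this
  intro b hb
  by_cases hb0 : b = 0
  · intro a ha _
    rw [hb0, smul_zero, add_zero]
    exact hX a ha
  by_cases c : f b₁ b = 0
  · obtain ⟨e, he, _, h1e, h2e⟩ := RE f hf hr (Rat.zero (F₀ := F₀) (P := P)) b₁ b
      (by simpa using hb₁0) (by simpa using hb0)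
    exact move he hb (move hb₁ he hY h1e) (swap_ne f hf h2e)
  · exact move hb₁ hb hY c

omit hf hr in
theorem Rat_sum {κ : Type*} (s : Finset κ) (x : κ → ι → F) (h : ∀ j ∈ s, Rat F₀ P (x j)) :
    Rat F₀ P (∑ j ∈ s, x j) :=
  Finset.sum_induction x (Rat F₀ P) (fun _ _ ha hb => ha.add hb) Rat.zero h

omit hf in
theorem exists_bad [Nonempty ι] (g : Matrix.GeneralLinearGroup ι F)
    (hg : g ∉ Cfsg.Geo.subfieldSubgroup F₀ P) :
    ∃ a, Rat F₀ P a ∧ ∃ a₁ b₁, Rat F₀ P a₁ ∧ Rat F₀ P b₁ ∧ (g : Matrix ι ι F) *ᵥ a = a₁ + θ • b₁ ∧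
      a₁ ∉ Submodule.span F {b₁} ∧ b₁ ≠ 0 := by
  by_contra hcon
  push Not at hcon
  apply hg
  have pt : ∀ a, Rat F₀ P a → ∃ (μ : F) (a' : ι → F), Rat F₀ P a' ∧
      (g : Matrix ι ι F) *ᵥ a = μ • a' := by
    intro a ha
    obtain ⟨a₁, b₁, h1, h2, e⟩ := hr.dec ((g : Matrix ι ι F) *ᵥ a)
    by_cases c : a₁ ∈ Submodule.span F {b₁}
    · obtain ⟨l, rfl⟩ := Submodule.mem_span_singleton.mp c
      exact ⟨l + θ, b₁, h2, by rw [e, add_smul]⟩
    · have := hcon a ha a₁ b₁ h1 h2 e c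
      exact ⟨1, a₁, h1, by rw [e, this, smul_zero, add_zero, one_smul]⟩
  have hinj : ∀ x : ι → F, (g : Matrix ι ι F) *ᵥ ((P : Matrix ι ι F) *ᵥ x) = 0 → x = 0 := by
    intro x hx
    rw [← inv_mulVec P x, ← inv_mulVec g ((P : Matrix ι ι F) *ᵥ x), hx, mulVec_zero, mulVec_zero]
  have hrs : ∀ j : ι, rat F₀ (Pi.single j 1 : ι → F) := by
    intro j i'
    by_cases hij : i' = j
    · rw [hij, Pi.single_eq_same]; exact F₀.one_mem
    · rw [Pi.single_eq_of_ne hij]; exact F₀.zero_mem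
  have hRe : ∀ j : ι, Rat F₀ P ((P : Matrix ι ι F) *ᵥ (Pi.single j 1 : ι → F)) :=
    fun j => Rat.mk (hrs j)
  choose μ a' ha' hμ using fun j => pt _ (hRe j)
  have hμ0 : ∀ j, μ j ≠ 0 := by
    intro j h0
    have h1 := hμ j
    rw [h0, zero_smul] at h1
    have h2 := congrFun (hinj _ h1) j
    simp at h2
  obtain ⟨j₀⟩ : Nonempty ι := inferInstance
  have key : ∀ j, μ j / μ j₀ ∈ F₀ := by
    intro j
    by_cases hj : j = j₀
    · rw [hj, div_self (hμ0 j₀)]
      exact F₀.one_mem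
    obtain ⟨ν, c, hc, hν⟩ := pt _ ((hRe j₀).add (hRe j))
    rw [mulVec_add, hμ, hμ] at hν
    have hν0 : ν ≠ 0 := by
      intro h0
      rw [h0, zero_smul, ← hμ, ← hμ, ← mulVec_add, ← mulVec_add] at hν
      have h2 := congrFun (hinj _ hν) j₀
      simp [Pi.single_eq_of_ne (Ne.symm hj)] at h2
    obtain ⟨α₀, hα₀, α₁, hα₁, eα⟩ := hr.fdec (μ j₀ / ν)
    obtain ⟨β₀, hβ₀, β₁, hβ₁, eβ⟩ := hr.fdec (μ j / ν)
    have e1 : (α₀ • a' j₀ + β₀ • a' j - c) + θ • (α₁ • a' j₀ + β₁ • a' j) = 0 := by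
      have h3 : c = (μ j₀ / ν) • a' j₀ + (μ j / ν) • a' j := by
        have h4 : c = ν⁻¹ • (ν • c) := by rw [smul_smul, inv_mul_cancel₀ hν0, one_smul]
        rw [h4, ← hν, smul_add, smul_smul, smul_smul]
        congr 2 <;> ring
      rw [h3, eα, eβ]
      module
    have e2 := (decomp_unique θ hr.hθ
      ((((ha' j₀).smul hα₀).add ((ha' j).smul hβ₀)).sub hc)
      (((ha' j₀).smul hα₁).add ((ha' j).smul hβ₁)) e1).2
    have e3 : (g : Matrix ι ι F) *ᵥ ((P : Matrix ι ι F) *ᵥ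
        ((α₁ / μ j₀) • (Pi.single j₀ 1 : ι → F) + (β₁ / μ j) • (Pi.single j 1 : ι → F))) = 0 := by
      rw [mulVec_add, mulVec_add, mulVec_smul, mulVec_smul, mulVec_smul, mulVec_smul, hμ, hμ,
        smul_smul, smul_smul, div_mul_cancel₀ _ (hμ0 j₀), div_mul_cancel₀ _ (hμ0 j)]
      exact e2
    have e4 := hinj _ e3
    have hα₁0 : α₁ = 0 := by
      have h5 := congrFun e4 j₀
      simp [Pi.single_eq_of_ne (Ne.symm hj)] at h5
      exact h5.resolve_right (hμ0 j₀)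
    have hβ₁0 : β₁ = 0 := by
      have h5 := congrFun e4 j
      simp [Pi.single_eq_of_ne hj] at h5
      exact h5.resolve_right (hμ0 j)
    rw [hα₁0, mul_zero, add_zero] at eα
    rw [hβ₁0, mul_zero, add_zero] at eβ
    have h6 : μ j / μ j₀ = β₀ / α₀ := by
      rw [← eα, ← eβ]
      field_simp
    rw [h6]
    exact F₀.div_mem hβ₀ hα₀
  apply mem_of_maps g (μ j₀)⁻¹ (inv_ne_zero (hμ0 j₀))
  intro v hv
  obtain ⟨u, hu, rfl⟩ := hv.exists
  have hus : u = ∑ j, u j • (Pi.single j 1 : ι → F) := by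
    funext i
    simp [Finset.sum_apply, Pi.single_apply]
  have e5 : (μ j₀)⁻¹ • ((g : Matrix ι ι F) *ᵥ ((P : Matrix ι ι F) *ᵥ u)) =
      ∑ j, (u j * (μ j / μ j₀)) • a' j := by
    conv_lhs => rw [hus]
    rw [← mulVecLin_apply, ← mulVecLin_apply, map_sum, map_sum, Finset.smul_sum]
    apply Finset.sum_congr rfl
    intro j _
    rw [map_smul, map_smul, mulVecLin_apply, mulVecLin_apply, hμ, smul_smul, smul_smul]
    congr 1
    ring
  rw [e5]
  exact Rat_sum _ _ (fun j _ => (ha' j).smul (F₀.mul_mem (hu j) (key j)))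

theorem self_eq {a b : ι → F} (ha : Rat F₀ P a) (hb : Rat F₀ P b) :
    f (a + θ • b) (a + θ • b) = (σ θ - θ) * f a b := by
  rw [hf.add_left, add_right f hf, add_right f hf, hf.smul_left, hf.smul_left, smul_right f hf,
    smul_right f hf, hr.alt a ha, hr.alt b hb, skew f hf hr ha hb]
  ring

theorem iso_comp {a b : ι → F} (ha : Rat F₀ P a) (hb : Rat F₀ P b)
    (h : f (a + θ • b) (a + θ • b) = 0) : f a b = 0 := by
  rw [self_eq f hf hr ha hb] at h
  refine (mul_eq_zero.mp h).resolve_left (fun h0 => hr.hθ ?_)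
  rw [hr.fix]
  exact sub_eq_zero.mp h0

theorem symp_max [Finite F] [Nonempty ι] (hn : 7 ≤ Fintype.card ι)
    (G : Subgroup (Matrix.GeneralLinearGroup ι F)) (hG : ∀ g, g ∈ G ↔ Iso f g) :
    Cfsg.Geo.IsMaximalIn (G ⊓ Cfsg.Geo.specialLinear ι F)
      (Cfsg.Geo.subfieldSubgroup F₀ P ⊓ (G ⊓ Cfsg.Geo.specialLinear ι F)) := by
  apply max_of f hf hn G _ hG
  · -- properness
    obtain ⟨j₀⟩ : Nonempty ι := inferInstance
    have hrs : rat F₀ (Pi.single j₀ 1 : ι → F) := by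
      intro i'
      by_cases hij : i' = j₀
      · rw [hij, Pi.single_eq_same]; exact F₀.one_mem
      · rw [Pi.single_eq_of_ne hij]; exact F₀.zero_mem
    obtain ⟨b₁, hb₁, hb₁0⟩ : ∃ b₁, Rat F₀ P b₁ ∧ b₁ ≠ 0 := by
      refine ⟨_, Rat.mk hrs, fun h0 => ?_⟩
      have h1 : (Pi.single j₀ 1 : ι → F) = 0 := by
        rw [← inv_mulVec P (Pi.single j₀ 1 : ι → F), h0, mulVec_zero]
      have h2 := congrFun h1 j₀
      simp at h2
    obtain ⟨d, hd, _, hbd⟩ := RE1 f hf hr (Rat.zero (F₀ := F₀) (P := P)) b₁ (by simpa using hb₁0)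
    have hfr : Module.finrank F (Submodule.span F {b₁, d}) ≤ 2 := by
      classical
      have h2 := finrank_span_finset_le_card (R := F) ({b₁, d} : Finset (ι → F))
      rw [Finset.coe_pair] at h2
      exact h2.trans Finset.card_le_two
    obtain ⟨w, hw⟩ := SLSymp.exists_not_mem (Submodule.span F {b₁, d}) (by omega)
    obtain ⟨a₁, ha₁, hba, hda, hwa⟩ := RE2 f hf hr hb₁ hd w hw
    have hind : a₁ ∉ Submodule.span F {b₁} := by
      intro hs
      obtain ⟨l, rfl⟩ := Submodule.mem_span_singleton.mp hs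
      rw [smul_right f hf] at hda
      have hl : l = 0 := by
        have := (mul_eq_zero.mp hda).resolve_right (swap_ne f hf hbd)
        simpa using this
      rw [hl, zero_smul, zero_right f hf] at hwa
      exact hwa rfl
    have hxx : f (a₁ + θ • b₁) (a₁ + θ • b₁) = 0 := by
      rw [self_eq f hf hr ha₁ hb₁, swap_zero f hf hba, mul_zero]
    obtain ⟨c, hc0, hc⟩ := exists_skew σ hf.involutive hf.ne_refl
    obtain ⟨t, ht, act, iso⟩ := exists_ut f hf _ hxx c hc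
    refine ⟨t, ⟨(hG t).mpr iso, ht.2⟩, fun htA => ?_⟩
    obtain ⟨l, hl0, hl⟩ := maps_of_mem t htA
    have hlF : l ∈ F₀ := by
      apply scalar_mem hb₁ hb₁0
      have h1 := hl b₁ hb₁
      rwa [act, add_right f hf, smul_right f hf, hba, hr.alt b₁ hb₁, mul_zero, add_zero, mul_zero,
        zero_smul, add_zero] at h1
    obtain ⟨p, hp, hbp, hap⟩ := RE1 f hf hr hb₁ a₁ hind
    have h1 : Rat F₀ P ((t : Matrix ι ι F) *ᵥ p) := by
      have := (hl p hp).smul (F₀.inv_mem hlF)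
      rwa [smul_smul, inv_mul_cancel₀ hl0, one_smul] at this
    rw [act, add_right f hf, smul_right f hf, swap_zero f hf hbp, mul_zero, add_zero] at h1
    have h2 := h1.sub hp
    rw [add_sub_cancel_left] at h2
    have h3 := mul_mem f hf hr hp ha₁ hc
    have h4 := h2.smul (F₀.inv_mem h3)
    rw [smul_smul, inv_mul_cancel₀ (mul_ne_zero hc0 (swap_ne f hf hap)), one_smul] at h4
    have h5 := h4.sub ha₁
    rw [add_sub_cancel_left] at h5
    exact hr.hθ (scalar_mem hb₁ hb₁0 h5)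
  · intro H hH1 hH2 ⟨g, hgH, hgA⟩
    have hX : ∀ x, Rat F₀ P x → InX σ f H x := by
      intro x hx c k hc hk
      apply hH1
      obtain ⟨t, ht, act, iso⟩ := exists_ut f hf x (hr.alt x hx) c hc
      have hkt : k = t := gl_ext (fun z => by rw [hk, act])
      refine ⟨?_, ?_, ?_⟩
      · apply mem_of_maps k 1 one_ne_zero
        intro v hv
        rw [one_smul, hk]
        exact hv.add (hx.smul (mul_mem f hf hr hv hx hc))
      · rw [hkt]; exact (hG t).mpr iso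
      · rw [hkt]; exact ht.2
    obtain ⟨a, ha, a₁, b₁, ha₁, hb₁, e, hind, hb₁0⟩ := exists_bad f hr g hgA
    have hgI : Iso f g := (hG g).mp (hH2 hgH).1
    have h1 : InX σ f H (a₁ + θ • b₁) := by
      rw [← e]
      exact InX_img f (hX a ha) hgH hgI
    have h2 : f a₁ b₁ = 0 := by
      apply iso_comp f hf hr ha₁ hb₁
      rw [← e, hgI, hr.alt a ha]
    have hY : Y σ f F₀ P θ H b₁ :=
      stepA f hf hr hX ha₁ hb₁ h1 hind (swap_zero f hf h2)
    have hall := Y_all f hf hr hX hb₁ hb₁0 hY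
    intro x hx
    obtain ⟨a', b', ha', hb', rfl⟩ := hr.dec x
    exact hall b' hb' a' ha' (iso_comp f hf hr ha' hb' hx)

end Cfsg.Agent.Lib.Helper5.SUSymp
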