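import Mathlib
import Cfsg.Prelude.Def_GeometricClasses
import Cfsg.Agent.Lib.Helper5.SUPair
import Cfsg.Agent.Lib.Helper5.SubfieldGrp
import Cfsg.Agent.Lib.Helper5.SLOrth
import Cfsg.Agent.Lib.Helper5.SUSymp

set_option autoImplicit false
set_option linter.unusedSectionVars false

namespace Cfsg.Agent.Lib.Helper5.SUOrth

open Matrix Cfsg.Agent.Lib.Helper5.SLMax Cfsg.Agent.Lib.Helper5.SLUni
  Cfsg.Agent.Lib.Helper5.SUGen Cfsg.Agent.Lib.Helper5.SUPair Cfsg.Agent.Lib.Helper5.SubfieldGrp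

section gen

variable {K : Type*} [Field K] {ι : Type} [Fintype ι] [DecidableEq ι]

theorem exists_sing_perp [Finite K] (Q : QuadraticForm K (ι → K)) {k : ℕ} (d : Fin k → ι → K)
    (hk : k + 3 ≤ Fintype.card ι) :
    ∃ z, z ≠ 0 ∧ Q z = 0 ∧ ∀ i, QuadraticMap.polar ⇑Q (d i) z = 0 := by
  set L : (ι → K) →ₗ[K] (Fin k → K) :=
    LinearMap.pi (fun i => QuadraticMap.polarBilin Q (d i)) with hL
  set Z := LinearMap.ker L with hZ
  have hmemZ : ∀ z, z ∈ Z ↔ ∀ i, QuadraticMap.polar ⇑Q (d i) z = 0 := by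
    intro z
    rw [hZ, LinearMap.mem_ker]
    constructor
    · intro h i
      exact congrFun h i
    · intro h
      funext i
      exact h i
  have hfrZ : Fintype.card ι - k ≤ Module.finrank K Z := by
    have h1 := LinearMap.finrank_range_add_finrank_ker L
    have h2 := Submodule.finrank_le (LinearMap.range L)
    rw [Module.finrank_fin_fun] at h2
    rw [Module.finrank_fintype_fun_eq_card] at h1
    rw [hZ]
    omega
  obtain ⟨v, hv0, hv⟩ := Cfsg.Agent.Lib.Helper4.QuadFin.exists_singular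
    (Q.comp Z.subtype) (by omega)
  exact ⟨v.1, fun h => hv0 (Subtype.ext h), hv, (hmemZ _).mp v.2⟩

end gen

variable {F : Type*} [Field F] {ι : Type} [Fintype ι] [DecidableEq ι]
variable {σ : F ≃+* F} (f : (ι → F) → (ι → F) → F) (hf : Cfsg.Geo.IsUnitaryForm σ f)
variable {F₀ : Subfield F} {P : Matrix.GeneralLinearGroup ι F} {θ : F}

/-- a rational structure on which the form is symmetric -/
structure RO (σ : F ≃+* F) (f : (ι → F) → (ι → F) → F) (F₀ : Subfield F)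
    (P : Matrix.GeneralLinearGroup ι F) (θ : F) : Prop where
  fix : ∀ x, x ∈ F₀ ↔ σ x = x
  hθ0 : θ ≠ 0
  hθ : σ θ = -θ
  two : (2 : F) ≠ 0
  dec : ∀ v : ι → F, ∃ a b, Rat F₀ P a ∧ Rat F₀ P b ∧ v = a + θ • b
  fdec : ∀ x : F, ∃ α ∈ F₀, ∃ β ∈ F₀, x = α + θ * β
  val : ∀ a b, Rat F₀ P a → Rat F₀ P b → f a b ∈ F₀

variable (hr : RO σ f F₀ P θ)

/-- the embedding of the rational space -/
def emb (F₀ : Subfield F) (P : Matrix.GeneralLinearGroup ι F) (u : ι → F₀) : ι → F :=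
  (P : Matrix ι ι F) *ᵥ (fun i => (u i : F))

theorem emb_rat (u : ι → F₀) : Rat F₀ P (emb F₀ P u) := Rat.mk (fun i => (u i).2)

theorem emb_add (u v : ι → F₀) : emb F₀ P (u + v) = emb F₀ P u + emb F₀ P v := by
  unfold emb
  rw [← mulVec_add]
  congr 1

theorem emb_smul (t : F₀) (u : ι → F₀) : emb F₀ P (t • u) = (t : F) • emb F₀ P u := by
  unfold emb
  rw [← mulVec_smul]
  congr 1

theorem exists_emb {v : ι → F} (h : Rat F₀ P v) : ∃ u, v = emb F₀ P u := by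
  obtain ⟨u, hu, rfl⟩ := h.exists
  exact ⟨fun i => ⟨u i, hu i⟩, rfl⟩

theorem emb_zero {u : ι → F₀} (h : emb F₀ P u = 0) : u = 0 := by
  have h1 : (fun i => (u i : F)) = 0 := by
    rw [← inv_mulVec P (fun i => (u i : F))]
    unfold emb at h
    rw [h, mulVec_zero]
  funext i
  exact Subtype.ext (congrFun h1 i)

include hf hr

theorem sfix {t : F} (ht : t ∈ F₀) : σ t = t := (hr.fix t).mp ht

theorem symm {a b : ι → F} (ha : Rat F₀ P a) (hb : Rat F₀ P b) : f b a = f a b := by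
  rw [hf.herm b a, sfix f hf hr (hr.val a b ha hb)]

theorem hθF : θ ∉ F₀ := by
  intro h
  have h1 := sfix f hf hr h
  rw [hr.hθ] at h1
  apply hr.hθ0
  have h2 : (2 : F) * θ = 0 := by linear_combination -h1
  exact (mul_eq_zero.mp h2).resolve_left hr.two

/-- the rational bilinear form -/
noncomputable def B₀ : LinearMap.BilinForm F₀ (ι → F₀) :=
  LinearMap.mk₂ F₀
    (fun u v => (⟨f (emb F₀ P u) (emb F₀ P v), hr.val _ _ (emb_rat u) (emb_rat v)⟩ : F₀))
    (fun u u' v => Subtype.ext (by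
      show f (emb F₀ P (u + u')) (emb F₀ P v) = f (emb F₀ P u) (emb F₀ P v) + f (emb F₀ P u') (emb F₀ P v)
      rw [emb_add, hf.add_left]))
    (fun t u v => Subtype.ext (by
      show f (emb F₀ P (t • u)) (emb F₀ P v) = (t : F) * f (emb F₀ P u) (emb F₀ P v)
      rw [emb_smul, hf.smul_left]))
    (fun u v v' => Subtype.ext (by
      show f (emb F₀ P u) (emb F₀ P (v + v')) = f (emb F₀ P u) (emb F₀ P v) + f (emb F₀ P u) (emb F₀ P v')
      rw [emb_add, add_right f hf]))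
    (fun t u v => Subtype.ext (by
      show f (emb F₀ P u) (emb F₀ P (t • v)) = (t : F) * f (emb F₀ P u) (emb F₀ P v)
      rw [emb_smul, smul_right f hf, sfix f hf hr t.2]))

theorem B₀_apply (u v : ι → F₀) : ((B₀ f hf hr u v : F₀) : F) = f (emb F₀ P u) (emb F₀ P v) := rfl

/-- the rational quadratic form -/
noncomputable def Q₀ : QuadraticForm F₀ (ι → F₀) := (B₀ f hf hr).toQuadraticMap

theorem Q₀_apply (u : ι → F₀) : ((Q₀ f hf hr u : F₀) : F) = f (emb F₀ P u) (emb F₀ P u) := rfl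

theorem polar_apply (u v : ι → F₀) :
    ((QuadraticMap.polar ⇑(Q₀ f hf hr) u v : F₀) : F) = 2 * f (emb F₀ P u) (emb F₀ P v) := by
  unfold Q₀
  rw [LinearMap.BilinMap.polar_toQuadraticMap, Subfield.coe_add, B₀_apply, B₀_apply,
    symm f hf hr (emb_rat u) (emb_rat v)]
  ring

theorem polar_zero {u v : ι → F₀} :
    QuadraticMap.polar ⇑(Q₀ f hf hr) u v = 0 ↔ f (emb F₀ P u) (emb F₀ P v) = 0 := by
  rw [← Subtype.coe_inj, polar_apply, Subfield.coe_zero]
  constructor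
  · intro h
    exact (mul_eq_zero.mp h).resolve_left hr.two
  · intro h
    rw [h, mul_zero]

theorem Q₀_zero {u : ι → F₀} : Q₀ f hf hr u = 0 ↔ f (emb F₀ P u) (emb F₀ P u) = 0 := by
  rw [← Subtype.coe_inj, Q₀_apply, Subfield.coe_zero]

theorem hnd₀ : ∀ v, (∀ w, QuadraticMap.polar ⇑(Q₀ f hf hr) v w = 0) → v = 0 := by
  intro v hv
  apply emb_zero (P := P)
  apply ext_right f hf
  intro z
  rw [zero_right f hf]
  obtain ⟨a, b, ha, hb, rfl⟩ := hr.dec z
  obtain ⟨a₀, rfl⟩ := exists_emb ha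
  obtain ⟨b₀, rfl⟩ := exists_emb hb
  rw [hf.add_left, hf.smul_left, swap_zero f hf ((polar_zero f hf hr).mp (hv a₀)),
    swap_zero f hf ((polar_zero f hf hr).mp (hv b₀))]
  ring

theorem RP [Finite F] {k : ℕ} (d : Fin k → ι → F) (hd : ∀ i, Rat F₀ P (d i))
    (hk : k + 3 ≤ Fintype.card ι) :
    ∃ x, Rat F₀ P x ∧ x ≠ 0 ∧ f x x = 0 ∧ ∀ i, f (d i) x = 0 := by
  choose d₀ hd₀ using fun i => exists_emb (hd i)
  obtain ⟨z, hz0, hz, hzd⟩ := exists_sing_perp (Q₀ f hf hr) d₀ hk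
  refine ⟨emb F₀ P z, emb_rat z, fun h => hz0 (emb_zero h), (Q₀_zero f hf hr).mp hz, fun i => ?_⟩
  rw [hd₀ i]
  exact (polar_zero f hf hr).mp (hzd i)

theorem RI [Finite F] (hn : 11 ≤ Fintype.card ι) {c a b : ι → F} (hc : Rat F₀ P c)
    (ha : Rat F₀ P a) (hb : Rat F₀ P b) (hac : a ∉ Submodule.span F {c})
    (hbc : b ∉ Submodule.span F {c}) :
    ∃ y, Rat F₀ P y ∧ f y y = 0 ∧ f c y = 0 ∧ f a y ≠ 0 ∧ f b y ≠ 0 := by
  obtain ⟨c₀, rfl⟩ := exists_emb hc
  obtain ⟨a₀, rfl⟩ := exists_emb ha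
  obtain ⟨b₀, rfl⟩ := exists_emb hb
  have key : ∀ a₀ : ι → F₀, emb F₀ P a₀ ∉ Submodule.span F {emb F₀ P c₀} →
      a₀ ∉ Submodule.span F₀ (Set.range ![c₀]) := by
    intro a₀ h h'
    apply h
    rw [SLOrth.span_one] at h'
    obtain ⟨t, rfl⟩ := Submodule.mem_span_singleton.mp h'
    rw [emb_smul]
    exact Submodule.smul_mem _ _ (Submodule.mem_span_singleton_self _)
  obtain ⟨x, hx, hxc, hxa, hxb⟩ := SLOrth.exists_iso (Q₀ f hf hr) (hnd₀ f hf hr) ![c₀] (by omega)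
    a₀ b₀ (key a₀ hac) (key b₀ hbc)
  exact ⟨emb F₀ P x, emb_rat x, (Q₀_zero f hf hr).mp hx, (polar_zero f hf hr).mp (hxc 0),
    fun h => hxa ((polar_zero f hf hr).mpr h), fun h => hxb ((polar_zero f hf hr).mpr h)⟩

omit hf hr in
theorem ind_of {u₀ u : ι → F} (h0 : u₀ ≠ 0) (h : u ∉ Submodule.span F {u₀}) :
    ∀ s t : F, s • u₀ + t • u = 0 → s = 0 ∧ t = 0 := by
  intro s t e
  have ht : t = 0 := by
    by_contra ht
    apply h
    have : u = (-(s / t)) • u₀ := by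
      have h1 : t • u = (-s) • u₀ := by
        rw [neg_smul]
        exact eq_neg_of_add_eq_zero_right e
      calc u = t⁻¹ • (t • u) := by rw [smul_smul, inv_mul_cancel₀ ht, one_smul]
        _ = _ := by rw [h1, smul_smul]; congr 1; field_simp
    rw [this]
    exact Submodule.smul_mem _ _ (Submodule.mem_span_singleton_self _)
  rw [ht, zero_smul, add_zero] at e
  exact ⟨(smul_eq_zero.mp e).resolve_right h0, ht⟩

/-- comparison of multipliers -/
theorem mult (g : Matrix.GeneralLinearGroup ι F) {u₁ u₂ : ι → F}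
    (hind : ∀ s t : F, s • u₁ + t • u₂ = 0 → s = 0 ∧ t = 0) {l₁ l₂ l₃ : F} (h1 : l₁ ≠ 0)
    (h2 : l₂ ≠ 0) (h3 : l₃ ≠ 0) (r1 : Rat F₀ P (l₁ • ((g : Matrix ι ι F) *ᵥ u₁)))
    (r2 : Rat F₀ P (l₂ • ((g : Matrix ι ι F) *ᵥ u₂)))
    (r3 : Rat F₀ P (l₃ • ((g : Matrix ι ι F) *ᵥ (u₁ + u₂)))) :
    Rat F₀ P (l₁ • ((g : Matrix ι ι F) *ᵥ u₂)) := by
  obtain ⟨α₀, hα₀, α₁, hα₁, eα⟩ := hr.fdec (l₃ / l₁)
  obtain ⟨β₀, hβ₀, β₁, hβ₁, eβ⟩ := hr.fdec (l₃ / l₂)
  have e1 : (α₀ • (l₁ • ((g : Matrix ι ι F) *ᵥ u₁)) + β₀ • (l₂ • ((g : Matrix ι ι F) *ᵥ u₂)) -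
      l₃ • ((g : Matrix ι ι F) *ᵥ (u₁ + u₂))) +
      θ • (α₁ • (l₁ • ((g : Matrix ι ι F) *ᵥ u₁)) + β₁ • (l₂ • ((g : Matrix ι ι F) *ᵥ u₂))) = 0 := by
    have h4 : l₃ • ((g : Matrix ι ι F) *ᵥ (u₁ + u₂)) =
        (l₃ / l₁) • (l₁ • ((g : Matrix ι ι F) *ᵥ u₁)) + (l₃ / l₂) • (l₂ • ((g : Matrix ι ι F) *ᵥ u₂)) := by
      rw [smul_smul, smul_smul, div_mul_cancel₀ _ h1, div_mul_cancel₀ _ h2, mulVec_add, smul_add]
    rw [h4, eα, eβ]
    module
  have e2 := (decomp_unique θ (hθF f hf hr) (((r1.smul hα₀).add (r2.smul hβ₀)).sub r3)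
    ((r1.smul hα₁).add (r2.smul hβ₁)) e1).2
  have e3 : (g : Matrix ι ι F) *ᵥ ((α₁ * l₁) • u₁ + (β₁ * l₂) • u₂) = 0 := by
    rw [mulVec_add, mulVec_smul, mulVec_smul, ← smul_smul, ← smul_smul]
    exact e2
  have e4 : (α₁ * l₁) • u₁ + (β₁ * l₂) • u₂ = 0 := by
    rw [← inv_mulVec g ((α₁ * l₁) • u₁ + (β₁ * l₂) • u₂), e3, mulVec_zero]
  obtain ⟨z1, z2⟩ := hind _ _ e4
  have hα₁0 : α₁ = 0 := (mul_eq_zero.mp z1).resolve_right h1
  have hβ₁0 : β₁ = 0 := (mul_eq_zero.mp z2).resolve_right h2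
  rw [hα₁0, mul_zero, add_zero] at eα
  rw [hβ₁0, mul_zero, add_zero] at eβ
  have h6 : l₁ / l₂ = β₀ / α₀ := by
    rw [← eα, ← eβ]
    field_simp
  have h7 := r2.smul (F₀.div_mem hβ₀ hα₀)
  rwa [← h6, smul_smul, div_mul_cancel₀ _ h2] at h7

theorem sing_add {a b : ι → F} (ha : f a a = 0) (hb : f b b = 0) (hab : f a b = 0) :
    f (a + b) (a + b) = 0 := by
  rw [hf.add_left, add_right f hf, add_right f hf, ha, hb, hab, swap_zero f hf hab]
  ring

theorem exists_bad [Finite F] (hn : 11 ≤ Fintype.card ι) (g : Matrix.GeneralLinearGroup ι F)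
    (hg : g ∉ Cfsg.Geo.subfieldSubgroup F₀ P) :
    ∃ u, Rat F₀ P u ∧ f u u = 0 ∧ ∀ (μ : F) (a' : ι → F), Rat F₀ P a' →
      (g : Matrix ι ι F) *ᵥ u ≠ μ • a' := by
  by_contra hcon
  push Not at hcon
  apply hg
  have hinj : ∀ x : ι → F, (g : Matrix ι ι F) *ᵥ x = 0 → x = 0 := by
    intro x hx
    rw [← inv_mulVec g x, hx, mulVec_zero]
  have pt : ∀ u, Rat F₀ P u → f u u = 0 → u ≠ 0 →
      ∃ l : F, l ≠ 0 ∧ Rat F₀ P (l • ((g : Matrix ι ι F) *ᵥ u)) := by
    intro u hu huu hu0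
    obtain ⟨μ, a', ha', e⟩ := hcon u hu huu
    have hμ : μ ≠ 0 := by
      rintro rfl
      rw [zero_smul] at e
      exact hu0 (hinj u e)
    refine ⟨μ⁻¹, inv_ne_zero hμ, ?_⟩
    rw [e, smul_smul, inv_mul_cancel₀ hμ, one_smul]
    exact ha'
  obtain ⟨u₀, hu₀, hu₀0, hu₀s, _⟩ := RP f hf hr (![] : Fin 0 → ι → F) (fun i => i.elim0) (by omega)
  obtain ⟨l₀, hl₀, hr₀⟩ := pt u₀ hu₀ hu₀s hu₀0
  have step : ∀ u₁ u₂, Rat F₀ P u₁ → Rat F₀ P u₂ → f u₁ u₁ = 0 → f u₂ u₂ = 0 → f u₁ u₂ = 0 →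
      u₁ ≠ 0 → u₂ ∉ Submodule.span F {u₁} → Rat F₀ P (l₀ • ((g : Matrix ι ι F) *ᵥ u₁)) →
      Rat F₀ P (l₀ • ((g : Matrix ι ι F) *ᵥ u₂)) := by
    intro u₁ u₂ h1 h2 s1 s2 h12 h10 hns r1
    have hind := ind_of h10 hns
    have h20 : u₂ ≠ 0 := by
      rintro rfl
      exact hns (Submodule.zero_mem _)
    have h30 : u₁ + u₂ ≠ 0 := by
      intro h
      have := hind 1 1 (by rw [one_smul, one_smul]; exact h)
      exact one_ne_zero this.1
    obtain ⟨l₂, hl₂, r2⟩ := pt u₂ h2 s2 h20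
    obtain ⟨l₃, hl₃, r3⟩ := pt (u₁ + u₂) (h1.add h2) (sing_add f hf hr s1 s2 h12) h30
    exact mult f hf hr g hind hl₀ hl₂ hl₃ r1 r2 r3
  have sing : ∀ u, Rat F₀ P u → f u u = 0 → Rat F₀ P (l₀ • ((g : Matrix ι ι F) *ᵥ u)) := by
    intro u hu hus
    by_cases hsp : u ∈ Submodule.span F {u₀}
    · obtain ⟨t, rfl⟩ := Submodule.mem_span_singleton.mp hsp
      have ht := SUSymp.scalar_mem hu₀ hu₀0 hu
      have := hr₀.smul ht
      rwa [smul_comm, ← mulVec_smul] at this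
    by_cases c : f u₀ u = 0
    · exact step u₀ u hu₀ hu hu₀s hus c hu₀0 hsp hr₀
    · obtain ⟨u₃, hu₃, hu₃0, hu₃s, hp⟩ := RP f hf hr ![u₀, u] (by
        intro i
        fin_cases i
        · exact hu₀
        · exact hu) (by omega)
      have p0 : f u₀ u₃ = 0 := hp 0
      have p1 : f u u₃ = 0 := hp 1
      have r3 := step u₀ u₃ hu₀ hu₃ hu₀s hu₃s p0 hu₀0 (by
        intro h
        obtain ⟨t, rfl⟩ := Submodule.mem_span_singleton.mp h
        rw [smul_right f hf] at p1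
        rcases mul_eq_zero.mp p1 with h1 | h1
        · apply hu₃0
          have : t = 0 := by simpa using h1
          rw [this, zero_smul]
        · exact c (swap_zero f hf h1)) hr₀
      exact step u₃ u hu₃ hu hu₃s hus (swap_zero f hf p1) hu₃0 (by
        intro h
        obtain ⟨t, rfl⟩ := Submodule.mem_span_singleton.mp h
        apply c
        rw [smul_right f hf, p0, mul_zero]) r3
  apply mem_of_maps g l₀ hl₀
  intro v hv
  by_cases hv0 : v = 0
  · rw [hv0, mulVec_zero, smul_zero]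
    exact Rat.zero
  obtain ⟨y, hy, hys, _, hvy, _⟩ := RI f hf hr hn (Rat.zero (F₀ := F₀) (P := P)) hv hv
    (by simpa using hv0) (by simpa using hv0)
  have hvyF := hr.val v y hv hy
  have hvvF := hr.val v v hv hv
  have htF : -(f v v) / (2 * f v y) ∈ F₀ :=
    F₀.div_mem (F₀.neg_mem hvvF) (F₀.mul_mem (by
      have := F₀.add_mem F₀.one_mem F₀.one_mem
      rwa [one_add_one_eq_two] at this) hvyF)
  have hs : f (v + (-(f v v) / (2 * f v y)) • y) (v + (-(f v v) / (2 * f v y)) • y) = 0 := by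
    rw [hf.add_left, add_right f hf, add_right f hf, hf.smul_left, hf.smul_left, smul_right f hf,
      smul_right f hf, hys, symm f hf hr hv hy, sfix f hf hr htF]
    have := hr.two
    field_simp
    ring
  have h1 := sing _ (hv.add (hy.smul htF)) hs
  have h2 := (sing y hy hys).smul htF
  have h3 := h1.sub h2
  have e : l₀ • ((g : Matrix ι ι F) *ᵥ (v + (-(f v v) / (2 * f v y)) • y)) -
      (-(f v v) / (2 * f v y)) • (l₀ • ((g : Matrix ι ι F) *ᵥ y)) =
      l₀ • ((g : Matrix ι ι F) *ᵥ v) := by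
    rw [mulVec_add, mulVec_smul]
    module
  rwa [e] at h3

variable {H : Subgroup (Matrix.GeneralLinearGroup ι F)}

theorem mv (hS : ∀ a b, Rat F₀ P a → Rat F₀ P b → f a a = 0 → f b b = 0 → f a b = 0 →
      ∀ k, ActS f k a b → k ∈ H) {z a b : ι → F} (hz : InX σ f H z) (ha : Rat F₀ P a)
    (hb : Rat F₀ P b) (sa : f a a = 0) (sb : f b b = 0) (sab : f a b = 0) :
    InX σ f H (z + f z b • a - f z a • b) := by
  obtain ⟨k, act, iso, _⟩ := exists_S f hf a b sa sb sab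
  have := InX_img f hz (hS a b ha hb sa sb sab k act) iso
  rwa [act] at this

theorem E1 [Finite F] (hn : 11 ≤ Fintype.card ι)
    (hS : ∀ a b, Rat F₀ P a → Rat F₀ P b → f a a = 0 → f b b = 0 → f a b = 0 →
      ∀ k, ActS f k a b → k ∈ H) {x₀ x : ι → F} (hx₀ : Rat F₀ P x₀) (hx : Rat F₀ P x)
    (s0 : f x₀ x₀ = 0) (s1 : f x x = 0) (h01 : f x₀ x = 0) (n1 : x₀ ∉ Submodule.span F {x})
    (n2 : x ∉ Submodule.span F {x₀}) (hX : InX σ f H x₀) : InX σ f H x := by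
  obtain ⟨b, hb, hbs, hxb, hx₀b, _⟩ := RI f hf hr hn hx hx₀ hx₀ n1 n1
  obtain ⟨b', hb', hbs', hxb', hx₀b', _⟩ := RI f hf hr hn hx₀ hx hx n2 n2
  have hβ := F₀.inv_mem (hr.val _ _ hx₀ hb)
  have hγ := F₀.neg_mem (F₀.inv_mem (hr.val _ _ hx hb'))
  have h1 := mv f hf hr hS hX hx (hb.smul hβ) s1
    (by rw [hf.smul_left, smul_right f hf, hbs]; ring) (by rw [smul_right f hf, hxb, mul_zero])
  rw [smul_right f hf, sfix f hf hr hβ, inv_mul_cancel₀ hx₀b, h01, one_smul, zero_smul,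
    sub_zero] at h1
  have h2 := mv f hf hr hS h1 hx₀ (hb'.smul hγ) s0
    (by rw [hf.smul_left, smul_right f hf, hbs']; ring) (by rw [smul_right f hf, hxb', mul_zero])
  rw [smul_right f hf, sfix f hf hr hγ, hf.add_left, hf.add_left, hxb', s0, swap_zero f hf h01,
    zero_add, zero_add, neg_mul, inv_mul_cancel₀ hx₀b', zero_smul, sub_zero] at h2
  have e : x₀ + x + (-1 : F) • x₀ = x := by module
  rwa [e] at h2

theorem E2 [Finite F] (hn : 11 ≤ Fintype.card ι)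
    (hS : ∀ a b, Rat F₀ P a → Rat F₀ P b → f a a = 0 → f b b = 0 → f a b = 0 →
      ∀ k, ActS f k a b → k ∈ H) {x₀ : ι → F} (hx₀ : Rat F₀ P x₀) (hx₀0 : x₀ ≠ 0)
    (s0 : f x₀ x₀ = 0) (hX : InX σ f H x₀) :
    ∀ x, Rat F₀ P x → f x x = 0 → InX σ f H x := by
  intro x hx s1
  by_cases hsp : x ∈ Submodule.span F {x₀}
  · obtain ⟨t, rfl⟩ := Submodule.mem_span_singleton.mp hsp
    exact InX_smul f hf hX t
  have flip : ∀ {p r : ι → F}, p ≠ 0 → r ∉ Submodule.span F {p} → p ∉ Submodule.span F {r} := by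
    intro p r hp hrp h
    obtain ⟨t, rfl⟩ := Submodule.mem_span_singleton.mp h
    have ht : t ≠ 0 := by
      rintro rfl
      exact hp (zero_smul _ _)
    apply hrp
    have h1 : t⁻¹ • (t • r) ∈ Submodule.span F {t • r} :=
      Submodule.smul_mem _ _ (Submodule.mem_span_singleton_self _)
    rwa [smul_smul, inv_mul_cancel₀ ht, one_smul] at h1
  by_cases c : f x₀ x = 0
  · exact E1 f hf hr hn hS hx₀ hx s0 s1 c (flip hx₀0 hsp) hsp hX
  · obtain ⟨u₃, hu₃, hu₃0, hu₃s, hp⟩ := RP f hf hr ![x₀, x] (by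
      intro i
      fin_cases i
      · exact hx₀
      · exact hx) (by omega)
    have p0 : f x₀ u₃ = 0 := hp 0
    have p1 : f x u₃ = 0 := hp 1
    have n3 : u₃ ∉ Submodule.span F {x₀} := by
      intro h
      obtain ⟨t, rfl⟩ := Submodule.mem_span_singleton.mp h
      rw [smul_right f hf] at p1
      rcases mul_eq_zero.mp p1 with h1 | h1
      · apply hu₃0
        have : t = 0 := by simpa using h1
        rw [this, zero_smul]
      · exact c (swap_zero f hf h1)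
    have n4 : x ∉ Submodule.span F {u₃} := by
      intro h
      obtain ⟨t, rfl⟩ := Submodule.mem_span_singleton.mp h
      apply c
      rw [smul_right f hf, p0, mul_zero]
    have r3 := E1 f hf hr hn hS hx₀ hu₃ s0 hu₃s p0 (flip hx₀0 n3) n3 hX
    exact E1 f hf hr hn hS hu₃ hx hu₃s s1 (swap_zero f hf p1) (flip hu₃0 n4) n4 r3

theorem F1 (hX : ∀ x, Rat F₀ P x → f x x = 0 → InX σ f H x) {a b : ι → F} (ha : Rat F₀ P a)
    (hb : Rat F₀ P b) (sa : f a a = 0) (sb : f b b = 0) (hab : f a b ≠ 0) :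
    InX σ f H (a + θ • b) := by
  have hc : σ (θ / f a b) = -(θ / f a b) := by
    rw [map_div₀, hr.hθ, sfix f hf hr (hr.val _ _ ha hb)]
    ring
  have := InX_move f hf (hX a ha sa) (hX b hb sb) sb _ hc
  rwa [div_mul_cancel₀ _ hab] at this

theorem F2 [Finite F] (hn : 11 ≤ Fintype.card ι)
    (hX : ∀ x, Rat F₀ P x → f x x = 0 → InX σ f H x) {a b : ι → F} (ha : Rat F₀ P a)
    (hb : Rat F₀ P b) (sa : f a a = 0) (sb : f b b = 0) : InX σ f H (a + θ • b) := by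
  by_cases hab : f a b = 0
  · by_cases hsp : a ∈ Submodule.span F {b}
    · obtain ⟨t, rfl⟩ := Submodule.mem_span_singleton.mp hsp
      have := InX_smul f hf (hX b hb sb) (t + θ)
      rwa [add_smul] at this
    obtain ⟨y, hy, hys, hby, hay, _⟩ := RI f hf hr hn hb ha ha hsp hsp
    have s2 : f (b + y) (b + y) = 0 := sing_add f hf hr sb hys hby
    have h1 := F1 f hf hr hX ha (hb.add hy) sa s2 (by
      rw [add_right f hf, hab, zero_add]; exact hay)
    have hc : σ (-(θ / f a y)) = -(-(θ / f a y)) := by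
      rw [map_neg, map_div₀, hr.hθ, sfix f hf hr (hr.val _ _ ha hy)]
      ring
    have h2 := InX_move f hf h1 (hX y hy hys) hys _ hc
    rw [hf.add_left, hf.smul_left, hf.add_left, hby, hys, add_zero, mul_zero, add_zero, neg_mul,
      div_mul_cancel₀ _ hay] at h2
    have e : a + θ • (b + y) + -θ • y = a + θ • b := by module
    rwa [e] at h2
  · exact F1 f hf hr hX ha hb sa sb hab

theorem F3 [Finite F] (hn : 11 ≤ Fintype.card ι)
    (hX : ∀ x, Rat F₀ P x → f x x = 0 → InX σ f H x) : ∀ v, f v v = 0 → InX σ f H v := by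
  intro v hv
  obtain ⟨a, b, ha, hb, rfl⟩ := hr.dec v
  have hθ2 : θ * θ ∈ F₀ := by
    rw [hr.fix, map_mul, hr.hθ]
    ring
  have h2F : (2 : F) ∈ F₀ := by
    have := F₀.add_mem F₀.one_mem F₀.one_mem
    rwa [one_add_one_eq_two] at this
  have e0 : f a a = θ * θ * f b b := by
    rw [hf.add_left, add_right f hf, add_right f hf, hf.smul_left, hf.smul_left, smul_right f hf,
      smul_right f hf, hr.hθ, symm f hf hr ha hb] at hv
    linear_combination hv
  by_cases sb : f b b = 0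
  · exact F2 f hf hr hn hX ha hb (by rw [e0, sb, mul_zero]) sb
  have hb0 : b ≠ 0 := by
    rintro rfl
    exact sb (zero_left f hf _)
  have ha0 : a ≠ 0 := by
    rintro rfl
    rw [zero_left f hf] at e0
    rcases mul_eq_zero.mp e0.symm with h | h
    · exact hr.hθ0 (mul_self_eq_zero.mp h)
    · exact sb h
  obtain ⟨y, hy, hys, _, hay, hby⟩ := RI f hf hr hn (Rat.zero (F₀ := F₀) (P := P)) ha hb
    (by simpa using ha0) (by simpa using hb0)
  have hayF := hr.val _ _ ha hy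
  have hbyF := hr.val _ _ hb hy
  have hbbF := hr.val _ _ hb hb
  obtain ⟨t, ht⟩ : ∃ t, t = -(f b b) / (2 * f b y * f a y) := ⟨_, rfl⟩
  have htF : t ∈ F₀ := by
    rw [ht]
    exact F₀.div_mem (F₀.neg_mem hbbF) (F₀.mul_mem (F₀.mul_mem h2F hbyF) hayF)
  have hs1 : θ * θ * t * f b y ∈ F₀ := F₀.mul_mem (F₀.mul_mem hθ2 htF) hbyF
  have hs2 : t * f a y ∈ F₀ := F₀.mul_mem htF hayF
  have ra : Rat F₀ P (a + (θ * θ * t * f b y) • y) := ha.add (hy.smul hs1)
  have rb : Rat F₀ P (b + (t * f a y) • y) := hb.add (hy.smul hs2)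
  have sa' : f (a + (θ * θ * t * f b y) • y) (a + (θ * θ * t * f b y) • y) = 0 := by
    rw [hf.add_left, add_right f hf, add_right f hf, hf.smul_left, hf.smul_left, smul_right f hf,
      smul_right f hf, hys, symm f hf hr ha hy, sfix f hf hr hs1, e0, ht]
    have := hr.two
    field_simp
    ring
  have sb' : f (b + (t * f a y) • y) (b + (t * f a y) • y) = 0 := by
    rw [hf.add_left, add_right f hf, add_right f hf, hf.smul_left, hf.smul_left, smul_right f hf,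
      smul_right f hf, hys, symm f hf hr hb hy, sfix f hf hr hs2, ht]
    have := hr.two
    field_simp
    ring
  have h1 := F2 f hf hr hn hX ra rb sa' sb'
  have hc : σ (-(θ * t)) = -(-(θ * t)) := by
    rw [map_neg, map_mul, hr.hθ, sfix f hf hr htF]
    ring
  have h2 := InX_move f hf h1 (hX y hy hys) hys _ hc
  have e : a + (θ * θ * t * f b y) • y + θ • (b + (t * f a y) • y) +
      (-(θ * t) * f (a + (θ * θ * t * f b y) • y + θ • (b + (t * f a y) • y)) y) • y =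
      a + θ • b := by
    rw [hf.add_left, hf.add_left, hf.smul_left, hf.smul_left, hf.add_left, hf.smul_left, hys]
    module
  rwa [e] at h2

theorem first [Finite F] (hn : 13 ≤ Fintype.card ι)
    (hS : ∀ a b, Rat F₀ P a → Rat F₀ P b → f a a = 0 → f b b = 0 → f a b = 0 →
      ∀ k, ActS f k a b → k ∈ H) (g : Matrix.GeneralLinearGroup ι F) (hgH : g ∈ H)
    (hgI : Iso f g) (hgA : g ∉ Cfsg.Geo.subfieldSubgroup F₀ P) :
    ∃ x, Rat F₀ P x ∧ x ≠ 0 ∧ f x x = 0 ∧ InX σ f H x := by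
  obtain ⟨u', hu', hu's, hbad⟩ := exists_bad f hf hr (by omega) g hgA
  obtain ⟨w, hw⟩ : ∃ w, w = (g : Matrix ι ι F) *ᵥ u' := ⟨_, rfl⟩
  rw [← hw] at hbad
  obtain ⟨w₀, w₁, hw₀, hw₁, ew⟩ := hr.dec w
  obtain ⟨u, hu, hu0, hus, hup⟩ := RP f hf hr ![w₀, w₁] (by
    intro i
    fin_cases i
    · exact hw₀
    · exact hw₁) (by omega)
  have uw0 : f w₀ u = 0 := hup 0
  have uw1 : f w₁ u = 0 := hup 1
  have hwu : f w u = 0 := by
    rw [ew, hf.add_left, hf.smul_left, uw0, uw1]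
    ring
  obtain ⟨r, hrr⟩ : ∃ r, r = ((g⁻¹ : Matrix.GeneralLinearGroup ι F) : Matrix ι ι F) *ᵥ u :=
    ⟨_, rfl⟩
  have hgr : (g : Matrix ι ι F) *ᵥ r = u := by rw [hrr, mul_inv_mulVec]
  obtain ⟨r₀, r₁, hr₀, hr₁, er⟩ := hr.dec r
  have hex : r₀ ∉ Submodule.span F {u'} ∨ r₁ ∉ Submodule.span F {u'} := by
    by_contra hc
    push Not at hc
    obtain ⟨s, hs⟩ := Submodule.mem_span_singleton.mp hc.1
    obtain ⟨t, ht⟩ := Submodule.mem_span_singleton.mp hc.2
    have e1 : u = (s + θ * t) • w := by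
      rw [← hgr, er, ← hs, ← ht, hw, mulVec_add, mulVec_smul, mulVec_smul, mulVec_smul]
      module
    have hne : s + θ * t ≠ 0 := by
      intro h
      rw [h, zero_smul] at e1
      exact hu0 e1
    exact hbad (s + θ * t)⁻¹ u hu (by rw [e1, smul_smul, inv_mul_cancel₀ hne, one_smul])
  obtain ⟨a, ha, has, hu'a, hra⟩ : ∃ a, Rat F₀ P a ∧ f a a = 0 ∧ f u' a = 0 ∧ f r a ≠ 0 := by
    rcases hex with h | h
    · obtain ⟨a, ha, has, h1, h2, _⟩ := RI f hf hr (by omega) hu' hr₀ hr₀ h h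
      refine ⟨a, ha, has, h1, fun h0 => ?_⟩
      rw [er, hf.add_left, hf.smul_left] at h0
      exact h2 (SUSymp.two_zero (hθF f hf hr) (hr.val _ _ hr₀ ha) (hr.val _ _ hr₁ ha) h0).1
    · obtain ⟨a, ha, has, h1, h2, _⟩ := RI f hf hr (by omega) hu' hr₁ hr₁ h h
      refine ⟨a, ha, has, h1, fun h0 => ?_⟩
      rw [er, hf.add_left, hf.smul_left] at h0
      exact h2 (SUSymp.two_zero (hθF f hf hr) (hr.val _ _ hr₀ ha) (hr.val _ _ hr₁ ha) h0).2
  obtain ⟨y, hy⟩ : ∃ y, y = (g : Matrix ι ι F) *ᵥ a := ⟨_, rfl⟩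
  have hyu : f y u ≠ 0 := by
    rw [hy, ← hgr, hgI]
    exact swap_ne f hf hra
  have hσα : σ (f y u) ≠ 0 := by simpa using hyu
  obtain ⟨v₀, v₁, hv₀, hv₁, ev⟩ := hr.dec (σ (f y u) • w)
  have hv₁0 : v₁ ≠ 0 := by
    rintro rfl
    rw [smul_zero, add_zero] at ev
    exact hbad (σ (f y u))⁻¹ v₀ hv₀ (by rw [← ev, smul_smul, inv_mul_cancel₀ hσα, one_smul])
  obtain ⟨b, hb, hbs, _, hvb, _⟩ := RI f hf hr (by omega) (Rat.zero (F₀ := F₀) (P := P)) hv₁ hv₁
    (by simpa using hv₁0) (by simpa using hv₁0)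
  obtain ⟨y₀, y₁, hy₀, hy₁, ey⟩ := hr.dec y
  obtain ⟨x, hx, hx0, hxs, hxp⟩ := RP f hf hr ![y₀, y₁, w₀, w₁, u, b] (by
    intro i
    fin_cases i
    · exact hy₀
    · exact hy₁
    · exact hw₀
    · exact hw₁
    · exact hu
    · exact hb) (by omega)
  have q0 : f y₀ x = 0 := hxp 0
  have q1 : f y₁ x = 0 := hxp 1
  have q2 : f w₀ x = 0 := hxp 2
  have q3 : f w₁ x = 0 := hxp 3
  have hux : f u x = 0 := hxp 4
  have hbx : f b x = 0 := hxp 5
  have hyx : f y x = 0 := by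
    rw [ey, hf.add_left, hf.smul_left, q0, q1]
    ring
  have hwx : f w x = 0 := by
    rw [ew, hf.add_left, hf.smul_left, q2, q3]
    ring
  have hxu := swap_zero f hf hux
  have hxb := swap_zero f hf hbx
  have hxy := swap_zero f hf hyx
  have hxw := swap_zero f hf hwx
  have huw := swap_zero f hf hwu
  have hww : f w w = 0 := by rw [hw, hgI]; exact hu's
  have hyy : f y y = 0 := by rw [hy, hgI]; exact has
  have hwy : f w y = 0 := by rw [hy, hw, hgI]; exact hu'a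
  have hyw := swap_zero f hf hwy
  have huy : f u y = σ (f y u) := hf.herm u y
  obtain ⟨E, aE, _, _⟩ := exists_S f hf x u hxs hus hxu
  have hE : E ∈ H := hS x u hx hu hxs hus hxu E aE
  obtain ⟨E₀, aE₀, _, _⟩ := exists_S f hf a u' has hu's (swap_zero f hf hu'a)
  have hE₀ : E₀ ∈ H := hS a u' ha hu' has hu's (swap_zero f hf hu'a) E₀ aE₀
  obtain ⟨E', hE'e⟩ : ∃ E', E' = g * E₀ * g⁻¹ := ⟨_, rfl⟩
  have aE' : ActS f E' y w := by
    have := aE₀.conj f hgI
    rwa [← hy, ← hw, ← hE'e] at this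
  have hE' : E' ∈ H := by
    rw [hE'e]
    exact H.mul_mem (H.mul_mem hgH hE₀) (H.inv_mem hgH)
  have hxw'' : f x (σ (f y u) • w) = 0 := by rw [smul_right f hf, hxw, mul_zero]
  obtain ⟨K, aK, _, _⟩ := exists_S f hf x (σ (f y u) • w) hxs
    (by rw [hf.smul_left, smul_right f hf, hww]; ring) hxw''
  have eK : E * E' = K * E' * E := by
    apply gl_ext
    intro z
    rw [Units.val_mul, Units.val_mul, Units.val_mul, ← mulVec_mulVec, ← mulVec_mulVec,
      ← mulVec_mulVec, aE', aE, aE, aE', aK]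
    simp only [sub_eq_add_neg, hf.add_left, neg_left f hf, hf.smul_left, smul_right f hf,
      hf.involutive, hxs, hus, hxu, hux, hxy, hyx, hxw, hwx, huw, hwu, hyy, hyw, hwy, hww, huy]
    module
  have hK : K ∈ H := by
    have : K = E * E' * (E' * E)⁻¹ := by
      rw [eK]
      group
    rw [this]
    exact H.mul_mem (H.mul_mem hE hE') (H.inv_mem (H.mul_mem hE' hE))
  refine ⟨x, hx, hx0, hxs, ?_⟩
  intro c k hc hk
  obtain ⟨t, ht⟩ : ∃ t, t = c / (-(2 * θ * f v₁ b)) := ⟨_, rfl⟩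
  have htF : t ∈ F₀ := by
    rw [hr.fix, ht, map_div₀, map_neg, map_mul, map_mul, map_ofNat, hc, hr.hθ,
      sfix f hf hr (hr.val _ _ hv₁ hb)]
    have h2 := hr.two
    have h3 := hr.hθ0
    field_simp
  have hxtb : f x (t • b) = 0 := by rw [smul_right f hf, hxb, mul_zero]
  have htbs : f (t • b) (t • b) = 0 := by rw [hf.smul_left, smul_right f hf, hbs]; ring
  obtain ⟨kY, aY, _, _⟩ := exists_S f hf x (t • b) hxs htbs hxtb
  have hkY := hS x (t • b) hx (hb.smul htF) hxs htbs hxtb kY aY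
  apply heis f hf hxs hxw'' hxtb aK aY hK hkY k
  have e : f (t • b) (σ (f y u) • w) - f (σ (f y u) • w) (t • b) = c := by
    rw [ev, hf.smul_left, smul_right f hf, add_right f hf, smul_right f hf, hf.add_left,
      hf.smul_left, hr.hθ, sfix f hf hr htF, symm f hf hr hv₀ hb, symm f hf hr hv₁ hb, ht]
    have h2 := hr.two
    have h3 := hr.hθ0
    field_simp
    ring
  rw [e]
  exact hk

theorem orth_max [Finite F] (hn : 13 ≤ Fintype.card ι)
    (G : Subgroup (Matrix.GeneralLinearGroup ι F)) (hG : ∀ g, g ∈ G ↔ Iso f g) :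
    Cfsg.Geo.IsMaximalIn (G ⊓ Cfsg.Geo.specialLinear ι F)
      (Cfsg.Geo.subfieldSubgroup F₀ P ⊓ (G ⊓ Cfsg.Geo.specialLinear ι F)) := by
  apply max_of f hf (by omega) G _ hG
  · obtain ⟨x, hx, hx0, hxs, _⟩ := RP f hf hr (![] : Fin 0 → ι → F) (fun i => i.elim0) (by omega)
    obtain ⟨t, ht, act, iso⟩ := exists_ut f hf x hxs θ hr.hθ
    refine ⟨t, ⟨(hG t).mpr iso, ht.2⟩, fun htA => ?_⟩
    obtain ⟨l, hl0, hl⟩ := maps_of_mem t htA
    have hlF : l ∈ F₀ := by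
      apply SUSymp.scalar_mem hx hx0
      have h1 := hl x hx
      rwa [act, hxs, mul_zero, zero_smul, add_zero] at h1
    obtain ⟨p, hp, _, _, hxp, _⟩ := RI f hf hr (by omega) (Rat.zero (F₀ := F₀) (P := P)) hx hx
      (by simpa using hx0) (by simpa using hx0)
    have h1 : Rat F₀ P ((t : Matrix ι ι F) *ᵥ p) := by
      have := (hl p hp).smul (F₀.inv_mem hlF)
      rwa [smul_smul, inv_mul_cancel₀ hl0, one_smul] at this
    rw [act] at h1
    have h2 := h1.sub hp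
    rw [add_sub_cancel_left] at h2
    have h3 := SUSymp.scalar_mem hx hx0 h2
    have h4 := F₀.mul_mem h3 (F₀.inv_mem (hr.val _ _ hp hx))
    rw [mul_assoc, mul_inv_cancel₀ (swap_ne f hf hxp), mul_one] at h4
    exact hθF f hf hr h4
  · intro H hH1 hH2 ⟨g, hgH, hgA⟩
    have hS : ∀ a b, Rat F₀ P a → Rat F₀ P b → f a a = 0 → f b b = 0 → f a b = 0 →
        ∀ k, ActS f k a b → k ∈ H := by
      intro a b ha hb sa sb sab k hk
      apply hH1
      obtain ⟨t, act, iso, hsl⟩ := exists_S f hf a b sa sb sab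
      have hkt : k = t := gl_ext (fun z => by rw [hk, act])
      refine ⟨?_, ?_, ?_⟩
      · apply mem_of_maps k 1 one_ne_zero
        intro v hv
        rw [one_smul, hk]
        exact (hv.add (ha.smul (hr.val _ _ hv hb))).sub (hb.smul (hr.val _ _ hv ha))
      · rw [hkt]; exact (hG t).mpr iso
      · rw [hkt]; exact hsl
    have hgI : Iso f g := (hG g).mp (hH2 hgH).1
    obtain ⟨x, hx, hx0, hxs, hxX⟩ := first f hf hr hn hS g hgH hgI hgA
    exact F3 f hf hr (by omega) (E2 f hf hr (by omega) hS hx hx0 hxs hxX)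

end Cfsg.Agent.Lib.Helper5.SUOrth
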