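import Mathlib
import Cfsg.Prelude.Def_GeometricClasses
import Cfsg.Agent.Lib.Helper5.SUPair

set_option autoImplicit false
set_option linter.unusedSectionVars false

namespace Cfsg.Agent.Lib.Helper5.SUPar

open Matrix Cfsg.Agent.Lib.Helper5.SLMax Cfsg.Agent.Lib.Helper5.SLUni
  Cfsg.Agent.Lib.Helper5.SUGen Cfsg.Agent.Lib.Helper5.SUPair

variable {F : Type*} [Field F] {ι : Type} [Fintype ι] [DecidableEq ι]
variable {σ : F ≃+* F} (f : (ι → F) → (ι → F) → F) (hf : Cfsg.Geo.IsUnitaryForm σ f)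

include hf

theorem exists_iso2 [Finite F] (hn : 13 ≤ Fintype.card ι) (x y a : ι → F)
    (ha : a ∉ Submodule.span F {x, y}) :
    ∃ z, f z z = 0 ∧ f x z = 0 ∧ f y z = 0 ∧ f a z ≠ 0 := by
  obtain ⟨w, hw, hwa⟩ := exists_orth_ne f hf _ a ha
  have hxw : f x w = 0 := hw x (Submodule.subset_span (by simp))
  have hyw : f y w = 0 := hw y (Submodule.subset_span (by simp))
  obtain ⟨z', hz', hzz⟩ := exists_val f hf ![x, y, a, w] (by omega) (-(f w w))
    (by rw [map_neg, self_fixed f hf])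
  have e0 : f x z' = 0 := hz' 0
  have e1 : f y z' = 0 := hz' 1
  have e2 : f a z' = 0 := hz' 2
  have e3 : f w z' = 0 := hz' 3
  refine ⟨w + z', ?_, ?_, ?_, ?_⟩
  · rw [hf.add_left, add_right f hf, add_right f hf, e3, swap_zero f hf e3, hzz]
    ring
  · rw [add_right f hf, hxw, e0, add_zero]
  · rw [add_right f hf, hyw, e1, add_zero]
  · rw [add_right f hf, hwa, e2, add_zero]
    exact one_ne_zero

variable (W : Submodule F (ι → F)) (hW : ∀ u ∈ W, ∀ v ∈ W, f u v = 0)
variable {H : Subgroup (Matrix.GeneralLinearGroup ι F)}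

include hW

theorem P1 (hS : ∀ a ∈ W, ∀ b, f b b = 0 → f a b = 0 → ∀ k, ActS f k a b → k ∈ H)
    {x y a : ι → F} (hx : InX σ f H x) (ha : a ∈ W) (hxx : f x x = 0) (hyy : f y y = 0)
    (hxy : f x y = 0) (hxa : f x a ≠ 0) (hya : f y a ≠ 0) : InX σ f H y := by
  have hyx := swap_zero f hf hxy
  have hbb : f ((f x a)⁻¹ • x - (f y a)⁻¹ • y) ((f x a)⁻¹ • x - (f y a)⁻¹ • y) = 0 := by
    simp only [sub_eq_add_neg, hf.add_left, add_right f hf, neg_left f hf, neg_right f hf,
      hf.smul_left, smul_right f hf, hxx, hyy, hxy, hyx]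
    ring
  have hba : f ((f x a)⁻¹ • x - (f y a)⁻¹ • y) a = 0 := by
    rw [sub_eq_add_neg, hf.add_left, neg_left f hf, hf.smul_left, hf.smul_left,
      inv_mul_cancel₀ hxa, inv_mul_cancel₀ hya]
    ring
  have hab := swap_zero f hf hba
  obtain ⟨k, act, iso, _⟩ := exists_S f hf a _ (hW a ha a ha) hbb hab
  have h1 := InX_img f hx (hS a ha _ hbb hab k act) iso
  have e : (k : Matrix ι ι F) *ᵥ x = (f x a / f y a) • y := by
    rw [act]
    have h2 : f x ((f x a)⁻¹ • x - (f y a)⁻¹ • y) = 0 := by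
      rw [sub_eq_add_neg, add_right f hf, neg_right f hf, smul_right f hf, smul_right f hf, hxx,
        hxy]
      ring
    rw [h2, zero_smul, add_zero, smul_sub, smul_smul, smul_smul, mul_inv_cancel₀ hxa, one_smul,
      sub_sub_cancel, div_eq_mul_inv]
  rw [e] at h1
  have h3 := InX_smul f hf h1 (f y a / f x a)
  rwa [smul_smul, div_mul_div_comm, mul_comm (f y a), div_self (mul_ne_zero hxa hya),
    one_smul] at h3

theorem par_max [Finite F] (hn : 13 ≤ Fintype.card ι)
    (G : Subgroup (Matrix.GeneralLinearGroup ι F)) (hG : ∀ g, g ∈ G ↔ Iso f g) (hW0 : W ≠ ⊥) :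
    Cfsg.Geo.IsMaximalIn (G ⊓ Cfsg.Geo.specialLinear ι F)
      (Cfsg.Geo.subspaceStabilizer W ⊓ (G ⊓ Cfsg.Geo.specialLinear ι F)) := by
  obtain ⟨w₁, hw₁, hw₁0⟩ := Submodule.exists_mem_ne_zero_of_ne_bot hW0
  apply max_of f hf (by omega) G _ hG
  · obtain ⟨x, hxx, _, hwx, _⟩ := exists_iso f hf hn 0 w₁ w₁ (by simpa using hw₁0)
      (by simpa using hw₁0)
    obtain ⟨c, hc0, hc⟩ := exists_skew σ hf.involutive hf.ne_refl
    obtain ⟨t, ht, act, iso⟩ := exists_ut f hf x hxx c hc
    refine ⟨t, ⟨(hG t).mpr iso, ht.2⟩, fun htA => ?_⟩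
    have h1 := maps_of_mem_stab t W htA w₁ hw₁
    rw [act] at h1
    have h2 := W.sub_mem h1 hw₁
    rw [add_sub_cancel_left] at h2
    have h3 := W.smul_mem (c * f w₁ x)⁻¹ h2
    rw [smul_smul, inv_mul_cancel₀ (mul_ne_zero hc0 hwx), one_smul] at h3
    exact hwx (hW w₁ hw₁ x h3)
  · intro H hH1 hH2 ⟨g, hgH, hgA⟩
    have hT : ∀ x, f x x = 0 → (∀ w ∈ W, f w x = 0) → InX σ f H x := by
      intro x hxx hxW c k hc hk
      apply hH1
      obtain ⟨t, ht, act, iso⟩ := exists_ut f hf x hxx c hc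
      have hkt : k = t := gl_ext (fun z => by rw [hk, act])
      refine ⟨?_, ?_, ?_⟩
      · apply mem_stab_of
        intro z hz
        rw [hk, hxW z hz, mul_zero, zero_smul, add_zero]
        exact hz
      · rw [hkt]; exact (hG t).mpr iso
      · rw [hkt]; exact ht.2
    have hS : ∀ a ∈ W, ∀ b, f b b = 0 → f a b = 0 → ∀ k, ActS f k a b → k ∈ H := by
      intro a ha b hbb hab k hk
      apply hH1
      obtain ⟨t, act, iso, hsl⟩ := exists_S f hf a b (hW a ha a ha) hbb hab
      have hkt : k = t := gl_ext (fun z => by rw [hk, act])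
      refine ⟨?_, ?_, ?_⟩
      · apply mem_stab_of
        intro z hz
        rw [hk, hW z hz a ha, zero_smul, sub_zero]
        exact W.add_mem hz (W.smul_mem _ ha)
      · rw [hkt]; exact (hG t).mpr iso
      · rw [hkt]; exact hsl
    have hgI : Iso f g := (hG g).mp (hH2 hgH).1
    obtain ⟨x₁, a₁, hx₁X, hx₁s, ha₁, hx₁a₁⟩ : ∃ x₁ a₁, InX σ f H x₁ ∧ f x₁ x₁ = 0 ∧ a₁ ∈ W ∧
        f x₁ a₁ ≠ 0 := by
      by_cases hc : ∃ w ∈ W, ∃ a ∈ W, f ((g : Matrix ι ι F) *ᵥ w) a ≠ 0
      · obtain ⟨w, hw, a, ha, hwa⟩ := hc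
        exact ⟨_, a, InX_img f (hT w (hW w hw w hw) (fun z hz => hW z hz w hw)) hgH hgI,
          by rw [hgI]; exact hW w hw w hw, ha, hwa⟩
      · push Not at hc
        have hgi : g⁻¹ ∉ Cfsg.Geo.subspaceStabilizer W := fun h => hgA (by
          have := (Cfsg.Geo.subspaceStabilizer W).inv_mem h
          rwa [inv_inv] at this)
        obtain ⟨a, ha, hga⟩ : ∃ a ∈ W,
            ((g⁻¹ : Matrix.GeneralLinearGroup ι F) : Matrix ι ι F) *ᵥ a ∉ W := by
          by_contra hcon
          push Not at hcon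
          exact hgi (mem_stab_of _ W hcon)
        obtain ⟨a', ha'⟩ : ∃ a', a' = ((g⁻¹ : Matrix.GeneralLinearGroup ι F) : Matrix ι ι F) *ᵥ a :=
          ⟨_, rfl⟩
        have hga' : (g : Matrix ι ι F) *ᵥ a' = a := by rw [ha', mul_inv_mulVec]
        rw [← ha'] at hga
        have ha's : f a' a' = 0 := by rw [← hgI, hga']; exact hW a ha a ha
        have ha'W : ∀ w ∈ W, f w a' = 0 := by
          intro w hw
          rw [← hgI, hga']
          exact hc w hw a ha
        obtain ⟨y, hyW, hay⟩ := exists_orth_ne f hf W a' hga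
        have hya : f y a' = 1 := by rw [hf.herm, hay, map_one]
        obtain ⟨κ, hκ⟩ := exists_trace σ hf.involutive hf.ne_refl (-(f y y))
          (by rw [map_neg, self_fixed f hf])
        have hx₀s : f (y + κ • a') (y + κ • a') = 0 := by
          rw [hf.add_left, add_right f hf, add_right f hf, hf.smul_left, hf.smul_left,
            smul_right f hf, smul_right f hf, ha's, hay, hya]
          linear_combination hκ
        have hx₀W : ∀ w ∈ W, f w (y + κ • a') = 0 := by
          intro w hw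
          rw [add_right f hf, smul_right f hf, hyW w hw, ha'W w hw]
          ring
        refine ⟨_, a, InX_img f (hT _ hx₀s hx₀W) hgH hgI, by rw [hgI]; exact hx₀s, ha, ?_⟩
        rw [← hga', hgI, hf.add_left, hf.smul_left, ha's, hya]
        simp
    intro y hyy
    by_cases hyW : ∀ w ∈ W, f w y = 0
    · exact hT y hyy hyW
    push Not at hyW
    obtain ⟨a₂, ha₂, ha₂y⟩ := hyW
    have hya₂ := swap_ne f hf ha₂y
    obtain ⟨a, ha, hxa, hya⟩ : ∃ a ∈ W, f x₁ a ≠ 0 ∧ f y a ≠ 0 := by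
      by_cases c1 : f y a₁ = 0
      · by_cases c2 : f x₁ a₂ = 0
        · refine ⟨a₁ + a₂, W.add_mem ha₁ ha₂, ?_, ?_⟩
          · rw [add_right f hf, c2, add_zero]; exact hx₁a₁
          · rw [add_right f hf, c1, zero_add]; exact hya₂
        · exact ⟨a₂, ha₂, c2, hya₂⟩
      · exact ⟨a₁, ha₁, hx₁a₁, c1⟩
    have haa := hW a ha a ha
    by_cases hs : a ∈ Submodule.span F {x₁, y}
    · obtain ⟨l, μ, e⟩ := Submodule.mem_span_pair.mp hs
      have hl : l ≠ 0 := by
        rintro rfl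
        apply hya
        rw [← e, zero_smul, zero_add, smul_right f hf, hyy, mul_zero]
      have hμ : μ ≠ 0 := by
        rintro rfl
        apply hxa
        rw [← e, zero_smul, add_zero, smul_right f hf, hx₁s, mul_zero]
      have ey : y = (-(l / μ)) • (x₁ + (-l⁻¹) • a) := by
        rw [← e]
        have h0 : (-(l / μ)) • (x₁ + (-l⁻¹) • (l • x₁ + μ • y)) =
            (-(l / μ) * (1 + -l⁻¹ * l)) • x₁ + (-(l / μ) * (-l⁻¹ * μ)) • y := by module
        have h1 : -(l / μ) * (1 + -l⁻¹ * l) = 0 := by field_simp; ring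
        have h2 : -(l / μ) * (-l⁻¹ * μ) = 1 := by field_simp
        rw [h0, h1, h2, zero_smul, zero_add, one_smul]
      have hiso : f (x₁ + (-l⁻¹) • a) (x₁ + (-l⁻¹) • a) = 0 := by
        have h1 : x₁ + (-l⁻¹) • a = (-(μ / l)) • y := by
          rw [ey, smul_smul]
          have : -(μ / l) * -(l / μ) = 1 := by field_simp
          rw [this, one_smul]
        rw [h1, hf.smul_left, smul_right f hf, hyy]
        ring
      have hc : σ (-l⁻¹ / f x₁ a) = -(-l⁻¹ / f x₁ a) := by
        rw [hf.add_left, add_right f hf, add_right f hf, hf.smul_left, hf.smul_left,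
          smul_right f hf, smul_right f hf, hx₁s, haa, hf.herm a x₁] at hiso
        have hne : σ (f x₁ a) ≠ 0 := by simpa using hxa
        generalize -l⁻¹ = κ at hiso ⊢
        rw [map_div₀]
        field_simp
        linear_combination hiso
      have h1 := InX_move f hf hx₁X (hT a haa (fun w hw => hW w hw a ha)) haa _ hc
      rw [div_mul_cancel₀ _ hxa] at h1
      rw [ey]
      exact InX_smul f hf h1 _
    · obtain ⟨z, hzz, hxz, hyz, haz⟩ := exists_iso2 f hf hn x₁ y a hs
      have hza := swap_ne f hf haz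
      have hzX := P1 f hf W hW hS hx₁X ha hx₁s hzz hxz hxa hza
      exact P1 f hf W hW hS hzX ha hzz hyy (swap_zero f hf hyz) hza hya

end Cfsg.Agent.Lib.Helper5.SUPar
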