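import Mathlib

set_option autoImplicit false

namespace Cfsg.Agent.Lib.Helper5.SymRep

open Module

variable {N : ℕ}

theorem two_eq_zero' : (2 : ZMod 2) = 0 := by decide

theorem add_self' (a : ZMod 2) : a + a = 0 := by
  revert a; decide

theorem mul_self' (a : ZMod 2) : a * a = a := by
  revert a; decide

theorem eq_of_add_eq_zero {a b : ZMod 2} (h : a + b = 0) : a = b := by
  revert a b; decide

/-- the functional defining the space -/
def phi (l : Fin N) : (Fin N → ZMod 2) →ₗ[ZMod 2] (ZMod 2 × ZMod 2) :=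
  LinearMap.prod (∑ i, LinearMap.proj i) (LinearMap.proj l)

theorem phi_apply (l : Fin N) (x : Fin N → ZMod 2) : phi l x = (∑ i, x i, x l) := by
  simp [phi, LinearMap.sum_apply]

/-- even weight vectors vanishing at `l` -/
def Vs (l : Fin N) : Submodule (ZMod 2) (Fin N → ZMod 2) := LinearMap.ker (phi l)

theorem mem_Vs (l : Fin N) (x : Fin N → ZMod 2) : x ∈ Vs l ↔ ∑ i, x i = 0 ∧ x l = 0 := by
  rw [Vs, LinearMap.mem_ker, phi_apply, Prod.ext_iff]
  rfl

/-- the twisted permutation action -/
def T (l : Fin N) (σ : Equiv.Perm (Fin N)) : (Fin N → ZMod 2) →ₗ[ZMod 2] (Fin N → ZMod 2) where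
  toFun x := fun i => x (σ.symm i) + x (σ.symm l)
  map_add' x y := by
    funext i
    simp only [Pi.add_apply]
    ring
  map_smul' c x := by
    funext i
    simp only [Pi.smul_apply, smul_eq_mul, RingHom.id_apply]
    ring

theorem T_apply (l : Fin N) (σ : Equiv.Perm (Fin N)) (x : Fin N → ZMod 2) (i : Fin N) :
    T l σ x i = x (σ.symm i) + x (σ.symm l) := rfl

theorem T_mul (l : Fin N) (σ τ : Equiv.Perm (Fin N)) (x : Fin N → ZMod 2) :
    T l (σ * τ) x = T l σ (T l τ x) := by
  funext i
  simp only [T_apply]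
  have h : ∀ j, (σ * τ).symm j = τ.symm (σ.symm j) := fun j => rfl
  rw [h, h]
  linear_combination - x (τ.symm l) * two_eq_zero'

theorem natCast_even (hN : Even N) : (N : ZMod 2) = 0 := by
  obtain ⟨k, rfl⟩ := hN
  push_cast
  exact add_self' _

theorem T_mem (hN : Even N) (l : Fin N) (σ : Equiv.Perm (Fin N)) (x : Fin N → ZMod 2)
    (hx : x ∈ Vs l) : T l σ x ∈ Vs l := by
  rw [mem_Vs] at hx ⊢
  constructor
  · simp only [T_apply]
    rw [Finset.sum_add_distrib, Equiv.sum_comp σ.symm x, hx.1, Finset.sum_const, Finset.card_univ,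
      Fintype.card_fin, nsmul_eq_mul, natCast_even hN]
    ring
  · rw [T_apply]
    exact add_self' _

/-- the dot product -/
noncomputable def Bd (N : ℕ) : LinearMap.BilinForm (ZMod 2) (Fin N → ZMod 2) := Matrix.toBilin' 1

theorem Bd_apply (x y : Fin N → ZMod 2) : Bd N x y = ∑ i, x i * y i := by
  rw [Bd, Matrix.toBilin'_apply']
  simp [dotProduct]

theorem Bd_T (hN : Even N) (l : Fin N) (σ : Equiv.Perm (Fin N)) (x y : Fin N → ZMod 2)
    (hx : x ∈ Vs l) (hy : y ∈ Vs l) : Bd N (T l σ x) (T l σ y) = Bd N x y := by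
  rw [mem_Vs] at hx hy
  rw [Bd_apply, Bd_apply]
  simp only [T_apply]
  have h1 : ∀ i, (x (σ.symm i) + x (σ.symm l)) * (y (σ.symm i) + y (σ.symm l)) =
      x (σ.symm i) * y (σ.symm i) + y (σ.symm l) * x (σ.symm i) + x (σ.symm l) * y (σ.symm i) +
        x (σ.symm l) * y (σ.symm l) := fun i => by ring
  simp only [h1]
  rw [Finset.sum_add_distrib, Finset.sum_add_distrib, Finset.sum_add_distrib, ← Finset.mul_sum,
    ← Finset.mul_sum, Equiv.sum_comp σ.symm x, Equiv.sum_comp σ.symm y,
    Equiv.sum_comp σ.symm (fun i => x i * y i), hx.1, hy.1, Finset.sum_const, Finset.card_univ,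
    Fintype.card_fin, nsmul_eq_mul, natCast_even hN]
  ring

/-- the sum of two basis vectors -/
def ee (i j : Fin N) : Fin N → ZMod 2 := Pi.single i 1 + Pi.single j 1

theorem ee_apply (i j k : Fin N) :
    ee i j k = (if k = i then 1 else 0) + (if k = j then 1 else 0) := by
  simp [ee, Pi.single_apply]

theorem ee_mem {l i j : Fin N} (hi : i ≠ l) (hj : j ≠ l) : ee i j ∈ Vs l := by
  rw [mem_Vs]
  constructor
  · simp only [ee_apply]
    rw [Finset.sum_add_distrib]
    simp
    decide
  · rw [ee_apply]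
    simp [hi.symm, hj.symm]

theorem Bd_ee (x : Fin N → ZMod 2) (i j : Fin N) : Bd N x (ee i j) = x i + x j := by
  rw [Bd_apply]
  simp only [ee_apply, mul_add, Finset.sum_add_distrib]
  simp

theorem Bd_comm (x y : Fin N → ZMod 2) : Bd N x y = Bd N y x := by
  rw [Bd_apply, Bd_apply]
  exact Finset.sum_congr rfl (fun i _ => mul_comm _ _)

theorem eq_zero_of_perp (hN : Even N) (l : Fin N) (x : Fin N → ZMod 2) (hx : x ∈ Vs l)
    (h : ∀ y ∈ Vs l, Bd N x y = 0) : x = 0 := by
  have heq : ∀ i j, i ≠ l → j ≠ l → x i = x j := by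
    intro i j hi hj
    have := h _ (ee_mem hi hj)
    rw [Bd_ee] at this
    exact eq_of_add_eq_zero this
  rw [mem_Vs] at hx
  by_cases hex : ∃ j0, j0 ≠ l
  · obtain ⟨j0, hj0⟩ := hex
    have h1 : ∑ i, (x i + if i = l then x j0 else 0) = ∑ _i : Fin N, x j0 := by
      apply Finset.sum_congr rfl
      intro i _
      by_cases hi : i = l
      · rw [hi, hx.2]; simp
      · simp [hi, heq i j0 hi hj0]
    rw [Finset.sum_add_distrib, hx.1, Finset.sum_const, Finset.card_univ, Fintype.card_fin,
      nsmul_eq_mul, natCast_even hN] at h1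
    simp at h1
    funext i
    by_cases hi : i = l
    · rw [hi, hx.2]; rfl
    · rw [heq i j0 hi hj0, h1]; rfl
  · push Not at hex
    funext i
    rw [hex i, hx.2]; rfl

theorem finrank_Vs (hN : 2 ≤ N) (l : Fin N) : finrank (ZMod 2) (Vs l) = N - 2 := by
  obtain ⟨j, hj⟩ : ∃ j : Fin N, j ≠ l := by
    by_contra hcon
    push Not at hcon
    have : Fintype.card (Fin N) ≤ 1 := Fintype.card_le_one_iff.mpr
      (fun a b => by rw [hcon a, hcon b])
    rw [Fintype.card_fin] at this
    omega
  have hsurj : Function.Surjective (phi l) := by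
    rintro ⟨a, b⟩
    refine ⟨(a - b) • Pi.single j 1 + b • Pi.single l 1, ?_⟩
    rw [phi_apply]
    ext
    · simp [Finset.sum_add_distrib, Pi.single_apply]
    · simp [Pi.single_apply, hj.symm]
  have h2 := LinearMap.finrank_range_add_finrank_ker (phi l)
  rw [LinearMap.range_eq_top.mpr hsurj, finrank_top, Module.finrank_prod, Module.finrank_self,
    Module.finrank_fintype_fun_eq_card, Fintype.card_fin] at h2
  rw [Vs]
  omega

theorem exists_notMem (s : Finset (Fin N)) (h : s.card < N) : ∃ k, k ∉ s := by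
  by_contra hcon
  push Not at hcon
  have : s = Finset.univ := Finset.eq_univ_iff_forall.mpr hcon
  rw [this, Finset.card_univ, Fintype.card_fin] at h
  omega

theorem faithful (hN : 6 ≤ N) (l : Fin N) (σ : Equiv.Perm (Fin N))
    (h : ∀ x ∈ Vs l, T l σ x = x) : σ = 1 := by
  have key : ∀ i j, i ≠ l → j ≠ l → i ≠ j → σ i = i ∨ σ i = j := by
    intro i j hi hj hij
    have h1 := h _ (ee_mem hi hj)
    obtain ⟨k, hk⟩ := exists_notMem ({i, j, σ i, σ j} : Finset (Fin N))
      (lt_of_le_of_lt Finset.card_le_four (by omega))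
    simp only [Finset.mem_insert, Finset.mem_singleton, not_or] at hk
    obtain ⟨hk1, hk2, hk3, hk4⟩ := hk
    have h2 := congrFun h1 k
    rw [T_apply, ee_apply i j k, ee_apply i j (σ.symm k)] at h2
    have e1 : σ.symm k ≠ i := fun hh => hk3 (by rw [← hh]; simp)
    have e2 : σ.symm k ≠ j := fun hh => hk4 (by rw [← hh]; simp)
    simp only [hk1, hk2, e1, e2, if_false, add_zero, zero_add] at h2
    have h3 := congrFun h1 (σ i)
    rw [T_apply, h2, add_zero, Equiv.symm_apply_apply, ee_apply, ee_apply] at h3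
    simp only [if_true, hij, if_false, add_zero] at h3
    by_contra hcon
    push Not at hcon
    simp [hcon.1, hcon.2] at h3
  have hfix : ∀ i, i ≠ l → σ i = i := by
    intro i hi
    obtain ⟨j, hj⟩ := exists_notMem ({i, l} : Finset (Fin N))
      (lt_of_le_of_lt Finset.card_le_two (by omega))
    simp only [Finset.mem_insert, Finset.mem_singleton, not_or] at hj
    obtain ⟨j', hj'⟩ := exists_notMem ({i, l, j} : Finset (Fin N))
      (lt_of_le_of_lt Finset.card_le_three (by omega))
    simp only [Finset.mem_insert, Finset.mem_singleton, not_or] at hj'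
    rcases key i j hi hj.2 (Ne.symm hj.1) with h1 | h1
    · exact h1
    rcases key i j' hi hj'.2.1 (Ne.symm hj'.1) with h2 | h2
    · exact h2
    · exact absurd (h2.symm.trans h1) hj'.2.2
  ext i
  by_cases hi : i = l
  · subst hi
    by_contra hcon
    have hne : σ i ≠ i := fun hh => hcon (by rw [hh]; rfl)
    have := hfix (σ i) hne
    exact hne (σ.injective this)
  · rw [hfix i hi]; rfl

end Cfsg.Agent.Lib.Helper5.SymRep
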