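import Mathlib
import Cfsg.Agent.Lib.Helper5.SymRep
import Cfsg.Agent.Lib.Helper5.OrthCard

set_option autoImplicit false

namespace Cfsg.Agent.Lib.Helper5.SymOrth

open Module Matrix Cfsg.Agent.Lib.Helper5.SymRep Cfsg.Agent.Lib.Helper5.OrthCard
  Cfsg.Agent.Lib.Helper5.Orth Cfsg.Agent.Lib.Helper5.OrthGen

variable {N : ℕ}

/-- the weight of a binary vector -/
def wt (x : Fin N → ZMod 2) : ℕ := ∑ i, (x i).val

/-- half the weight modulo two -/
def qq (x : Fin N → ZMod 2) : ZMod 2 := ((wt x / 2 : ℕ) : ZMod 2)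

theorem wt_comp (σ : Equiv.Perm (Fin N)) (x : Fin N → ZMod 2) :
    wt (fun i => x (σ i)) = wt x := Equiv.sum_comp σ (fun i => (x i).val)

theorem val_add_one (a : ZMod 2) : (a + 1).val + a.val = 1 := by
  revert a; decide

theorem wt_add_one (x : Fin N → ZMod 2) : wt (fun i => x i + 1) + wt x = N := by
  rw [wt, wt, ← Finset.sum_add_distrib]
  simp only [val_add_one]
  simp

theorem wt_cast (x : Fin N → ZMod 2) : ((wt x : ℕ) : ZMod 2) = ∑ i, x i := by
  rw [wt]
  push_cast
  apply Finset.sum_congr rfl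
  intro i _
  exact ZMod.natCast_zmod_val _

theorem qq_zero : qq (0 : Fin N → ZMod 2) = 0 := by
  simp [qq, wt]

theorem qq_T (l : Fin N) (σ : Equiv.Perm (Fin N)) (x : Fin N → ZMod 2) (hx : x ∈ Vs l)
    (h : 4 ∣ N ∨ σ l = l) : qq (T l σ x) = qq x := by
  rw [mem_Vs] at hx
  have hT : T l σ x = fun i => x (σ.symm i) + x (σ.symm l) := rfl
  have hc : x (σ.symm l) = 0 ∨ x (σ.symm l) = 1 := by
    generalize x (σ.symm l) = c
    revert c; decide
  rcases hc with hc | hc
  · rw [hT, hc]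
    simp only [add_zero]
    rw [qq, qq, wt_comp σ.symm x]
  · have h4 : 4 ∣ N := by
      rcases h with h | h
      · exact h
      · exfalso
        have : σ.symm l = l := by rw [Equiv.symm_apply_eq, h]
        rw [this, hx.2] at hc
        exact zero_ne_one hc
    rw [hT, hc]
    have h1 := wt_add_one (fun i => x (σ.symm i))
    rw [wt_comp σ.symm x] at h1
    have h2 : ((wt x : ℕ) : ZMod 2) = 0 := by rw [wt_cast, hx.1]
    rw [ZMod.natCast_eq_zero_iff] at h2
    obtain ⟨j, hj⟩ := h2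
    obtain ⟨k, hk⟩ := h4
    rw [qq, qq]
    have h3 : wt (fun i => x (σ.symm i) + 1) = 2 * (2 * k - j) := by omega
    rw [h3, hj, Nat.mul_div_cancel_left _ (by norm_num), Nat.mul_div_cancel_left _ (by norm_num)]
    have h4 : j ≤ 2 * k := by omega
    rw [Nat.cast_sub h4]
    push_cast
    rw [two_eq_zero']
    have := add_self' (j : ZMod 2)
    linear_combination - this

theorem exists_hom {ι : Type} [Fintype ι] [DecidableEq ι]
    (Q : QuadraticForm (ZMod 2) (ι → ZMod 2))
    (hQ : (QuadraticMap.polarBilin Q).Nondegenerate)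
    (hN : Even N) (hN6 : 6 ≤ N) (l : Fin N) (hι : Fintype.card ι = N - 2)
    (C : (ι → ZMod 2) →ₗ[ZMod 2] (Fin N → ZMod 2)) (hC : ∀ u, C u ∈ Vs l)
    (hq : ∀ u, qq (C u) = Q u)
    {G : Type*} [Group G] (j : G →* Equiv.Perm (Fin N)) (hj : Function.Injective j)
    (h4 : 4 ∣ N ∨ ∀ g, j g l = l) :
    ∃ f : G →* ↥(Cfsg.isometryGroup (ZMod 2) ⇑Q), Function.Injective f := by
  have hinj : Function.Injective (C.codRestrict (Vs l) hC) := by
    rw [injective_iff_map_eq_zero]
    intro u hu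
    have hu' : C u = 0 := congrArg Subtype.val hu
    apply hQ.1
    intro v
    rw [QuadraticMap.polarBilin_apply_apply, QuadraticMap.polar, ← hq, ← hq, ← hq, map_add, hu',
      qq_zero]
    simp
  have hdim : finrank (ZMod 2) (ι → ZMod 2) = finrank (ZMod 2) (Vs l) := by
    rw [finrank_Vs (by omega), Module.finrank_fintype_fun_eq_card, hι]
  let Ψ : (ι → ZMod 2) ≃ₗ[ZMod 2] (Vs l) :=
    LinearMap.linearEquivOfInjective (C.codRestrict (Vs l) hC) hinj hdim
  have hΨ : ∀ u, ((Ψ u : Vs l) : Fin N → ZMod 2) = C u := fun u => rfl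
  have hex : ∀ g : G, ∃ A : ↥(Cfsg.isometryGroup (ZMod 2) ⇑Q), ∀ u,
      mat A *ᵥ u = Ψ.symm ((T l (j g)).restrict (T_mem hN l (j g)) (Ψ u)) := by
    intro g
    apply exists_iso_of_linearMap Q hQ
      ((Ψ.symm : (Vs l) →ₗ[ZMod 2] (ι → ZMod 2)) ∘ₗ (T l (j g)).restrict (T_mem hN l (j g)) ∘ₗ
        (Ψ : (ι → ZMod 2) →ₗ[ZMod 2] (Vs l)))
    intro u
    simp only [LinearMap.comp_apply, LinearEquiv.coe_coe]
    rw [← hq, ← hΨ, Ψ.apply_symm_apply, LinearMap.coe_restrict_apply, qq_T l (j g) _ (Ψ u).2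
      (h4.imp id (fun h => h g)), hΨ, hq]
  choose φ hφ using hex
  refine ⟨MonoidHom.mk' φ ?_, ?_⟩
  · intro g h
    apply ext_mulVec
    intro u
    rw [mat_mul_mulVec, hφ, hφ, hφ, Ψ.apply_symm_apply]
    congr 1
    apply Subtype.ext
    simp only [LinearMap.coe_restrict_apply]
    rw [map_mul, T_mul]
  · rw [injective_iff_map_eq_one]
    intro g hg
    have hg' : φ g = 1 := hg
    apply hj
    rw [map_one]
    apply faithful hN6 l
    intro x hx
    have h1 := hφ g (Ψ.symm ⟨x, hx⟩)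
    rw [hg', mat_one_mulVec, Ψ.apply_symm_apply] at h1
    have h2 := Ψ.symm.injective h1
    exact (congrArg Subtype.val h2).symm

theorem exists_transport {R S : Type*} [Field R] [Field S] (e : R ≃+* S)
    {ι : Type} [Fintype ι] [DecidableEq ι] (QR : (ι → R) → R) (QS : (ι → S) → S)
    (h : ∀ w, QS (fun i => e (w i)) = e (QR w)) :
    ∃ f : ↥(Cfsg.isometryGroup R QR) →* ↥(Cfsg.isometryGroup S QS), Function.Injective f := by
  have hmem : ∀ A : ↥(Cfsg.isometryGroup R QR),
      Matrix.GeneralLinearGroup.map (e : R →+* S) A.1 ∈ Cfsg.isometryGroup S QS := by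
    intro A
    rw [mem_isometryGroup_iff]
    intro x
    have hA := (mem_isometryGroup_iff QR A.1).mp A.2
    obtain ⟨w, rfl⟩ : ∃ w : ι → R, x = fun i => e (w i) :=
      ⟨fun i => e.symm (x i), by funext i; simp⟩
    have h1 : ((Matrix.GeneralLinearGroup.map (e : R →+* S) A.1 : Matrix.GeneralLinearGroup ι S) :
        Matrix ι ι S) *ᵥ (fun i => e (w i)) = fun i => e (((A.1 : Matrix ι ι R) *ᵥ w) i) := by
      funext i
      have := RingHom.map_mulVec (e : R →+* S) (A.1 : Matrix ι ι R) w i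
      rw [RingEquiv.coe_toRingHom] at this
      rw [this]
      rfl
    rw [h1, h, h, hA]
  refine ⟨((Matrix.GeneralLinearGroup.map (e : R →+* S)).comp
    (Cfsg.isometryGroup R QR).subtype).codRestrict _ hmem, ?_⟩
  intro A B hAB
  have h1 : Matrix.GeneralLinearGroup.map (e : R →+* S) A.1 =
      Matrix.GeneralLinearGroup.map (e : R →+* S) B.1 := congrArg Subtype.val hAB
  apply Subtype.ext
  apply Units.ext
  have h2 : (A.1 : Matrix ι ι R).map e = (B.1 : Matrix ι ι R).map e := congrArg Units.val h1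
  ext i k
  apply e.injective
  exact congrFun (congrFun h2 i) k

end Cfsg.Agent.Lib.Helper5.SymOrth
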