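import Mathlib
import Cfsg.Prelude.Def_GeometricClasses
import Cfsg.Agent.Lib.Helper5.SympPerfect

set_option autoImplicit false
set_option linter.unusedSectionVars false

namespace Cfsg.Agent.Lib.Helper5.SympMax

open Matrix Cfsg.Agent.Lib.Helper5.Symp Cfsg.Agent.Lib.Helper5.SympGen
  Cfsg.Agent.Lib.Helper5.SympBridge Cfsg.Agent.Lib.Helper5.SympPerfect

variable {F : Type*} [Field F] {m : ℕ}

/-- the symplectic group inside the general linear group -/
noncomputable def toGL : Matrix.symplecticGroup (Fin m) F →*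
    Matrix.GeneralLinearGroup (Fin m ⊕ Fin m) F :=
  (Units.map (Matrix.symplecticGroup (Fin m) F).subtype).comp toUnits.toMonoidHom

theorem coe_toGL (A : Matrix.symplecticGroup (Fin m) F) :
    ((toGL A : Matrix.GeneralLinearGroup (Fin m ⊕ Fin m) F) :
      Matrix (Fin m ⊕ Fin m) (Fin m ⊕ Fin m) F) = A.1 := rfl

theorem toGL_mem (A : Matrix.symplecticGroup (Fin m) F) : toGL A ∈ Cfsg.spGL m F := by
  intro u v
  exact preserves A u v

theorem exists_of_mem (g : Matrix.GeneralLinearGroup (Fin m ⊕ Fin m) F)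
    (hg : g ∈ Cfsg.spGL m F) : ∃ A : Matrix.symplecticGroup (Fin m) F, toGL A = g := by
  refine ⟨⟨g.1, (mem_symplecticGroup_iff_preserves _).mpr hg⟩, ?_⟩
  apply Units.ext
  rfl

/-- the general shape of the maximality statements -/
theorem max_of (A : Subgroup (Matrix.GeneralLinearGroup (Fin m ⊕ Fin m) F))
    (h1 : ∃ g : Matrix.symplecticGroup (Fin m) F, toGL g ∉ A)
    (h2 : ∀ H : Subgroup (Matrix.symplecticGroup (Fin m) F),
      (∀ g : Matrix.symplecticGroup (Fin m) F, toGL g ∈ A → g ∈ H) →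
      (∃ g : Matrix.symplecticGroup (Fin m) F, g ∈ H ∧ toGL g ∉ A) → H = ⊤) :
    Cfsg.Geo.IsMaximalIn (Cfsg.spGL m F) (A ⊓ Cfsg.spGL m F) := by
  constructor
  · rw [SetLike.lt_iff_le_and_exists]
    refine ⟨inf_le_right, ?_⟩
    obtain ⟨g, hA⟩ := h1
    exact ⟨toGL g, toGL_mem g, fun h => hA h.1⟩
  · intro M hM1 hM2
    by_cases hc : M ≤ A
    · left
      exact le_antisymm (le_inf hc hM2) hM1
    · right
      apply le_antisymm hM2
      obtain ⟨x, hxM, hxA⟩ := SetLike.not_le_iff_exists.mp hc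
      obtain ⟨g, rfl⟩ := exists_of_mem x (hM2 hxM)
      have := h2 (M.comap toGL) (fun k hkA => hM1 ⟨hkA, toGL_mem k⟩) ⟨g, hxM, hxA⟩
      intro y hy
      obtain ⟨k, rfl⟩ := exists_of_mem y hy
      have hk : k ∈ M.comap toGL := by rw [this]; trivial
      exact hk

theorem mem_stab_of (g : Matrix.symplecticGroup (Fin m) F)
    (W : Submodule F (Fin m ⊕ Fin m → F))
    (h : ∀ x ∈ W, (g : Matrix (Fin m ⊕ Fin m) (Fin m ⊕ Fin m) F) *ᵥ x ∈ W) :
    toGL g ∈ Cfsg.Geo.subspaceStabilizer W := by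
  have hinj : Function.Injective (Matrix.mulVecLin
      (g : Matrix (Fin m ⊕ Fin m) (Fin m ⊕ Fin m) F)) := by
    intro x y hxy
    have := congrArg (fun z => ((g⁻¹ : Matrix.symplecticGroup (Fin m) F) :
      Matrix (Fin m ⊕ Fin m) (Fin m ⊕ Fin m) F) *ᵥ z) hxy
    simpa only [Matrix.mulVecLin_apply, inv_mul_mulVec] using this
  have hmap : W.map (Matrix.mulVecLin (g : Matrix (Fin m ⊕ Fin m) (Fin m ⊕ Fin m) F)) = W := by
    apply Submodule.eq_of_le_of_finrank_eq
    · rintro _ ⟨x, hx, rfl⟩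
      exact h x hx
    · exact (Submodule.equivMapOfInjective _ hinj W).finrank_eq.symm
  intro v
  constructor
  · intro hv
    exact h v hv
  · intro hv
    have hv' : (g : Matrix (Fin m ⊕ Fin m) (Fin m ⊕ Fin m) F) *ᵥ v ∈
        W.map (Matrix.mulVecLin (g : Matrix (Fin m ⊕ Fin m) (Fin m ⊕ Fin m) F)) := by
      rw [hmap]; exact hv
    obtain ⟨x, hx, e⟩ := hv'
    have := hinj e
    rw [← this]
    exact hx

theorem maps_of_mem_stab (g : Matrix.symplecticGroup (Fin m) F)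
    (W : Submodule F (Fin m ⊕ Fin m → F)) (h : toGL g ∈ Cfsg.Geo.subspaceStabilizer W)
    (x : Fin m ⊕ Fin m → F) (hx : x ∈ W) :
    (g : Matrix (Fin m ⊕ Fin m) (Fin m ⊕ Fin m) F) *ᵥ x ∈ W := (h x).mp hx

/-- the vectors all of whose transvections lie in `H` -/
def YY (H : Subgroup (Matrix.symplecticGroup (Fin m) F)) : Set (Fin m ⊕ Fin m → F) :=
  {x | ∀ c : F, tv x c ∈ H}

variable {H : Subgroup (Matrix.symplecticGroup (Fin m) F)}

theorem YY_img {A : Matrix.symplecticGroup (Fin m) F} (hA : A ∈ H) {x : Fin m ⊕ Fin m → F}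
    (hx : x ∈ YY H) : (A : Matrix (Fin m ⊕ Fin m) (Fin m ⊕ Fin m) F) *ᵥ x ∈ YY H := by
  intro c
  rw [← conj_tv]
  exact H.mul_mem (H.mul_mem hA (hx c)) (H.inv_mem hA)

theorem YY_smul {x : Fin m ⊕ Fin m → F} (hx : x ∈ YY H) (a : F) : a • x ∈ YY H := by
  intro c
  rw [tv_smul]
  exact hx _

theorem YY_add {x y : Fin m ⊕ Fin m → F} (hx : x ∈ YY H) (hy : y ∈ YY H)
    (hxy : Cfsg.sympForm m F y x ≠ 0) (μ : F) : y + μ • x ∈ YY H := by
  have := YY_img (hx (μ / Cfsg.sympForm m F y x)) hy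
  rwa [tv_mulVec, div_mul_cancel₀ _ hxy] at this

theorem eq_top_of_YY (h : ∀ x, x ∈ YY H) : H = ⊤ := by
  rw [eq_top_iff, ← closure_eq_top, Subgroup.closure_le]
  rintro A ⟨w, c, hA⟩
  have : A = tv w c := Subtype.ext hA
  rw [this]
  exact h w c

theorem exists_orth_ne (S : Submodule F (Fin m ⊕ Fin m → F)) (v : Fin m ⊕ Fin m → F)
    (hv : v ∉ S) :
    ∃ y, (∀ s ∈ S, Cfsg.sympForm m F s y = 0) ∧ Cfsg.sympForm m F y v ≠ 0 := by
  by_contra hcon
  push Not at hcon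
  apply hv
  rw [← LinearMap.BilinForm.orthogonal_orthogonal sympB_nondeg sympB_alt.isRefl S,
    LinearMap.BilinForm.mem_orthogonal_iff]
  intro y hy
  rw [LinearMap.BilinForm.mem_orthogonal_iff] at hy
  exact hcon y hy

theorem sympForm_sub_left (u u' v : Fin m ⊕ Fin m → F) :
    Cfsg.sympForm m F (u - u') v = Cfsg.sympForm m F u v - Cfsg.sympForm m F u' v := by
  rw [sympForm_swap, sympForm_sub_right, sympForm_swap v u, sympForm_swap v u']
  ring

theorem sympForm_zero_left (v : Fin m ⊕ Fin m → F) : Cfsg.sympForm m F 0 v = 0 := by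
  have := sympForm_smul_left (0 : F) (0 : Fin m ⊕ Fin m → F) v
  simpa using this

theorem sympForm_zero_right (v : Fin m ⊕ Fin m → F) : Cfsg.sympForm m F v 0 = 0 := by
  rw [sympForm_swap, sympForm_zero_left, neg_zero]

/-- a vector of `W` on which two nonzero functionals do not vanish -/
theorem exists_both (W : Submodule F (Fin m ⊕ Fin m → F)) (y v w₀ w₁ : Fin m ⊕ Fin m → F)
    (h0 : w₀ ∈ W) (h1 : w₁ ∈ W) (hy : Cfsg.sympForm m F y w₀ ≠ 0)
    (hv : Cfsg.sympForm m F v w₁ ≠ 0) :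
    ∃ a ∈ W, Cfsg.sympForm m F y a ≠ 0 ∧ Cfsg.sympForm m F v a ≠ 0 := by
  by_cases c1 : Cfsg.sympForm m F v w₀ = 0
  · by_cases c2 : Cfsg.sympForm m F y w₁ = 0
    · refine ⟨w₀ + w₁, W.add_mem h0 h1, ?_, ?_⟩
      · rw [sympForm_add_right, c2, add_zero]; exact hy
      · rw [sympForm_add_right, c1, zero_add]; exact hv
    · exact ⟨w₁, h1, c2, hv⟩
  · exact ⟨w₀, h0, hy, c1⟩

/-- the Siegel-type element `z ↦ z + f(z,a) b + f(z,b) a` -/
noncomputable def sg (a b : Fin m ⊕ Fin m → F) : Matrix.symplecticGroup (Fin m) F :=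
  tv (a + b) 1 * tv a (-1) * tv b (-1)

theorem sg_mulVec (a b : Fin m ⊕ Fin m → F) (hab : Cfsg.sympForm m F a b = 0)
    (z : Fin m ⊕ Fin m → F) :
    (sg a b : Matrix (Fin m ⊕ Fin m) (Fin m ⊕ Fin m) F) *ᵥ z =
      z + Cfsg.sympForm m F z a • b + Cfsg.sympForm m F z b • a := by
  have hba : Cfsg.sympForm m F b a = 0 := by rw [sympForm_swap, hab, neg_zero]
  unfold sg
  rw [coe_mul_mulVec, coe_mul_mulVec, tv_mulVec, tv_mulVec, tv_mulVec]
  simp only [sympForm_add_left, sympForm_add_right, sympForm_smul_left, sympForm_self, hab, hba]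
  module

/-- the stabiliser of a totally isotropic subspace is maximal -/
theorem parabolic_max (W : Submodule F (Fin m ⊕ Fin m → F)) (hW0 : W ≠ ⊥)
    (hW : ∀ u ∈ W, ∀ v ∈ W, Cfsg.sympForm m F u v = 0) :
    Cfsg.Geo.IsMaximalIn (Cfsg.spGL m F) (Cfsg.Geo.subspaceStabilizer W ⊓ Cfsg.spGL m F) := by
  apply max_of
  · obtain ⟨w, hwW, hw0⟩ := Submodule.exists_mem_ne_zero_of_ne_bot hW0
    obtain ⟨u, hu⟩ := exists_partner_one w hw0
    refine ⟨tv u 1, ?_⟩
    intro h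
    have h1 := maps_of_mem_stab _ W h w hwW
    rw [tv_mulVec, hu, mul_one, one_smul] at h1
    have h2 : u ∈ W := by
      have := W.sub_mem h1 hwW
      rwa [add_sub_cancel_left] at this
    rw [hW w hwW u h2] at hu
    exact zero_ne_one hu
  · rintro H hPH ⟨g, hgH, hgW⟩
    -- vectors orthogonal to `W`
    have hperp : ∀ x, (∀ w ∈ W, Cfsg.sympForm m F w x = 0) → x ∈ YY H := by
      intro x hx c
      apply hPH
      apply mem_stab_of
      intro z hz
      rw [tv_mulVec, hx z hz]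
      simpa using hz
    have hWY : ∀ x ∈ W, x ∈ YY H := fun x hx => hperp x (fun w hw => hW w hw x hx)
    -- step A
    have stepA : ∀ y ∈ YY H, ∀ w₀ ∈ W, Cfsg.sympForm m F y w₀ ≠ 0 →
        ∀ x, (∀ w ∈ W, Cfsg.sympForm m F w x = 0) → y + x ∈ YY H := by
      intro y hy w₀ hw₀ hyw x hx
      by_cases c : Cfsg.sympForm m F y x = 0
      · have h1 : y + (1 : F) • (x + w₀) ∈ YY H := by
          apply YY_add (hperp _ _) hy
          · rw [sympForm_add_right, c, zero_add]; exact hyw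
          · intro w hw
            rw [sympForm_add_right, hx w hw, hW w hw w₀ hw₀, add_zero]
        have h2 : (y + (1 : F) • (x + w₀)) + (-1 : F) • w₀ ∈ YY H := by
          apply YY_add (hWY w₀ hw₀) h1
          rw [one_smul, sympForm_add_left, sympForm_add_left, sympForm_self, add_zero,
            sympForm_swap x w₀, hx w₀ hw₀, neg_zero, add_zero]
          exact hyw
        have h3 : (y + (1 : F) • (x + w₀)) + (-1 : F) • w₀ = y + x := by module
        rwa [h3] at h2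
      · have := YY_add (hperp x hx) hy c 1
        rwa [one_smul] at this
    -- a vector of `YY` outside the orthogonal complement
    have hex : ∃ y ∈ YY H, ∃ w₀ ∈ W, Cfsg.sympForm m F y w₀ ≠ 0 := by
      have hk : ∃ w ∈ W, ((g⁻¹ : Matrix.symplecticGroup (Fin m) F) :
          Matrix (Fin m ⊕ Fin m) (Fin m ⊕ Fin m) F) *ᵥ w ∉ W := by
        by_contra hcon
        push Not at hcon
        apply hgW
        have := mem_stab_of g⁻¹ W hcon
        rw [map_inv] at this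
        exact (Subgroup.inv_mem_iff _).mp this
      obtain ⟨w, hw, hv⟩ := hk
      obtain ⟨x, hx, hxv⟩ := exists_orth_ne W _ hv
      refine ⟨(g : Matrix (Fin m ⊕ Fin m) (Fin m ⊕ Fin m) F) *ᵥ x, YY_img hgH (hperp x hx), w, hw,
        ?_⟩
      rw [← mul_inv_mulVec g w, preserves]
      exact hxv
    obtain ⟨y, hyY, w₀, hw₀, hyw⟩ := hex
    apply eq_top_of_YY
    intro v
    by_cases hv : ∀ w ∈ W, Cfsg.sympForm m F w v = 0
    · exact hperp v hv
    push Not at hv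
    obtain ⟨w₁, hw₁, hvw⟩ := hv
    obtain ⟨a, ha, hya, hva⟩ := exists_both W y v w₀ w₁ hw₀ hw₁ hyw
      (by rw [sympForm_swap]; exact neg_ne_zero.mpr hvw)
    set γ := Cfsg.sympForm m F y a with hγ
    set v' := (γ / Cfsg.sympForm m F v a) • v with hv'
    have hv'a : Cfsg.sympForm m F v' a = γ := by
      rw [hv', sympForm_smul_left, div_mul_cancel₀ _ hva]
    set b := γ⁻¹ • (v' - y) with hb
    have hab : Cfsg.sympForm m F a b = 0 := by
      rw [hb, sympForm_smul_right, sympForm_sub_right, sympForm_swap a v', sympForm_swap a y,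
        hv'a, ← hγ]
      ring
    have hsH : sg a b ∈ H := by
      apply hPH
      apply mem_stab_of
      intro z hz
      rw [sg_mulVec a b hab, hW z hz a ha, zero_smul, add_zero]
      exact W.add_mem hz (W.smul_mem _ ha)
    have h1 := YY_img hsH hyY
    rw [sg_mulVec a b hab, ← hγ] at h1
    have h2 : y + γ • b + Cfsg.sympForm m F y b • a = v' + Cfsg.sympForm m F y b • a := by
      rw [hb, smul_smul, mul_inv_cancel₀ hya, one_smul]
      abel
    rw [h2] at h1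
    have h3 := stepA _ h1 a ha (by
      rw [sympForm_add_left, hv'a, sympForm_smul_left, sympForm_self, mul_zero, add_zero]
      exact hya) (-(Cfsg.sympForm m F y b • a)) (by
      intro w hw
      rw [← neg_smul, sympForm_smul_right, hW w hw a ha, mul_zero])
    rw [add_neg_cancel_right] at h3
    have h4 : v = (Cfsg.sympForm m F v a / γ) • v' := by
      rw [hv', smul_smul]
      have : Cfsg.sympForm m F v a / γ * (γ / Cfsg.sympForm m F v a) = 1 := by
        field_simp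
      rw [this, one_smul]
    rw [h4]
    exact YY_smul h3 _

theorem mulVecLin_inj (g : Matrix.symplecticGroup (Fin m) F) :
    Function.Injective (Matrix.mulVecLin
      (g : Matrix (Fin m ⊕ Fin m) (Fin m ⊕ Fin m) F)) := by
  intro x y hxy
  have := congrArg (fun z => ((g⁻¹ : Matrix.symplecticGroup (Fin m) F) :
    Matrix (Fin m ⊕ Fin m) (Fin m ⊕ Fin m) F) *ᵥ z) hxy
  simpa only [Matrix.mulVecLin_apply, inv_mul_mulVec] using this

theorem move_step (W U : Submodule F (Fin m ⊕ Fin m → F)) (hWY : ∀ x ∈ W, x ∈ YY H)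
    (horth : ∀ w ∈ W, ∀ u ∈ U, Cfsg.sympForm m F w u = 0)
    (y₁ y₂ v₁ : Fin m ⊕ Fin m → F) (hy₁ : y₁ ∈ W) (hy₂ : y₂ ∈ U) (hv₁ : v₁ ∈ W)
    (hne : Cfsg.sympForm m F y₁ v₁ ≠ 0) (hy : y₁ + y₂ ∈ YY H) : v₁ + y₂ ∈ YY H := by
  have h1 := YY_add (hWY (v₁ - y₁) (W.sub_mem hv₁ hy₁)) hy (by
    rw [sympForm_add_left, sympForm_sub_right, sympForm_self, sub_zero,
      sympForm_swap y₂, horth _ (W.sub_mem hv₁ hy₁) y₂ hy₂, neg_zero, add_zero]
    exact hne) 1
  have h2 : y₁ + y₂ + (1 : F) • (v₁ - y₁) = v₁ + y₂ := by module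
  rwa [h2] at h1

theorem move_comp (W U : Submodule F (Fin m ⊕ Fin m → F)) (hWY : ∀ x ∈ W, x ∈ YY H)
    (hnd : Cfsg.Geo.IsNondegenerateOn (Cfsg.sympForm m F) W)
    (horth : ∀ w ∈ W, ∀ u ∈ U, Cfsg.sympForm m F w u = 0)
    (y₁ y₂ v₁ : Fin m ⊕ Fin m → F) (hy₁ : y₁ ∈ W) (hy₁0 : y₁ ≠ 0) (hy₂ : y₂ ∈ U) (hv₁ : v₁ ∈ W)
    (hv₁0 : v₁ ≠ 0) (hy : y₁ + y₂ ∈ YY H) : v₁ + y₂ ∈ YY H := by
  obtain ⟨_, z₀, hz₀, h0⟩ := hnd y₁ hy₁ hy₁0
  obtain ⟨_, z₁, hz₁, h1⟩ := hnd v₁ hv₁ hv₁0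
  obtain ⟨z, hz, e1, e2⟩ := exists_both W y₁ v₁ z₀ z₁ hz₀ hz₁ h0 h1
  have s1 := move_step W U hWY horth y₁ y₂ z hy₁ hy₂ hz e1 hy
  exact move_step W U hWY horth z y₂ v₁ hz hy₂ hv₁
    (by rw [sympForm_swap]; exact neg_ne_zero.mpr e2) s1

theorem all_in (W U X : Submodule F (Fin m ⊕ Fin m → F))
    (g : Matrix.symplecticGroup (Fin m) F)
    (h : ∀ x ∈ X, (g : Matrix (Fin m ⊕ Fin m) (Fin m ⊕ Fin m) F) *ᵥ x ∈ W ∨
      (g : Matrix (Fin m ⊕ Fin m) (Fin m ⊕ Fin m) F) *ᵥ x ∈ U)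
    (x₀ : Fin m ⊕ Fin m → F) (hx₀ : x₀ ∈ X)
    (hx₀W : (g : Matrix (Fin m ⊕ Fin m) (Fin m ⊕ Fin m) F) *ᵥ x₀ ∉ W) :
    ∀ x ∈ X, (g : Matrix (Fin m ⊕ Fin m) (Fin m ⊕ Fin m) F) *ᵥ x ∈ U := by
  have hx₀U := (h x₀ hx₀).resolve_left hx₀W
  intro x hx
  rcases h x hx with h1 | h1
  · rcases h (x₀ + x) (X.add_mem hx₀ hx) with h2 | h2
    · exfalso
      apply hx₀W
      rw [mulVec_add] at h2
      have := W.sub_mem h2 h1
      rwa [add_sub_cancel_right] at this
    · rw [mulVec_add] at h2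
      have := U.sub_mem h2 hx₀U
      rwa [add_sub_cancel_left] at this
  · exact h1

/-- the stabiliser of a small nondegenerate subspace is maximal -/
theorem nondeg_max (W : Submodule F (Fin m ⊕ Fin m → F)) (hW0 : W ≠ ⊥)
    (hW : Cfsg.Geo.IsNondegenerateOn (Cfsg.sympForm m F) W) (hdim : Module.finrank F W < m) :
    Cfsg.Geo.IsMaximalIn (Cfsg.spGL m F) (Cfsg.Geo.subspaceStabilizer W ⊓ Cfsg.spGL m F) := by
  set U := LinearMap.BilinForm.orthogonal (sympB m F) W with hU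
  have horth : ∀ w ∈ W, ∀ u ∈ U, Cfsg.sympForm m F w u = 0 := by
    intro w hw u hu
    exact (LinearMap.BilinForm.mem_orthogonal_iff.mp hu) w hw
  have horth' : ∀ u ∈ U, ∀ w ∈ W, Cfsg.sympForm m F u w = 0 := by
    intro u hu w hw
    rw [sympForm_swap, horth w hw u hu, neg_zero]
  have hinf : ∀ x ∈ W, x ∈ U → x = 0 := by
    intro x hxW hxU
    by_contra h0
    obtain ⟨⟨z, hz, hne⟩, _⟩ := hW x hxW h0
    exact hne (horth z hz x hxU)
  have hfrU : Module.finrank F U = 2 * m - Module.finrank F W := by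
    have := LinearMap.BilinForm.finrank_orthogonal (sympB_nondeg (F := F) (m := m)) W
    rw [Module.finrank_fintype_fun_eq_card, Fintype.card_sum, Fintype.card_fin] at this
    rw [hU, this]
    omega
  have hsup : W ⊔ U = ⊤ := by
    apply Submodule.eq_top_of_finrank_eq
    have h1 := Submodule.finrank_sup_add_finrank_inf_eq W U
    have h2 : W ⊓ U = ⊥ := by
      rw [eq_bot_iff]
      rintro x ⟨h1, h2⟩
      exact (Submodule.mem_bot F).mpr (hinf x h1 h2)
    rw [h2, finrank_bot] at h1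
    rw [Module.finrank_fintype_fun_eq_card, Fintype.card_sum, Fintype.card_fin]
    omega
  have hdec : ∀ v, ∃ v₁ ∈ W, ∃ v₂ ∈ U, v₁ + v₂ = v := by
    intro v
    have : v ∈ W ⊔ U := by rw [hsup]; trivial
    exact Submodule.mem_sup.mp this
  have hUnd : Cfsg.Geo.IsNondegenerateOn (Cfsg.sympForm m F) U := by
    intro u hu hu0
    obtain ⟨x, hx⟩ := exists_partner_one u hu0
    obtain ⟨x₁, hx₁, x₂, hx₂, rfl⟩ := hdec x
    rw [sympForm_add_right, horth' u hu x₁ hx₁, zero_add] at hx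
    refine ⟨⟨x₂, hx₂, ?_⟩, ⟨x₂, hx₂, ?_⟩⟩
    · rw [sympForm_swap, hx]; simp
    · rw [hx]; exact one_ne_zero
  have hUne : U ≠ ⊥ := by
    intro h
    rw [h, finrank_bot] at hfrU
    omega
  apply max_of
  · obtain ⟨w, hwW, hw0⟩ := Submodule.exists_mem_ne_zero_of_ne_bot hW0
    obtain ⟨u, huU, hu0⟩ := Submodule.exists_mem_ne_zero_of_ne_bot hUne
    obtain ⟨_, w', hw', hne⟩ := hW w hwW hw0
    refine ⟨tv (w' + u) 1, ?_⟩
    intro h
    have h1 := maps_of_mem_stab _ W h w hwW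
    rw [tv_mulVec, sympForm_add_right, horth w hwW u huU, add_zero, one_mul] at h1
    have h2 := W.sub_mem h1 hwW
    rw [add_sub_cancel_left] at h2
    have h3 := W.smul_mem (Cfsg.sympForm m F w w')⁻¹ h2
    rw [smul_smul, inv_mul_cancel₀ hne, one_smul] at h3
    have h4 := W.sub_mem h3 hw'
    rw [add_sub_cancel_left] at h4
    exact hu0 (hinf u h4 huU)
  · rintro H hPH ⟨g, hgH, hgW⟩
    have hWY : ∀ x ∈ W, x ∈ YY H := by
      intro x hx c
      apply hPH
      apply mem_stab_of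
      intro z hz
      rw [tv_mulVec]
      exact W.add_mem hz (W.smul_mem _ hx)
    have hUY : ∀ x ∈ U, x ∈ YY H := by
      intro x hx c
      apply hPH
      apply mem_stab_of
      intro z hz
      rw [tv_mulVec, horth z hz x hx]
      simpa using hz
    have hex : ∃ y ∈ YY H, y ∉ W ∧ y ∉ U := by
      by_contra hcon
      push Not at hcon
      have hcon' : ∀ y ∈ YY H, y ∈ W ∨ y ∈ U := by
        intro y hy
        by_cases h : y ∈ W
        · exact Or.inl h
        · exact Or.inr (hcon y hy h)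
      have h1 : ∃ w ∈ W, (g : Matrix (Fin m ⊕ Fin m) (Fin m ⊕ Fin m) F) *ᵥ w ∉ W := by
        by_contra hc
        push Not at hc
        exact hgW (mem_stab_of g W hc)
      obtain ⟨w, hw, hgw⟩ := h1
      have h2 := all_in W U W g (fun x hx => hcon' _ (YY_img hgH (hWY x hx))) w hw hgw
      have h3 : ∃ u ∈ U, (g : Matrix (Fin m ⊕ Fin m) (Fin m ⊕ Fin m) F) *ᵥ u ∉ W := by
        by_contra hc
        push Not at hc
        have e1 : U.map (Matrix.mulVecLin (g : Matrix (Fin m ⊕ Fin m) (Fin m ⊕ Fin m) F)) ≤ W := by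
          rintro _ ⟨x, hx, rfl⟩
          exact hc x hx
        have e2 := Submodule.finrank_mono e1
        rw [← (Submodule.equivMapOfInjective _ (mulVecLin_inj g) U).finrank_eq] at e2
        omega
      obtain ⟨u, hu, hgu⟩ := h3
      have h4 := all_in W U U g (fun x hx => hcon' _ (YY_img hgH (hUY x hx))) u hu hgu
      obtain ⟨w₁, hw₁, hw₁0⟩ := Submodule.exists_mem_ne_zero_of_ne_bot hW0
      apply hw₁0
      apply hinf w₁ hw₁
      obtain ⟨a, ha, b, hb, e⟩ := hdec (((g⁻¹ : Matrix.symplecticGroup (Fin m) F) :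
        Matrix (Fin m ⊕ Fin m) (Fin m ⊕ Fin m) F) *ᵥ w₁)
      rw [← mul_inv_mulVec g w₁, ← e, mulVec_add]
      exact U.add_mem (h2 a ha) (h4 b hb)
    obtain ⟨y, hyY, hyW, hyU⟩ := hex
    obtain ⟨y₁, hy₁, y₂, hy₂, rfl⟩ := hdec y
    have hy₁0 : y₁ ≠ 0 := by
      rintro rfl
      rw [zero_add] at hyU
      exact hyU hy₂
    have hy₂0 : y₂ ≠ 0 := by
      rintro rfl
      rw [add_zero] at hyW
      exact hyW hy₁
    apply eq_top_of_YY
    intro v
    obtain ⟨v₁, hv₁, v₂, hv₂, rfl⟩ := hdec v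
    by_cases c1 : v₁ = 0
    · rw [c1, zero_add]; exact hUY v₂ hv₂
    by_cases c2 : v₂ = 0
    · rw [c2, add_zero]; exact hWY v₁ hv₁
    have s1 := move_comp W U hWY hW horth y₁ y₂ v₁ hy₁ hy₁0 hy₂ hv₁ c1 hyY
    rw [add_comm] at s1
    have s2 := move_comp U W hUY hUnd horth' y₂ v₁ v₂ hy₂ hy₂0 hv₁ hv₂ c2 s1
    rwa [add_comm] at s2

end Cfsg.Agent.Lib.Helper5.SympMax
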