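import Mathlib
import Cfsg.Prelude.Def_GeometricClasses
import Cfsg.Agent.Lib.Helper5.SympMax
import Cfsg.Agent.Lib.Helper5.OrthRefl

set_option autoImplicit false
set_option linter.unusedSectionVars false

namespace Cfsg.Agent.Lib.Helper5.SympPair

open Matrix Cfsg.Agent.Lib.Helper5.Symp Cfsg.Agent.Lib.Helper5.SympGen
  Cfsg.Agent.Lib.Helper5.SympBridge Cfsg.Agent.Lib.Helper5.SympPerfect
  Cfsg.Agent.Lib.Helper5.SympMax

variable {F : Type*} [Field F] {m : ℕ}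

/-- a pair of complementary totally isotropic subspaces -/
structure Pol (E E' : Submodule F (Fin m ⊕ Fin m → F)) : Prop where
  ts : ∀ u ∈ E, ∀ v ∈ E, Cfsg.sympForm m F u v = 0
  ts' : ∀ u ∈ E', ∀ v ∈ E', Cfsg.sympForm m F u v = 0
  dec : ∀ v, ∃ v₀ ∈ E, ∃ v₁ ∈ E', v = v₀ + v₁

variable {E E' : Submodule F (Fin m ⊕ Fin m → F)}

theorem Pol.symm (h : Pol E E') : Pol E' E :=
  ⟨h.ts', h.ts, fun v => by
    obtain ⟨a, ha, b, hb, rfl⟩ := h.dec v
    exact ⟨b, hb, a, ha, add_comm _ _⟩⟩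

theorem Pol.dual (h : Pol E E') (S : Submodule F (Fin m ⊕ Fin m → F)) (hS : S ≤ E)
    (u : Fin m ⊕ Fin m → F) (hu : u ∈ E) (huS : u ∉ S) :
    ∃ b ∈ E', (∀ s ∈ S, Cfsg.sympForm m F s b = 0) ∧ Cfsg.sympForm m F b u ≠ 0 := by
  obtain ⟨y, hy, hyu⟩ := exists_orth_ne S u huS
  obtain ⟨y₀, hy₀, y₁, hy₁, rfl⟩ := h.dec y
  refine ⟨y₁, hy₁, ?_, ?_⟩
  · intro s hs
    have := hy s hs
    rwa [sympForm_add_right, h.ts s (hS hs) y₀ hy₀, zero_add] at this
  · rwa [sympForm_add_left, h.ts y₀ hy₀ u hu, zero_add] at hyu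

theorem Pol.disj (h : Pol E E') (x : Fin m ⊕ Fin m → F) (hx : x ∈ E) (hx' : x ∈ E') : x = 0 := by
  apply eq_zero_of_forall
  intro y
  obtain ⟨y₀, hy₀, y₁, hy₁, rfl⟩ := h.dec y
  rw [sympForm_add_right, h.ts x hx y₀ hy₀, h.ts' x hx' y₁ hy₁, add_zero]

theorem conj_sg (A : Matrix.symplecticGroup (Fin m) F) (a b : Fin m ⊕ Fin m → F) :
    A * sg a b * A⁻¹ = sg ((A : Matrix (Fin m ⊕ Fin m) (Fin m ⊕ Fin m) F) *ᵥ a)
      ((A : Matrix (Fin m ⊕ Fin m) (Fin m ⊕ Fin m) F) *ᵥ b) := by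
  unfold sg
  rw [← mulVec_add, ← conj_tv, ← conj_tv, ← conj_tv]
  group

theorem sg_stab (h : Pol E E') (a b : Fin m ⊕ Fin m → F) (ha : a ∈ E) (hb : b ∈ E')
    (hab : Cfsg.sympForm m F a b = 0) :
    (∀ x ∈ E, (sg a b : Matrix (Fin m ⊕ Fin m) (Fin m ⊕ Fin m) F) *ᵥ x ∈ E) ∧
    (∀ x ∈ E', (sg a b : Matrix (Fin m ⊕ Fin m) (Fin m ⊕ Fin m) F) *ᵥ x ∈ E') := by
  constructor
  · intro x hx
    rw [sg_mulVec a b hab, h.ts x hx a ha, zero_smul, add_zero]
    exact E.add_mem hx (E.smul_mem _ ha)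
  · intro x hx
    rw [sg_mulVec a b hab, h.ts' x hx b hb, zero_smul, add_zero]
    exact E'.add_mem hx (E'.smul_mem _ hb)

theorem sg_comm (a X Y : Fin m ⊕ Fin m → F) (hX : Cfsg.sympForm m F a X = 0)
    (hY : Cfsg.sympForm m F a Y = 0) :
    sg a Y * sg a X = sg a X * sg a Y * tv a (2 * Cfsg.sympForm m F X Y) := by
  have hX' : Cfsg.sympForm m F X a = 0 := by rw [sympForm_swap, hX, neg_zero]
  have hY' : Cfsg.sympForm m F Y a = 0 := by rw [sympForm_swap, hY, neg_zero]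
  have hYX : Cfsg.sympForm m F Y X = - Cfsg.sympForm m F X Y := sympForm_swap Y X
  apply ext_mulVec
  intro v
  rw [coe_mul_mulVec, coe_mul_mulVec, coe_mul_mulVec, tv_mulVec, sg_mulVec a X hX,
    sg_mulVec a Y hY, sg_mulVec a Y hY, sg_mulVec a X hX]
  simp only [sympForm_add_left, sympForm_smul_left, sympForm_self, hX, hY, hX', hY', hYX]
  module

theorem exists_in (E : Submodule F (Fin m ⊕ Fin m → F)) (z₁ z₂ z₃ w : Fin m ⊕ Fin m → F)
    (hE : 5 ≤ Module.finrank F E) :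
    ∃ a ∈ E, Cfsg.sympForm m F a z₁ = 0 ∧ Cfsg.sympForm m F a z₂ = 0 ∧
      Cfsg.sympForm m F a z₃ = 0 ∧ a ∉ Submodule.span F {w} := by
  set φ : (Fin m ⊕ Fin m → F) → ((Fin m ⊕ Fin m → F) →ₗ[F] F) :=
    fun z => (sympB m F).flip z with hφ
  have h1 := OrthRefl.finrank_inf_ker E (φ z₁)
  have h2 := OrthRefl.finrank_inf_ker (E ⊓ LinearMap.ker (φ z₁)) (φ z₂)
  have h3 := OrthRefl.finrank_inf_ker (E ⊓ LinearMap.ker (φ z₁) ⊓ LinearMap.ker (φ z₂)) (φ z₃)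
  by_contra hcon
  push Not at hcon
  have hle : E ⊓ LinearMap.ker (φ z₁) ⊓ LinearMap.ker (φ z₂) ⊓ LinearMap.ker (φ z₃) ≤
      Submodule.span F {w} := by
    rintro a ⟨⟨⟨ha, h1⟩, h2⟩, h3⟩
    exact hcon a ha h1 h2 h3
  have h4 := Submodule.finrank_mono hle
  have h5 : Module.finrank F (Submodule.span F {w}) ≤ 1 := by
    have := finrank_span_le_card (R := F) ({w} : Set (Fin m ⊕ Fin m → F))
    simpa using this
  omega

theorem map_eq (g : Matrix.symplecticGroup (Fin m) F) (X Y : Submodule F (Fin m ⊕ Fin m → F))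
    (h : ∀ x ∈ X, (g : Matrix (Fin m ⊕ Fin m) (Fin m ⊕ Fin m) F) *ᵥ x ∈ Y)
    (hfin : Module.finrank F X = Module.finrank F Y) :
    X.map (Matrix.toLin' ((toGL g : Matrix.GeneralLinearGroup (Fin m ⊕ Fin m) F) :
      Matrix (Fin m ⊕ Fin m) (Fin m ⊕ Fin m) F)) = Y := by
  apply Submodule.eq_of_le_of_finrank_eq
  · rintro _ ⟨x, hx, rfl⟩
    exact h x hx
  · rw [← hfin]
    exact (Submodule.equivMapOfInjective _ (mulVecLin_inj g) X).finrank_eq.symm

theorem mem_decomp_of (D : Fin 2 → Submodule F (Fin m ⊕ Fin m → F))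
    (hfin : Module.finrank F (D 0) = Module.finrank F (D 1))
    (g : Matrix.symplecticGroup (Fin m) F)
    (h : ((∀ x ∈ D 0, (g : Matrix (Fin m ⊕ Fin m) (Fin m ⊕ Fin m) F) *ᵥ x ∈ D 0) ∧
        (∀ x ∈ D 1, (g : Matrix (Fin m ⊕ Fin m) (Fin m ⊕ Fin m) F) *ᵥ x ∈ D 1)) ∨
      ((∀ x ∈ D 0, (g : Matrix (Fin m ⊕ Fin m) (Fin m ⊕ Fin m) F) *ᵥ x ∈ D 1) ∧
        (∀ x ∈ D 1, (g : Matrix (Fin m ⊕ Fin m) (Fin m ⊕ Fin m) F) *ᵥ x ∈ D 0))) :
    toGL g ∈ Cfsg.Geo.decompositionStabilizer D := by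
  rcases h with ⟨h0, h1⟩ | ⟨h0, h1⟩
  · refine ⟨1, fun i => ?_⟩
    fin_cases i
    · exact map_eq g _ _ h0 rfl
    · exact map_eq g _ _ h1 rfl
  · refine ⟨Equiv.swap 0 1, fun i => ?_⟩
    fin_cases i
    · exact map_eq g _ _ h0 hfin
    · exact map_eq g _ _ h1 hfin.symm

theorem cases_of_mem (D : Fin 2 → Submodule F (Fin m ⊕ Fin m → F))
    (g : Matrix.symplecticGroup (Fin m) F) (h : toGL g ∈ Cfsg.Geo.decompositionStabilizer D) :
    ((∀ x ∈ D 0, (g : Matrix (Fin m ⊕ Fin m) (Fin m ⊕ Fin m) F) *ᵥ x ∈ D 0) ∧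
        (∀ x ∈ D 1, (g : Matrix (Fin m ⊕ Fin m) (Fin m ⊕ Fin m) F) *ᵥ x ∈ D 1)) ∨
      ((∀ x ∈ D 0, (g : Matrix (Fin m ⊕ Fin m) (Fin m ⊕ Fin m) F) *ᵥ x ∈ D 1) ∧
        (∀ x ∈ D 1, (g : Matrix (Fin m ⊕ Fin m) (Fin m ⊕ Fin m) F) *ᵥ x ∈ D 0)) := by
  obtain ⟨σ, hσ⟩ := h
  have hm : ∀ i, ∀ x ∈ D i, (g : Matrix (Fin m ⊕ Fin m) (Fin m ⊕ Fin m) F) *ᵥ x ∈ D (σ i) := by
    intro i x hx
    rw [← hσ i]
    exact ⟨x, hx, rfl⟩
  have hcases : σ 0 = 0 ∨ σ 0 = 1 := by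
    generalize σ 0 = j
    fin_cases j <;> simp
  have hcases1 : σ 1 = 0 ∨ σ 1 = 1 := by
    generalize σ 1 = j
    fin_cases j <;> simp
  have hne : σ 0 ≠ σ 1 := fun h => absurd (σ.injective h) (by decide)
  rcases hcases with h0 | h0 <;> rcases hcases1 with h1 | h1
  · exact absurd (h0.trans h1.symm) hne
  · left
    exact ⟨fun x hx => h0 ▸ hm 0 x hx, fun x hx => h1 ▸ hm 1 x hx⟩
  · right
    exact ⟨fun x hx => h0 ▸ hm 0 x hx, fun x hx => h1 ▸ hm 1 x hx⟩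
  · exact absurd (h0.trans h1.symm) hne


theorem Pol.push (h : Pol E E') (y₀ y₁ a₁ : Fin m ⊕ Fin m → F) (hy₀ : y₀ ∈ E) (hy₁ : y₁ ∈ E')
    (ha₁ : a₁ ∈ E) (h1 : Cfsg.sympForm m F a₁ y₁ = 0) (hn : y₀ ∉ Submodule.span F {a₁}) :
    ∃ b₁ ∈ E', Cfsg.sympForm m F a₁ b₁ = 0 ∧ ∃ c : F, c ≠ 0 ∧
      (sg a₁ b₁ : Matrix (Fin m ⊕ Fin m) (Fin m ⊕ Fin m) F) *ᵥ (y₀ + y₁) = y₀ + y₁ + c • a₁ := by
  obtain ⟨b, hb, hbS, hbu⟩ := h.dual (Submodule.span F {a₁})
    (by rw [Submodule.span_singleton_le_iff_mem]; exact ha₁) y₀ hy₀ hn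
  have hab := hbS a₁ (Submodule.mem_span_singleton_self a₁)
  have h1' : Cfsg.sympForm m F y₁ a₁ = 0 := by rw [sympForm_swap, h1, neg_zero]
  refine ⟨b, hb, hab, Cfsg.sympForm m F y₀ b, ?_, ?_⟩
  · rw [sympForm_swap]; exact neg_ne_zero.mpr hbu
  · rw [sg_mulVec a₁ b hab, sympForm_add_left, sympForm_add_left, h.ts y₀ hy₀ a₁ ha₁, h1',
      h.ts' y₁ hy₁ b hb]
    simp

variable {H : Subgroup (Matrix.symplecticGroup (Fin m) F)}

theorem step_tv (h2 : (2 : F) ≠ 0) (h : Pol E E') (hA : 5 ≤ Module.finrank F E)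
    (hP : ∀ a ∈ E, ∀ b ∈ E', Cfsg.sympForm m F a b = 0 → sg a b ∈ H)
    (p r : Fin m ⊕ Fin m → F) (hpr : Cfsg.sympForm m F p r = 0) (hs : sg p r ∈ H)
    (x : Fin m ⊕ Fin m → F) (hx : x ∈ E')
    (hsx : (sg p r : Matrix (Fin m ⊕ Fin m) (Fin m ⊕ Fin m) F) *ᵥ x ∉ E') :
    ∃ a ∈ E, a ≠ 0 ∧ a ∈ YY H := by
  set X := (sg p r : Matrix (Fin m ⊕ Fin m) (Fin m ⊕ Fin m) F) *ᵥ x with hX
  obtain ⟨wA, hwA, wB, hwB, hw⟩ := h.dec X
  have hwA0 : wA ≠ 0 := by
    rintro rfl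
    apply hsx
    rw [hw, zero_add]
    exact hwB
  obtain ⟨a, ha, hap, har, hax, haw⟩ := exists_in E p r x wA hA
  have ha0 : a ≠ 0 := by
    rintro rfl
    exact haw (Submodule.zero_mem _)
  have hwa : wA ∉ Submodule.span F {a} := by
    intro hc
    obtain ⟨c, hc⟩ := Submodule.mem_span_singleton.mp hc
    have hc0 : c ≠ 0 := by
      rintro rfl
      rw [zero_smul] at hc
      exact hwA0 hc.symm
    apply haw
    rw [Submodule.mem_span_singleton]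
    refine ⟨c⁻¹, ?_⟩
    rw [← hc, smul_smul, inv_mul_cancel₀ hc0, one_smul]
  obtain ⟨b, hb, hbS, hbu⟩ := h.dual (Submodule.span F {a})
    (by rw [Submodule.span_singleton_le_iff_mem]; exact ha) wA hwA hwa
  have hab := hbS a (Submodule.mem_span_singleton_self a)
  have hfix : (sg p r : Matrix (Fin m ⊕ Fin m) (Fin m ⊕ Fin m) F) *ᵥ a = a := by
    rw [sg_mulVec p r hpr, hap, har]
    simp
  have h1 : sg a X ∈ H := by
    have := H.mul_mem (H.mul_mem hs (hP a ha x hx hax)) (H.inv_mem hs)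
    rw [conj_sg, hfix] at this
    exact this
  have haX : Cfsg.sympForm m F a X = 0 := by
    have := preserves (sg p r) a x
    rw [hfix, hax] at this
    exact this
  have hXb : Cfsg.sympForm m F X b ≠ 0 := by
    rw [hw, sympForm_add_left, h.ts' wB hwB b hb, add_zero, sympForm_swap]
    exact neg_ne_zero.mpr hbu
  refine ⟨a, ha, ha0, ?_⟩
  intro c
  set μ := c / (2 * Cfsg.sympForm m F X b) with hμ
  have hY : Cfsg.sympForm m F a (μ • b) = 0 := by rw [sympForm_smul_right, hab, mul_zero]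
  have h3 : sg a (μ • b) ∈ H := hP a ha _ (E'.smul_mem _ hb) hY
  have h4 := sg_comm a X (μ • b) haX hY
  have h5 : tv a (2 * Cfsg.sympForm m F X (μ • b)) =
      (sg a X * sg a (μ • b))⁻¹ * (sg a (μ • b) * sg a X) := by
    rw [h4]
    group
  have h6 : 2 * Cfsg.sympForm m F X (μ • b) = c := by
    rw [sympForm_smul_right, hμ]
    field_simp
  rw [← h6, h5]
  exact H.mul_mem (H.inv_mem (H.mul_mem h1 h3)) (H.mul_mem h3 h1)

theorem step_all (h : Pol E E')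
    (hP : ∀ a ∈ E, ∀ b ∈ E', Cfsg.sympForm m F a b = 0 → sg a b ∈ H)
    (a : Fin m ⊕ Fin m → F) (ha : a ∈ E) (ha0 : a ≠ 0) (haY : a ∈ YY H) :
    ∀ z ∈ E, z ∈ YY H := by
  intro z hz
  by_cases hza : z ∈ Submodule.span F {a}
  · obtain ⟨c, rfl⟩ := Submodule.mem_span_singleton.mp hza
    exact YY_smul haY c
  have hn : a ∉ Submodule.span F {z - a} := by
    intro hc
    obtain ⟨c, hc⟩ := Submodule.mem_span_singleton.mp hc
    have hc0 : c ≠ 0 := by
      rintro rfl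
      rw [zero_smul] at hc
      exact ha0 hc.symm
    apply hza
    rw [Submodule.mem_span_singleton]
    refine ⟨1 + c⁻¹, ?_⟩
    have : c⁻¹ • a = z - a := by
      have h0 : c⁻¹ • (c • (z - a)) = c⁻¹ • a := by rw [hc]
      rw [← h0, smul_smul, inv_mul_cancel₀ hc0, one_smul]
    rw [add_smul, one_smul, this]
    abel
  obtain ⟨b, hb, hbS, hbu⟩ := h.dual (Submodule.span F {z - a})
    (by rw [Submodule.span_singleton_le_iff_mem]; exact E.sub_mem hz ha) a ha hn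
  have hab := hbS _ (Submodule.mem_span_singleton_self _)
  have hab' : Cfsg.sympForm m F a b ≠ 0 := by
    rw [sympForm_swap]; exact neg_ne_zero.mpr hbu
  set b' := (Cfsg.sympForm m F a b)⁻¹ • b with hb'
  have hzb : Cfsg.sympForm m F (z - a) b' = 0 := by
    rw [hb', sympForm_smul_right, hab, mul_zero]
  have h1 := YY_img (hP (z - a) (E.sub_mem hz ha) b' (E'.smul_mem _ hb) hzb) haY
  rw [sg_mulVec _ _ hzb, h.ts a ha _ (E.sub_mem hz ha), hb', sympForm_smul_right,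
    inv_mul_cancel₀ hab'] at h1
  have h2 : a + (0 : F) • (Cfsg.sympForm m F a b)⁻¹ • b + (1 : F) • (z - a) = z := by module
  rwa [h2] at h1

theorem all_of (h : Pol E E') (hA : ∀ z ∈ E, z ∈ YY H) (hB : ∀ z ∈ E', z ∈ YY H) :
    ∀ v, v ∈ YY H := by
  intro v
  obtain ⟨vA, hvA, vB, hvB, rfl⟩ := h.dec v
  by_cases c0 : vA = 0
  · rw [c0, zero_add]; exact hB vB hvB
  by_cases c1 : Cfsg.sympForm m F vA vB = 0
  · obtain ⟨b, hb, _, hbu⟩ := h.dual ⊥ bot_le vA hvA (by simpa using c0)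
    have hab : Cfsg.sympForm m F vA b ≠ 0 := by
      rw [sympForm_swap]; exact neg_ne_zero.mpr hbu
    have h1 := YY_add (hB b hb) (hA vA hvA) hab 1
    have h2 := YY_add (hB (vB - b) (E'.sub_mem hvB hb)) h1 (by
      rw [one_smul, sympForm_add_left, sympForm_sub_right, c1, h.ts' b hb _ (E'.sub_mem hvB hb),
        zero_sub, add_zero]
      exact neg_ne_zero.mpr hab) 1
    have h3 : vA + (1 : F) • b + (1 : F) • (vB - b) = vA + vB := by module
    rwa [h3] at h2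
  · have := YY_add (hB vB hvB) (hA vA hvA) c1 1
    rwa [one_smul] at this

theorem exists_swap (h : Pol E E') (hA : Module.finrank F E = m) :
    ∃ σ : Matrix.symplecticGroup (Fin m) F,
      (∀ x ∈ E, (σ : Matrix (Fin m ⊕ Fin m) (Fin m ⊕ Fin m) F) *ᵥ x ∈ E') ∧
      (∀ x ∈ E', (σ : Matrix (Fin m ⊕ Fin m) (Fin m ⊕ Fin m) F) *ᵥ x ∈ E) := by
  classical
  let bs := Module.finBasisOfFinrankEq F E hA
  let e : Fin m → (Fin m ⊕ Fin m → F) := fun i => (bs i : Fin m ⊕ Fin m → F)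
  have heE : ∀ i, e i ∈ E := fun i => (bs i).2
  have hli : LinearIndependent F e :=
    bs.linearIndependent.map' E.subtype (Submodule.ker_subtype E)
  have hspan : Submodule.span F (Set.range e) = E := by
    have : Set.range e = E.subtype '' (Set.range bs) := by
      rw [← Set.range_comp]; rfl
    rw [this, ← Submodule.map_span, bs.span_eq, Submodule.map_top, Submodule.range_subtype]
  have hf : ∀ j, ∃ b ∈ E', ∀ i, Cfsg.sympForm m F (e i) b = if i = j then 1 else 0 := by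
    intro j
    have hj := (linearIndependent_iff_notMem_span.mp hli) j
    obtain ⟨b, hb, hbS, hbu⟩ := h.dual (Submodule.span F (e '' (Set.univ \ {j})))
      (by
        rw [Submodule.span_le]
        rintro _ ⟨i, _, rfl⟩
        exact heE i) (e j) (heE j) hj
    have hjb : Cfsg.sympForm m F (e j) b ≠ 0 := by
      rw [sympForm_swap]; exact neg_ne_zero.mpr hbu
    refine ⟨(Cfsg.sympForm m F (e j) b)⁻¹ • b, E'.smul_mem _ hb, fun i => ?_⟩
    rw [sympForm_smul_right]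
    by_cases hij : i = j
    · rw [if_pos hij, hij, inv_mul_cancel₀ hjb]
    · rw [if_neg hij, hbS (e i) (Submodule.subset_span ⟨i, ⟨trivial, hij⟩, rfl⟩), mul_zero]
  choose f hfB hf using hf
  obtain ⟨σ, _, hσ⟩ := trans_family m e f f (fun i => - e i)
    (fun i j => hf j i) (fun i j => h.ts _ (heE i) _ (heE j))
    (fun i j => h.ts' _ (hfB i) _ (hfB j))
    (fun i j => by
      have : -e j = (-1 : F) • e j := by simp
      rw [this, sympForm_smul_right, sympForm_swap, hf i j]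
      by_cases hij : i = j
      · simp [hij]
      · simp [hij, Ne.symm hij])
    (fun i j => h.ts' _ (hfB i) _ (hfB j))
    (fun i j => by
      have h1 : -e j = (-1 : F) • e j := by simp
      have h2 : -e i = (-1 : F) • e i := by simp
      rw [h1, h2, sympForm_smul_right, sympForm_smul_left, h.ts _ (heE i) _ (heE j)]
      simp)
  refine ⟨σ, ?_, ?_⟩
  · intro x hx
    rw [← hspan] at hx
    induction hx using Submodule.span_induction with
    | mem x hx =>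
      obtain ⟨i, rfl⟩ := hx
      rw [(hσ i).1]
      exact hfB i
    | zero => rw [mulVec_zero]; exact E'.zero_mem
    | add x y _ _ hx hy => rw [mulVec_add]; exact E'.add_mem hx hy
    | smul c x _ hx => rw [mulVec_smul]; exact E'.smul_mem c hx
  · intro x hx
    obtain ⟨z₀, hz₀, z₁, hz₁, hz⟩ := h.dec ((σ : Matrix (Fin m ⊕ Fin m) (Fin m ⊕ Fin m) F) *ᵥ x)
    have hz1 : z₁ = 0 := by
      apply eq_zero_of_forall
      intro y
      obtain ⟨y₀, hy₀, y₁, hy₁, rfl⟩ := h.dec y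
      rw [sympForm_add_right, h.ts' z₁ hz₁ y₁ hy₁, add_zero]
      rw [← hspan] at hy₀
      induction hy₀ using Submodule.span_induction with
      | mem y hy =>
        obtain ⟨i, rfl⟩ := hy
        have h1 : Cfsg.sympForm m F ((σ : Matrix (Fin m ⊕ Fin m) (Fin m ⊕ Fin m) F) *ᵥ x)
            (- e i) = 0 := by
          rw [← (hσ i).2, preserves]
          exact h.ts' x hx _ (hfB i)
        have h2 : -e i = (-1 : F) • e i := by simp
        rw [h2, sympForm_smul_right, hz, sympForm_add_left, h.ts z₀ hz₀ _ (heE i), zero_add] at h1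
        simpa using h1
      | zero => exact sympForm_zero_right _
      | add x y _ _ hx hy => rw [sympForm_add_right, hx, hy, add_zero]
      | smul c x _ hx => rw [sympForm_smul_right, hx, mul_zero]
    rw [hz, hz1, add_zero]
    exact hz₀


theorem no_collapse (h : Pol E E') (Y : Submodule F (Fin m ⊕ Fin m → F))
    (hfin : Module.finrank F E = Module.finrank F Y) (hE' : E' ≠ ⊥)
    (g : Matrix.symplecticGroup (Fin m) F)
    (h0 : ∀ x ∈ E, (g : Matrix (Fin m ⊕ Fin m) (Fin m ⊕ Fin m) F) *ᵥ x ∈ Y)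
    (h1 : ∀ x ∈ E', (g : Matrix (Fin m ⊕ Fin m) (Fin m ⊕ Fin m) F) *ᵥ x ∈ Y) : False := by
  obtain ⟨x, hx, hx0⟩ := Submodule.exists_mem_ne_zero_of_ne_bot hE'
  have h2 := h1 x hx
  rw [← map_eq g E Y h0 hfin] at h2
  obtain ⟨x', hx', e⟩ := h2
  have : x' = x := mulVecLin_inj g e
  rw [this] at hx'
  exact hx0 (h.disj x hx' hx)

theorem close (h2 : (2 : F) ≠ 0) (h : Pol E E') (hA : Module.finrank F E = m) (hm : 5 ≤ m)
    (hP : ∀ a ∈ E, ∀ b ∈ E', Cfsg.sympForm m F a b = 0 → sg a b ∈ H)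
    (hσ : ∀ σ : Matrix.symplecticGroup (Fin m) F,
      (∀ x ∈ E, (σ : Matrix (Fin m ⊕ Fin m) (Fin m ⊕ Fin m) F) *ᵥ x ∈ E') →
      (∀ x ∈ E', (σ : Matrix (Fin m ⊕ Fin m) (Fin m ⊕ Fin m) F) *ᵥ x ∈ E) → σ ∈ H)
    (p r : Fin m ⊕ Fin m → F) (hpr : Cfsg.sympForm m F p r = 0) (hs : sg p r ∈ H)
    (x : Fin m ⊕ Fin m → F) (hx : x ∈ E')
    (hsx : (sg p r : Matrix (Fin m ⊕ Fin m) (Fin m ⊕ Fin m) F) *ᵥ x ∉ E') : H = ⊤ := by
  obtain ⟨a, ha, ha0, haY⟩ := step_tv h2 h (by omega) hP p r hpr hs x hx hsx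
  have hE := step_all h hP a ha ha0 haY
  obtain ⟨σ, hσ1, hσ2⟩ := exists_swap h hA
  have hσH := hσ σ hσ1 hσ2
  have hE' : ∀ z ∈ E', z ∈ YY H := by
    intro z hz
    have h1 := YY_img (H.inv_mem hσH) (hE _ (hσ2 z hz))
    rwa [inv_mul_mulVec] at h1
  exact eq_top_of_YY (all_of h hE hE')

theorem pair_max (h2 : (2 : F) ≠ 0) (hm : 5 ≤ m) (D : Fin 2 → Submodule F (Fin m ⊕ Fin m → F))
    (hfin : ∀ i, Module.finrank F (D i) = m) (h : Pol (D 0) (D 1)) :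
    Cfsg.Geo.IsMaximalIn (Cfsg.spGL m F) (Cfsg.Geo.decompositionStabilizer D ⊓ Cfsg.spGL m F) := by
  have hfin01 : Module.finrank F (D 0) = Module.finrank F (D 1) := by rw [hfin, hfin]
  have hne : ∀ i, D i ≠ ⊥ := by
    intro i hi
    have := hfin i
    rw [hi, finrank_bot] at this
    omega
  apply max_of
  · obtain ⟨a, ha, ha0⟩ := Submodule.exists_mem_ne_zero_of_ne_bot (hne 0)
    obtain ⟨b, hb, _, hbu⟩ := h.dual ⊥ bot_le a ha (by simpa using ha0)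
    refine ⟨tv a 1, fun hc => ?_⟩
    rcases cases_of_mem D _ hc with ⟨_, h1⟩ | ⟨h0, _⟩
    · have h3 := h1 b hb
      rw [tv_mulVec, one_mul] at h3
      have h4 := (D 1).sub_mem h3 hb
      rw [add_sub_cancel_left] at h4
      have h5 := (D 1).smul_mem (Cfsg.sympForm m F b a)⁻¹ h4
      rw [smul_smul, inv_mul_cancel₀ hbu, one_smul] at h5
      exact ha0 (h.disj a ha h5)
    · have h3 := h0 a ha
      rw [tv_mulVec, sympForm_self, mul_zero, zero_smul, add_zero] at h3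
      exact ha0 (h.disj a ha h3)
  · rintro H hPH ⟨g, hgH, hgD⟩
    have hP01 : ∀ a ∈ D 0, ∀ b ∈ D 1, Cfsg.sympForm m F a b = 0 → sg a b ∈ H :=
      fun a ha b hb hab => hPH _ (mem_decomp_of D hfin01 _ (Or.inl (sg_stab h a b ha hb hab)))
    have hP10 : ∀ a ∈ D 1, ∀ b ∈ D 0, Cfsg.sympForm m F a b = 0 → sg a b ∈ H :=
      fun a ha b hb hab => hPH _ (mem_decomp_of D hfin01 _
        (Or.inl (sg_stab h.symm a b ha hb hab).symm))
    have hmix : ∃ y₀ ∈ D 0, ∃ y₁ ∈ D 1, y₀ ≠ 0 ∧ y₁ ≠ 0 ∧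
        ((g : Matrix (Fin m ⊕ Fin m) (Fin m ⊕ Fin m) F) *ᵥ (y₀ + y₁) ∈ D 0 ∨
         (g : Matrix (Fin m ⊕ Fin m) (Fin m ⊕ Fin m) F) *ᵥ (y₀ + y₁) ∈ D 1) := by
      by_contra hcon
      push Not at hcon
      apply hgD
      have hpure : ∀ x, (x ∈ D 0 ∨ x ∈ D 1) →
          ((g⁻¹ : Matrix.symplecticGroup (Fin m) F) :
            Matrix (Fin m ⊕ Fin m) (Fin m ⊕ Fin m) F) *ᵥ x ∈ D 0 ∨
          ((g⁻¹ : Matrix.symplecticGroup (Fin m) F) :
            Matrix (Fin m ⊕ Fin m) (Fin m ⊕ Fin m) F) *ᵥ x ∈ D 1 := by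
        intro x hx
        obtain ⟨y₀, hy₀, y₁, hy₁, e⟩ := h.dec (((g⁻¹ : Matrix.symplecticGroup (Fin m) F) :
            Matrix (Fin m ⊕ Fin m) (Fin m ⊕ Fin m) F) *ᵥ x)
        by_cases c0 : y₀ = 0
        · right; rw [e, c0, zero_add]; exact hy₁
        by_cases c1 : y₁ = 0
        · left; rw [e, c1, add_zero]; exact hy₀
        exfalso
        have := hcon y₀ hy₀ y₁ hy₁ c0 c1
        rw [← e, mul_inv_mulVec] at this
        tauto
      have hi : ∀ X, (X = D 0 ∨ X = D 1) →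
          (∀ x ∈ X, ((g⁻¹ : Matrix.symplecticGroup (Fin m) F) :
            Matrix (Fin m ⊕ Fin m) (Fin m ⊕ Fin m) F) *ᵥ x ∈ D 0) ∨
          (∀ x ∈ X, ((g⁻¹ : Matrix.symplecticGroup (Fin m) F) :
            Matrix (Fin m ⊕ Fin m) (Fin m ⊕ Fin m) F) *ᵥ x ∈ D 1) := by
        intro X hX
        by_cases c : ∀ x ∈ X, ((g⁻¹ : Matrix.symplecticGroup (Fin m) F) :
            Matrix (Fin m ⊕ Fin m) (Fin m ⊕ Fin m) F) *ᵥ x ∈ D 0
        · left; exact c
        · right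
          push Not at c
          obtain ⟨x₀, hx₀, hx₀'⟩ := c
          refine all_in (D 0) (D 1) X g⁻¹ (fun x hx => hpure x ?_) x₀ hx₀ hx₀'
          rcases hX with rfl | rfl
          · left; exact hx
          · right; exact hx
      have hinv : toGL g⁻¹ ∈ Cfsg.Geo.decompositionStabilizer D := by
        apply mem_decomp_of D hfin01
        rcases hi (D 0) (Or.inl rfl) with h0 | h0 <;> rcases hi (D 1) (Or.inr rfl) with h1 | h1
        · exact (no_collapse h (D 0) rfl (hne 1) g⁻¹ h0 h1).elim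
        · left; exact ⟨h0, h1⟩
        · right; exact ⟨h0, h1⟩
        · exact (no_collapse h (D 1) hfin01 (hne 1) g⁻¹ h0 h1).elim
      rw [map_inv] at hinv
      exact (Subgroup.inv_mem_iff _).mp hinv
    obtain ⟨y₀, hy₀, y₁, hy₁, hy₀0, hy₁0, hx⟩ := hmix
    obtain ⟨a₁, ha₁, h1, _, _, ha₁y⟩ := exists_in (D 0) y₁ y₁ y₁ y₀ (by rw [hfin]; omega)
    obtain ⟨b₂, hb₂, hb₂S, hb₂a⟩ := h.dual (Submodule.span F {y₀})
      (by rw [Submodule.span_singleton_le_iff_mem]; exact hy₀) a₁ ha₁ ha₁y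
    have hy₀b := hb₂S y₀ (Submodule.mem_span_singleton_self y₀)
    have hn1 : y₀ ∉ Submodule.span F {a₁} := by
      intro hc
      obtain ⟨c, hc⟩ := Submodule.mem_span_singleton.mp hc
      have hc0 : c ≠ 0 := by
        rintro rfl
        rw [zero_smul] at hc
        exact hy₀0 hc.symm
      apply ha₁y
      rw [Submodule.mem_span_singleton]
      refine ⟨c⁻¹, ?_⟩
      rw [← hc, smul_smul, inv_mul_cancel₀ hc0, one_smul]
    have hn2 : y₁ ∉ Submodule.span F {b₂} := by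
      intro hc
      obtain ⟨c, hc⟩ := Submodule.mem_span_singleton.mp hc
      rw [← hc, sympForm_smul_right, sympForm_swap] at h1
      have hc0 : c = 0 := by
        rcases mul_eq_zero.mp h1 with h | h
        · exact h
        · exact absurd (neg_eq_zero.mp h) hb₂a
      rw [hc0, zero_smul] at hc
      exact hy₁0 hc.symm
    have key : ∀ B : Submodule F (Fin m ⊕ Fin m → F),
        (∀ u ∈ B, ∀ v ∈ B, Cfsg.sympForm m F u v = 0) →
        (g : Matrix (Fin m ⊕ Fin m) (Fin m ⊕ Fin m) F) *ᵥ (y₀ + y₁) ∈ B →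
        ∃ p r, Cfsg.sympForm m F p r = 0 ∧ sg p r ∈ H ∧
          (sg p r : Matrix (Fin m ⊕ Fin m) (Fin m ⊕ Fin m) F) *ᵥ
            ((g : Matrix (Fin m ⊕ Fin m) (Fin m ⊕ Fin m) F) *ᵥ (y₀ + y₁)) ∉ B := by
      intro B hB hgy
      by_cases c : (g : Matrix (Fin m ⊕ Fin m) (Fin m ⊕ Fin m) F) *ᵥ a₁ ∈ B
      · have c' : (g : Matrix (Fin m ⊕ Fin m) (Fin m ⊕ Fin m) F) *ᵥ b₂ ∉ B := by
          intro c'
          apply hb₂a
          rw [← preserves g]
          exact hB _ c' _ c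
        obtain ⟨a₂, ha₂, hab, cc, hcc, e⟩ := h.symm.push y₁ y₀ b₂ hy₁ hy₀ hb₂
          (by rw [sympForm_swap, hy₀b, neg_zero]) hn2
        refine ⟨(g : Matrix (Fin m ⊕ Fin m) (Fin m ⊕ Fin m) F) *ᵥ b₂,
          (g : Matrix (Fin m ⊕ Fin m) (Fin m ⊕ Fin m) F) *ᵥ a₂, by rw [preserves]; exact hab, ?_, ?_⟩
        · rw [← conj_sg]
          exact H.mul_mem (H.mul_mem hgH (hP10 b₂ hb₂ a₂ ha₂ hab)) (H.inv_mem hgH)
        · intro hcon
          rw [← conj_sg, coe_mul_mulVec, coe_mul_mulVec, inv_mul_mulVec, add_comm y₀ y₁, e,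
            mulVec_add, mulVec_smul, add_comm y₁ y₀] at hcon
          have h4 := B.sub_mem hcon hgy
          rw [add_sub_cancel_left] at h4
          have h5 := B.smul_mem cc⁻¹ h4
          rw [smul_smul, inv_mul_cancel₀ hcc, one_smul] at h5
          exact c' h5
      · obtain ⟨b₁, hb₁, hab, cc, hcc, e⟩ := h.push y₀ y₁ a₁ hy₀ hy₁ ha₁ h1 hn1
        refine ⟨(g : Matrix (Fin m ⊕ Fin m) (Fin m ⊕ Fin m) F) *ᵥ a₁,
          (g : Matrix (Fin m ⊕ Fin m) (Fin m ⊕ Fin m) F) *ᵥ b₁, by rw [preserves]; exact hab, ?_, ?_⟩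
        · rw [← conj_sg]
          exact H.mul_mem (H.mul_mem hgH (hP01 a₁ ha₁ b₁ hb₁ hab)) (H.inv_mem hgH)
        · intro hcon
          rw [← conj_sg, coe_mul_mulVec, coe_mul_mulVec, inv_mul_mulVec, e,
            mulVec_add, mulVec_smul] at hcon
          have h4 := B.sub_mem hcon hgy
          rw [add_sub_cancel_left] at h4
          have h5 := B.smul_mem cc⁻¹ h4
          rw [smul_smul, inv_mul_cancel₀ hcc, one_smul] at h5
          exact c h5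
    rcases hx with hx | hx
    · obtain ⟨p, r, hpr, hs, hns⟩ := key (D 0) h.ts hx
      exact close h2 h.symm (hfin 1) hm hP10
        (fun σ h1 h0 => hPH _ (mem_decomp_of D hfin01 _ (Or.inr ⟨h0, h1⟩))) p r hpr hs _ hx hns
    · obtain ⟨p, r, hpr, hs, hns⟩ := key (D 1) h.ts' hx
      exact close h2 h (hfin 0) hm hP01
        (fun σ h0 h1 => hPH _ (mem_decomp_of D hfin01 _ (Or.inr ⟨h0, h1⟩))) p r hpr hs _ hx hns

end Cfsg.Agent.Lib.Helper5.SympPair
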