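import Mathlib
import Cfsg.Prelude.Def_GeometricClasses
import Cfsg.Agent.Lib.Helper5.SympPair
import Cfsg.Agent.Lib.Helper5.SympAbstract

set_option autoImplicit false
set_option linter.unusedSectionVars false

namespace Cfsg.Agent.Lib.Helper5.SympBlocks

open Matrix Cfsg.Agent.Lib.Helper5.Symp Cfsg.Agent.Lib.Helper5.SympGen
  Cfsg.Agent.Lib.Helper5.SympBridge Cfsg.Agent.Lib.Helper5.SympPerfect
  Cfsg.Agent.Lib.Helper5.SympMax

variable {F : Type*} [Field F] {m t k : ℕ}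
variable {D : Fin t → Submodule F (Fin m ⊕ Fin m → F)}

theorem form_sum (S : Finset (Fin t)) (c : Fin t → (Fin m ⊕ Fin m → F))
    (d : Fin m ⊕ Fin m → F) :
    Cfsg.sympForm m F (∑ l ∈ S, c l) d = ∑ l ∈ S, Cfsg.sympForm m F (c l) d := by
  have : sympB m F (∑ l ∈ S, c l) d = ∑ l ∈ S, sympB m F (c l) d := by
    rw [map_sum, LinearMap.sum_apply]
  exact this

section

variable (hD : Cfsg.Geo.IsNondegenerateMDecomposition (Cfsg.sympForm m F) k D)

include hD

theorem comp (y : Fin m ⊕ Fin m → F) :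
    ∃ c : Fin t → (Fin m ⊕ Fin m → F), (∀ l, c l ∈ D l) ∧ y = ∑ l, c l := by
  classical
  have hy : y ∈ iSup D := by rw [hD.decomp.iSup_eq_top]; trivial
  induction hy using Submodule.iSup_induction' with
  | mem i x hx =>
    refine ⟨Pi.single i x, fun l => ?_, ?_⟩
    · by_cases hl : l = i
      · subst hl
        rw [Pi.single_eq_same]
        exact hx
      · rw [Pi.single_eq_of_ne hl]
        exact (D l).zero_mem
    · rw [Finset.sum_pi_single']
      simp
  | zero => exact ⟨0, fun l => (D l).zero_mem, by simp⟩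
  | add x y _ _ hx hy =>
    obtain ⟨c, hc, rfl⟩ := hx
    obtain ⟨c', hc', rfl⟩ := hy
    exact ⟨c + c', fun l => (D l).add_mem (hc l) (hc' l), by
      rw [← Finset.sum_add_distrib]; rfl⟩

theorem form_sumS (S : Finset (Fin t)) (c : Fin t → (Fin m ⊕ Fin m → F)) (hc : ∀ l, c l ∈ D l)
    (i : Fin t) (a : Fin m ⊕ Fin m → F) (ha : a ∈ D i) :
    Cfsg.sympForm m F (∑ l ∈ S, c l) a = if i ∈ S then Cfsg.sympForm m F (c i) a else 0 := by
  classical
  rw [form_sum]
  split_ifs with hi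
  · apply Finset.sum_eq_single_of_mem i hi
    intro l _ hl
    exact hD.orthogonal l i hl _ (hc l) _ ha
  · apply Finset.sum_eq_zero
    intro l hl
    exact hD.orthogonal l i (fun h => hi (h ▸ hl)) _ (hc l) _ ha

theorem mem_of_orth (y : Fin m ⊕ Fin m → F) (j : Fin t)
    (h : ∀ l, l ≠ j → ∀ d ∈ D l, Cfsg.sympForm m F y d = 0) : y ∈ D j := by
  classical
  obtain ⟨c, hc, rfl⟩ := comp hD y
  have h0 : ∀ l, l ≠ j → c l = 0 := by
    intro l hl
    by_contra hne
    obtain ⟨_, x, hx, hxe⟩ := hD.nondegenerate l (c l) (hc l) hne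
    apply hxe
    have := h l hl x hx
    rwa [form_sumS hD _ c hc l x hx, if_pos (Finset.mem_univ l)] at this
  rw [Finset.sum_eq_single j (fun l _ hl => h0 l hl) (fun h => absurd (Finset.mem_univ j) h)]
  exact hc j

theorem ne_bot (i : Fin t) : D i ≠ ⊥ := by
  intro h
  have h1 := hD.decomp.finrank_eq i
  have h2 := hD.decomp.pos
  rw [h, finrank_bot] at h1
  omega

/-- a vector of a block orthogonal to, and different from, a given one -/
theorem exists_other [Fintype F] (hex : ¬ (k = 2 ∧ Fintype.card F = 2)) (j : Fin t)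
    (b : Fin m ⊕ Fin m → F) (hb : b ∈ D j) (hb0 : b ≠ 0) :
    ∃ b₂ ∈ D j, b₂ ≠ 0 ∧ b₂ ≠ b ∧ Cfsg.sympForm m F b b₂ = 0 := by
  classical
  by_cases hq : ∃ c : F, c ≠ 0 ∧ c ≠ 1
  · obtain ⟨c, hc0, hc1⟩ := hq
    refine ⟨c • b, (D j).smul_mem _ hb, smul_ne_zero hc0 hb0, ?_, ?_⟩
    · intro h
      apply hc1
      have h1 : (c - 1) • b = 0 := by rw [sub_smul, one_smul, h, sub_self]
      rcases smul_eq_zero.mp h1 with h2 | h2
      · exact sub_eq_zero.mp h2
      · exact absurd h2 hb0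
    · rw [sympForm_smul_right, sympForm_self, mul_zero]
  · push Not at hq
    have hcard : Fintype.card F = 2 := by
      have h1 : (Finset.univ : Finset F) = {0, 1} := by
        ext c
        simp only [Finset.mem_univ, Finset.mem_insert, Finset.mem_singleton, true_iff]
        by_cases hc : c = 0
        · left; exact hc
        · right; exact hq c hc
      rw [← Finset.card_univ, h1, Finset.card_pair zero_ne_one]
    have hk2 : k ≠ 2 := fun h => hex ⟨h, hcard⟩
    set φ : (Fin m ⊕ Fin m → F) →ₗ[F] F := sympB m F b with hφ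
    have h1 := OrthRefl.finrank_inf_ker (D j) φ
    rw [hD.decomp.finrank_eq j] at h1
    have h2 : D j ⊓ LinearMap.ker φ < D j := by
      refine lt_of_le_of_ne inf_le_left ?_
      intro h
      obtain ⟨_, x, hx, hxe⟩ := hD.nondegenerate j b hb hb0
      rw [← h] at hx
      exact hxe hx.2
    have h3 := Submodule.finrank_lt_finrank_of_lt h2
    rw [hD.decomp.finrank_eq j] at h3
    have h4 : Submodule.span F {b} ≤ D j ⊓ LinearMap.ker φ := by
      rw [Submodule.span_singleton_le_iff_mem]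
      exact ⟨hb, sympForm_self b⟩
    have h5 := Submodule.finrank_mono h4
    rw [finrank_span_singleton hb0] at h5
    have h6 : ¬ (D j ⊓ LinearMap.ker φ ≤ Submodule.span F {b}) := by
      intro h
      have := Submodule.finrank_mono h
      rw [finrank_span_singleton hb0] at this
      omega
    obtain ⟨b₂, hb₂, hb₂n⟩ := SetLike.not_le_iff_exists.mp h6
    refine ⟨b₂, hb₂.1, ?_, ?_, hb₂.2⟩
    · rintro rfl
      exact hb₂n (Submodule.zero_mem _)
    · rintro rfl
      exact hb₂n (Submodule.mem_span_singleton_self _)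

variable {H : Subgroup (Matrix.symplecticGroup (Fin m) F)}

theorem move (hY : ∀ i, ∀ x ∈ D i, x ∈ YY H) (i : Fin t) (a a' r : Fin m ⊕ Fin m → F)
    (ha : a ∈ D i) (ha0 : a ≠ 0) (ha' : a' ∈ D i) (ha'0 : a' ≠ 0)
    (hr : ∀ w ∈ D i, Cfsg.sympForm m F w r = 0) (h : a + r ∈ YY H) : a' + r ∈ YY H := by
  refine move_comp (D i) (LinearMap.BilinForm.orthogonal (sympB m F) (D i)) (hY i)
    (hD.nondegenerate i) ?_ a r a' ha ha0 ?_ ha' ha'0 h
  · intro w hw u hu
    exact (LinearMap.BilinForm.mem_orthogonal_iff.mp hu) w hw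
  · rw [LinearMap.BilinForm.mem_orthogonal_iff]
    intro w hw
    exact hr w hw

theorem stepA [Fintype F] (hex : ¬ (k = 2 ∧ Fintype.card F = 2))
    (hY : ∀ i, ∀ x ∈ D i, x ∈ YY H) (i j : Fin t) (hij : i ≠ j)
    (a b r : Fin m ⊕ Fin m → F) (ha : a ∈ D i) (ha0 : a ≠ 0) (hb : b ∈ D j) (hb0 : b ≠ 0)
    (hri : ∀ w ∈ D i, Cfsg.sympForm m F w r = 0) (hrj : ∀ w ∈ D j, Cfsg.sympForm m F w r = 0)
    (h : a + (b + r) ∈ YY H) :
    ∃ a' ∈ D i, ∃ b' ∈ D j, a' ≠ 0 ∧ b' ≠ 0 ∧ a' + b' ∈ YY H := by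
  obtain ⟨_, a₂, ha₂, haa⟩ := hD.nondegenerate i a ha ha0
  have ha₂0 : a₂ ≠ 0 := by
    rintro rfl
    exact haa (sympForm_zero_right _)
  obtain ⟨b₂, hb₂, hb₂0, hb₂b, hbb⟩ := exists_other hD hex j b hb hb0
  have h1 : a₂ + (b + r) ∈ YY H := by
    refine move hD hY i a a₂ (b + r) ha ha0 ha₂ ha₂0 ?_ h
    intro w hw
    rw [sympForm_add_right, hD.orthogonal i j hij w hw b hb, hri w hw, add_zero]
  have h2 : b + (a₂ + r) ∈ YY H := by
    have e : b + (a₂ + r) = a₂ + (b + r) := by abel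
    rw [e]; exact h1
  have h3 : b₂ + (a₂ + r) ∈ YY H := by
    refine move hD hY j b b₂ (a₂ + r) hb hb0 hb₂ hb₂0 ?_ h2
    intro w hw
    rw [sympForm_add_right, hD.orthogonal j i hij.symm w hw a₂ ha₂, hrj w hw, add_zero]
  have e1 : Cfsg.sympForm m F (a + (b + r)) (b₂ + (a₂ + r)) = Cfsg.sympForm m F a a₂ := by
    have r1 : Cfsg.sympForm m F r b₂ = 0 := by rw [sympForm_swap, hrj b₂ hb₂, neg_zero]
    have r2 : Cfsg.sympForm m F r a₂ = 0 := by rw [sympForm_swap, hri a₂ ha₂, neg_zero]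
    simp only [sympForm_add_left, sympForm_add_right, hD.orthogonal i j hij a ha b₂ hb₂,
      hri a ha, hbb, hD.orthogonal j i hij.symm b hb a₂ ha₂, hrj b hb, r1, r2, sympForm_self]
    ring
  have h4 := YY_add h3 h (by rw [e1]; exact haa) (-1)
  refine ⟨a - a₂, (D i).sub_mem ha ha₂, b - b₂, (D j).sub_mem hb hb₂, ?_, ?_, ?_⟩
  · intro h0
    apply haa
    have : a₂ = a := (sub_eq_zero.mp h0).symm
    rw [this, sympForm_self]
  · intro h0
    exact hb₂b (sub_eq_zero.mp h0).symm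
  · have e2 : a + (b + r) + (-1 : F) • (b₂ + (a₂ + r)) = a - a₂ + (b - b₂) := by module
    rwa [e2] at h4

theorem stepB (hY : ∀ i, ∀ x ∈ D i, x ∈ YY H) (i j : Fin t) (hij : i ≠ j)
    (a' b' : Fin m ⊕ Fin m → F) (ha' : a' ∈ D i) (hb' : b' ∈ D j) (ha'0 : a' ≠ 0) (hb'0 : b' ≠ 0)
    (h : a' + b' ∈ YY H) : ∀ a ∈ D i, ∀ b ∈ D j, a + b ∈ YY H := by
  intro a ha b hb
  by_cases ha0 : a = 0
  · rw [ha0, zero_add]; exact hY j b hb
  by_cases hb0 : b = 0
  · rw [hb0, add_zero]; exact hY i a ha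
  have h1 : a + b' ∈ YY H :=
    move hD hY i a' a b' ha' ha'0 ha ha0 (fun w hw => hD.orthogonal i j hij w hw b' hb') h
  rw [add_comm] at h1
  have h2 : b + a ∈ YY H :=
    move hD hY j b' b a hb' hb'0 hb hb0 (fun w hw => hD.orthogonal j i hij.symm w hw a ha) h1
  rwa [add_comm] at h2

theorem stepD (hY : ∀ i, ∀ x ∈ D i, x ∈ YY H)
    (hPP : ∀ i j, i ≠ j → ∀ a ∈ D i, ∀ b ∈ D j, a + b ∈ YY H) : ∀ v, v ∈ YY H := by
  classical
  have key : ∀ (S : Finset (Fin t)) (c : Fin t → (Fin m ⊕ Fin m → F)), (∀ l, c l ∈ D l) →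
      ∑ l ∈ S, c l ∈ YY H := by
    intro S
    induction S using Finset.induction_on with
    | empty =>
      intro c _
      rw [Finset.sum_empty]
      intro x
      rw [tv_zero_left]
      exact H.one_mem
    | insert j S hj ih =>
      intro c hc
      rw [Finset.sum_insert hj]
      by_cases hu : ∑ l ∈ S, c l = 0
      · rw [hu, add_zero]; exact hY j _ (hc j)
      obtain ⟨i, hiS, hci⟩ := Finset.exists_ne_zero_of_sum_ne_zero hu
      obtain ⟨_, a, ha, hca⟩ := hD.nondegenerate i (c i) (hc i) hci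
      have hij : i ≠ j := fun h => hj (h ▸ hiS)
      have hua : Cfsg.sympForm m F (∑ l ∈ S, c l) a = Cfsg.sympForm m F (c i) a := by
        rw [form_sumS hD S c hc i a ha, if_pos hiS]
      have hud : Cfsg.sympForm m F (∑ l ∈ S, c l) (c j) = 0 := by
        rw [form_sumS hD S c hc j (c j) (hc j), if_neg hj]
      have h1 : ∑ l ∈ S, c l - a ∈ YY H := by
        set c' : Fin t → (Fin m ⊕ Fin m → F) := c - Pi.single i a with hc'
        have e : ∑ l ∈ S, c l - a = ∑ l ∈ S, c' l := by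
          simp only [hc', Pi.sub_apply]
          rw [Finset.sum_sub_distrib, Finset.sum_pi_single', if_pos hiS]
        rw [e]
        apply ih
        intro l
        rw [hc']
        by_cases hl : l = i
        · subst hl
          rw [Pi.sub_apply, Pi.single_eq_same]
          exact (D l).sub_mem (hc l) ha
        · rw [Pi.sub_apply, Pi.single_eq_of_ne hl, sub_zero]
          exact hc l
      have h2 := hPP i j hij a ha (c j) (hc j)
      have h3 := YY_add h2 h1 (by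
        rw [sympForm_sub_left, sympForm_add_right, sympForm_add_right, hua, hud, sympForm_self,
          hD.orthogonal i j hij a ha _ (hc j)]
        simpa using hca) 1
      have e2 : ∑ l ∈ S, c l - a + (1 : F) • (a + c j) = c j + ∑ l ∈ S, c l := by module
      rwa [e2] at h3
  intro v
  obtain ⟨c, hc, rfl⟩ := comp hD v
  exact key Finset.univ c hc


omit hD in
theorem block_basis (W : Submodule F (Fin m ⊕ Fin m → F))
    (hnd : Cfsg.Geo.IsNondegenerateOn (Cfsg.sympForm m F) W) :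
    ∃ (k' : ℕ) (e f : Fin k' → (Fin m ⊕ Fin m → F)), Module.finrank F W = 2 * k' ∧
      (∀ s, e s ∈ W) ∧ (∀ s, f s ∈ W) ∧
      (∀ s s', Cfsg.sympForm m F (e s) (f s') = if s = s' then 1 else 0) ∧
      (∀ s s', Cfsg.sympForm m F (e s) (e s') = 0) ∧
      (∀ s s', Cfsg.sympForm m F (f s) (f s') = 0) ∧
      W ≤ Submodule.span F (Set.range e ∪ Set.range f) := by
  set B : LinearMap.BilinForm F W := (sympB m F).restrict W with hB
  have hBa : ∀ x y : W, B x y = Cfsg.sympForm m F (x : Fin m ⊕ Fin m → F) y := fun x y => rfl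
  have hBn : B.Nondegenerate := by
    constructor
    · intro x hx
      by_contra hne
      obtain ⟨_, y, hy, hxy⟩ := hnd x x.2 (fun h => hne (Subtype.ext h))
      exact hxy (hx ⟨y, hy⟩)
    · intro x hx
      by_contra hne
      obtain ⟨⟨y, hy, hxy⟩, _⟩ := hnd x x.2 (fun h => hne (Subtype.ext h))
      exact hxy (hx ⟨y, hy⟩)
  have hA : B.IsAlt := fun x => sympForm_self _
  obtain ⟨m₁, e, f, _, b, h, _, hbe, hbf, hfin⟩ := Witt.exists_hyp_basis hBn hA
    (Fin.elim0 : Fin 0 → W) Fin.elim0 ⟨fun i => i.elim0, fun i => i.elim0, fun i => i.elim0⟩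
  refine ⟨m₁, fun s => (e s : Fin m ⊕ Fin m → F), fun s => (f s : Fin m ⊕ Fin m → F), hfin,
    fun s => (e s).2, fun s => (f s).2, fun s s' => h.ef s s', fun s s' => h.ee s s',
    fun s s' => h.ff s s', ?_⟩
  intro x hx
  have h1 : (⟨x, hx⟩ : W) ∈ Submodule.span F (Set.range b) := by rw [b.span_eq]; trivial
  have h2 : x ∈ (Submodule.span F (Set.range b)).map W.subtype := ⟨⟨x, hx⟩, h1, rfl⟩
  rw [Submodule.map_span] at h2
  refine Submodule.span_mono ?_ h2
  rintro _ ⟨_, ⟨i, rfl⟩, rfl⟩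
  rcases i with i | i
  · left
    exact ⟨i, by rw [hbe]; rfl⟩
  · right
    exact ⟨i, by rw [hbf]; rfl⟩

theorem exists_perm (π : Equiv.Perm (Fin t)) :
    ∃ A : Matrix.symplecticGroup (Fin m) F, ∀ l, ∀ x ∈ D l,
      (A : Matrix (Fin m ⊕ Fin m) (Fin m ⊕ Fin m) F) *ᵥ x ∈ D (π l) := by
  classical
  have hk : ∃ k', k = 2 * k' := by
    have h2 := hD.decomp.two_le
    obtain ⟨k', _, _, hfin, _⟩ := block_basis (D ⟨0, by omega⟩) (hD.nondegenerate _)
    rw [hD.decomp.finrank_eq] at hfin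
    exact ⟨k', hfin⟩
  obtain ⟨k', hk'⟩ := hk
  have hbas : ∀ l, ∃ (e f : Fin k' → (Fin m ⊕ Fin m → F)),
      (∀ s, e s ∈ D l) ∧ (∀ s, f s ∈ D l) ∧
      (∀ s s', Cfsg.sympForm m F (e s) (f s') = if s = s' then 1 else 0) ∧
      (∀ s s', Cfsg.sympForm m F (e s) (e s') = 0) ∧
      (∀ s s', Cfsg.sympForm m F (f s) (f s') = 0) ∧
      D l ≤ Submodule.span F (Set.range e ∪ Set.range f) := by
    intro l
    obtain ⟨k'', e, f, hfin, h⟩ := block_basis (D l) (hD.nondegenerate l)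
    rw [hD.decomp.finrank_eq] at hfin
    obtain rfl : k'' = k' := by omega
    exact ⟨e, f, h⟩
  choose E Fm hE hFm hEF hEE hFF hspan using hbas
  let σ : Fin (t * k') ≃ Fin t × Fin k' := finProdFinEquiv.symm
  let eπ : Equiv.Perm (Fin t) → Fin (t * k') → (Fin m ⊕ Fin m → F) :=
    fun π x => E (π (σ x).1) (σ x).2
  let fπ : Equiv.Perm (Fin t) → Fin (t * k') → (Fin m ⊕ Fin m → F) :=
    fun π x => Fm (π (σ x).1) (σ x).2
  have hyp1 : ∀ (π : Equiv.Perm (Fin t)) (x y : Fin (t * k')),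
      Cfsg.sympForm m F (eπ π x) (fπ π y) = if x = y then 1 else 0 := by
    intro π x y
    show Cfsg.sympForm m F (E (π (σ x).1) (σ x).2) (Fm (π (σ y).1) (σ y).2) = _
    by_cases hl : (σ x).1 = (σ y).1
    · rw [hl, hEF]
      by_cases hs : (σ x).2 = (σ y).2
      · have : x = y := σ.injective (Prod.ext hl hs)
        rw [if_pos hs, if_pos this]
      · have : x ≠ y := fun h => hs (by rw [h])
        rw [if_neg hs, if_neg this]
    · have : x ≠ y := fun h => hl (by rw [h])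
      rw [if_neg this]
      exact hD.orthogonal _ _ (fun h => hl (π.injective h)) _ (hE _ _) _ (hFm _ _)
  have hyp2 : ∀ (π : Equiv.Perm (Fin t)) (x y : Fin (t * k')),
      Cfsg.sympForm m F (eπ π x) (eπ π y) = 0 := by
    intro π x y
    show Cfsg.sympForm m F (E (π (σ x).1) (σ x).2) (E (π (σ y).1) (σ y).2) = _
    by_cases hl : (σ x).1 = (σ y).1
    · rw [hl, hEE]
    · exact hD.orthogonal _ _ (fun h => hl (π.injective h)) _ (hE _ _) _ (hE _ _)
  have hyp3 : ∀ (π : Equiv.Perm (Fin t)) (x y : Fin (t * k')),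
      Cfsg.sympForm m F (fπ π x) (fπ π y) = 0 := by
    intro π x y
    show Cfsg.sympForm m F (Fm (π (σ x).1) (σ x).2) (Fm (π (σ y).1) (σ y).2) = _
    by_cases hl : (σ x).1 = (σ y).1
    · rw [hl, hFF]
    · exact hD.orthogonal _ _ (fun h => hl (π.injective h)) _ (hFm _ _) _ (hFm _ _)
  obtain ⟨A, _, hA⟩ := trans_family (t * k') (eπ 1) (fπ 1) (eπ π) (fπ π) (hyp1 1) (hyp2 1) (hyp3 1)
    (hyp1 π) (hyp2 π) (hyp3 π)
  refine ⟨A, fun l x hx => ?_⟩
  have hx' := hspan l hx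
  clear hx
  induction hx' using Submodule.span_induction with
  | mem x hx =>
    rcases hx with ⟨s, rfl⟩ | ⟨s, rfl⟩
    · have h1 := (hA (σ.symm (l, s))).1
      have e1 : eπ 1 (σ.symm (l, s)) = E l s := by
        show E ((1 : Equiv.Perm (Fin t)) (σ (σ.symm (l, s))).1) (σ (σ.symm (l, s))).2 = _
        rw [Equiv.apply_symm_apply]; rfl
      have e2 : eπ π (σ.symm (l, s)) = E (π l) s := by
        show E (π (σ (σ.symm (l, s))).1) (σ (σ.symm (l, s))).2 = _
        rw [Equiv.apply_symm_apply]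
      rw [e1, e2] at h1
      rw [h1]
      exact hE _ _
    · have h1 := (hA (σ.symm (l, s))).2
      have e1 : fπ 1 (σ.symm (l, s)) = Fm l s := by
        show Fm ((1 : Equiv.Perm (Fin t)) (σ (σ.symm (l, s))).1) (σ (σ.symm (l, s))).2 = _
        rw [Equiv.apply_symm_apply]; rfl
      have e2 : fπ π (σ.symm (l, s)) = Fm (π l) s := by
        show Fm (π (σ (σ.symm (l, s))).1) (σ (σ.symm (l, s))).2 = _
        rw [Equiv.apply_symm_apply]
      rw [e1, e2] at h1
      rw [h1]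
      exact hFm _ _
  | zero => rw [mulVec_zero]; exact (D (π l)).zero_mem
  | add x y _ _ hx hy => rw [mulVec_add]; exact (D (π l)).add_mem hx hy
  | smul c x _ hx => rw [mulVec_smul]; exact (D (π l)).smul_mem c hx

theorem mem_decomp_of (g : Matrix.symplecticGroup (Fin m) F) (π : Equiv.Perm (Fin t))
    (h : ∀ l, ∀ x ∈ D l, (g : Matrix (Fin m ⊕ Fin m) (Fin m ⊕ Fin m) F) *ᵥ x ∈ D (π l)) :
    toGL g ∈ Cfsg.Geo.decompositionStabilizer D :=
  ⟨π, fun l => SympPair.map_eq g _ _ (h l)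
    (by rw [hD.decomp.finrank_eq, hD.decomp.finrank_eq])⟩

theorem exists_mixed (g : Matrix.symplecticGroup (Fin m) F)
    (hg : toGL g ∉ Cfsg.Geo.decompositionStabilizer D) :
    ∃ i, ∃ x ∈ D i, ∃ j j', j ≠ j' ∧
      (∃ d ∈ D j, Cfsg.sympForm m F
        ((g : Matrix (Fin m ⊕ Fin m) (Fin m ⊕ Fin m) F) *ᵥ x) d ≠ 0) ∧
      (∃ d ∈ D j', Cfsg.sympForm m F
        ((g : Matrix (Fin m ⊕ Fin m) (Fin m ⊕ Fin m) F) *ᵥ x) d ≠ 0) := by
  by_contra hcon
  push Not at hcon
  apply hg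
  have h1 : ∀ i, ∃ j, ∀ x ∈ D i, (g : Matrix (Fin m ⊕ Fin m) (Fin m ⊕ Fin m) F) *ᵥ x ∈ D j := by
    intro i
    obtain ⟨x₀, hx₀, hx₀0⟩ := Submodule.exists_mem_ne_zero_of_ne_bot (ne_bot hD i)
    have hgx₀ : (g : Matrix (Fin m ⊕ Fin m) (Fin m ⊕ Fin m) F) *ᵥ x₀ ≠ 0 := by
      intro h
      apply hx₀0
      apply mulVecLin_inj g
      rw [map_zero]
      exact h
    have hj : ∃ j, ∃ d ∈ D j, Cfsg.sympForm m F
        ((g : Matrix (Fin m ⊕ Fin m) (Fin m ⊕ Fin m) F) *ᵥ x₀) d ≠ 0 := by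
      by_contra hc
      push Not at hc
      have hm := mem_of_orth hD _ i (fun l _ d hd => hc l d hd)
      obtain ⟨_, y, hy, hne⟩ := hD.nondegenerate i _ hm hgx₀
      exact hne (hc i y hy)
    obtain ⟨j, d₀, hd₀, hne₀⟩ := hj
    refine ⟨j, fun x hx => ?_⟩
    apply mem_of_orth hD _ j
    intro l hl d hd
    by_contra hne
    have A1 := hcon i x hx l j hl ⟨d, hd, hne⟩
    have A2 := hcon i x₀ hx₀ j l hl.symm ⟨d₀, hd₀, hne₀⟩
    have A3 := hcon i (x + x₀) ((D i).add_mem hx hx₀) j l hl.symm ⟨d₀, hd₀, by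
      rw [mulVec_add, sympForm_add_left, A1 d₀ hd₀, zero_add]
      exact hne₀⟩ d hd
    rw [mulVec_add, sympForm_add_left, A2 d hd, add_zero] at A3
    exact hne A3
  choose σ hσ using h1
  have hinj : Function.Injective σ := by
    intro i i' hii
    by_contra hne
    obtain ⟨x, hx, hx0⟩ := Submodule.exists_mem_ne_zero_of_ne_bot (ne_bot hD i)
    have h2 := hσ i x hx
    rw [hii, ← SympPair.map_eq g (D i') (D (σ i')) (hσ i')
      (by rw [hD.decomp.finrank_eq, hD.decomp.finrank_eq])] at h2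
    obtain ⟨x', hx', e⟩ := h2
    have : x' = x := mulVecLin_inj g e
    rw [this] at hx'
    obtain ⟨_, y, hy, hxy⟩ := hD.nondegenerate i x hx hx0
    exact hxy (hD.orthogonal i' i (Ne.symm hne) x hx' y hy)
  exact mem_decomp_of hD g (Equiv.ofBijective σ (Finite.injective_iff_bijective.mp hinj)) hσ

omit hD in
theorem exists_perm2 (i₁ i₂ j j' : Fin t) (hi : i₁ ≠ i₂) (hj : j ≠ j') :
    ∃ π : Equiv.Perm (Fin t), π i₁ = j ∧ π i₂ = j' := by
  refine ⟨Equiv.swap (Equiv.swap i₁ j i₂) j' * Equiv.swap i₁ j, ?_, ?_⟩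
  · rw [Equiv.Perm.mul_apply, Equiv.swap_apply_left]
    apply Equiv.swap_apply_of_ne_of_ne _ hj
    intro h
    apply hi
    have := congrArg (Equiv.swap i₁ j) h
    rw [Equiv.swap_apply_right, Equiv.swap_apply_self] at this
    exact this
  · rw [Equiv.Perm.mul_apply, Equiv.swap_apply_left]

theorem blocks_max [Fintype F] (hex : ¬ (k = 2 ∧ Fintype.card F = 2)) :
    Cfsg.Geo.IsMaximalIn (Cfsg.spGL m F) (Cfsg.Geo.decompositionStabilizer D ⊓ Cfsg.spGL m F) := by
  have h2 := hD.decomp.two_le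
  apply max_of
  · set i₀ : Fin t := ⟨0, by omega⟩ with hi₀
    set i₁ : Fin t := ⟨1, by omega⟩ with hi₁
    have h01 : i₀ ≠ i₁ := by
      intro h
      have := congrArg Fin.val h
      simp [hi₀, hi₁] at this
    obtain ⟨a, ha, ha0⟩ := Submodule.exists_mem_ne_zero_of_ne_bot (ne_bot hD i₀)
    obtain ⟨b, hb, hb0⟩ := Submodule.exists_mem_ne_zero_of_ne_bot (ne_bot hD i₁)
    obtain ⟨⟨x, hx, hxa⟩, _⟩ := hD.nondegenerate i₀ a ha ha0
    obtain ⟨_, b', hb', hbb⟩ := hD.nondegenerate i₁ b hb hb0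
    refine ⟨tv (a + b) 1, ?_⟩
    rintro ⟨σ, hσ⟩
    have hz : (tv (a + b) 1 : Matrix (Fin m ⊕ Fin m) (Fin m ⊕ Fin m) F) *ᵥ x ∈ D (σ i₀) := by
      rw [← hσ i₀]
      exact ⟨x, hx, rfl⟩
    rw [tv_mulVec, one_mul, sympForm_add_right, hD.orthogonal i₀ i₁ h01 x hx b hb, add_zero] at hz
    by_cases hl : σ i₀ = i₀
    · rw [hl] at hz
      have := hD.orthogonal i₀ i₁ h01 _ hz b' hb'
      rw [sympForm_add_left, sympForm_smul_left, sympForm_add_left,
        hD.orthogonal i₀ i₁ h01 x hx b' hb', hD.orthogonal i₀ i₁ h01 a ha b' hb', zero_add,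
        zero_add] at this
      exact (mul_ne_zero hxa hbb) this
    · have := hD.orthogonal (σ i₀) i₀ hl _ hz a ha
      rw [sympForm_add_left, sympForm_smul_left, sympForm_add_left, sympForm_self,
        hD.orthogonal i₁ i₀ h01.symm b hb a ha, add_zero, mul_zero, add_zero] at this
      exact hxa this
  · rintro H hPH ⟨g, hgH, hgD⟩
    have hY : ∀ i, ∀ x ∈ D i, x ∈ YY H := by
      intro i x hx c
      apply hPH
      apply mem_decomp_of hD _ 1
      intro l z hz
      rw [tv_mulVec, Equiv.Perm.one_apply]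
      by_cases hl : l = i
      · subst hl
        exact (D l).add_mem hz ((D l).smul_mem _ hx)
      · rw [hD.orthogonal l i hl z hz x hx, mul_zero, zero_smul, add_zero]
        exact hz
    obtain ⟨i, x, hx, j, j', hjj, ⟨d, hd, hne⟩, ⟨d', hd', hne'⟩⟩ := exists_mixed hD g hgD
    have hyY := YY_img hgH (hY i x hx)
    obtain ⟨c, hc, hy⟩ := comp hD ((g : Matrix (Fin m ⊕ Fin m) (Fin m ⊕ Fin m) F) *ᵥ x)
    have hform : ∀ l, ∀ w ∈ D l, Cfsg.sympForm m F
        ((g : Matrix (Fin m ⊕ Fin m) (Fin m ⊕ Fin m) F) *ᵥ x) w = Cfsg.sympForm m F (c l) w := by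
      intro l w hw
      rw [hy, form_sumS hD _ c hc l w hw, if_pos (Finset.mem_univ l)]
    have ha0 : c j ≠ 0 := by
      intro h
      apply hne
      rw [hform j d hd, h, sympForm_zero_left]
    have hb0 : c j' ≠ 0 := by
      intro h
      apply hne'
      rw [hform j' d' hd', h, sympForm_zero_left]
    set r := (g : Matrix (Fin m ⊕ Fin m) (Fin m ⊕ Fin m) F) *ᵥ x - c j - c j' with hr
    have hrj : ∀ w ∈ D j, Cfsg.sympForm m F w r = 0 := by
      intro w hw
      rw [sympForm_swap, hr, sympForm_sub_left, sympForm_sub_left, hform j w hw,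
        hD.orthogonal j' j hjj.symm _ (hc j') w hw]
      simp
    have hrj' : ∀ w ∈ D j', Cfsg.sympForm m F w r = 0 := by
      intro w hw
      rw [sympForm_swap, hr, sympForm_sub_left, sympForm_sub_left, hform j' w hw,
        hD.orthogonal j j' hjj _ (hc j) w hw]
      simp
    have hyr : c j + (c j' + r) ∈ YY H := by
      have e : c j + (c j' + r) = (g : Matrix (Fin m ⊕ Fin m) (Fin m ⊕ Fin m) F) *ᵥ x := by
        rw [hr]; abel
      rw [e]; exact hyY
    obtain ⟨a', ha', b', hb', ha'0, hb'0, hab⟩ := stepA hD hex hY j j' hjj (c j) (c j') r (hc j) ha0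
      (hc j') hb0 hrj hrj' hyr
    have hPPj := stepB hD hY j j' hjj a' b' ha' hb' ha'0 hb'0 hab
    apply eq_top_of_YY
    apply stepD hD hY
    intro i₁ i₂ hi a ha b hb
    obtain ⟨π, hπ1, hπ2⟩ := exists_perm2 i₁ i₂ j j' hi hjj
    obtain ⟨A, hA⟩ := exists_perm hD π
    have hAH : A ∈ H := hPH _ (mem_decomp_of hD A π hA)
    have h3 := hPPj _ (hπ1 ▸ hA i₁ a ha) _ (hπ2 ▸ hA i₂ b hb)
    have h4 := YY_img (H.inv_mem hAH) h3
    rwa [← mulVec_add, inv_mul_mulVec] at h4

end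

end Cfsg.Agent.Lib.Helper5.SympBlocks
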