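import Mathlib
import Cfsg.Prelude.Def_GeometricClasses
import Cfsg.Agent.Lib.Helper5.SympMax
import Cfsg.Agent.Lib.Helper5.OrthGeo

set_option autoImplicit false
set_option linter.unusedSectionVars false

namespace Cfsg.Agent.Lib.Helper5.SympQuad

open Matrix QuadraticMap Cfsg.Agent.Lib.Helper5.Symp Cfsg.Agent.Lib.Helper5.SympGen
  Cfsg.Agent.Lib.Helper5.SympBridge Cfsg.Agent.Lib.Helper5.SympPerfect
  Cfsg.Agent.Lib.Helper5.SympMax

variable {F : Type*} [Field F] {m : ℕ}
variable (Q : QuadraticForm F (Fin m ⊕ Fin m → F))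
  (hpol : ∀ u v, polar ⇑Q u v = Cfsg.sympForm m F u v)

include hpol

theorem Q_add (a b : Fin m ⊕ Fin m → F) : Q (a + b) = Q a + Q b + Cfsg.sympForm m F a b := by
  rw [QuadraticMap.map_add Q, hpol]

theorem Q_tv (x z : Fin m ⊕ Fin m → F) (c : F) :
    Q ((tv x c : Matrix (Fin m ⊕ Fin m) (Fin m ⊕ Fin m) F) *ᵥ z) =
      Q z + c * Cfsg.sympForm m F z x ^ 2 * (c * Q x + 1) := by
  rw [tv_mulVec, Q_add Q hpol, QuadraticMap.map_smul, sympForm_smul_right, smul_eq_mul]
  ring

theorem refl_pres (h2 : (2 : F) = 0) (y : Fin m ⊕ Fin m → F) (hy : Q y ≠ 0)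
    (z : Fin m ⊕ Fin m → F) :
    Q ((tv y (Q y)⁻¹ : Matrix (Fin m ⊕ Fin m) (Fin m ⊕ Fin m) F) *ᵥ z) = Q z := by
  rw [Q_tv Q hpol, inv_mul_cancel₀ hy, one_add_one_eq_two, h2, mul_zero, add_zero]

theorem sim_iff (hm : 1 ≤ m) (g : Matrix.symplecticGroup (Fin m) F) :
    toGL g ∈ Cfsg.Geo.quadSimilarityGroup ⇑Q ↔
      ∀ z, Q ((g : Matrix (Fin m ⊕ Fin m) (Fin m ⊕ Fin m) F) *ᵥ z) = Q z := by
  constructor
  · rintro ⟨c, hc⟩
    have hc' : ∀ z, Q ((g : Matrix (Fin m ⊕ Fin m) (Fin m ⊕ Fin m) F) *ᵥ z) = (c : F) * Q z := hc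
    have key : ∀ u v, Cfsg.sympForm m F u v = (c : F) * Cfsg.sympForm m F u v := by
      intro u v
      have e1 := hc' (u + v)
      rw [mulVec_add, Q_add Q hpol, Q_add Q hpol, hc', hc', preserves] at e1
      linear_combination e1
    have hv : (Pi.single (Sum.inl ⟨0, hm⟩) 1 : Fin m ⊕ Fin m → F) ≠ 0 := by
      intro h
      have := congrFun h (Sum.inl ⟨0, hm⟩)
      simp at this
    obtain ⟨x, hx⟩ := exists_partner_one _ hv
    have := key (Pi.single (Sum.inl ⟨0, hm⟩) 1) x
    rw [hx, mul_one] at this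
    intro z
    rw [hc', ← this, one_mul]
  · intro h
    exact ⟨1, fun v => by rw [Units.val_one, one_mul]; exact h v⟩

section fin

open Cfsg.Agent.Lib.Helper5.OrthEich Cfsg.Agent.Lib.Helper5.OrthEich2
  Cfsg.Agent.Lib.Helper5.OrthTrans

variable [Fintype F] (hnd : (QuadraticMap.polarBilin Q).Nondegenerate)

include hnd

/-- a nonsingular vector off two hyperplanes -/
theorem exists_nonsing_off (hm : 4 ≤ m) (p y : Fin m ⊕ Fin m → F) (hp : p ≠ 0) (hy : y ≠ 0) :
    ∃ y', Q y' ≠ 0 ∧ Cfsg.sympForm m F p y' ≠ 0 ∧ Cfsg.sympForm m F y y' ≠ 0 := by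
  obtain ⟨w₀, h0⟩ := exists_partner_one p hp
  obtain ⟨w₁, h1⟩ := exists_partner_one y hy
  obtain ⟨w, _, hpw, hyw⟩ := exists_both ⊤ p y w₀ w₁ trivial trivial (by rw [h0]; exact one_ne_zero)
    (by rw [h1]; exact one_ne_zero)
  by_cases hw : Q w = 0
  · have hfr : Module.finrank F (Submodule.span F {p, y} ⊔ Submodule.span F {w} :
        Submodule F (Fin m ⊕ Fin m → F)) ≤ 3 := by
      have e1 := Submodule.finrank_add_le_finrank_add_finrank (Submodule.span F {p, y})
        (Submodule.span F {w})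
      have e2 := finrank_span_two p y
      have e3 := finrank_span_one w
      omega
    obtain ⟨s, hs, hsD⟩ := exists_norm_orth Q hnd
      (Submodule.span F {p, y} ⊔ Submodule.span F {w})
      (by rw [Fintype.card_sum, Fintype.card_fin]; omega) 1
    have hps : Cfsg.sympForm m F p s = 0 := by
      rw [← hpol]; exact hsD p (Submodule.mem_sup_left (Submodule.subset_span (by simp)))
    have hys : Cfsg.sympForm m F y s = 0 := by
      rw [← hpol]; exact hsD y (Submodule.mem_sup_left (Submodule.subset_span (by simp)))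
    have hws : Cfsg.sympForm m F w s = 0 := by
      rw [← hpol]; exact hsD w (Submodule.mem_sup_right (Submodule.mem_span_singleton_self w))
    refine ⟨w + s, ?_, ?_, ?_⟩
    · rw [Q_add Q hpol, hw, hs, hws]; simp
    · rw [sympForm_add_right, hps, add_zero]; exact hpw
    · rw [sympForm_add_right, hys, add_zero]; exact hyw
  · exact ⟨w, hw, hpw, hyw⟩

/-- the isometry group of a quadratic form is maximal in the symplectic group of its polar form
(characteristic two) -/
theorem quad_max (h2 : (2 : F) = 0) (hm : 4 ≤ m) :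
    Cfsg.Geo.IsMaximalIn (Cfsg.spGL m F) (Cfsg.Geo.quadSimilarityGroup ⇑Q ⊓ Cfsg.spGL m F) := by
  have hcard : Fintype.card (Fin m ⊕ Fin m) = 2 * m := by
    rw [Fintype.card_sum, Fintype.card_fin]; ring
  apply max_of
  · obtain ⟨x, x', hx, hx', hxx', _, _⟩ := exists_hyp_orth Q hnd ⊥ (by
      rw [finrank_bot, hcard]; omega)
    refine ⟨tv x 1, ?_⟩
    rw [sim_iff Q hpol (by omega)]
    intro h
    have e := h x'
    rw [Q_tv Q hpol, hx, hx', sympForm_swap, ← hpol, hxx'] at e
    simp at e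
  · rintro H hPH ⟨g, hgH, hgA⟩
    rw [sim_iff Q hpol (by omega)] at hgA
    push Not at hgA
    obtain ⟨z₀, hz₀⟩ := hgA
    have hR : ∀ y, Q y ≠ 0 → tv y (Q y)⁻¹ ∈ H := fun y hy =>
      hPH _ ((sim_iff Q hpol (by omega) _).mpr (refl_pres Q hpol h2 y hy))
    -- step 1: a singular vector with nonsingular image
    have hadd : ∀ a b, Q ((g : Matrix (Fin m ⊕ Fin m) (Fin m ⊕ Fin m) F) *ᵥ (a + b)) - Q (a + b) =
        (Q ((g : Matrix (Fin m ⊕ Fin m) (Fin m ⊕ Fin m) F) *ᵥ a) - Q a) +
        (Q ((g : Matrix (Fin m ⊕ Fin m) (Fin m ⊕ Fin m) F) *ᵥ b) - Q b) := by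
      intro a b
      rw [mulVec_add, Q_add Q hpol, Q_add Q hpol, preserves]
      ring
    have h1 : ∃ x, Q x = 0 ∧ Q ((g : Matrix (Fin m ⊕ Fin m) (Fin m ⊕ Fin m) F) *ᵥ x) ≠ 0 := by
      by_contra hcon
      push Not at hcon
      apply hz₀
      have := finrank_span_one z₀
      obtain ⟨e, e', he, he', hee', h3, h4⟩ := exists_hyp_orth Q hnd (Submodule.span F {z₀})
        (by rw [hcard]; omega)
      have hze : Cfsg.sympForm m F z₀ e = 0 := by
        rw [← hpol]; exact h3 z₀ (Submodule.mem_span_singleton_self z₀)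
      have hze' : Cfsg.sympForm m F z₀ e' = 0 := by
        rw [← hpol]; exact h4 z₀ (Submodule.mem_span_singleton_self z₀)
      have hs : Q (z₀ + (e + (- Q z₀) • e')) = 0 := by
        rw [Q_add Q hpol, Q_add Q hpol, QuadraticMap.map_smul, he, he', sympForm_add_right,
          sympForm_smul_right, sympForm_smul_right, hze, hze', ← hpol e e', hee']
        simp
      have hne : Q (-e) = 0 := by rw [QuadraticMap.map_neg, he]
      have hse' : Q (Q z₀ • e') = 0 := by rw [QuadraticMap.map_smul, he', smul_zero]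
      have hz : z₀ = (z₀ + (e + (- Q z₀) • e')) + (-e + Q z₀ • e') := by module
      have e1 := hadd (z₀ + (e + (- Q z₀) • e')) (-e + Q z₀ • e')
      have e2 := hadd (-e) (Q z₀ • e')
      rw [← hz, e2, hcon _ hs, hcon _ hne, hcon _ hse', hs, hne, hse'] at e1
      simp only [sub_zero, add_zero] at e1
      exact sub_eq_zero.mp e1
    obtain ⟨x, hx, hgx⟩ := h1
    have hx0 : x ≠ 0 := by
      rintro rfl
      rw [mulVec_zero, QuadraticMap.map_zero] at hgx
      exact hgx rfl
    set c₀ := (Q ((g : Matrix (Fin m ⊕ Fin m) (Fin m ⊕ Fin m) F) *ᵥ x))⁻¹ with hc₀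
    have hc₀0 : c₀ ≠ 0 := inv_ne_zero hgx
    have hxc : tv x c₀ ∈ H := by
      have e1 := hR _ hgx
      rw [← conj_tv] at e1
      have e2 : tv x c₀ = g⁻¹ * (g * tv x c₀ * g⁻¹) * g := by group
      rw [e2]
      exact H.mul_mem (H.mul_mem (H.inv_mem hgH) e1) hgH
    -- step 2: all scalars
    obtain ⟨x', hx', hxx'⟩ := exists_partner Q hnd x hx0 hx
    rw [hpol] at hxx'
    have hx'x : Cfsg.sympForm m F x' x = 1 := by
      rw [sympForm_swap, hxx']
      linear_combination (-1 : F) * h2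
    have hchar : ringChar F = 2 := by
      have : CharP F 2 := CharTwo.of_one_ne_zero_of_two_eq_zero one_ne_zero h2
      exact ringChar.eq F 2
    have hxY : x ∈ YY H := by
      intro c
      by_cases hc : c = 0
      · rw [hc, tv_zero_right]; exact H.one_mem
      obtain ⟨l, hl⟩ := FiniteField.isSquare_of_char_two hchar (c / c₀)
      have hl0 : l ≠ 0 := by
        rintro rfl
        rw [mul_zero] at hl
        exact (div_ne_zero hc hc₀0) hl
      have q1 : Q (x + x') = 1 := by rw [Q_add Q hpol, hx, hx', hxx']; ring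
      have q2 : Q (x + l • x') = l := by
        rw [Q_add Q hpol, QuadraticMap.map_smul, hx, hx', sympForm_smul_right, hxx']; simp
      have r1 := hR (x + x') (by rw [q1]; exact one_ne_zero)
      have r2 := hR (x + l • x') (by rw [q2]; exact hl0)
      rw [q1] at r1
      rw [q2] at r2
      have e1 : ((tv (x + x') (1 : F)⁻¹ * tv (x + l • x') l⁻¹ : Matrix.symplecticGroup (Fin m) F) :
          Matrix (Fin m ⊕ Fin m) (Fin m ⊕ Fin m) F) *ᵥ x = l • x := by
        rw [coe_mul_mulVec, tv_mulVec, tv_mulVec]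
        simp only [sympForm_add_left, sympForm_add_right, sympForm_smul_left, sympForm_smul_right,
          sympForm_self, hxx', hx'x]
        have e3 : l⁻¹ * (0 + l * 1) = 1 := by
          rw [zero_add, mul_one, inv_mul_cancel₀ hl0]
        rw [e3]
        have e4 : (1 : F)⁻¹ * (0 + 1 * (0 + l * 1) + (1 + 1 * (1 + l * 0))) = l := by
          rw [inv_one]
          linear_combination h2
        rw [e4]
        have e5 : x + (1 : F) • (x + l • x') + l • (x + x') = l • x + (2 : F) • (x + l • x') := by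
          module
        rw [e5, h2, zero_smul, add_zero]
      have e2 := H.mul_mem (H.mul_mem (H.mul_mem r1 r2) hxc) (H.inv_mem (H.mul_mem r1 r2))
      rw [conj_tv, e1, tv_smul] at e2
      have e3 : l ^ 2 * c₀ = c := by
        rw [_root_.sq, ← hl, div_mul_cancel₀ _ hc₀0]
      rwa [e3] at e2
    -- step 3
    have claimA : ∀ p ∈ YY H, ∀ y, Q y ≠ 0 → Cfsg.sympForm m F p y ≠ 0 → y ∈ YY H := by
      intro p hp y hy hpy
      have e1 := YY_img (hR y hy) hp
      rw [tv_mulVec] at e1
      have hκ : (Q y)⁻¹ * Cfsg.sympForm m F p y ≠ 0 := mul_ne_zero (inv_ne_zero hy) hpy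
      have e2 := YY_add hp e1 (by
        rw [sympForm_add_left, sympForm_self, zero_add, sympForm_smul_left, sympForm_swap y p]
        exact mul_ne_zero hκ (neg_ne_zero.mpr hpy)) (-1)
      have e3 : p + ((Q y)⁻¹ * Cfsg.sympForm m F p y) • y + (-1 : F) • p =
          ((Q y)⁻¹ * Cfsg.sympForm m F p y) • y := by module
      rw [e3] at e2
      have e4 := YY_smul e2 ((Q y)⁻¹ * Cfsg.sympForm m F p y)⁻¹
      rwa [smul_smul, inv_mul_cancel₀ hκ, one_smul] at e4
    have claimB : ∀ y, Q y ≠ 0 → y ∈ YY H := by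
      intro y hy
      have hy0 : y ≠ 0 := by
        rintro rfl
        exact hy (QuadraticMap.map_zero Q)
      obtain ⟨y', hy', h3, h4⟩ := exists_nonsing_off Q hpol hnd hm x y hx0 hy0
      have e1 := claimA x hxY y' hy' h3
      exact claimA y' e1 y hy (by rw [sympForm_swap]; exact neg_ne_zero.mpr h4)
    have claimC : ∀ x₁ ∈ YY H, Q x₁ = 0 → ∀ z, Q z = 0 → Cfsg.sympForm m F x₁ z ≠ 0 →
        z ∈ YY H := by
      intro x₁ hx₁ hq₁ z hz hne
      have e1 : x₁ + z ∈ YY H := claimB _ (by rw [Q_add Q hpol, hq₁, hz]; simpa using hne)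
      have e2 := YY_add hx₁ e1 (by
        rw [sympForm_add_left, sympForm_self, zero_add, sympForm_swap]
        exact neg_ne_zero.mpr hne) (-1)
      have e3 : x₁ + z + (-1 : F) • x₁ = z := by module
      rwa [e3] at e2
    apply eq_top_of_YY
    intro v
    by_cases hv : Q v = 0
    · by_cases hv0 : v = 0
      · have := YY_smul hxY 0
        rwa [zero_smul, ← hv0] at this
      by_cases hxv : Cfsg.sympForm m F x v = 0
      · obtain ⟨z, hz, h3, h4⟩ := exists_sing_off Q hnd x v hx0 hv0 hx hv (by rw [hpol]; exact hxv)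
        rw [hpol] at h3 h4
        have e1 := claimC x hxY hx z hz h3
        exact claimC z e1 hz v hv (by rw [sympForm_swap]; exact neg_ne_zero.mpr h4)
      · exact claimC x hxY hx v hv hxv
    · exact claimB v hv

end fin

end Cfsg.Agent.Lib.Helper5.SympQuad
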