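import Mathlib
import Cfsg.Prelude.Def_GeometricClasses

set_option autoImplicit false
set_option linter.unusedSectionVars false

namespace Cfsg.Agent.Lib.Helper5.TensorTwo

open Matrix
open scoped Kronecker

variable {F : Type*} [Field F] {n₂ : ℕ}

/-- the first diagonal idempotent -/
def E (F : Type*) [Field F] (n₂ : ℕ) [NeZero n₂] : Matrix (Fin n₂) (Fin n₂) F :=
  Matrix.diagonal (fun i => if i = 0 then 1 else 0)

/-- the complementary idempotent -/
def E' (F : Type*) [Field F] (n₂ : ℕ) [NeZero n₂] : Matrix (Fin n₂) (Fin n₂) F :=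
  Matrix.diagonal (fun i => if i = 0 then 0 else 1)

variable [NeZero n₂]

theorem EE : E F n₂ * E F n₂ = E F n₂ := by
  unfold E
  rw [Matrix.diagonal_mul_diagonal]
  congr 1
  funext i
  split_ifs <;> simp

theorem E'E' : E' F n₂ * E' F n₂ = E' F n₂ := by
  unfold E'
  rw [Matrix.diagonal_mul_diagonal]
  congr 1
  funext i
  split_ifs <;> simp

theorem EE' : E F n₂ * E' F n₂ = 0 := by
  unfold E E'
  rw [Matrix.diagonal_mul_diagonal, ← Matrix.diagonal_zero]
  congr 1
  funext i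
  split_ifs <;> simp

theorem E'E : E' F n₂ * E F n₂ = 0 := by
  unfold E E'
  rw [Matrix.diagonal_mul_diagonal, ← Matrix.diagonal_zero]
  congr 1
  funext i
  split_ifs <;> simp

theorem E_add : E F n₂ + E' F n₂ = 1 := by
  unfold E E'
  rw [Matrix.diagonal_add, ← Matrix.diagonal_one]
  congr 1
  funext i
  split_ifs <;> simp

theorem blk_mul (a c a' c' : Matrix (Fin 2) (Fin 2) F) :
    (a ⊗ₖ E F n₂ + c ⊗ₖ E' F n₂) * (a' ⊗ₖ E F n₂ + c' ⊗ₖ E' F n₂) =
      (a * a') ⊗ₖ E F n₂ + (c * c') ⊗ₖ E' F n₂ := by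
  rw [add_mul, mul_add, mul_add, ← Matrix.mul_kronecker_mul, ← Matrix.mul_kronecker_mul,
    ← Matrix.mul_kronecker_mul, ← Matrix.mul_kronecker_mul, EE, E'E', EE', E'E]
  simp

theorem blk_one : ((1 : Matrix (Fin 2) (Fin 2) F) ⊗ₖ E F n₂ + (1 : Matrix (Fin 2) (Fin 2) F) ⊗ₖ E' F n₂) = 1 := by
  rw [← Matrix.kronecker_add, E_add, Matrix.one_kronecker_one]

/-- block elements -/
def blk (a c : Matrix.GeneralLinearGroup (Fin 2) F) :
    Matrix.GeneralLinearGroup (Fin 2 × Fin n₂) F where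
  val := (a : Matrix (Fin 2) (Fin 2) F) ⊗ₖ E F n₂ + (c : Matrix (Fin 2) (Fin 2) F) ⊗ₖ E' F n₂
  inv := ((a⁻¹ : Matrix.GeneralLinearGroup (Fin 2) F) : Matrix (Fin 2) (Fin 2) F) ⊗ₖ E F n₂ +
    ((c⁻¹ : Matrix.GeneralLinearGroup (Fin 2) F) : Matrix (Fin 2) (Fin 2) F) ⊗ₖ E' F n₂
  val_inv := by
    rw [blk_mul, ← Units.val_mul, ← Units.val_mul, mul_inv_cancel, mul_inv_cancel, Units.val_one,
      blk_one]
  inv_val := by
    rw [blk_mul, ← Units.val_mul, ← Units.val_mul, inv_mul_cancel, inv_mul_cancel, Units.val_one,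
      blk_one]

theorem blk_val (a c : Matrix.GeneralLinearGroup (Fin 2) F) :
    ((blk a c : Matrix.GeneralLinearGroup (Fin 2 × Fin n₂) F) :
      Matrix (Fin 2 × Fin n₂) (Fin 2 × Fin n₂) F) =
    (a : Matrix (Fin 2) (Fin 2) F) ⊗ₖ E F n₂ + (c : Matrix (Fin 2) (Fin 2) F) ⊗ₖ E' F n₂ := rfl

theorem blk_mul_blk (a c a' c' : Matrix.GeneralLinearGroup (Fin 2) F) :
    (blk a c : Matrix.GeneralLinearGroup (Fin 2 × Fin n₂) F) * blk a' c' = blk (a * a') (c * c') := by
  apply Units.ext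
  rw [Units.val_mul, blk_val, blk_val, blk_val, blk_mul, Units.val_mul, Units.val_mul]

theorem blk_inv (a c : Matrix.GeneralLinearGroup (Fin 2) F) :
    (blk a c : Matrix.GeneralLinearGroup (Fin 2 × Fin n₂) F)⁻¹ = blk a⁻¹ c⁻¹ := by
  apply Units.ext
  rfl

theorem blk_same (a : Matrix.GeneralLinearGroup (Fin 2) F) :
    ((blk a a : Matrix.GeneralLinearGroup (Fin 2 × Fin n₂) F) :
      Matrix (Fin 2 × Fin n₂) (Fin 2 × Fin n₂) F) =
    (a : Matrix (Fin 2) (Fin 2) F) ⊗ₖ (1 : Matrix (Fin n₂) (Fin n₂) F) := by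
  rw [blk_val, ← Matrix.kronecker_add, E_add]

theorem blk_apply0 (a c : Matrix.GeneralLinearGroup (Fin 2) F) (i j : Fin 2) :
    ((blk a c : Matrix.GeneralLinearGroup (Fin 2 × Fin n₂) F) :
      Matrix (Fin 2 × Fin n₂) (Fin 2 × Fin n₂) F) (i, 0) (j, 0) = (a : Matrix (Fin 2) (Fin 2) F) i j := by
  rw [blk_val]
  simp [E, E', Matrix.kroneckerMap_apply]

theorem blk_apply1 (a c : Matrix.GeneralLinearGroup (Fin 2) F) (i j : Fin 2) (l : Fin n₂)
    (hl : l ≠ 0) :
    ((blk a c : Matrix.GeneralLinearGroup (Fin 2 × Fin n₂) F) :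
      Matrix (Fin 2 × Fin n₂) (Fin 2 × Fin n₂) F) (i, l) (j, l) = (c : Matrix (Fin 2) (Fin 2) F) i j := by
  rw [blk_val]
  simp [E, E', Matrix.kroneckerMap_apply, hl]

theorem blk_inj (l : Fin n₂) (hl : l ≠ 0) {a c a' c' : Matrix.GeneralLinearGroup (Fin 2) F}
    (h : (blk a c : Matrix.GeneralLinearGroup (Fin 2 × Fin n₂) F) = blk a' c') :
    a = a' ∧ c = c' := by
  constructor
  · apply Units.ext
    ext i j
    rw [← blk_apply0 (n₂ := n₂) a c, h, blk_apply0]
  · apply Units.ext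
    ext i j
    rw [← blk_apply1 (n₂ := n₂) a c i j l hl, h, blk_apply1 _ _ _ _ l hl]

section two

variable (h2 : (2 : F) = 0)

/-- an element of order three -/
def om (h2 : (2 : F) = 0) : Matrix.GeneralLinearGroup (Fin 2) F where
  val := !![0, 1; 1, 1]
  inv := !![1, 1; 1, 0]
  val_inv := by
    ext i j
    fin_cases i <;> fin_cases j <;> simp [Matrix.mul_apply, Fin.sum_univ_two]
    linear_combination h2
  inv_val := by
    ext i j
    fin_cases i <;> fin_cases j <;> simp [Matrix.mul_apply, Fin.sum_univ_two]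
    linear_combination h2

/-- an involution -/
def uu (h2 : (2 : F) = 0) : Matrix.GeneralLinearGroup (Fin 2) F where
  val := !![1, 1; 0, 1]
  inv := !![1, 1; 0, 1]
  val_inv := by
    ext i j
    fin_cases i <;> fin_cases j <;> simp [Matrix.mul_apply, Fin.sum_univ_two]
    linear_combination h2
  inv_val := by
    ext i j
    fin_cases i <;> fin_cases j <;> simp [Matrix.mul_apply, Fin.sum_univ_two]
    linear_combination h2

theorem om_val : ((om h2 : Matrix.GeneralLinearGroup (Fin 2) F) : Matrix (Fin 2) (Fin 2) F) =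
    !![0, 1; 1, 1] := rfl

theorem om_inv_val : (((om h2)⁻¹ : Matrix.GeneralLinearGroup (Fin 2) F) :
    Matrix (Fin 2) (Fin 2) F) = !![1, 1; 1, 0] := rfl

theorem uu_val : ((uu h2 : Matrix.GeneralLinearGroup (Fin 2) F) : Matrix (Fin 2) (Fin 2) F) =
    !![1, 1; 0, 1] := rfl

theorem om_ne_inv : om h2 ≠ (om h2)⁻¹ := by
  intro h
  have h1 := congrArg (fun g : Matrix.GeneralLinearGroup (Fin 2) F =>
    (g : Matrix (Fin 2) (Fin 2) F) 0 0) h
  simp only [om_val, om_inv_val] at h1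
  simp at h1

theorem uu_om : uu h2 * om h2 * (uu h2)⁻¹ ≠ om h2 := by
  intro h
  have h1 : uu h2 * om h2 = om h2 * uu h2 := mul_inv_eq_iff_eq_mul.mp h
  have h3 := congrArg (fun g : Matrix.GeneralLinearGroup (Fin 2) F =>
    (g : Matrix (Fin 2) (Fin 2) F) 0 0) h1
  simp only [Units.val_mul, om_val, uu_val] at h3
  simp [Matrix.mul_apply, Fin.sum_univ_two] at h3

theorem conj_om (hF2 : ∀ a : F, a = 0 ∨ a = 1) (A : Matrix.GeneralLinearGroup (Fin 2) F) :
    A * om h2 = om h2 * A ∨ A * om h2 = (om h2)⁻¹ * A := by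
  have hdet : (A : Matrix (Fin 2) (Fin 2) F).det ≠ 0 := by
    have := A.isUnit.map (Matrix.detMonoidHom)
    exact (Matrix.isUnits_det_units A).ne_zero
  rw [Matrix.det_fin_two] at hdet
  have hA := Matrix.eta_fin_two (A : Matrix (Fin 2) (Fin 2) F)
  have h11 : (1 : F) + 1 = 0 := by linear_combination h2
  rcases hF2 ((A : Matrix (Fin 2) (Fin 2) F) 0 0) with a | a <;>
  rcases hF2 ((A : Matrix (Fin 2) (Fin 2) F) 0 1) with b | b <;>
  rcases hF2 ((A : Matrix (Fin 2) (Fin 2) F) 1 0) with c | c <;>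
  rcases hF2 ((A : Matrix (Fin 2) (Fin 2) F) 1 1) with d | d <;>
  rw [a, b, c, d] at hdet hA <;>
  first
  | (exfalso; apply hdet; ring1)
  | (left; apply Units.ext; rw [Units.val_mul, Units.val_mul, hA, om_val]; done)
  | (left; apply Units.ext; rw [Units.val_mul, Units.val_mul, hA, om_val]; ext i j;
     fin_cases i <;> fin_cases j <;> simp [Matrix.mul_apply, Fin.sum_univ_two, h11]; done)
  | (right; apply Units.ext; rw [Units.val_mul, Units.val_mul, hA, om_val, om_inv_val]; ext i j;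
     fin_cases i <;> fin_cases j <;> simp [Matrix.mul_apply, Fin.sum_univ_two, h11]; done)

end two

/-- the normaliser of the group generated by `J` -/
def NJ {G : Type*} [Group G] (J : G) : Subgroup G where
  carrier := {g | g * J * g⁻¹ = J ∨ g * J * g⁻¹ = J⁻¹}
  mul_mem' {a b} ha hb := by
    have e : a * b * J * (a * b)⁻¹ = a * (b * J * b⁻¹) * a⁻¹ := by group
    have ha' : a * J⁻¹ * a⁻¹ = (a * J * a⁻¹)⁻¹ := by group
    show a * b * J * (a * b)⁻¹ = J ∨ a * b * J * (a * b)⁻¹ = J⁻¹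
    rw [e]
    rcases hb with hb | hb <;> rcases ha with ha | ha
    · left; rw [hb, ha]
    · right; rw [hb, ha]
    · right; rw [hb, ha', ha]
    · left; rw [hb, ha', ha, inv_inv]
  one_mem' := by
    left
    group
  inv_mem' {a} ha := by
    show a⁻¹ * J * a⁻¹⁻¹ = J ∨ a⁻¹ * J * a⁻¹⁻¹ = J⁻¹
    rcases ha with ha | ha
    · left
      conv_lhs => rw [← ha]
      group
    · right
      have : J = a * J⁻¹ * a⁻¹ := by
        have h1 : a * J⁻¹ * a⁻¹ = (a * J * a⁻¹)⁻¹ := by group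
        rw [h1, ha, inv_inv]
      conv_lhs => rw [this]
      group

theorem kron_not_max (hF2 : ∀ a : F, a = 0 ∨ a = 1) (h2 : (2 : F) = 0) (l : Fin n₂) (hl : l ≠ 0) :
    ∃ K : Subgroup (Matrix.GeneralLinearGroup (Fin 2 × Fin n₂) F),
      Cfsg.Geo.kroneckerSubgroup 2 n₂ F < K ∧ K < ⊤ := by
  refine ⟨NJ (blk (om h2) (om h2)), ?_, ?_⟩
  · rw [SetLike.lt_iff_le_and_exists]
    constructor
    · rintro k ⟨A, B, hk⟩
      have key : ∀ X Y : Matrix.GeneralLinearGroup (Fin 2) F, A * X = Y * A →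
          k * blk X X * k⁻¹ = (blk Y Y : Matrix.GeneralLinearGroup (Fin 2 × Fin n₂) F) := by
        intro X Y hXY
        rw [mul_inv_eq_iff_eq_mul]
        apply Units.ext
        rw [Units.val_mul, Units.val_mul, blk_same, blk_same, hk, ← Matrix.mul_kronecker_mul,
          ← Matrix.mul_kronecker_mul, mul_one, one_mul, ← Units.val_mul, ← Units.val_mul, hXY]
      rcases conj_om h2 hF2 A with h | h
      · left
        exact key _ _ h
      · right
        rw [blk_inv]
        exact key _ _ h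
    · refine ⟨blk (om h2) 1, ?_, ?_⟩
      · left
        rw [blk_inv, blk_mul_blk, blk_mul_blk]
        congr 1 <;> group
      · rintro ⟨A, B, hk⟩
        have e1 := congrFun (congrFun hk (0, 0)) (1, 0)
        have e2 := congrFun (congrFun hk (0, l)) (1, l)
        have e3 := congrFun (congrFun hk (0, l)) (0, l)
        rw [blk_apply0, Matrix.kroneckerMap_apply, om_val] at e1
        rw [blk_apply1 _ _ _ _ l hl, Matrix.kroneckerMap_apply, Units.val_one] at e2 e3
        simp at e1 e2 e3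
        rcases e2 with h | h
        · rw [h, zero_mul] at e1
          exact one_ne_zero e1
        · rw [h, mul_zero] at e3
          exact one_ne_zero e3
  · rw [SetLike.lt_iff_le_and_exists]
    refine ⟨le_top, blk (uu h2) 1, Subgroup.mem_top _, ?_⟩
    rintro (h | h)
    · rw [blk_inv, blk_mul_blk, blk_mul_blk] at h
      exact uu_om h2 (blk_inj l hl h).1
    · rw [blk_inv, blk_inv, blk_mul_blk, blk_mul_blk] at h
      apply om_ne_inv h2
      have := (blk_inj l hl h).2
      rwa [one_mul, inv_one, mul_one] at this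

end Cfsg.Agent.Lib.Helper5.TensorTwo
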